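import Cfsg.Agent.Lib.Helper15.JordanC

set_option autoImplicit false

namespace Cfsg.Agent.Lib.Helper15.Jordan

open Module

universe u w

variable {F : Type w} [Field F]

/-- Splitting off the cyclic block generated by a given vector of maximal height. -/
theorem split_of {V : Type*} [AddCommGroup V] [Module F V] [FiniteDimensional F V]
    (N : V →ₗ[F] V) (e : ℕ) (hNe : N ^ e = 0) (v : V) (hv : (N ^ (e - 1)) v ≠ 0) :
    LinearIndependent F (fun j : Fin e => (N ^ (j : ℕ)) v) ∧
    ∃ M : Submodule F V, (∀ x ∈ M, N x ∈ M) ∧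
      IsCompl (Submodule.span F (Set.range (fun j : Fin e => (N ^ (j : ℕ)) v))) M := by
  classical
  have hpos : 0 < e := by
    by_contra h
    have h0 : e = 0 := by omega
    apply hv
    exact pow_apply_zero hNe _ _ (by omega)
  obtain ⟨f, hf⟩ : ∃ f : V →ₗ[F] F, f ((N ^ (e - 1)) v) ≠ 0 := by
    by_contra h
    push Not at h
    exact hv ((Module.forall_dual_apply_eq_zero_iff F _).mp h)
  let Φ : V →ₗ[F] (Fin e → F) := LinearMap.pi (fun j => f ∘ₗ (N ^ (j : ℕ)))
  have hΦ : ∀ x j, Φ x j = f ((N ^ (j : ℕ)) x) := fun x j => rfl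
  let c : Fin e → V := fun j => (N ^ (j : ℕ)) v
  have hinj : ∀ a : Fin e → F, Φ (∑ i, a i • c i) = 0 → a = 0 := by
    intro a ha
    have hall : ∀ (m : ℕ) (i : Fin e), (i : ℕ) = m → a i = 0 := by
      intro m
      induction m using Nat.strong_induction_on with
      | _ m ih =>
        intro i him
        have hj : e - 1 - m < e := by omega
        have h1 := congrFun ha ⟨e - 1 - m, hj⟩
        rw [hΦ] at h1
        simp only [map_sum, map_smul, smul_eq_mul, Pi.zero_apply] at h1
        rw [Finset.sum_eq_single i] at h1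
        · have h2 : (N ^ (e - 1 - m)) (c i) = (N ^ (e - 1)) v := by
            show (N ^ (e - 1 - m)) ((N ^ (i : ℕ)) v) = _
            rw [pow_pow_apply]
            congr 2
            have := i.2
            omega
          rw [h2] at h1
          exact (mul_eq_zero.mp h1).resolve_right hf
        · intro i' _ hne
          have hne' : (i' : ℕ) ≠ i := fun h => hne (Fin.ext h)
          rcases Nat.lt_or_gt_of_ne hne' with hlt | hgt
          · rw [ih i' (by omega) i' rfl, zero_mul]
          · have h2 : (N ^ (e - 1 - m)) (c i') = 0 := by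
              show (N ^ (e - 1 - m)) ((N ^ (i' : ℕ)) v) = _
              rw [pow_pow_apply]
              exact pow_apply_zero hNe _ _ (by omega)
            rw [h2, map_zero, mul_zero]
        · intro h
          exact absurd (Finset.mem_univ i) h
    funext i
    exact hall i i rfl
  have hli : LinearIndependent F c := by
    rw [Fintype.linearIndependent_iff]
    intro a ha i
    have h1 := hinj a (by rw [ha, map_zero])
    rw [h1]
    rfl
  refine ⟨hli, LinearMap.ker Φ, ?_, ?_⟩
  · intro x hx
    rw [LinearMap.mem_ker] at hx ⊢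
    funext j
    rw [hΦ, Pi.zero_apply]
    have h1 : (N ^ (j : ℕ)) (N x) = (N ^ ((j : ℕ) + 1)) x := by
      rw [pow_succ]
      rfl
    rw [h1]
    by_cases hj : (j : ℕ) + 1 < e
    · have h2 := congrFun hx ⟨j + 1, hj⟩
      rw [hΦ] at h2
      exact h2
    · rw [pow_apply_zero hNe _ _ (by omega), map_zero]
  · constructor
    · rw [Submodule.disjoint_def]
      intro x hx hxM
      obtain ⟨a, rfl⟩ := (Submodule.mem_span_range_iff_exists_fun F).mp hx
      rw [hinj a (LinearMap.mem_ker.mp hxM)]
      simp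
    · rw [codisjoint_iff, eq_top_iff]
      intro x _
      let ψ : (Fin e → F) →ₗ[F] V := ∑ i, (LinearMap.proj i).smulRight (c i)
      have hψ : ∀ a, ψ a = ∑ i, a i • c i := fun a => by
        simp [ψ, LinearMap.sum_apply]
      have hinj' : Function.Injective (Φ ∘ₗ ψ) := by
        rw [← LinearMap.ker_eq_bot, LinearMap.ker_eq_bot']
        intro a ha
        apply hinj a
        rw [← hψ]
        exact ha
      have hsurj : Function.Surjective (Φ ∘ₗ ψ) := LinearMap.injective_iff_surjective.mp hinj'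
      obtain ⟨a, ha⟩ := hsurj (Φ x)
      have hx : x = ψ a + (x - ψ a) := by abel
      rw [hx]
      apply Submodule.add_mem_sup
      · rw [hψ]
        exact Submodule.sum_mem _ (fun i _ =>
          Submodule.smul_mem _ _ (Submodule.subset_span ⟨i, rfl⟩))
      · rw [LinearMap.mem_ker, map_sub, ← ha]
        simp

theorem shift_single (e : ℕ) (j : Fin e) (x : F) :
    shift F e (Pi.single j x) =
      if h : (j : ℕ) + 1 < e then Pi.single (⟨(j : ℕ) + 1, h⟩ : Fin e) x else 0 := by
  funext i
  rw [shift_apply]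
  by_cases hi : 0 < (i : ℕ)
  · rw [dif_pos hi]
    by_cases h : (j : ℕ) + 1 < e
    · rw [dif_pos h]
      by_cases hij : i = ⟨(j : ℕ) + 1, h⟩
      · have h1 : (⟨(i : ℕ) - 1, by have := i.2; omega⟩ : Fin e) = j := by
          apply Fin.ext
          show (i : ℕ) - 1 = j
          rw [hij]
          simp
        rw [h1, hij, Pi.single_eq_same, Pi.single_eq_same]
      · rw [Pi.single_eq_of_ne hij, Pi.single_eq_of_ne]
        intro h'
        apply hij
        apply Fin.ext
        have h2 := congrArg Fin.val h'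
        simp only at h2
        show (i : ℕ) = (j : ℕ) + 1
        omega
    · rw [dif_neg h, Pi.single_eq_of_ne]
      · rfl
      · intro h'
        have h2 := congrArg Fin.val h'
        simp only at h2
        have := i.2
        omega
  · rw [dif_neg hi]
    by_cases h : (j : ℕ) + 1 < e
    · rw [dif_pos h, Pi.single_eq_of_ne]
      intro h'
      have h2 := congrArg Fin.val h'
      simp only at h2
      omega
    · rw [dif_neg h]
      rfl

/-- The cyclic-block map `a ↦ ∑ a_j N^j v`. -/
noncomputable def cyc {V : Type*} [AddCommGroup V] [Module F V] (N : V →ₗ[F] V) (e : ℕ) (v : V) :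
    (Fin e → F) →ₗ[F] V :=
  Fintype.linearCombination F (fun j : Fin e => (N ^ (j : ℕ)) v)

theorem cyc_apply {V : Type*} [AddCommGroup V] [Module F V] (N : V →ₗ[F] V) (e : ℕ) (v : V)
    (a : Fin e → F) : cyc N e v a = ∑ j, a j • (N ^ (j : ℕ)) v :=
  Fintype.linearCombination_apply ..

theorem cyc_single {V : Type*} [AddCommGroup V] [Module F V] (N : V →ₗ[F] V) (e : ℕ) (v : V)
    (j : Fin e) (x : F) : cyc N e v (Pi.single j x) = x • (N ^ (j : ℕ)) v :=
  Fintype.linearCombination_apply_single ..

theorem cyc_shift {V : Type*} [AddCommGroup V] [Module F V] (N : V →ₗ[F] V) (e : ℕ) (v : V)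
    (hNe : N ^ e = 0) (a : Fin e → F) : cyc N e v (shift F e a) = N (cyc N e v a) := by
  have h : (cyc N e v) ∘ₗ (shift F e) = N ∘ₗ (cyc N e v) := by
    apply LinearMap.pi_ext
    intro i x
    show cyc N e v (shift F e (Pi.single i x)) = N (cyc N e v (Pi.single i x))
    rw [shift_single, cyc_single, map_smul]
    have h1 : N ((N ^ (i : ℕ)) v) = (N ^ ((i : ℕ) + 1)) v := by
      rw [pow_succ']
      rfl
    rw [h1]
    by_cases hi : (i : ℕ) + 1 < e
    · rw [dif_pos hi, cyc_single]
    · rw [dif_neg hi, map_zero, pow_apply_zero hNe _ _ (by omega), smul_zero]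
  exact congrArg (fun f : (Fin e → F) →ₗ[F] V => f a) h

theorem glue_bij {V : Type*} [AddCommGroup V] [Module F V]
    (N : V →ₗ[F] V) (e : ℕ) (v : V) (M : Submodule F V)
    (hli : LinearIndependent F (fun j : Fin e => (N ^ (j : ℕ)) v))
    (hc : IsCompl (Submodule.span F (Set.range (fun j : Fin e => (N ^ (j : ℕ)) v))) M) :
    Function.Bijective (M.subtype.coprod (cyc N e v)) := by
  constructor
  · rw [← LinearMap.ker_eq_bot, LinearMap.ker_eq_bot']
    rintro ⟨m, a⟩ h
    have h' : (m : V) + cyc N e v a = 0 := h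
    have h1 : cyc N e v a ∈ Submodule.span F (Set.range (fun j : Fin e => (N ^ (j : ℕ)) v)) := by
      rw [cyc_apply]
      exact Submodule.sum_mem _ (fun i _ =>
        Submodule.smul_mem _ _ (Submodule.subset_span ⟨i, rfl⟩))
    have h2 : cyc N e v a ∈ M := by
      have h3 : cyc N e v a = -(m : V) := by
        rw [eq_neg_iff_add_eq_zero, add_comm]
        exact h'
      rw [h3]
      exact M.neg_mem m.2
    have h4 : cyc N e v a = 0 := by
      have := hc.disjoint
      rw [Submodule.disjoint_def] at this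
      exact this _ h1 h2
    have h5 : a = 0 := by
      rw [cyc_apply] at h4
      funext i
      exact (Fintype.linearIndependent_iff.mp hli) a h4 i
    have h6 : m = 0 := by
      rw [h4, add_zero] at h'
      exact Subtype.ext h'
    rw [h5, h6]
    rfl
  · intro x
    have hx : x ∈ Submodule.span F (Set.range (fun j : Fin e => (N ^ (j : ℕ)) v)) ⊔ M := by
      rw [hc.sup_eq_top]
      exact Submodule.mem_top
    obtain ⟨z, hz, m, hm, rfl⟩ := Submodule.mem_sup.mp hx
    obtain ⟨a, rfl⟩ := (Submodule.mem_span_range_iff_exists_fun F).mp hz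
    refine ⟨(⟨m, hm⟩, a), ?_⟩
    show (m : V) + cyc N e v a = _
    rw [cyc_apply, add_comm]

/-- The model isomorphism `M × F^e ≃ V` of a cyclic block with an invariant complement. -/
noncomputable def glue {V : Type*} [AddCommGroup V] [Module F V]
    (N : V →ₗ[F] V) (e : ℕ) (v : V) (M : Submodule F V)
    (hli : LinearIndependent F (fun j : Fin e => (N ^ (j : ℕ)) v))
    (hc : IsCompl (Submodule.span F (Set.range (fun j : Fin e => (N ^ (j : ℕ)) v))) M) :
    (M × (Fin e → F)) ≃ₗ[F] V :=
  LinearEquiv.ofBijective (M.subtype.coprod (cyc N e v)) (glue_bij N e v M hli hc)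

theorem glue_apply {V : Type*} [AddCommGroup V] [Module F V]
    (N : V →ₗ[F] V) (e : ℕ) (v : V) (M : Submodule F V)
    (hli : LinearIndependent F (fun j : Fin e => (N ^ (j : ℕ)) v))
    (hc : IsCompl (Submodule.span F (Set.range (fun j : Fin e => (N ^ (j : ℕ)) v))) M)
    (x : M × (Fin e → F)) : glue N e v M hli hc x = (x.1 : V) + cyc N e v x.2 := rfl

theorem glue_comm {V : Type*} [AddCommGroup V] [Module F V]
    (N : V →ₗ[F] V) (e : ℕ) (v : V) (M : Submodule F V) (hNe : N ^ e = 0)
    (hli : LinearIndependent F (fun j : Fin e => (N ^ (j : ℕ)) v))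
    (hM : ∀ x ∈ M, N x ∈ M)
    (hc : IsCompl (Submodule.span F (Set.range (fun j : Fin e => (N ^ (j : ℕ)) v))) M)
    (x : M × (Fin e → F)) :
    glue N e v M hli hc (((N.restrict hM).prodMap (shift F e)) x) = N (glue N e v M hli hc x) := by
  rw [glue_apply, glue_apply, map_add]
  show ((N.restrict hM x.1 : M) : V) + cyc N e v (shift F e x.2) = _
  rw [cyc_shift N e v hNe]
  rfl

theorem glue_base {V : Type*} [AddCommGroup V] [Module F V]
    (N : V →ₗ[F] V) (e : ℕ) (he : 0 < e) (v : V) (M : Submodule F V)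
    (hli : LinearIndependent F (fun j : Fin e => (N ^ (j : ℕ)) v))
    (hc : IsCompl (Submodule.span F (Set.range (fun j : Fin e => (N ^ (j : ℕ)) v))) M) :
    glue N e v M hli hc ((0 : M), Pi.single (⟨0, he⟩ : Fin e) (1 : F)) = v := by
  rw [glue_apply]
  show ((0 : M) : V) + cyc N e v (Pi.single (⟨0, he⟩ : Fin e) (1 : F)) = v
  rw [cyc_single]
  simp

/-- The centraliser of a nilpotent map is transitive on vectors of maximal height. -/
theorem cent_trans {V : Type u} [AddCommGroup V] [Module F V] [FiniteDimensional F V]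
    (N : V →ₗ[F] V) (e : ℕ) (he : 0 < e) (hNe : N ^ e = 0) (v : V) (M : Submodule F V)
    (hli : LinearIndependent F (fun j : Fin e => (N ^ (j : ℕ)) v))
    (hM : ∀ x ∈ M, N x ∈ M)
    (hc : IsCompl (Submodule.span F (Set.range (fun j : Fin e => (N ^ (j : ℕ)) v))) M)
    (w : V) (hw : (N ^ (e - 1)) w ≠ 0) :
    ∃ g : V ≃ₗ[F] V, (∀ x, g (N x) = N (g x)) ∧ g v = w := by
  obtain ⟨hli', M', hM', hc'⟩ := split_of N e hNe w hw
  have hrk : ∀ k, rk (N.restrict hM) k = rk (N.restrict hM') k := by
    intro k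
    have h1 := rk_split N e v M hNe hli hM hc k
    have h2 := rk_split N e w M' hNe hli' hM' hc' k
    omega
  obtain ⟨ψ, hψ⟩ := nilp_conj (F := F) (finrank F M) M M' (N.restrict hM) (N.restrict hM') rfl
    (restrict_nilpotent N M hM ⟨e, hNe⟩) (restrict_nilpotent N M' hM' ⟨e, hNe⟩) hrk
  let Γ := glue N e v M hli hc
  let Γ' := glue N e w M' hli' hc'
  let g : V ≃ₗ[F] V := Γ.symm ≪≫ₗ (ψ.prodCongr (LinearEquiv.refl F (Fin e → F))) ≪≫ₗ Γ'
  have hg : ∀ y : M × (Fin e → F), g (Γ y) = Γ' (ψ y.1, y.2) := by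
    intro y
    show Γ' ((ψ.prodCongr (LinearEquiv.refl F (Fin e → F))) (Γ.symm (Γ y))) = _
    rw [LinearEquiv.symm_apply_apply]
    rfl
  refine ⟨g, ?_, ?_⟩
  · intro x
    obtain ⟨y, rfl⟩ := Γ.surjective x
    have h1 : N (Γ y) = Γ (((N.restrict hM).prodMap (shift F e)) y) :=
      (glue_comm N e v M hNe hli hM hc y).symm
    rw [h1, hg, hg]
    have h2 : N (Γ' (ψ y.1, y.2)) = Γ' (((N.restrict hM').prodMap (shift F e)) (ψ y.1, y.2)) :=
      (glue_comm N e w M' hNe hli' hM' hc' _).symm
    rw [h2]
    congr 1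
    apply Prod.ext
    · exact hψ y.1
    · rfl
  · have h1 : v = Γ ((0 : M), Pi.single (⟨0, he⟩ : Fin e) (1 : F)) :=
      (glue_base N e he v M hli hc).symm
    rw [h1, hg]
    have h2 : ψ (0 : M) = 0 := map_zero ψ
    show Γ' (ψ (0 : M), Pi.single (⟨0, he⟩ : Fin e) (1 : F)) = w
    rw [h2]
    exact glue_base N e he w M' hli' hc'

end Cfsg.Agent.Lib.Helper15.Jordan
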