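import Cfsg.Agent.Lib.Helper15.NilCountA

set_option autoImplicit false

namespace Cfsg.Agent.Lib.Helper15.NilCount

open Matrix Polynomial

/-- Counting via a free action that is transitive on the fibres of a map. -/
theorem card_eq_range_mul {α β L : Type*} (f : α → β) (φ : L → α → α)
    (h1 : ∀ l a, f (φ l a) = f a) (h2 : ∀ a a', f a = f a' → ∃ l, φ l a = a')
    (h3 : ∀ l l' a, φ l a = φ l' a → l = l') :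
    Nat.card α = Nat.card (Set.range f) * Nat.card L := by
  rw [← Nat.card_prod]
  symm
  refine Nat.card_eq_of_bijective (fun x : Set.range f × L => φ x.2 x.1.2.choose) ⟨?_, ?_⟩
  · rintro ⟨⟨b, hb⟩, l⟩ ⟨⟨b', hb'⟩, l'⟩ hxy
    simp only at hxy
    have e1 : f hb.choose = b := hb.choose_spec
    have e2 : f hb'.choose = b' := hb'.choose_spec
    have e3 : b = b' := by
      rw [← e1, ← e2, ← h1 l, ← h1 l' hb'.choose, hxy]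
    subst e3
    have e4 : l = l' := h3 l l' _ hxy
    subst e4
    rfl
  · intro a
    have hb : f a ∈ Set.range f := ⟨a, rfl⟩
    obtain ⟨l, hl⟩ := h2 hb.choose a hb.choose_spec
    exact ⟨⟨⟨f a, hb⟩, l⟩, hl⟩

/-- Intertwining a nilpotent matrix with an invertible one forces zero (first form). -/
theorem intertwine_zero₁ {F : Type*} [Field F] {ι₁ ι₂ : Type*} [Fintype ι₁] [Fintype ι₂]
    [DecidableEq ι₁] [DecidableEq ι₂] (N : Matrix ι₁ ι₁ F) (A : Matrix ι₂ ι₂ F)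
    (hN : IsNilpotent N) (hA : IsUnit A) (h : Matrix ι₁ ι₂ F) (hh : h * A = N * h) : h = 0 := by
  obtain ⟨k, hk⟩ := hN
  have key : ∀ j : ℕ, h * A ^ j = N ^ j * h := by
    intro j
    induction j with
    | zero => simp
    | succ j ih => rw [pow_succ, ← Matrix.mul_assoc, ih, Matrix.mul_assoc, hh, ← Matrix.mul_assoc, ← pow_succ]
  have h1 := key k
  rw [hk, Matrix.zero_mul] at h1
  obtain ⟨u, hu⟩ := hA.pow k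
  have : h * (u : Matrix ι₂ ι₂ F) * ((u⁻¹ : (Matrix ι₂ ι₂ F)ˣ) : Matrix ι₂ ι₂ F) = 0 := by
    rw [hu, h1, Matrix.zero_mul]
  rw [Matrix.mul_assoc] at this
  have hu1 : (u : Matrix ι₂ ι₂ F) * ((u⁻¹ : (Matrix ι₂ ι₂ F)ˣ) : Matrix ι₂ ι₂ F) = 1 := u.mul_inv
  rwa [hu1, Matrix.mul_one] at this

/-- Intertwining a nilpotent matrix with an invertible one forces zero (second form). -/
theorem intertwine_zero₂ {F : Type*} [Field F] {ι₁ ι₂ : Type*} [Fintype ι₁] [Fintype ι₂]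
    [DecidableEq ι₁] [DecidableEq ι₂] (N : Matrix ι₁ ι₁ F) (A : Matrix ι₂ ι₂ F)
    (hN : IsNilpotent N) (hA : IsUnit A) (h : Matrix ι₂ ι₁ F) (hh : h * N = A * h) : h = 0 := by
  obtain ⟨k, hk⟩ := hN
  have key : ∀ j : ℕ, h * N ^ j = A ^ j * h := by
    intro j
    induction j with
    | zero => simp
    | succ j ih => rw [pow_succ, ← Matrix.mul_assoc, ih, Matrix.mul_assoc, hh, ← Matrix.mul_assoc, ← pow_succ]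
  have h1 := key k
  rw [hk, Matrix.mul_zero] at h1
  obtain ⟨u, hu⟩ := hA.pow k
  have : ((u⁻¹ : (Matrix ι₂ ι₂ F)ˣ) : Matrix ι₂ ι₂ F) * ((u : Matrix ι₂ ι₂ F) * h) = 0 := by
    rw [hu, ← h1, Matrix.mul_zero]
  rw [← Matrix.mul_assoc] at this
  have hu1 : ((u⁻¹ : (Matrix ι₂ ι₂ F)ˣ) : Matrix ι₂ ι₂ F) * (u : Matrix ι₂ ι₂ F) = 1 := u.inv_mul
  rwa [hu1, Matrix.one_mul] at this

/-- The block-diagonal element of `GL`. -/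
def blockGL {F : Type*} [Field F] {ι₁ ι₂ : Type*} [Fintype ι₁] [Fintype ι₂]
    [DecidableEq ι₁] [DecidableEq ι₂] (h : GL ι₁ F × GL ι₂ F) : GL (ι₁ ⊕ ι₂) F :=
  ⟨fromBlocks (h.1 : Matrix ι₁ ι₁ F) 0 0 (h.2 : Matrix ι₂ ι₂ F),
   fromBlocks ((h.1⁻¹ : GL ι₁ F) : Matrix ι₁ ι₁ F) 0 0 ((h.2⁻¹ : GL ι₂ F) : Matrix ι₂ ι₂ F),
   by
     rw [fromBlocks_multiply]
     simp [fromBlocks_one],
   by
     rw [fromBlocks_multiply]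
     simp [fromBlocks_one]⟩

theorem blockGL_val {F : Type*} [Field F] {ι₁ ι₂ : Type*} [Fintype ι₁] [Fintype ι₂]
    [DecidableEq ι₁] [DecidableEq ι₂] (h : GL ι₁ F × GL ι₂ F) :
    ((blockGL h : GL (ι₁ ⊕ ι₂) F) : Matrix (ι₁ ⊕ ι₂) (ι₁ ⊕ ι₂) F) =
      fromBlocks (h.1 : Matrix ι₁ ι₁ F) 0 0 (h.2 : Matrix ι₂ ι₂ F) := rfl

theorem blockGL_inv_val {F : Type*} [Field F] {ι₁ ι₂ : Type*} [Fintype ι₁] [Fintype ι₂]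
    [DecidableEq ι₁] [DecidableEq ι₂] (h : GL ι₁ F × GL ι₂ F) :
    (((blockGL h)⁻¹ : GL (ι₁ ⊕ ι₂) F) : Matrix (ι₁ ⊕ ι₂) (ι₁ ⊕ ι₂) F) =
      fromBlocks ((h.1⁻¹ : GL ι₁ F) : Matrix ι₁ ι₁ F) 0 0 ((h.2⁻¹ : GL ι₂ F) : Matrix ι₂ ι₂ F) := rfl

/-- The conjugation map whose fibres are counted. -/
noncomputable def conjMap {F : Type*} [Field F] {ι₁ ι₂ : Type*} [Fintype ι₁] [Fintype ι₂]
    [DecidableEq ι₁] [DecidableEq ι₂]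
    (x : GL (ι₁ ⊕ ι₂) F × {N : Matrix ι₁ ι₁ F // IsNilpotent N} × GL ι₂ F) :
    Matrix (ι₁ ⊕ ι₂) (ι₁ ⊕ ι₂) F :=
  (x.1 : Matrix (ι₁ ⊕ ι₂) (ι₁ ⊕ ι₂) F) *
    fromBlocks (x.2.1 : Matrix ι₁ ι₁ F) 0 0 (x.2.2 : Matrix ι₂ ι₂ F) *
    ((x.1⁻¹ : GL (ι₁ ⊕ ι₂) F) : Matrix (ι₁ ⊕ ι₂) (ι₁ ⊕ ι₂) F)

theorem nilp_conj {F : Type*} [Field F] {ι₁ : Type*} [Fintype ι₁] [DecidableEq ι₁]
    (l : GL ι₁ F) (N : Matrix ι₁ ι₁ F) (hN : IsNilpotent N) :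
    IsNilpotent ((l : Matrix ι₁ ι₁ F) * N * ((l⁻¹ : GL ι₁ F) : Matrix ι₁ ι₁ F)) := by
  obtain ⟨k, hk⟩ := hN
  refine ⟨k, ?_⟩
  have key : ∀ j : ℕ, ((l : Matrix ι₁ ι₁ F) * N * ((l⁻¹ : GL ι₁ F) : Matrix ι₁ ι₁ F)) ^ j =
      (l : Matrix ι₁ ι₁ F) * N ^ j * ((l⁻¹ : GL ι₁ F) : Matrix ι₁ ι₁ F) := by
    intro j
    induction j with
    | zero => simp
    | succ j ih =>
      rw [pow_succ, ih, pow_succ]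
      have h1 : ((l⁻¹ : GL ι₁ F) : Matrix ι₁ ι₁ F) * (l : Matrix ι₁ ι₁ F) = 1 := by simp
      calc (l : Matrix ι₁ ι₁ F) * N ^ j * ((l⁻¹ : GL ι₁ F) : Matrix ι₁ ι₁ F) *
            ((l : Matrix ι₁ ι₁ F) * N * ((l⁻¹ : GL ι₁ F) : Matrix ι₁ ι₁ F))
          = (l : Matrix ι₁ ι₁ F) * N ^ j * (((l⁻¹ : GL ι₁ F) : Matrix ι₁ ι₁ F) *
            (l : Matrix ι₁ ι₁ F)) * N * ((l⁻¹ : GL ι₁ F) : Matrix ι₁ ι₁ F) := by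
            simp only [Matrix.mul_assoc]
        _ = _ := by rw [h1, Matrix.mul_one]; simp only [Matrix.mul_assoc]
  rw [key, hk]
  simp

/-- The action of the Levi factor on the parameter space. -/
noncomputable def leviAct {F : Type*} [Field F] {ι₁ ι₂ : Type*} [Fintype ι₁] [Fintype ι₂]
    [DecidableEq ι₁] [DecidableEq ι₂] (l : GL ι₁ F × GL ι₂ F)
    (x : GL (ι₁ ⊕ ι₂) F × {N : Matrix ι₁ ι₁ F // IsNilpotent N} × GL ι₂ F) :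
    GL (ι₁ ⊕ ι₂) F × {N : Matrix ι₁ ι₁ F // IsNilpotent N} × GL ι₂ F :=
  (x.1 * (blockGL l)⁻¹,
    ⟨(l.1 : Matrix ι₁ ι₁ F) * x.2.1 * ((l.1⁻¹ : GL ι₁ F) : Matrix ι₁ ι₁ F), nilp_conj l.1 _ x.2.1.2⟩,
    l.2 * x.2.2 * l.2⁻¹)

theorem conjMap_leviAct {F : Type*} [Field F] {ι₁ ι₂ : Type*} [Fintype ι₁] [Fintype ι₂]
    [DecidableEq ι₁] [DecidableEq ι₂] (l : GL ι₁ F × GL ι₂ F)
    (x : GL (ι₁ ⊕ ι₂) F × {N : Matrix ι₁ ι₁ F // IsNilpotent N} × GL ι₂ F) :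
    conjMap (leviAct l x) = conjMap x := by
  obtain ⟨g, ⟨N, hN⟩, A⟩ := x
  unfold conjMap leviAct
  simp only
  have e1 : fromBlocks ((l.1 : Matrix ι₁ ι₁ F) * N * ((l.1⁻¹ : GL ι₁ F) : Matrix ι₁ ι₁ F)) 0 0
      ((l.2 * A * l.2⁻¹ : GL ι₂ F) : Matrix ι₂ ι₂ F) =
      (blockGL l : GL (ι₁ ⊕ ι₂) F).1 * fromBlocks N 0 0 (A : Matrix ι₂ ι₂ F) *
        ((blockGL l)⁻¹ : GL (ι₁ ⊕ ι₂) F).1 := by
    rw [blockGL_val, blockGL_inv_val, fromBlocks_multiply, fromBlocks_multiply]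
    simp
  rw [e1]
  have e2 : ((blockGL l)⁻¹ : GL (ι₁ ⊕ ι₂) F).1 * (blockGL l : GL (ι₁ ⊕ ι₂) F).1 = 1 := by simp
  have e3 : (((g * (blockGL l)⁻¹)⁻¹ : GL (ι₁ ⊕ ι₂) F) : Matrix (ι₁ ⊕ ι₂) (ι₁ ⊕ ι₂) F) =
      (blockGL l : GL (ι₁ ⊕ ι₂) F).1 * ((g⁻¹ : GL (ι₁ ⊕ ι₂) F) : Matrix (ι₁ ⊕ ι₂) (ι₁ ⊕ ι₂) F) := by
    rw [_root_.mul_inv_rev, inv_inv]
    rfl
  rw [e3]
  have e4 : ((g * (blockGL l)⁻¹ : GL (ι₁ ⊕ ι₂) F) : Matrix (ι₁ ⊕ ι₂) (ι₁ ⊕ ι₂) F) =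
      (g : Matrix (ι₁ ⊕ ι₂) (ι₁ ⊕ ι₂) F) * ((blockGL l)⁻¹ : GL (ι₁ ⊕ ι₂) F).1 := rfl
  rw [e4]
  calc (g : Matrix (ι₁ ⊕ ι₂) (ι₁ ⊕ ι₂) F) * ((blockGL l)⁻¹ : GL (ι₁ ⊕ ι₂) F).1 *
        ((blockGL l : GL (ι₁ ⊕ ι₂) F).1 * fromBlocks N 0 0 (A : Matrix ι₂ ι₂ F) *
          ((blockGL l)⁻¹ : GL (ι₁ ⊕ ι₂) F).1) *
        ((blockGL l : GL (ι₁ ⊕ ι₂) F).1 * ((g⁻¹ : GL (ι₁ ⊕ ι₂) F) : Matrix (ι₁ ⊕ ι₂) (ι₁ ⊕ ι₂) F))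
      = (g : Matrix (ι₁ ⊕ ι₂) (ι₁ ⊕ ι₂) F) * (((blockGL l)⁻¹ : GL (ι₁ ⊕ ι₂) F).1 *
        (blockGL l : GL (ι₁ ⊕ ι₂) F).1) * fromBlocks N 0 0 (A : Matrix ι₂ ι₂ F) *
          (((blockGL l)⁻¹ : GL (ι₁ ⊕ ι₂) F).1 *
        (blockGL l : GL (ι₁ ⊕ ι₂) F).1) * ((g⁻¹ : GL (ι₁ ⊕ ι₂) F) : Matrix (ι₁ ⊕ ι₂) (ι₁ ⊕ ι₂) F) := by
        simp only [Matrix.mul_assoc]
    _ = _ := by rw [e2, Matrix.mul_one, Matrix.mul_one]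

theorem leviAct_free {F : Type*} [Field F] {ι₁ ι₂ : Type*} [Fintype ι₁] [Fintype ι₂]
    [DecidableEq ι₁] [DecidableEq ι₂] (l l' : GL ι₁ F × GL ι₂ F)
    (x : GL (ι₁ ⊕ ι₂) F × {N : Matrix ι₁ ι₁ F // IsNilpotent N} × GL ι₂ F)
    (h : leviAct l x = leviAct l' x) : l = l' := by
  have h1 : x.1 * (blockGL l)⁻¹ = x.1 * (blockGL l')⁻¹ := congrArg Prod.fst h
  have h2 : blockGL l = blockGL l' := inv_injective (mul_left_cancel h1)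
  have h3 := congrArg (fun u : GL (ι₁ ⊕ ι₂) F => (u : Matrix (ι₁ ⊕ ι₂) (ι₁ ⊕ ι₂) F)) h2
  simp only [blockGL_val] at h3
  rw [fromBlocks_inj] at h3
  exact Prod.ext (Units.ext h3.1) (Units.ext h3.2.2.2)

theorem leviAct_trans {F : Type*} [Field F] {ι₁ ι₂ : Type*} [Fintype ι₁] [Fintype ι₂]
    [DecidableEq ι₁] [DecidableEq ι₂]
    (x x' : GL (ι₁ ⊕ ι₂) F × {N : Matrix ι₁ ι₁ F // IsNilpotent N} × GL ι₂ F)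
    (h : conjMap x = conjMap x') : ∃ l, leviAct l x = x' := by
  obtain ⟨g, ⟨N, hN⟩, A⟩ := x
  obtain ⟨g', ⟨N', hN'⟩, A'⟩ := x'
  unfold conjMap at h
  simp only at h
  -- the intertwiner
  set hh : GL (ι₁ ⊕ ι₂) F := g'⁻¹ * g with hhdef
  have hint : (hh : Matrix (ι₁ ⊕ ι₂) (ι₁ ⊕ ι₂) F) * fromBlocks N 0 0 (A : Matrix ι₂ ι₂ F) =
      fromBlocks N' 0 0 (A' : Matrix ι₂ ι₂ F) * (hh : Matrix (ι₁ ⊕ ι₂) (ι₁ ⊕ ι₂) F) := by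
    have e1 : (hh : Matrix (ι₁ ⊕ ι₂) (ι₁ ⊕ ι₂) F) =
        ((g'⁻¹ : GL (ι₁ ⊕ ι₂) F) : Matrix (ι₁ ⊕ ι₂) (ι₁ ⊕ ι₂) F) * (g : Matrix (ι₁ ⊕ ι₂) (ι₁ ⊕ ι₂) F) := rfl
    have e2 : ((g⁻¹ : GL (ι₁ ⊕ ι₂) F) : Matrix (ι₁ ⊕ ι₂) (ι₁ ⊕ ι₂) F) *
        (g : Matrix (ι₁ ⊕ ι₂) (ι₁ ⊕ ι₂) F) = 1 := by simp
    have e3 : ((g'⁻¹ : GL (ι₁ ⊕ ι₂) F) : Matrix (ι₁ ⊕ ι₂) (ι₁ ⊕ ι₂) F) *
        (g' : Matrix (ι₁ ⊕ ι₂) (ι₁ ⊕ ι₂) F) = 1 := by simp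
    have e4 := congrArg (fun M => ((g'⁻¹ : GL (ι₁ ⊕ ι₂) F) : Matrix (ι₁ ⊕ ι₂) (ι₁ ⊕ ι₂) F) * M *
      (g : Matrix (ι₁ ⊕ ι₂) (ι₁ ⊕ ι₂) F)) h
    rw [e1]
    calc ((g'⁻¹ : GL (ι₁ ⊕ ι₂) F) : Matrix (ι₁ ⊕ ι₂) (ι₁ ⊕ ι₂) F) * (g : Matrix (ι₁ ⊕ ι₂) (ι₁ ⊕ ι₂) F) *
          fromBlocks N 0 0 (A : Matrix ι₂ ι₂ F)
        = ((g'⁻¹ : GL (ι₁ ⊕ ι₂) F) : Matrix (ι₁ ⊕ ι₂) (ι₁ ⊕ ι₂) F) *
          ((g : Matrix (ι₁ ⊕ ι₂) (ι₁ ⊕ ι₂) F) * fromBlocks N 0 0 (A : Matrix ι₂ ι₂ F) *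
            ((g⁻¹ : GL (ι₁ ⊕ ι₂) F) : Matrix (ι₁ ⊕ ι₂) (ι₁ ⊕ ι₂) F)) *
          (g : Matrix (ι₁ ⊕ ι₂) (ι₁ ⊕ ι₂) F) := by
          simp only [Matrix.mul_assoc]
          rw [e2, Matrix.mul_one]
      _ = ((g'⁻¹ : GL (ι₁ ⊕ ι₂) F) : Matrix (ι₁ ⊕ ι₂) (ι₁ ⊕ ι₂) F) *
          ((g' : Matrix (ι₁ ⊕ ι₂) (ι₁ ⊕ ι₂) F) * fromBlocks N' 0 0 (A' : Matrix ι₂ ι₂ F) *
            ((g'⁻¹ : GL (ι₁ ⊕ ι₂) F) : Matrix (ι₁ ⊕ ι₂) (ι₁ ⊕ ι₂) F)) *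
          (g : Matrix (ι₁ ⊕ ι₂) (ι₁ ⊕ ι₂) F) := e4
      _ = (((g'⁻¹ : GL (ι₁ ⊕ ι₂) F) : Matrix (ι₁ ⊕ ι₂) (ι₁ ⊕ ι₂) F) *
          (g' : Matrix (ι₁ ⊕ ι₂) (ι₁ ⊕ ι₂) F)) * fromBlocks N' 0 0 (A' : Matrix ι₂ ι₂ F) *
            (((g'⁻¹ : GL (ι₁ ⊕ ι₂) F) : Matrix (ι₁ ⊕ ι₂) (ι₁ ⊕ ι₂) F) *
          (g : Matrix (ι₁ ⊕ ι₂) (ι₁ ⊕ ι₂) F)) := by
          simp only [Matrix.mul_assoc]
      _ = _ := by rw [e3, Matrix.one_mul]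
  -- block decomposition of the intertwiner
  set H := (hh : Matrix (ι₁ ⊕ ι₂) (ι₁ ⊕ ι₂) F) with hHdef
  have hblk : fromBlocks H.toBlocks₁₁ H.toBlocks₁₂ H.toBlocks₂₁ H.toBlocks₂₂ = H := fromBlocks_toBlocks H
  rw [← hblk, fromBlocks_multiply, fromBlocks_multiply, fromBlocks_inj] at hint
  simp only [Matrix.mul_zero, Matrix.zero_mul, add_zero, zero_add] at hint
  obtain ⟨i11, i12, i21, i22⟩ := hint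
  have z12 : H.toBlocks₁₂ = 0 := intertwine_zero₁ N' (A : Matrix ι₂ ι₂ F) hN' A.isUnit _ i12
  have z21 : H.toBlocks₂₁ = 0 := intertwine_zero₂ N (A' : Matrix ι₂ ι₂ F) hN A'.isUnit _ i21
  rw [z12, z21] at hblk
  have hdet : IsUnit H.det := (Matrix.isUnit_iff_isUnit_det H).mp hh.isUnit
  rw [← hblk, det_fromBlocks_zero₁₂] at hdet
  have hu1 : IsUnit H.toBlocks₁₁ :=
    (Matrix.isUnit_iff_isUnit_det _).mpr (isUnit_of_mul_isUnit_left hdet)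
  have hu2 : IsUnit H.toBlocks₂₂ :=
    (Matrix.isUnit_iff_isUnit_det _).mpr (isUnit_of_mul_isUnit_right hdet)
  obtain ⟨l₁, hl₁⟩ := hu1
  obtain ⟨l₂, hl₂⟩ := hu2
  have hhB : hh = blockGL (l₁, l₂) := by
    apply Units.ext
    rw [blockGL_val]
    simp only
    rw [hl₁, hl₂, hblk]
  refine ⟨(l₁, l₂), ?_⟩
  unfold leviAct
  simp only
  refine Prod.ext ?_ (Prod.ext ?_ ?_)
  · simp only
    rw [← hhB, hhdef]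
    group
  · simp only
    apply Subtype.ext
    simp only
    rw [hl₁, i11, Matrix.mul_assoc, ← hl₁]
    simp
  · simp only
    have : l₂ * A = A' * l₂ := by
      apply Units.ext
      simp only [Units.val_mul]
      rw [hl₂]
      exact i22
    rw [this]
    group

end Cfsg.Agent.Lib.Helper15.NilCount
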