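import Cfsg.Agent.Lib.Helper15.CentA
import Cfsg.Agent.Lib.Helper15.NilCountB

set_option autoImplicit false

namespace Cfsg.Agent.Lib.Helper15.Jordan

open Module

universe u w

variable {F : Type w} [Field F]

section Model

variable {M : Type*} [AddCommGroup M] [Module F M]

/-- The equivariant map `M → F^e` attached to a functional. -/
def phiL (T : M →ₗ[F] M) (e : ℕ) (lam : M →ₗ[F] F) : M →ₗ[F] (Fin e → F) :=
  LinearMap.pi (fun i : Fin e => lam ∘ₗ (T ^ (e - 1 - (i : ℕ))))

theorem phiL_apply (T : M →ₗ[F] M) (e : ℕ) (lam : M →ₗ[F] F) (m : M) (i : Fin e) :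
    phiL T e lam m i = lam ((T ^ (e - 1 - (i : ℕ))) m) := rfl

theorem phiL_shift (T : M →ₗ[F] M) (e : ℕ) (hTe : T ^ e = 0) (lam : M →ₗ[F] F) (m : M) :
    phiL T e lam (T m) = shift F e (phiL T e lam m) := by
  funext i
  rw [shift_apply, phiL_apply]
  have h1 : (T ^ (e - 1 - (i : ℕ))) (T m) = (T ^ (e - 1 - (i : ℕ) + 1)) m := by
    rw [pow_succ]
    rfl
  rw [h1]
  by_cases hi : 0 < (i : ℕ)
  · rw [dif_pos hi, phiL_apply]
    have h2 : e - 1 - (i : ℕ) + 1 = e - 1 - ((i : ℕ) - 1) := by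
      have := i.2
      omega
    rw [h2]
  · rw [dif_neg hi, pow_apply_zero hTe _ _ (by have := i.2; omega), map_zero]

/-- The stabiliser element attached to a functional and a commuting automorphism. -/
def stabElt (T : M →ₗ[F] M) (e : ℕ) (lam : M →ₗ[F] F) (h : M ≃ₗ[F] M) :
    (M × (Fin e → F)) ≃ₗ[F] (M × (Fin e → F)) :=
  LinearEquiv.skewProd h (LinearEquiv.refl F (Fin e → F)) (phiL T e lam)

theorem stabElt_apply (T : M →ₗ[F] M) (e : ℕ) (lam : M →ₗ[F] F) (h : M ≃ₗ[F] M)
    (x : M × (Fin e → F)) : stabElt T e lam h x = (h x.1, x.2 + phiL T e lam x.1) := rfl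

theorem stab_comm (T : M →ₗ[F] M) (e : ℕ) (hTe : T ^ e = 0) (lam : M →ₗ[F] F) (h : M ≃ₗ[F] M)
    (hh : ∀ m, h (T m) = T (h m)) (x : M × (Fin e → F)) :
    stabElt T e lam h ((T.prodMap (shift F e)) x) =
      (T.prodMap (shift F e)) (stabElt T e lam h x) := by
  rw [stabElt_apply, stabElt_apply]
  apply Prod.ext
  · exact hh x.1
  · show shift F e x.2 + phiL T e lam (T x.1) = shift F e (x.2 + phiL T e lam x.1)
    rw [map_add, phiL_shift T e hTe]

theorem stab_base (T : M →ₗ[F] M) (e : ℕ) (lam : M →ₗ[F] F) (h : M ≃ₗ[F] M) (a : Fin e → F) :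
    stabElt T e lam h ((0 : M), a) = ((0 : M), a) := by
  rw [stabElt_apply]
  apply Prod.ext
  · exact map_zero h
  · show a + phiL T e lam 0 = a
    rw [map_zero, add_zero]

theorem stab_inj (T : M →ₗ[F] M) (e : ℕ) (he : 0 < e) (lam lam' : M →ₗ[F] F)
    (h h' : M ≃ₗ[F] M) (heq : stabElt T e lam h = stabElt T e lam' h') :
    lam = lam' ∧ h = h' := by
  have key : ∀ m : M, stabElt T e lam h (m, 0) = stabElt T e lam' h' (m, 0) := by
    intro m
    rw [heq]
  constructor
  · apply LinearMap.ext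
    intro m
    have h1 := congrArg (fun z : M × (Fin e → F) => z.2 (⟨e - 1, by omega⟩ : Fin e)) (key m)
    simp only [stabElt_apply, zero_add, phiL_apply,
      Nat.sub_self, pow_zero] at h1
    exact h1
  · apply LinearEquiv.ext
    intro m
    exact congrArg Prod.fst (key m)

theorem stab_surj [FiniteDimensional F M] (T : M →ₗ[F] M) (e : ℕ) (he : 0 < e)
    (s : (M × (Fin e → F)) ≃ₗ[F] (M × (Fin e → F)))
    (hs : ∀ x, s ((T.prodMap (shift F e)) x) = (T.prodMap (shift F e)) (s x))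
    (hs0 : s ((0 : M), Pi.single (⟨0, he⟩ : Fin e) (1 : F)) =
      ((0 : M), Pi.single (⟨0, he⟩ : Fin e) (1 : F))) :
    ∃ (lam : M →ₗ[F] F) (h : M ≃ₗ[F] M), (∀ m, h (T m) = T (h m)) ∧ stabElt T e lam h = s := by
  have hfs : ∀ (k : ℕ) (j : Fin e), (j : ℕ) = k → ∀ x : F,
      s ((0 : M), Pi.single j x) = ((0 : M), Pi.single j x) := by
    intro k
    induction k with
    | zero =>
      intro j hj x
      have hj' : j = ⟨0, he⟩ := Fin.ext hj
      subst hj'
      have h1 : (((0 : M), Pi.single (⟨0, he⟩ : Fin e) x) : M × (Fin e → F)) =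
          x • (((0 : M), (Pi.single (⟨0, he⟩ : Fin e) (1 : F) : Fin e → F)) : M × (Fin e → F)) := by
        apply Prod.ext
        · simp
        · show Pi.single (⟨0, he⟩ : Fin e) x = x • Pi.single (⟨0, he⟩ : Fin e) (1 : F)
          rw [← Pi.single_smul, smul_eq_mul, mul_one]
      rw [h1, map_smul, hs0]
    | succ k ih =>
      intro j hj x
      have hk : k < e := by have := j.2; omega
      have h1 : ((0 : M), Pi.single j x) =
          (T.prodMap (shift F e)) ((0 : M), Pi.single (⟨k, hk⟩ : Fin e) x) := by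
        apply Prod.ext
        · show (0 : M) = T 0
          rw [map_zero]
        · show Pi.single j x = shift F e (Pi.single (⟨k, hk⟩ : Fin e) x)
          rw [shift_single, dif_pos (by show k + 1 < e; have := j.2; omega)]
          congr 1
          exact Fin.ext hj
      rw [h1, hs, ih ⟨k, hk⟩ rfl x]
  have hfix : ∀ a : Fin e → F, s ((0 : M), a) = ((0 : M), a) := by
    have h1 : s.toLinearMap ∘ₗ LinearMap.inr F M (Fin e → F) = LinearMap.inr F M (Fin e → F) := by
      apply LinearMap.pi_ext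
      intro j x
      exact hfs j j rfl x
    intro a
    exact congrArg (fun f : (Fin e → F) →ₗ[F] (M × (Fin e → F)) => f a) h1
  let hL : M →ₗ[F] M := (LinearMap.fst F M (Fin e → F)) ∘ₗ s.toLinearMap ∘ₗ
    (LinearMap.inl F M (Fin e → F))
  let φ : M →ₗ[F] (Fin e → F) := (LinearMap.snd F M (Fin e → F)) ∘ₗ s.toLinearMap ∘ₗ
    (LinearMap.inl F M (Fin e → F))
  have hm0 : ∀ m : M, s (m, 0) = (hL m, φ m) := fun m => rfl
  have hform : ∀ (m : M) (a : Fin e → F), s (m, a) = (hL m, a + φ m) := by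
    intro m a
    have h1 : ((m, a) : M × (Fin e → F)) = (m, 0) + (0, a) := by
      apply Prod.ext
      · simp
      · simp
    rw [h1, map_add, hm0, hfix]
    apply Prod.ext
    · simp
    · show φ m + a = a + φ m
      rw [add_comm]
  have hinj : Function.Injective hL := by
    rw [← LinearMap.ker_eq_bot, LinearMap.ker_eq_bot']
    intro m hm
    have h1 : s (m, 0) = s (0, φ m) := by
      rw [hm0, hfix, hm]
    have h2 := s.injective h1
    exact congrArg Prod.fst h2
  have hcomm : ∀ m : M, hL (T m) = T (hL m) ∧ φ (T m) = shift F e (φ m) := by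
    intro m
    have h1 := hs (m, 0)
    have h2 : (T.prodMap (shift F e)) ((m, 0) : M × (Fin e → F)) = (T m, 0) := by
      apply Prod.ext
      · rfl
      · show shift F e 0 = 0
        rw [map_zero]
    rw [h2, hm0, hm0] at h1
    exact ⟨congrArg Prod.fst h1, congrArg Prod.snd h1⟩
  have hpow : ∀ (k : ℕ) (m : M), φ ((T ^ k) m) = ((shift F e) ^ k) (φ m) := by
    intro k
    induction k with
    | zero => intro m; simp
    | succ k ih =>
      intro m
      rw [pow_succ', pow_succ']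
      show φ (T ((T ^ k) m)) = shift F e (((shift F e) ^ k) (φ m))
      rw [(hcomm _).2, ih]
  let lam : M →ₗ[F] F := (LinearMap.proj (⟨e - 1, by omega⟩ : Fin e)) ∘ₗ φ
  have hphi : ∀ m : M, phiL T e lam m = φ m := by
    intro m
    funext i
    rw [phiL_apply]
    show φ ((T ^ (e - 1 - (i : ℕ))) m) (⟨e - 1, by omega⟩ : Fin e) = φ m i
    rw [hpow, shift_pow, dif_pos (by show e - 1 - (i : ℕ) ≤ e - 1; omega)]
    refine congrArg (φ m) (Fin.ext ?_)
    show e - 1 - (e - 1 - (i : ℕ)) = i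
    have := i.2
    omega
  refine ⟨lam, LinearEquiv.ofInjectiveEndo hL hinj, ?_, ?_⟩
  · intro m
    exact (hcomm m).1
  · apply LinearEquiv.ext
    intro x
    rw [stabElt_apply, hphi]
    have h1 := hform x.1 x.2
    rw [Prod.mk.eta] at h1
    rw [h1]
    rfl

end Model

theorem card_height {V : Type*} [AddCommGroup V] [Module F V] [FiniteDimensional F V] [Finite F]
    (T : V →ₗ[F] V) :
    Nat.card {w : V // T w ≠ 0} =
      Nat.card F ^ finrank F V - Nat.card F ^ (finrank F V - finrank F (LinearMap.range T)) := by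
  classical
  have : Finite V := Module.finite_of_finite F
  let _ : Fintype V := Fintype.ofFinite V
  have h1 : Nat.card {w : V // T w ≠ 0} = Nat.card V - Nat.card {w : V // T w = 0} := by
    rw [Nat.card_eq_fintype_card, Nat.card_eq_fintype_card, Nat.card_eq_fintype_card]
    exact Fintype.card_subtype_compl _
  have h2 : Nat.card {w : V // T w = 0} = Nat.card (LinearMap.ker T) := rfl
  have h3 : finrank F (LinearMap.ker T) = finrank F V - finrank F (LinearMap.range T) := by
    have := LinearMap.finrank_range_add_finrank_ker T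
    omega
  rw [h1, h2, Module.natCard_eq_pow_finrank (K := F) (V := V),
    Module.natCard_eq_pow_finrank (K := F) (V := LinearMap.ker T), h3]

theorem card_dual {V : Type*} [AddCommGroup V] [Module F V] [FiniteDimensional F V] [Finite F] :
    Nat.card (V →ₗ[F] F) = Nat.card F ^ finrank F V := by
  rw [Module.natCard_eq_pow_finrank (K := F) (V := V →ₗ[F] F)]
  congr 1
  exact Subspace.dual_finrank_eq

/-- Orbit-stabiliser recursion for the centraliser of a nilpotent map. -/
theorem card_cent_rec {V : Type u} [AddCommGroup V] [Module F V] [FiniteDimensional F V]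
    (N : V →ₗ[F] V) (e : ℕ) (he : 0 < e) (hNe : N ^ e = 0) (v : V) (M : Submodule F V)
    (hv : (N ^ (e - 1)) v ≠ 0)
    (hli : LinearIndependent F (fun j : Fin e => (N ^ (j : ℕ)) v))
    (hM : ∀ x ∈ M, N x ∈ M)
    (hc : IsCompl (Submodule.span F (Set.range (fun j : Fin e => (N ^ (j : ℕ)) v))) M) :
    Nat.card {g : V ≃ₗ[F] V // ∀ x, g (N x) = N (g x)} =
      Nat.card {w : V // (N ^ (e - 1)) w ≠ 0} * (Nat.card (M →ₗ[F] F) *
        Nat.card {h : M ≃ₗ[F] M // ∀ m, h (N.restrict hM m) = N.restrict hM (h m)}) := by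
  set T := N.restrict hM with hT
  have hTe : T ^ e = 0 := by
    apply LinearMap.ext
    intro m
    apply Subtype.ext
    rw [hT, pow_restrict_apply, hNe]
    rfl
  let Γ := glue N e v M hli hc
  have hΓ : ∀ y, Γ ((T.prodMap (shift F e)) y) = N (Γ y) := glue_comm N e v M hNe hli hM hc
  have hΓ0 : Γ ((0 : M), Pi.single (⟨0, he⟩ : Fin e) (1 : F)) = v := glue_base N e he v M hli hc
  have hΓs : ∀ x, Γ.symm (N x) = (T.prodMap (shift F e)) (Γ.symm x) := by
    intro x
    rw [LinearEquiv.symm_apply_eq, hΓ, LinearEquiv.apply_symm_apply]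
  have hΓs0 : Γ.symm v = ((0 : M), Pi.single (⟨0, he⟩ : Fin e) (1 : F)) := by
    rw [LinearEquiv.symm_apply_eq, hΓ0]
  have hpowg : ∀ (g : V ≃ₗ[F] V), (∀ x, g (N x) = N (g x)) →
      ∀ (k : ℕ) (x : V), g ((N ^ k) x) = (N ^ k) (g x) := by
    intro g hg k
    induction k with
    | zero => intro x; simp
    | succ k ih =>
      intro x
      rw [pow_succ']
      show g (N ((N ^ k) x)) = N ((N ^ k) (g x))
      rw [hg, ih]
  let f : {g : V ≃ₗ[F] V // ∀ x, g (N x) = N (g x)} → V := fun g => g.1 v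
  let act : ((M →ₗ[F] F) × {h : M ≃ₗ[F] M // ∀ m, h (T m) = T (h m)}) →
      {g : V ≃ₗ[F] V // ∀ x, g (N x) = N (g x)} → {g : V ≃ₗ[F] V // ∀ x, g (N x) = N (g x)} :=
    fun l g => ⟨(Γ.symm ≪≫ₗ stabElt T e l.1 l.2.1 ≪≫ₗ Γ) ≪≫ₗ g.1, by
      intro x
      show g.1 (Γ (stabElt T e l.1 l.2.1 (Γ.symm (N x)))) =
        N (g.1 (Γ (stabElt T e l.1 l.2.1 (Γ.symm x))))
      rw [hΓs, stab_comm T e hTe l.1 l.2.1 l.2.2, hΓ, g.2]⟩
  have hact : ∀ l g x, (act l g).1 x = g.1 (Γ (stabElt T e l.1 l.2.1 (Γ.symm x))) :=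
    fun l g x => rfl
  have hmain := NilCount.card_eq_range_mul f act ?_ ?_ ?_
  · rw [hmain, Nat.card_prod]
    congr 1
    have hr : Set.range f = {w : V | (N ^ (e - 1)) w ≠ 0} := by
      ext w
      constructor
      · rintro ⟨g, rfl⟩
        show (N ^ (e - 1)) (g.1 v) ≠ 0
        rw [← hpowg g.1 g.2]
        intro h0
        apply hv
        have := g.1.injective (h0.trans (map_zero g.1).symm)
        exact this
      · intro hw
        obtain ⟨g, hg, hgv⟩ := cent_trans N e he hNe v M hli hM hc w hw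
        exact ⟨⟨g, hg⟩, hgv⟩
    rw [hr]
    rfl
  · intro l g
    show (act l g).1 v = g.1 v
    rw [hact, hΓs0, stab_base, hΓ0]
  · intro g g' hgg'
    have hgg : g.1 v = g'.1 v := hgg'
    let s : (M × (Fin e → F)) ≃ₗ[F] (M × (Fin e → F)) := Γ ≪≫ₗ g'.1 ≪≫ₗ g.1.symm ≪≫ₗ Γ.symm
    have hsx : ∀ y, s y = Γ.symm (g.1.symm (g'.1 (Γ y))) := fun y => rfl
    have hgs : ∀ x, g.1.symm (N x) = N (g.1.symm x) := by
      intro x
      rw [LinearEquiv.symm_apply_eq, g.2, LinearEquiv.apply_symm_apply]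
    obtain ⟨lam, h, hh, hst⟩ := stab_surj T e he s (by
      intro y
      rw [hsx, hsx, hΓ, g'.2, hgs, hΓs]) (by
      rw [hsx, hΓ0, ← hgg, LinearEquiv.symm_apply_apply, hΓs0])
    refine ⟨(lam, ⟨h, hh⟩), ?_⟩
    apply Subtype.ext
    apply LinearEquiv.ext
    intro x
    rw [hact]
    show g.1 (Γ (stabElt T e lam h (Γ.symm x))) = g'.1 x
    rw [hst, hsx, LinearEquiv.apply_symm_apply, LinearEquiv.apply_symm_apply,
      LinearEquiv.apply_symm_apply]
  · intro l l' g hll
    have h1 : ∀ y, stabElt T e l.1 l.2.1 y = stabElt T e l'.1 l'.2.1 y := by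
      intro y
      have h2 := congrArg (fun z : {g : V ≃ₗ[F] V // ∀ x, g (N x) = N (g x)} => z.1 (Γ y)) hll
      simp only [hact, LinearEquiv.symm_apply_apply] at h2
      exact Γ.injective (g.1.injective h2)
    obtain ⟨h3, h4⟩ := stab_inj T e he l.1 l'.1 l.2.1 l'.2.1 (LinearEquiv.ext h1)
    exact Prod.ext h3 (Subtype.ext h4)

end Cfsg.Agent.Lib.Helper15.Jordan
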