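import Cfsg.Agent.Lib.Helper15.CentB

set_option autoImplicit false

namespace Cfsg.Agent.Lib.Helper15.Jordan

open Module

universe u w

/-- The order formula of a general linear group. -/
def glf (q k : ℕ) : ℕ := ∏ j : Fin k, (q ^ k - q ^ (j : ℕ))

/-- The closed formula for the centraliser order, in terms of block multiplicities. -/
def Fc (q B : ℕ) (c : ℕ → ℕ) : ℕ :=
  q ^ (2 * (∑ i ∈ Finset.range B, ∑ j ∈ Finset.range B, if i < j then i * c i * c j else 0) +
    ∑ i ∈ Finset.range B, (i - 1) * c i ^ 2) *
    ∏ i ∈ Finset.range B, ∏ j : Fin (c i), (q ^ c i - q ^ (j : ℕ))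

theorem Fc_eq (q B : ℕ) (c : ℕ → ℕ) :
    Fc q B c =
      q ^ (2 * (∑ i ∈ Finset.range B, ∑ j ∈ Finset.range B, if i < j then i * c i * c j else 0) +
      ∑ i ∈ Finset.range B, (i - 1) * c i ^ 2) * ∏ i ∈ Finset.range B, glf q (c i) := rfl

theorem glf_succ (q k : ℕ) : glf q (k + 1) = (q ^ (k + 1) - 1) * (q ^ k * glf q k) := by
  unfold glf
  rw [Fin.prod_univ_succ]
  have h0 : q ^ (k + 1) - q ^ ((0 : Fin (k + 1)) : ℕ) = q ^ (k + 1) - 1 := by simp
  have h : ∀ j : Fin k, q ^ (k + 1) - q ^ ((j.succ : Fin (k + 1)) : ℕ) =
      q * (q ^ k - q ^ (j : ℕ)) := by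
    intro j
    rw [Fin.val_succ, pow_succ', pow_succ', Nat.mul_sub]
  rw [h0, Finset.prod_congr rfl (fun j _ => h j), Finset.prod_mul_distrib, Finset.prod_const,
    Finset.card_univ, Fintype.card_fin]

theorem Fc_rec (q B e : ℕ) (c c' : ℕ → ℕ) (he : 0 < e) (heB : e < B)
    (hc : ∀ i, c i = c' i + if i = e then 1 else 0)
    (hbig : ∀ i, e < i → c' i = 0) (n : ℕ) (hn : n = ∑ i ∈ Finset.range B, i * c i) :
    Fc q B c = (q ^ n - q ^ (n - c e)) * (q ^ (n - e) * Fc q B c') := by
  obtain ⟨e', rfl⟩ : ∃ e', e = e' + 1 := ⟨e - 1, by omega⟩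
  have hemem : e' + 1 ∈ Finset.range B := Finset.mem_range.mpr heB
  set a' := c' (e' + 1) with ha'
  have hce : c (e' + 1) = a' + 1 := by
    rw [hc, if_pos rfl]
  have hci : ∀ i, i ≠ e' + 1 → c i = c' i := by
    intro i hi
    rw [hc, if_neg hi, add_zero]
  set A := ∑ i ∈ Finset.range B, (if i < e' + 1 then i * c' i else 0) with hA
  have hn' : n = A + (e' + 1) * (a' + 1) := by
    rw [hn, hA]
    have h1 : ∀ i ∈ Finset.range B, i * c i =
        (if i < e' + 1 then i * c' i else 0) + (if i = e' + 1 then (e' + 1) * (a' + 1) else 0) := by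
      intro i _
      rcases Nat.lt_trichotomy i (e' + 1) with h | h | h
      · rw [if_pos h, if_neg (by omega), hci i (by omega), add_zero]
      · subst h
        rw [if_neg (by omega), if_pos rfl, hce, zero_add]
      · rw [if_neg (by omega), if_neg (by omega), hci i (by omega), hbig i h, mul_zero, add_zero]
    rw [Finset.sum_congr rfl h1, Finset.sum_add_distrib, Finset.sum_ite_eq' (Finset.range B) (e' + 1)
      (fun _ => (e' + 1) * (a' + 1)), if_pos hemem]
  have hS : (∑ i ∈ Finset.range B, ∑ j ∈ Finset.range B, if i < j then i * c i * c j else 0) =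
      (∑ i ∈ Finset.range B, ∑ j ∈ Finset.range B, if i < j then i * c' i * c' j else 0) + A := by
    have h1 : ∀ i ∈ Finset.range B, ∀ j ∈ Finset.range B,
        (if i < j then i * c i * c j else 0) = (if i < j then i * c' i * c' j else 0) +
          (if j = e' + 1 then (if i < e' + 1 then i * c' i else 0) else 0) := by
      intro i _ j _
      by_cases hij : i < j
      · rw [if_pos hij, if_pos hij]
        rcases Nat.lt_trichotomy j (e' + 1) with h | h | h
        · rw [if_neg (by omega), hci i (by omega), hci j (by omega), add_zero]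
        · subst h
          rw [if_pos rfl, if_pos hij, hce, hci i (by omega)]
          ring
        · rw [if_neg (by omega), hci j (by omega), hbig j h]
          simp
      · rw [if_neg hij, if_neg hij]
        by_cases hj : j = e' + 1
        · rw [if_pos hj, if_neg (by omega)]
        · rw [if_neg hj]
    have h2 : ∀ i ∈ Finset.range B, (∑ j ∈ Finset.range B, if i < j then i * c i * c j else 0) =
        (∑ j ∈ Finset.range B, if i < j then i * c' i * c' j else 0) +
          (if i < e' + 1 then i * c' i else 0) := by
      intro i hi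
      rw [Finset.sum_congr rfl (h1 i hi), Finset.sum_add_distrib,
        Finset.sum_ite_eq' (Finset.range B) (e' + 1) (fun _ => if i < e' + 1 then i * c' i else 0),
        if_pos hemem]
    rw [Finset.sum_congr rfl h2, Finset.sum_add_distrib]
  have hT : (∑ i ∈ Finset.range B, (i - 1) * c i ^ 2) =
      (∑ i ∈ Finset.range B, (i - 1) * c' i ^ 2) + e' * (2 * a' + 1) := by
    have h1 : ∀ i ∈ Finset.range B, (i - 1) * c i ^ 2 =
        (i - 1) * c' i ^ 2 + (if i = e' + 1 then e' * (2 * a' + 1) else 0) := by
      intro i _
      by_cases hi : i = e' + 1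
      · subst hi
        rw [if_pos rfl, hce, Nat.add_sub_cancel]
        ring
      · rw [if_neg hi, hci i hi, add_zero]
    rw [Finset.sum_congr rfl h1, Finset.sum_add_distrib,
      Finset.sum_ite_eq' (Finset.range B) (e' + 1) (fun _ => e' * (2 * a' + 1)), if_pos hemem]
  have hP : (∏ i ∈ Finset.range B, glf q (c i)) =
      (∏ i ∈ Finset.range B, glf q (c' i)) * ((q ^ (a' + 1) - 1) * q ^ a') := by
    have h1 : ∀ i ∈ Finset.range B, glf q (c i) =
        glf q (c' i) * (if i = e' + 1 then (q ^ (a' + 1) - 1) * q ^ a' else 1) := by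
      intro i _
      by_cases hi : i = e' + 1
      · subst hi
        rw [if_pos rfl, hce, glf_succ]
        ring
      · rw [if_neg hi, hci i hi, mul_one]
    rw [Finset.prod_congr rfl h1, Finset.prod_mul_distrib,
      Finset.prod_ite_eq' (Finset.range B) (e' + 1) (fun _ => (q ^ (a' + 1) - 1) * q ^ a'),
      if_pos hemem]
  rw [Fc_eq, Fc_eq, hS, hT, hP, hce]
  have hn1 : n - (a' + 1) = A + e' * (a' + 1) := by
    have : n = (A + e' * (a' + 1)) + (a' + 1) := by rw [hn']; ring
    omega
  have hn2 : n - (e' + 1) = A + (e' + 1) * a' := by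
    have : n = (A + (e' + 1) * a') + (e' + 1) := by rw [hn']; ring
    omega
  have hle : a' + 1 ≤ n := by
    have : n = (A + e' * (a' + 1)) + (a' + 1) := by rw [hn']; ring
    omega
  have h1 : q ^ n - q ^ (n - (a' + 1)) = q ^ (n - (a' + 1)) * (q ^ (a' + 1) - 1) := by
    rw [Nat.mul_sub, ← pow_add, Nat.sub_add_cancel hle, mul_one]
  rw [h1, hn1, hn2]
  ring

theorem sum_count (l : Multiset ℕ) (B : ℕ) (hB : ∀ x ∈ l, x < B) :
    l.sum = ∑ i ∈ Finset.range B, i * l.count i := by
  induction l using Multiset.induction_on with
  | empty => simp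
  | cons a s ih =>
    have ha : a < B := hB a (Multiset.mem_cons_self a s)
    have h1 : ∀ i ∈ Finset.range B, i * (a ::ₘ s).count i =
        i * s.count i + (if i = a then a else 0) := by
      intro i _
      rw [Multiset.count_cons, mul_add]
      by_cases hi : i = a
      · rw [if_pos hi, if_pos hi, mul_one, hi]
      · rw [if_neg hi, if_neg hi, mul_zero]
    rw [Multiset.sum_cons, Finset.sum_congr rfl h1, Finset.sum_add_distrib,
      Finset.sum_ite_eq' (Finset.range B) a (fun _ => a), if_pos (Finset.mem_range.mpr ha),
      ← ih (fun x hx => hB x (Multiset.mem_cons_of_mem hx)), add_comm]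

theorem sum_sub_max (l : Multiset ℕ) (e : ℕ) (he : 0 < e) (hl : ∀ x ∈ l, x ≤ e) :
    (l.map (fun x => x - (e - 1))).sum = l.count e := by
  induction l using Multiset.induction_on with
  | empty => simp
  | cons a s ih =>
    have ha : a ≤ e := hl a (Multiset.mem_cons_self a s)
    rw [Multiset.map_cons, Multiset.sum_cons, Multiset.count_cons,
      ih (fun x hx => hl x (Multiset.mem_cons_of_mem hx))]
    by_cases hae : e = a
    · rw [if_pos hae]
      omega
    · rw [if_neg hae]
      omega

theorem sum_sub_ge (l : Multiset ℕ) (e : ℕ) (hl : ∀ x ∈ l, x ≤ e) :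
    (l.map (fun x => x - e)).sum = 0 := by
  apply Multiset.sum_eq_zero
  intro y hy
  obtain ⟨x, hx, rfl⟩ := Multiset.mem_map.mp hy
  have := hl x hx
  omega

variable {F : Type w} [Field F]

/-- The order of the centraliser of a nilpotent map with a given Jordan type. -/
theorem card_cent [Finite F] : ∀ (n : ℕ) (V : Type u) [AddCommGroup V] [Module F V]
    [FiniteDimensional F V] (N : V →ₗ[F] V) (l : Multiset ℕ) (B : ℕ), finrank F V = n →
    (∀ x ∈ l, 0 < x) → (∀ x ∈ l, x < B) → (∀ k, rk N k = (l.map (fun x => x - k)).sum) →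
    Nat.card {g : V ≃ₗ[F] V // ∀ x, g (N x) = N (g x)} =
      Fc (Nat.card F) B (fun i => l.count i) := by
  intro n
  induction n using Nat.strong_induction_on with
  | _ n ih =>
    intro V _ _ _ N l B hn hpos hB hrk
    have hsum : l.sum = n := by
      have h := hrk 0
      rw [rk_zero, hn] at h
      simp only [Nat.sub_zero, Multiset.map_id'] at h
      exact h.symm
    by_cases hl : l = 0
    · subst hl
      have hn0 : n = 0 := by
        rw [← hsum]
        rfl
      have hV : Subsingleton V := (finrank_zero_iff (R := F)).mp (by omega)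
      have h1 : Nat.card {g : V ≃ₗ[F] V // ∀ x, g (N x) = N (g x)} = 1 := by
        rw [Nat.card_eq_one_iff_unique]
        constructor
        · constructor
          intro g g'
          apply Subtype.ext
          apply LinearEquiv.ext
          intro x
          exact Subsingleton.elim _ _
        · exact ⟨⟨LinearEquiv.refl F V, fun x => rfl⟩⟩
      rw [h1, Fc_eq]
      have hz : ∀ i, Multiset.count i (0 : Multiset ℕ) = 0 := fun i => Multiset.count_zero i
      simp only [hz]
      simp [glf]
    · obtain ⟨e, hel, hmax⟩ := Multiset.exists_max_image id hl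
      have hmax' : ∀ x ∈ l, x ≤ e := hmax
      have he : 0 < e := hpos e hel
      have heB : e < B := hB e hel
      have hNe : N ^ e = 0 := by
        rw [← rk_eq_zero_iff, hrk]
        exact sum_sub_ge l e hmax'
      have hrk1 : rk N (e - 1) = l.count e := by
        rw [hrk]
        exact sum_sub_max l e he hmax'
      have hcnt : 0 < l.count e := Multiset.count_pos.mpr hel
      obtain ⟨v, hv⟩ : ∃ v, (N ^ (e - 1)) v ≠ 0 := by
        by_contra h
        push Not at h
        have h0 : N ^ (e - 1) = 0 := LinearMap.ext h
        rw [← rk_eq_zero_iff] at h0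
        omega
      obtain ⟨hli, M, hM, hc⟩ := split_of N e hNe v hv
      have hsplit := rk_split N e v M hNe hli hM hc
      have hcons : e ::ₘ l.erase e = l := Multiset.cons_erase hel
      have hrk' : ∀ k, rk (N.restrict hM) k = ((l.erase e).map (fun x => x - k)).sum := by
        intro k
        have h1 := hsplit k
        have h2 := hrk k
        rw [← hcons, Multiset.map_cons, Multiset.sum_cons] at h2
        omega
      have hdim : finrank F M = n - e := by
        have h1 := hsplit 0
        rw [rk_zero, rk_zero, hn] at h1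
        omega
      have hen : e ≤ n := by
        have h1 := hsplit 0
        rw [rk_zero, rk_zero, hn] at h1
        omega
      have hIH := ih (finrank F M) (by omega) M (N.restrict hM) (l.erase e) B rfl
        (fun x hx => hpos x (Multiset.mem_of_mem_erase hx))
        (fun x hx => hB x (Multiset.mem_of_mem_erase hx)) hrk'
      have hrec := card_cent_rec N e he hNe v M hv hli hM hc
      rw [hrec, card_height, card_dual, hIH, hn, hdim]
      have hrk1' : finrank F (LinearMap.range (N ^ (e - 1))) = l.count e := hrk1
      rw [hrk1']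
      symm
      apply Fc_rec (Nat.card F) B e (fun i => l.count i) (fun i => (l.erase e).count i) he heB
      · intro i
        show l.count i = (l.erase e).count i + if i = e then 1 else 0
        have h1 : l.count i = (e ::ₘ l.erase e).count i := by rw [hcons]
        rw [h1, Multiset.count_cons]
      · intro i hi
        apply Multiset.count_eq_zero_of_notMem
        intro hmem
        have := hmax' i (Multiset.mem_of_mem_erase hmem)
        omega
      · rw [← hsum]
        exact sum_count l B hB

end Cfsg.Agent.Lib.Helper15.Jordan
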