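import Cfsg.Prelude.Def_ChevAutomorphisms

set_option autoImplicit false

namespace Cfsg.Agent.Lib.Helper15
namespace ChevChar

open Cfsg.Lie

/-- Consistency of a chain list: each entry is the first chain root of the previous one. -/
def chainListOK (D : ChevalleyDatum) (r : ℕ) : ℕ → List (ℕ × ℤ) → Bool
  | _, [] => true
  | prev, (u, _) :: rest =>
    decide (prev < D.nroots) && ((D.chainRoot r prev 1 == some u) && chainListOK D r u rest)

/-- Consistency of the chain table. -/
def ChainOK (D : ChevalleyDatum) : Prop :=
  ∀ r, r < D.nroots → ∀ e ∈ (D.chain.getD r #[]).toList, chainListOK D r e.1 e.2.toList = true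

instance (D : ChevalleyDatum) : Decidable (ChainOK D) := by
  unfold ChainOK
  infer_instance

theorem chainList_sound {F : Type*} [Field F] (D : ChevalleyDatum) (χ : ℕ → Fˣ)
    (hχ : D.IsRootCharacter χ) (r : ℕ) (hr : r < D.nroots) :
    ∀ (lst : List (ℕ × ℤ)) (prev : ℕ), chainListOK D r prev lst = true →
      ∀ (j : ℕ) (p : ℕ × ℤ), lst[j]? = some p → χ p.1 = χ r ^ (j + 1) * χ prev := by
  intro lst
  induction lst with
  | nil =>
    intro prev _ j p h
    simp at h
  | cons a rest ih =>
    intro prev h j p hj
    obtain ⟨u, M⟩ := a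
    simp only [chainListOK, Bool.and_eq_true, decide_eq_true_eq, beq_iff_eq] at h
    obtain ⟨h1, h2, h3⟩ := h
    have hu : χ u = χ r * χ prev := hχ.2 r prev u hr h1 h2
    cases j with
    | zero =>
      simp only [List.getElem?_cons_zero, Option.some.injEq] at hj
      subst hj
      simpa using hu
    | succ j =>
      simp only [List.getElem?_cons_succ] at hj
      rw [ih u h3 j p hj, hu, pow_succ (χ r) (j + 1), mul_assoc]

theorem chainCoeff_char {F : Type*} [Field F] (D : ChevalleyDatum) (hok : ChainOK D) (χ : ℕ → Fˣ)
    (hχ : D.IsRootCharacter χ) (r : ℕ) (hr : r < D.nroots) (s u : ℕ) (km : ℕ × ℤ)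
    (hkm : km ∈ D.chainCoeff r s u) : χ u = χ r ^ km.1 * χ s := by
  unfold ChevalleyDatum.chainCoeff at hkm
  simp only [List.mem_flatMap, List.mem_filter, List.mem_map, decide_eq_true_eq] at hkm
  obtain ⟨e, ⟨he, hes⟩, q, ⟨hq, hqu⟩, rfl⟩ := hkm
  obtain ⟨⟨u', M⟩, j⟩ := q
  have h1 : e.2.toList[j]? = some (u', M) := List.mem_zipIdx_iff_getElem?.1 hq
  have h2 := chainList_sound D χ hχ r hr e.2.toList e.1 (hok r hr e he) j (u', M) h1
  simp only at hqu h2 ⊢
  rw [← hqu, ← hes]
  exact h2

/-- Conjugation of a root element by the diagonal matrix of a character. -/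
theorem charDiag_conj {F : Type*} [Field F] (D : ChevalleyDatum) (hok : ChainOK D) (χ : ℕ → Fˣ)
    (hχ : D.IsRootCharacter χ) (r : ℕ) (hr : r < D.nroots) (t : F) :
    D.charDiag F χ * D.x F r t * D.charDiag F (fun s => (χ s)⁻¹) = D.x F r ((χ r : F) * t) := by
  classical
  unfold ChevalleyDatum.x
  rw [dif_pos hr, dif_pos hr]
  unfold ChevalleyDatum.charDiag
  ext row col
  rw [Matrix.mul_diagonal, Matrix.diagonal_mul]
  have hinv : ∀ a : ℕ, (χ a : F) * (((χ a)⁻¹ : Fˣ) : F) = 1 := by
    intro a
    rw [← Units.val_mul, mul_inv_cancel, Units.val_one]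
  have hnegχ : (((χ (D.negIdx.getD r 0))⁻¹ : Fˣ) : F) = (χ r : F) := by
    have h1 : χ (D.neg r) = (χ r)⁻¹ := hχ.1 r hr
    have h2 : χ (D.negIdx.getD r 0) = (χ r)⁻¹ := h1
    rw [h2, inv_inv]
  unfold ChevalleyDatum.xMat
  simp only [Matrix.of_apply]
  rcases col with i | s
  · rcases row with i' | u
    · simp
    · simp only [Sum.elim_inr, Sum.elim_inl]
      by_cases hu : u = ⟨r, hr⟩
      · subst hu
        simp
        ring
      · simp [hu]
  · by_cases hs : s = ⟨r, hr⟩
    · subst hs
      rcases row with i' | u
      · simp
      · by_cases hu : u = ⟨r, hr⟩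
        · subst hu
          simp
        · simp [hu]
    · simp only [if_neg hs]
      by_cases hsn : s.val = D.negIdx.getD r 0
      · simp only [if_pos hsn, Sum.elim_inr]
        rw [hsn, hnegχ]
        rcases row with i' | u
        · simp only [Sum.elim_inl]
          ring
        · simp only [Sum.elim_inr]
          by_cases hu : u = s
          · subst hu
            simp only [if_true]
            rw [hsn]
            have := hinv (D.negIdx.getD r 0)
            rw [hnegχ] at this
            rw [mul_one]
            exact this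
          · simp only [if_neg hu]
            by_cases hu2 : u = ⟨r, hr⟩
            · subst hu2
              simp only [if_true]
              ring
            · simp only [if_neg hu2, mul_zero, zero_mul]
      · simp only [if_neg hsn, Sum.elim_inr]
        rcases row with i' | u
        · simp
        · simp only [Sum.elim_inr]
          rw [mul_add, add_mul]
          congr 1
          · by_cases hus : u = s
            · subst hus
              simp only [if_true, mul_one]
              exact hinv _
            · simp only [if_neg hus, mul_zero, zero_mul]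
          · have hterm : ∀ km ∈ D.chainCoeff r s.val u.val,
                (χ u.val : F) * (((km.2 : ℤ) : F) * t ^ km.1) * (((χ s.val)⁻¹ : Fˣ) : F) =
                  ((km.2 : ℤ) : F) * ((χ r : F) * t) ^ km.1 := by
              intro km hkm
              have h1 := chainCoeff_char D hok χ hχ r hr s.val u.val km hkm
              rw [h1, Units.val_mul, Units.val_pow_eq_pow_val, mul_pow]
              have h2 := hinv s.val
              calc (χ r : F) ^ km.1 * (χ s.val : F) * (((km.2 : ℤ) : F) * t ^ km.1) *
                    (((χ s.val)⁻¹ : Fˣ) : F)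
                  = ((km.2 : ℤ) : F) * ((χ r : F) ^ km.1 * t ^ km.1) *
                    ((χ s.val : F) * (((χ s.val)⁻¹ : Fˣ) : F)) := by ring
                _ = ((km.2 : ℤ) : F) * ((χ r : F) ^ km.1 * t ^ km.1) := by rw [h2, mul_one]
            rw [← List.sum_map_mul_left, ← List.sum_map_mul_right]
            exact congrArg List.sum (List.map_congr_left hterm)

end ChevChar
end Cfsg.Agent.Lib.Helper15
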