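import Cfsg.Agent.Lib.Helper15.ChevChar
import Cfsg.Prelude.Def_ChevF4

set_option autoImplicit false

namespace Cfsg.Agent.Lib.Helper15
namespace ChevChar

open Cfsg.Lie

set_option maxRecDepth 100000 in
theorem chainOK_F4 : ChainOK chevF4 := by
  decide +kernel

end ChevChar
end Cfsg.Agent.Lib.Helper15
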