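import Cfsg.Prelude.Def_ChevStructure

set_option autoImplicit false

namespace Cfsg.Agent.Lib.Helper15
namespace ChevGen

open Cfsg.Lie

/-- Checker of a reflection path from the root `s` to the root `r`. -/
def pathOk (D : ChevalleyDatum) : ℕ → List ℕ → ℕ → Bool
  | s, [], r => decide (s = r)
  | s, i :: w, r => decide (i < D.rank) && (decide (s < D.nroots) && pathOk D (D.reflectRoot i s) w r)

theorem path_sound (D : ChevalleyDatum) (P : ℕ → Prop)
    (hstep : ∀ i s, i < D.rank → s < D.nroots → P s → P (D.reflectRoot i s)) :
    ∀ (w : List ℕ) (s r : ℕ), pathOk D s w r = true → P s → P r := by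
  intro w
  induction w with
  | nil =>
    intro s r h hs
    have h1 : s = r := by simpa [pathOk] using h
    rw [← h1]
    exact hs
  | cons i w ih =>
    intro s r h hs
    simp only [pathOk, Bool.and_eq_true, decide_eq_true_eq] at h
    obtain ⟨h1, h2, h3⟩ := h
    exact ih _ _ h3 (hstep i s h1 h2 hs)

/-- `s` is a fundamental root or the negative of one. -/
def startOk (D : ChevalleyDatum) (s : ℕ) : Bool :=
  (List.range D.rank).any fun i => s == D.simple i || s == D.neg (D.simple i)

theorem startOk_spec (D : ChevalleyDatum) {s : ℕ} (h : startOk D s = true) :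
    ∃ i, i < D.rank ∧ (s = D.simple i ∨ s = D.neg (D.simple i)) := by
  unfold startOk at h
  rw [List.any_eq_true] at h
  obtain ⟨i, hi, h1⟩ := h
  refine ⟨i, List.mem_range.1 hi, ?_⟩
  simpa using h1

/-- The facts about the tables used for generation by fundamental root elements. -/
def GenCert (D : ChevalleyDatum) (cert : List (ℕ × List ℕ)) : Prop :=
  (∀ i, i < D.rank → D.simple i < D.nroots ∧ D.neg (D.simple i) < D.nroots) ∧
    ∀ r, r < D.nroots → startOk D (cert.getD r (0, [])).1 = true ∧
      pathOk D (cert.getD r (0, [])).1 (cert.getD r (0, [])).2 r = true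

instance (D : ChevalleyDatum) (cert : List (ℕ × List ℕ)) : Decidable (GenCert D cert) := by
  unfold GenCert
  infer_instance

end ChevGen
end Cfsg.Agent.Lib.Helper15
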