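import Cfsg.Agent.S1023
import Cfsg.Agent.S1024
import Cfsg.Agent.S1031
import Cfsg.Agent.Lib.Helper15.ChevPath

set_option autoImplicit false

namespace Cfsg.Agent.Lib.Helper15
namespace ChevGen

open Cfsg.Lie

/-- The seven tabulated types. -/
abbrev Seven (D : ChevalleyDatum) : Prop :=
  D ∈ [chevG2, chevB2, chevD4, chevF4, chevE6, chevE7, chevE8]

section
variable {F : Type*} [Field F] (D : ChevalleyDatum)

theorem x_mul_neg (hD : Seven D) {r : ℕ} (hr : r < D.nroots) (t : F) :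
    D.x F r t * D.x F r (-t) = 1 := by
  rw [Cfsg.Agent.S1023.result D hD r hr, add_neg_cancel]
  exact (Cfsg.Agent.S1024.result D hD r hr 0).2 rfl

theorem x_neg_mul (hD : Seven D) {r : ℕ} (hr : r < D.nroots) (t : F) :
    D.x F r (-t) * D.x F r t = 1 := by
  rw [Cfsg.Agent.S1023.result D hD r hr, neg_add_cancel]
  exact (Cfsg.Agent.S1024.result D hD r hr 0).2 rfl

/-- The root element as a unit. -/
def xU (hD : Seven D) {r : ℕ} (hr : r < D.nroots) (t : F) : GL D.Idx F :=
  ⟨D.x F r t, D.x F r (-t), x_mul_neg D hD hr t, x_neg_mul D hD hr t⟩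

theorem xU_coe (hD : Seven D) {r : ℕ} (hr : r < D.nroots) (t : F) :
    ((xU D hD hr t : GL D.Idx F) : Matrix D.Idx D.Idx F) = D.x F r t := rfl

/-- The element `n_p` lies in any subgroup containing the root elements of `±p`. -/
theorem exists_N (hD : Seven D) (H : Subgroup (GL D.Idx F)) {p : ℕ} (hp : p < D.nroots)
    (hn : D.neg p < D.nroots)
    (hH1 : ∀ (t : F) (g : GL D.Idx F), (g : Matrix D.Idx D.Idx F) = D.x F p t → g ∈ H)
    (hH2 : ∀ (t : F) (g : GL D.Idx F), (g : Matrix D.Idx D.Idx F) = D.x F (D.neg p) t → g ∈ H) :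
    ∃ N : GL D.Idx F, (N : Matrix D.Idx D.Idx F) = D.nMat F p 1 ∧ N ∈ H := by
  refine ⟨xU D hD hp 1 * xU D hD hn (-(1 : F)⁻¹) * xU D hD hp 1, ?_, ?_⟩
  · rw [Units.val_mul, Units.val_mul, xU_coe, xU_coe]
    unfold ChevalleyDatum.nMat ChevalleyDatum.nWord ChevalleyDatum.wordMat
    simp only [List.map_cons, List.map_nil, List.prod_cons, List.prod_nil, mul_one, mul_assoc]
  · exact H.mul_mem (H.mul_mem (hH1 _ _ rfl) (hH2 _ _ rfl)) (hH1 _ _ rfl)

/-- One reflection step. -/
theorem step (hD : Seven D) (H : Subgroup (GL D.Idx F)) {i s : ℕ} (hi : i < D.rank)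
    (hs : s < D.nroots) (N : GL D.Idx F)
    (hN : (N : Matrix D.Idx D.Idx F) = D.nMat F (D.simple i) 1) (hNH : N ∈ H)
    (hP : ∀ (t : F) (g : GL D.Idx F), (g : Matrix D.Idx D.Idx F) = D.x F s t → g ∈ H) :
    ∀ (t : F) (g : GL D.Idx F),
      (g : Matrix D.Idx D.Idx F) = D.x F (D.reflectRoot i s) t → g ∈ H := by
  obtain ⟨η, hη, hrel⟩ := Cfsg.Agent.S1031.result (F := F) D hD i s hi hs
  intro t g hg
  have hηη : ((η : ℤ) : F) * ((η : F) * t) = t := by
    rcases hη with rfl | rfl <;> simp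
  have h1 := hrel ((η : F) * t)
  rw [hηη, ← hg, ← hN] at h1
  have h2 : ((N⁻¹ * g * N : GL D.Idx F) : Matrix D.Idx D.Idx F) = D.x F s ((η : F) * t) := by
    rw [Units.val_mul, Units.val_mul, mul_assoc, ← h1, ← mul_assoc, ← Units.val_mul,
      inv_mul_cancel, Units.val_one, one_mul]
  have h3 := hP _ _ h2
  have h4 : g = N * (N⁻¹ * g * N) * N⁻¹ := by group
  rw [h4]
  exact H.mul_mem (H.mul_mem hNH h3) (H.inv_mem hNH)

end

/-- A subgroup containing the root elements of the fundamental roots and their negatives contains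
the Chevalley group. -/
theorem gen_le {F : Type*} [Field F] (D : ChevalleyDatum) (hD : Seven D)
    (cert : List (ℕ × List ℕ)) (hcert : GenCert D cert) (H : Subgroup (GL D.Idx F))
    (hH : ∀ i, i < D.rank → ∀ (t : F) (g : GL D.Idx F),
      ((g : Matrix D.Idx D.Idx F) = D.x F (D.simple i) t ∨
        (g : Matrix D.Idx D.Idx F) = D.x F (D.neg (D.simple i)) t) → g ∈ H) :
    D.group F ≤ H := by
  obtain ⟨hsimple, hpaths⟩ := hcert
  have hstep : ∀ i s, i < D.rank → s < D.nroots →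
      (∀ (t : F) (g : GL D.Idx F), (g : Matrix D.Idx D.Idx F) = D.x F s t → g ∈ H) →
      (∀ (t : F) (g : GL D.Idx F),
        (g : Matrix D.Idx D.Idx F) = D.x F (D.reflectRoot i s) t → g ∈ H) := by
    intro i s hi hs hP
    obtain ⟨N, hN, hNH⟩ := exists_N D hD H (hsimple i hi).1 (hsimple i hi).2
      (fun t g hg => hH i hi t g (Or.inl hg)) (fun t g hg => hH i hi t g (Or.inr hg))
    exact step D hD H hi hs N hN hNH hP
  have hall : ∀ r, r < D.nroots →
      ∀ (t : F) (g : GL D.Idx F), (g : Matrix D.Idx D.Idx F) = D.x F r t → g ∈ H := by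
    intro r hr
    obtain ⟨h1, h2⟩ := hpaths r hr
    refine path_sound D (fun r => ∀ (t : F) (g : GL D.Idx F),
      (g : Matrix D.Idx D.Idx F) = D.x F r t → g ∈ H) hstep _ _ _ h2 ?_
    obtain ⟨i, hi, h3 | h3⟩ := startOk_spec D h1
    · intro t g hg
      rw [h3] at hg
      exact hH i hi t g (Or.inl hg)
    · intro t g hg
      rw [h3] at hg
      exact hH i hi t g (Or.inr hg)
  unfold ChevalleyDatum.group
  rw [Subgroup.closure_le]
  rintro g ⟨r, t, hg⟩
  refine hall r.val r.isLt t g ?_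
  rw [hg]
  unfold ChevalleyDatum.x
  rw [dif_pos r.isLt]

end ChevGen
end Cfsg.Agent.Lib.Helper15
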