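import Cfsg.Prelude.Def_ChevAutomorphisms

set_option autoImplicit false

namespace Cfsg.Agent.Lib.Helper15
namespace ChevGen

open Cfsg.Lie

/-- Table facts about the action of diagram symmetries on roots. -/
def SymOK (D : ChevalleyDatum) : Prop :=
  ∀ π : Equiv.Perm (Fin D.rank), D.IsDiagramSymmetry π →
    (∀ i : Fin D.rank, D.permRoot π (D.simple i) = D.simple (π i) ∧
      D.permRoot π (D.neg (D.simple i)) = D.neg (D.simple (π i))) ∧
    (∀ i : Fin D.rank, ∀ s, s < D.nroots → D.permRoot π s < D.nroots ∧
      D.reflectRoot (π i) (D.permRoot π s) = D.permRoot π (D.reflectRoot i s))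

instance (D : ChevalleyDatum) (π : Equiv.Perm (Fin D.rank)) :
    Decidable (D.IsDiagramSymmetry π) := by
  unfold ChevalleyDatum.IsDiagramSymmetry
  infer_instance

instance (D : ChevalleyDatum) : Decidable (SymOK D) := by
  unfold SymOK
  infer_instance

end ChevGen
end Cfsg.Agent.Lib.Helper15
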