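import Cfsg.Agent.Lib.Helper15.ChevGen
import Cfsg.Agent.Lib.Helper15.ChevSym

set_option autoImplicit false

namespace Cfsg.Agent.Lib.Helper15
namespace ChevGen

open Cfsg.Lie

section
variable {F : Type*} [Field F] (D : ChevalleyDatum)

/-- The root element as an element of the Chevalley group. -/
def xG (hD : Seven D) {r : ℕ} (hr : r < D.nroots) (t : F) : ↥(D.group F) :=
  ⟨xU D hD hr t, Subgroup.subset_closure ⟨⟨r, hr⟩, t, by
    rw [xU_coe]
    unfold ChevalleyDatum.x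
    rw [dif_pos hr]⟩⟩

theorem xG_coe (hD : Seven D) {r : ℕ} (hr : r < D.nroots) (t : F) :
    (((xG D hD hr t : ↥(D.group F)) : GL D.Idx F) : Matrix D.Idx D.Idx F) = D.x F r t := rfl

theorem coe_mul3 (a b c : ↥(D.group F)) :
    (((a * b * c : ↥(D.group F)) : GL D.Idx F) : Matrix D.Idx D.Idx F) =
      ((a : GL D.Idx F) : Matrix D.Idx D.Idx F) * ((b : GL D.Idx F) : Matrix D.Idx D.Idx F) *
        ((c : GL D.Idx F) : Matrix D.Idx D.Idx F) := by
  rw [Subgroup.coe_mul, Subgroup.coe_mul, Units.val_mul, Units.val_mul]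

/-- The element `n_p` of the Chevalley group. -/
def nG (hD : Seven D) {p : ℕ} (hp : p < D.nroots) (hn : D.neg p < D.nroots) : ↥(D.group F) :=
  xG D hD hp 1 * xG D hD hn (-(1 : F)⁻¹) * xG D hD hp 1

theorem nMat_eq (p : ℕ) :
    D.nMat F p 1 = D.x F p 1 * D.x F (D.neg p) (-(1 : F)⁻¹) * D.x F p 1 := by
  unfold ChevalleyDatum.nMat ChevalleyDatum.nWord ChevalleyDatum.wordMat
  simp only [List.map_cons, List.map_nil, List.prod_cons, List.prod_nil, mul_one, mul_assoc]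

theorem nG_coe (hD : Seven D) {p : ℕ} (hp : p < D.nroots) (hn : D.neg p < D.nroots) :
    (((nG (F := F) D hD hp hn : ↥(D.group F)) : GL D.Idx F) : Matrix D.Idx D.Idx F) =
      D.nMat F p 1 := by
  unfold nG
  rw [coe_mul3, xG_coe, xG_coe, nMat_eq]

theorem phi_nG (hD : Seven D) (φ : ↥(D.group F) ≃* ↥(D.group F)) {p p' : ℕ}
    (hp : p < D.nroots) (hn : D.neg p < D.nroots)
    (h1 : ∀ (g : ↥(D.group F)) (t : F),
      ((g : GL D.Idx F) : Matrix D.Idx D.Idx F) = D.x F p t →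
        ((φ g : GL D.Idx F) : Matrix D.Idx D.Idx F) = D.x F p' t)
    (h2 : ∀ (g : ↥(D.group F)) (t : F),
      ((g : GL D.Idx F) : Matrix D.Idx D.Idx F) = D.x F (D.neg p) t →
        ((φ g : GL D.Idx F) : Matrix D.Idx D.Idx F) = D.x F (D.neg p') t) :
    ((φ (nG (F := F) D hD hp hn) : GL D.Idx F) : Matrix D.Idx D.Idx F) = D.nMat F p' 1 := by
  unfold nG
  rw [map_mul, map_mul, coe_mul3, h1 _ _ (xG_coe D hD hp 1), h2 _ _ (xG_coe D hD hn _), nMat_eq]

/-- Images of root elements under an automorphism permuting the fundamental root elements. -/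
theorem graph_root_signs (hD : Seven D) (cert : List (ℕ × List ℕ)) (hcert : GenCert D cert)
    (hsym : SymOK D) (π : Equiv.Perm (Fin D.rank)) (hπ : D.IsDiagramSymmetry π)
    (φ : ↥(D.group F) ≃* ↥(D.group F))
    (hφ : ∀ (g : ↥(D.group F)) (i : Fin D.rank) (t : F),
      (((g : GL D.Idx F) : Matrix D.Idx D.Idx F) = D.x F (D.simple i) t →
        ((φ g : GL D.Idx F) : Matrix D.Idx D.Idx F) = D.x F (D.simple (π i)) t) ∧
      (((g : GL D.Idx F) : Matrix D.Idx D.Idx F) = D.x F (D.neg (D.simple i)) t →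
        ((φ g : GL D.Idx F) : Matrix D.Idx D.Idx F) = D.x F (D.neg (D.simple (π i))) t))
    (r : ℕ) (hr : r < D.nroots) :
    ∃ ε : F, (ε = 1 ∨ ε = -1) ∧ ∀ (g : ↥(D.group F)) (t : F),
      ((g : GL D.Idx F) : Matrix D.Idx D.Idx F) = D.x F r t →
        ((φ g : GL D.Idx F) : Matrix D.Idx D.Idx F) = D.x F (D.permRoot π r) (ε * t) := by
  obtain ⟨hsimple, hpaths⟩ := hcert
  obtain ⟨hT1, hT2⟩ := hsym π hπ
  obtain ⟨h1, h2⟩ := hpaths r hr
  refine path_sound D (fun r => ∃ ε : F, (ε = 1 ∨ ε = -1) ∧ ∀ (g : ↥(D.group F)) (t : F),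
      ((g : GL D.Idx F) : Matrix D.Idx D.Idx F) = D.x F r t →
        ((φ g : GL D.Idx F) : Matrix D.Idx D.Idx F) = D.x F (D.permRoot π r) (ε * t)) ?_ _ _ _ h2 ?_
  · intro i s hi hs hQ
    obtain ⟨ε, hε, hQ⟩ := hQ
    have hp := (hsimple i hi).1
    have hn := (hsimple i hi).2
    have hp' := (hsimple _ (π ⟨i, hi⟩).isLt).1
    have hs' := (hT2 ⟨i, hi⟩ s hs).1
    have hrefl : D.reflectRoot (π ⟨i, hi⟩) (D.permRoot π s) = D.permRoot π (D.reflectRoot i s) :=
      (hT2 ⟨i, hi⟩ s hs).2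
    obtain ⟨η, hη, hrel⟩ := Cfsg.Agent.S1031.result (F := F) D hD i s hi hs
    obtain ⟨η', hη', hrel'⟩ := Cfsg.Agent.S1031.result (F := F) D hD (π ⟨i, hi⟩) (D.permRoot π s)
      (π ⟨i, hi⟩).isLt hs'
    rw [hrefl] at hrel'
    obtain ⟨N, hNdef⟩ : ∃ N : ↥(D.group F), N = nG (F := F) D hD hp hn := ⟨_, rfl⟩
    have hN : ((N : GL D.Idx F) : Matrix D.Idx D.Idx F) = D.nMat F (D.simple i) 1 := by
      rw [hNdef]
      exact nG_coe D hD hp hn
    have hφN : ((φ N : GL D.Idx F) : Matrix D.Idx D.Idx F) =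
        D.nMat F (D.simple (π ⟨i, hi⟩)) 1 := by
      rw [hNdef]
      exact phi_nG D hD φ hp hn (fun g t hg => (hφ g ⟨i, hi⟩ t).1 hg)
        (fun g t hg => (hφ g ⟨i, hi⟩ t).2 hg)
    refine ⟨(η' : F) * ε * (η : F), ?_, ?_⟩
    · rcases hη with rfl | rfl <;> rcases hη' with rfl | rfl <;> rcases hε with rfl | rfl <;> simp
    · intro g t hg
      have hηη : ((η : ℤ) : F) * ((η : F) * t) = t := by
        rcases hη with rfl | rfl <;> simp
      have e1 := hrel ((η : F) * t)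
      rw [hηη, ← hg, ← hN] at e1
      have hgs : (((N⁻¹ * g * N : ↥(D.group F)) : GL D.Idx F) : Matrix D.Idx D.Idx F) =
          D.x F s ((η : F) * t) := by
        rw [coe_mul3, mul_assoc, ← e1, ← mul_assoc, ← Units.val_mul, ← Subgroup.coe_mul,
          inv_mul_cancel, Subgroup.coe_one, Units.val_one, one_mul]
      have e2 := hQ _ _ hgs
      have e3 := hrel' (ε * ((η : F) * t))
      rw [← e2, ← hφN] at e3
      have hgeq : g = N * (N⁻¹ * g * N) * N⁻¹ := by group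
      have e4 : φ g = φ N * φ (N⁻¹ * g * N) * (φ N)⁻¹ := by
        conv_lhs => rw [hgeq]
        rw [map_mul, map_mul, map_inv]
      rw [e4, coe_mul3, e3, mul_assoc, ← Units.val_mul, ← Subgroup.coe_mul, mul_inv_cancel,
        Subgroup.coe_one, Units.val_one, mul_one]
      congr 1
      ring
  · obtain ⟨i, hi, h3 | h3⟩ := startOk_spec D h1
    · refine ⟨1, Or.inl rfl, ?_⟩
      intro g t hg
      rw [h3] at hg ⊢
      rw [one_mul, (hT1 ⟨i, hi⟩).1]
      exact (hφ g ⟨i, hi⟩ t).1 hg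
    · refine ⟨1, Or.inl rfl, ?_⟩
      intro g t hg
      rw [h3] at hg ⊢
      rw [one_mul, (hT1 ⟨i, hi⟩).2]
      exact (hφ g ⟨i, hi⟩ t).2 hg

end

end ChevGen
end Cfsg.Agent.Lib.Helper15
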