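import Cfsg.Prelude.Def_ChevStructure

set_option autoImplicit false

namespace Cfsg.Agent.Lib.Helper15
namespace ChevGraphEx

open Cfsg.Lie

/-- The root permutation as a function on all natural numbers. -/
def rhoF (n : ℕ) (rho : List ℕ) (r : ℕ) : ℕ := if r < n then rho.getD r 0 else r

/-- The chain table entries for the pair `(r, s)`. -/
def Ltab (D : ChevalleyDatum) (r s : ℕ) : List (ℕ × ℕ × ℤ) :=
  ((D.chain.getD r #[]).toList.filter (fun e => e.1 = s)).flatMap fun e =>
    (e.2.toList.zipIdx).map fun q => (q.1.1, q.2 + 1, q.1.2)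

theorem chainCoeff_eq (D : ChevalleyDatum) (r s u : ℕ) :
    D.chainCoeff r s u = ((Ltab D r s).filter (fun x => x.1 = u)).map (fun x => x.2) := by
  unfold ChevalleyDatum.chainCoeff Ltab
  rw [List.filter_flatMap, List.map_flatMap]
  congr 1
  funext e
  rw [List.filter_map, List.map_map]
  rfl

def Chk1 (D : ChevalleyDatum) (rho rhoInv : List ℕ) : Prop :=
  ∀ r, r < D.nroots → rho.getD r 0 < D.nroots ∧ rhoInv.getD r 0 < D.nroots ∧
    rho.getD (rhoInv.getD r 0) 0 = r ∧ rhoInv.getD (rho.getD r 0) 0 = r ∧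
    D.negIdx.getD r 0 < D.nroots

def Chk2 (D : ChevalleyDatum) (perm permInv : List ℕ) : Prop :=
  ∀ i, i < D.rank → perm.getD i 0 < D.rank ∧ permInv.getD i 0 < D.rank ∧
    perm.getD (permInv.getD i 0) 0 = i ∧ permInv.getD (perm.getD i 0) 0 = i

def Chk3 (D : ChevalleyDatum) (rho : List ℕ) (eps : List ℤ) : Prop :=
  ∀ r, r < D.nroots → D.negIdx.getD (rho.getD r 0) 0 = rho.getD (D.negIdx.getD r 0) 0 ∧
    eps.getD (D.negIdx.getD r 0) 1 = eps.getD r 1 ∧ (eps.getD r 1 = 1 ∨ eps.getD r 1 = -1)

def Chk4 (D : ChevalleyDatum) (perm rho : List ℕ) : Prop :=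
  ∀ i, i < D.rank → ∀ r, r < D.nroots →
    (D.cartanSR.getD (perm.getD i 0) #[]).getD (rho.getD r 0) 0 =
      (D.cartanSR.getD i #[]).getD r 0 ∧
    (D.coroot.getD (rho.getD r 0) #[]).getD (perm.getD i 0) 0 = (D.coroot.getD r #[]).getD i 0

def Chk5 (D : ChevalleyDatum) (rho : List ℕ) (eps : List ℤ) : Prop :=
  ∀ r, r < D.nroots → ∀ s, s < D.nroots →
    Ltab D (rho.getD r 0) (rho.getD s 0) = (Ltab D r s).map (fun x =>
      (rhoF D.nroots rho x.1, x.2.1, eps.getD x.1 1 * eps.getD s 1 * eps.getD r 1 ^ x.2.1 * x.2.2))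

def Chk6 (D : ChevalleyDatum) (perm rho : List ℕ) (eps : List ℤ) : Prop :=
  ∀ i, i < D.rank → D.simple i < D.nroots ∧ D.neg (D.simple i) < D.nroots ∧
    rho.getD (D.simple i) 0 = D.simple (perm.getD i 0) ∧
    rho.getD (D.neg (D.simple i)) 0 = D.neg (D.simple (perm.getD i 0)) ∧
    eps.getD (D.simple i) 1 = 1 ∧ eps.getD (D.neg (D.simple i)) 1 = 1

instance (D : ChevalleyDatum) (rho rhoInv : List ℕ) : Decidable (Chk1 D rho rhoInv) := by
  unfold Chk1
  infer_instance

instance (D : ChevalleyDatum) (perm permInv : List ℕ) : Decidable (Chk2 D perm permInv) := by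
  unfold Chk2
  infer_instance

instance (D : ChevalleyDatum) (rho : List ℕ) (eps : List ℤ) : Decidable (Chk3 D rho eps) := by
  unfold Chk3
  infer_instance

instance (D : ChevalleyDatum) (perm rho : List ℕ) : Decidable (Chk4 D perm rho) := by
  unfold Chk4
  infer_instance

instance (D : ChevalleyDatum) (rho : List ℕ) (eps : List ℤ) : Decidable (Chk5 D rho eps) := by
  unfold Chk5
  infer_instance

instance (D : ChevalleyDatum) (perm rho : List ℕ) (eps : List ℤ) :
    Decidable (Chk6 D perm rho eps) := by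
  unfold Chk6
  infer_instance

/-- The table facts behind a graph automorphism. -/
structure GraphOK (D : ChevalleyDatum) (perm permInv rho rhoInv : List ℕ) (eps : List ℤ) :
    Prop where
  c1 : Chk1 D rho rhoInv
  c2 : Chk2 D perm permInv
  c3 : Chk3 D rho eps
  c4 : Chk4 D perm rho
  c5 : Chk5 D rho eps
  c6 : Chk6 D perm rho eps

section
variable {D : ChevalleyDatum} {perm permInv rho rhoInv : List ℕ} {eps : List ℤ}

theorem rhoF_inj (h1 : Chk1 D rho rhoInv) : Function.Injective (rhoF D.nroots rho) := by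
  intro a b hab
  unfold rhoF at hab
  by_cases ha : a < D.nroots <;> by_cases hb : b < D.nroots
  · rw [if_pos ha, if_pos hb] at hab
    have e1 := (h1 a ha).2.2.2.1
    have e2 := (h1 b hb).2.2.2.1
    rw [← e1, hab, e2]
  · rw [if_pos ha, if_neg hb] at hab
    have := (h1 a ha).1
    omega
  · rw [if_neg ha, if_pos hb] at hab
    have := (h1 b hb).1
    omega
  · rw [if_neg ha, if_neg hb] at hab
    exact hab

/-- The permutation of the fundamental roots. -/
def e1 (h2 : Chk2 D perm permInv) : Fin D.rank ≃ Fin D.rank where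
  toFun i := ⟨perm.getD i.val 0, (h2 i.val i.isLt).1⟩
  invFun i := ⟨permInv.getD i.val 0, (h2 i.val i.isLt).2.1⟩
  left_inv i := Fin.ext (h2 i.val i.isLt).2.2.2
  right_inv i := Fin.ext (h2 i.val i.isLt).2.2.1

/-- The permutation of the roots. -/
def e2 (h1 : Chk1 D rho rhoInv) : Fin D.nroots ≃ Fin D.nroots where
  toFun r := ⟨rho.getD r.val 0, (h1 r.val r.isLt).1⟩
  invFun r := ⟨rhoInv.getD r.val 0, (h1 r.val r.isLt).2.1⟩
  left_inv r := Fin.ext (h1 r.val r.isLt).2.2.2.1
  right_inv r := Fin.ext (h1 r.val r.isLt).2.2.1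

theorem e2_val (h1 : Chk1 D rho rhoInv) (r : Fin D.nroots) :
    (e2 h1 r).val = rho.getD r.val 0 := rfl

theorem e1_val (h2 : Chk2 D perm permInv) (i : Fin D.rank) :
    (e1 h2 i).val = perm.getD i.val 0 := rfl

theorem neg_iff (h1 : Chk1 D rho rhoInv) (h3 : Chk3 D rho eps) (r s : Fin D.nroots) :
    (e2 h1 s).val = D.negIdx.getD (e2 h1 r).val 0 ↔ s.val = D.negIdx.getD r.val 0 := by
  rw [e2_val, e2_val, (h3 r.val r.isLt).1]
  have hn := (h1 r.val r.isLt).2.2.2.2
  constructor
  · intro h
    have a1 := (h1 s.val s.isLt).2.2.2.1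
    have a2 := (h1 _ hn).2.2.2.1
    rw [← a1, h, a2]
  · intro h
    rw [h]

end

section
variable {F : Type*} [Field F] {D : ChevalleyDatum} {perm permInv rho rhoInv : List ℕ}
  {eps : List ℤ}

/-- The signs on the coordinates. -/
def sg (F : Type*) [Field F] (D : ChevalleyDatum) (eps : List ℤ) : D.Idx → F :=
  Sum.elim (fun _ => 1) (fun r => ((eps.getD r.val 1 : ℤ) : F))

theorem eps_sq (h3 : Chk3 D rho eps) (r : ℕ) (hr : r < D.nroots) :
    ((eps.getD r 1 : ℤ) : F) * ((eps.getD r 1 : ℤ) : F) = 1 := by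
  rcases (h3 r hr).2.2 with h | h <;> rw [h] <;> simp

theorem sg_sq (h3 : Chk3 D rho eps) (a : D.Idx) : sg F D eps a * sg F D eps a = 1 := by
  rcases a with i | r
  · simp [sg]
  · simp only [sg, Sum.elim_inr]
    exact eps_sq h3 r.val r.isLt

theorem chain_sum (h1 : Chk1 D rho rhoInv) (h3 : Chk3 D rho eps) (h5 : Chk5 D rho eps)
    (r s u : Fin D.nroots) (t : F) :
    ((D.chainCoeff (rho.getD r.val 0) (rho.getD s.val 0) (rho.getD u.val 0)).map
        fun km => ((km.2 : ℤ) : F) * (((eps.getD r.val 1 : ℤ) : F) * t) ^ km.1).sum =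
      ((eps.getD u.val 1 : ℤ) : F) * ((eps.getD s.val 1 : ℤ) : F) *
        ((D.chainCoeff r.val s.val u.val).map fun km => ((km.2 : ℤ) : F) * t ^ km.1).sum := by
  have hu : rho.getD u.val 0 = rhoF D.nroots rho u.val := by
    unfold rhoF
    rw [if_pos u.isLt]
  rw [chainCoeff_eq, chainCoeff_eq, h5 r.val r.isLt s.val s.isLt, List.filter_map, List.map_map,
    List.map_map, List.map_map, ← List.sum_map_mul_left]
  have hfil : (List.filter ((fun x : ℕ × ℕ × ℤ => decide (x.1 = rho.getD u.val 0)) ∘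
      fun x : ℕ × ℕ × ℤ => (rhoF D.nroots rho x.1, x.2.1,
        eps.getD x.1 1 * eps.getD s.val 1 * eps.getD r.val 1 ^ x.2.1 * x.2.2)) (Ltab D r.val s.val)) =
      List.filter (fun x : ℕ × ℕ × ℤ => decide (x.1 = u.val)) (Ltab D r.val s.val) := by
    apply List.filter_congr
    intro x _
    simp only [Function.comp_apply, decide_eq_decide]
    rw [hu]
    exact (rhoF_inj h1).eq_iff
  rw [hfil]
  apply congrArg
  apply List.map_congr_left
  intro x hx
  have hx1 : x.1 = u.val := by
    have := (List.mem_filter.1 hx).2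
    simpa using this
  simp only [Function.comp_apply]
  rw [hx1]
  push_cast
  have hsq := eps_sq (F := F) h3 r.val r.isLt
  have hpow : ((eps.getD r.val 1 : ℤ) : F) ^ x.2.1 * ((eps.getD r.val 1 : ℤ) : F) ^ x.2.1 = 1 := by
    rw [← mul_pow, hsq, one_pow]
  rw [mul_pow]
  calc ((eps.getD u.val 1 : ℤ) : F) * ((eps.getD s.val 1 : ℤ) : F) *
        ((eps.getD r.val 1 : ℤ) : F) ^ x.2.1 * ((x.2.2 : ℤ) : F) *
        (((eps.getD r.val 1 : ℤ) : F) ^ x.2.1 * t ^ x.2.1)
      = ((eps.getD u.val 1 : ℤ) : F) * ((eps.getD s.val 1 : ℤ) : F) *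
        (((x.2.2 : ℤ) : F) * t ^ x.2.1) *
        (((eps.getD r.val 1 : ℤ) : F) ^ x.2.1 * ((eps.getD r.val 1 : ℤ) : F) ^ x.2.1) := by ring
    _ = _ := by rw [hpow, mul_one]

end

section
variable {F : Type*} [Field F] {D : ChevalleyDatum} {perm permInv rho rhoInv : List ℕ}
  {eps : List ℤ}

/-- The entries of the root elements under the signed permutation of the coordinates. -/
theorem entry (hok : GraphOK D perm permInv rho rhoInv eps) (r : Fin D.nroots) (t : F)
    (a b : D.Idx) :
    D.xMat F (e2 hok.c1 r) (((eps.getD r.val 1 : ℤ) : F) * t)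
        (Equiv.sumCongr (e1 hok.c2) (e2 hok.c1) a) (Equiv.sumCongr (e1 hok.c2) (e2 hok.c1) b) =
      sg F D eps a * sg F D eps b * D.xMat F r t a b := by
  obtain ⟨h1, h2, h3, h4, h5, h6⟩ := hok
  have hsq := fun a => sg_sq (F := F) h3 a
  have hesq := fun r hr => eps_sq (F := F) h3 r hr
  unfold ChevalleyDatum.xMat
  simp only [Matrix.of_apply]
  rcases b with i | s
  · rcases a with i' | u
    · simp [sg]
    · simp only [Equiv.sumCongr_apply, Sum.map_inr, Sum.map_inl, sg, Sum.elim_inr, Sum.elim_inl,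
        EmbeddingLike.apply_eq_iff_eq, mul_one]
      by_cases hu : u = r
      · subst hu
        simp only [if_true]
        rw [e2_val, e1_val, (h4 i.val i.isLt u.val u.isLt).1]
        ring
      · simp only [if_neg hu, mul_zero]
  · simp only [Equiv.sumCongr_apply, Sum.map_inr, EmbeddingLike.apply_eq_iff_eq]
    by_cases hs : s = r
    · subst hs
      simp only [if_true]
      rcases a with i' | u
      · simp
      · simp only [Sum.map_inr, EmbeddingLike.apply_eq_iff_eq]
        by_cases hu : u = s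
        · subst hu
          simp only [if_true, mul_one]
          exact (hsq _).symm
        · simp only [if_neg hu, mul_zero]
    · simp only [if_neg hs]
      simp only [neg_iff h1 h3 r s]
      by_cases hsn : s.val = D.negIdx.getD r.val 0
      · simp only [if_pos hsn]
        have hεs : ((eps.getD s.val 1 : ℤ) : F) = ((eps.getD r.val 1 : ℤ) : F) := by
          rw [hsn, (h3 r.val r.isLt).2.1]
        rcases a with i' | u
        · simp only [Sum.map_inl, sg, Sum.elim_inl, Sum.elim_inr, one_mul]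
          rw [e2_val, e1_val, (h4 i'.val i'.isLt r.val r.isLt).2, hεs]
          ring
        · simp only [Sum.map_inr, EmbeddingLike.apply_eq_iff_eq]
          by_cases hu : u = s
          · subst hu
            simp only [if_true, mul_one]
            exact (hsq _).symm
          · simp only [if_neg hu]
            by_cases hu2 : u = r
            · subst hu2
              simp only [if_true, sg, Sum.elim_inr]
              rw [hεs]
              have := hesq u.val u.isLt
              calc -(((eps.getD u.val 1 : ℤ) : F) * t) ^ 2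
                  = (((eps.getD u.val 1 : ℤ) : F) * ((eps.getD u.val 1 : ℤ) : F)) * -(t ^ 2) := by
                    ring
                _ = _ := by rw [mul_assoc]
            · simp only [if_neg hu2, mul_zero]
      · simp only [if_neg hsn]
        rcases a with i' | u
        · simp
        · simp only [Sum.map_inr, EmbeddingLike.apply_eq_iff_eq, sg, Sum.elim_inr]
          rw [mul_add, e2_val, e2_val, e2_val, chain_sum h1 h3 h5 r s u t]
          congr 1
          by_cases hu : u = s
          · subst hu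
            simp only [if_true, mul_one]
            exact (hesq _ u.isLt).symm
          · simp only [if_neg hu, mul_zero]

/-- The multiplicative automorphism of the matrix ring given by a signed permutation. -/
def graphMul (e : D.Idx ≃ D.Idx) (σ : D.Idx → F) (hσ : ∀ a, σ a * σ a = 1) :
    Matrix D.Idx D.Idx F ≃* Matrix D.Idx D.Idx F where
  toFun M := Matrix.of fun a b => σ (e.symm a) * σ (e.symm b) * M (e.symm a) (e.symm b)
  invFun M := Matrix.of fun a b => σ a * σ b * M (e a) (e b)
  left_inv M := by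
    ext a b
    simp only [Matrix.of_apply, Equiv.symm_apply_apply]
    calc σ a * σ b * (σ a * σ b * M a b) = (σ a * σ a) * (σ b * σ b) * M a b := by ring
      _ = M a b := by rw [hσ, hσ, one_mul, one_mul]
  right_inv M := by
    ext a b
    simp only [Matrix.of_apply, Equiv.apply_symm_apply]
    calc σ (e.symm a) * σ (e.symm b) * (σ (e.symm a) * σ (e.symm b) * M a b) =
        (σ (e.symm a) * σ (e.symm a)) * (σ (e.symm b) * σ (e.symm b)) * M a b := by ring
      _ = M a b := by rw [hσ, hσ, one_mul, one_mul]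
  map_mul' M N := by
    ext a b
    simp only [Matrix.of_apply, Matrix.mul_apply]
    rw [Finset.mul_sum, ← Equiv.sum_comp e.symm]
    apply Finset.sum_congr rfl
    intro c _
    calc σ (e.symm a) * σ (e.symm b) * (M (e.symm a) (e.symm c) * N (e.symm c) (e.symm b)) =
        σ (e.symm a) * σ (e.symm b) * (M (e.symm a) (e.symm c) * N (e.symm c) (e.symm b)) *
          (σ (e.symm c) * σ (e.symm c)) := by rw [hσ, mul_one]
      _ = _ := by ring

/-- The image of a root element. -/
theorem graphMul_xMat (hok : GraphOK D perm permInv rho rhoInv eps) (r : Fin D.nroots) (t : F) :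
    graphMul (Equiv.sumCongr (e1 hok.c2) (e2 hok.c1)) (sg F D eps) (sg_sq hok.c3)
        (D.xMat F r t) =
      D.xMat F (e2 hok.c1 r) (((eps.getD r.val 1 : ℤ) : F) * t) := by
  ext a b
  have h := entry (F := F) hok r t ((Equiv.sumCongr (e1 hok.c2) (e2 hok.c1)).symm a)
    ((Equiv.sumCongr (e1 hok.c2) (e2 hok.c1)).symm b)
  rw [Equiv.apply_symm_apply, Equiv.apply_symm_apply] at h
  rw [h]
  rfl

/-- The automorphism of the general linear group. -/
def graphGL (hok : GraphOK D perm permInv rho rhoInv eps) : GL D.Idx F ≃* GL D.Idx F :=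
  Units.mapEquiv (graphMul (Equiv.sumCongr (e1 hok.c2) (e2 hok.c1)) (sg F D eps) (sg_sq hok.c3))

theorem graphGL_val (hok : GraphOK D perm permInv rho rhoInv eps) (g : GL D.Idx F) :
    ((graphGL (F := F) hok g : GL D.Idx F) : Matrix D.Idx D.Idx F) =
      graphMul (Equiv.sumCongr (e1 hok.c2) (e2 hok.c1)) (sg F D eps) (sg_sq hok.c3)
        (g : Matrix D.Idx D.Idx F) := rfl

theorem graphGL_map (hok : GraphOK D perm permInv rho rhoInv eps) :
    (D.group F).map (graphGL (F := F) hok).toMonoidHom = D.group F := by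
  unfold ChevalleyDatum.group
  rw [MonoidHom.map_closure]
  congr 1
  ext g
  constructor
  · rintro ⟨g0, ⟨r, t, hg0⟩, rfl⟩
    refine ⟨e2 hok.c1 r, ((eps.getD r.val 1 : ℤ) : F) * t, ?_⟩
    show ((graphGL (F := F) hok g0 : GL D.Idx F) : Matrix D.Idx D.Idx F) = _
    rw [graphGL_val, hg0, graphMul_xMat hok]
  · rintro ⟨r, t, hg⟩
    refine ⟨(graphGL (F := F) hok).symm g, ?_, ?_⟩
    · refine ⟨(e2 hok.c1).symm r, ((eps.getD ((e2 hok.c1).symm r).val 1 : ℤ) : F) * t, ?_⟩
      have h := graphMul_xMat (F := F) hok ((e2 hok.c1).symm r)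
        (((eps.getD ((e2 hok.c1).symm r).val 1 : ℤ) : F) * t)
      rw [Equiv.apply_symm_apply, ← mul_assoc, eps_sq hok.c3 _ ((e2 hok.c1).symm r).isLt,
        one_mul, ← hg] at h
      have h2 : ((graphGL (F := F) hok ((graphGL (F := F) hok).symm g) : GL D.Idx F) :
          Matrix D.Idx D.Idx F) = (g : Matrix D.Idx D.Idx F) := by
        rw [MulEquiv.apply_symm_apply]
      rw [graphGL_val] at h2
      exact (graphMul (Equiv.sumCongr (e1 hok.c2) (e2 hok.c1)) (sg F D eps)
        (sg_sq hok.c3)).injective (h2.trans h.symm)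
    · exact MulEquiv.apply_symm_apply _ g

/-- The graph automorphism of the Chevalley group. -/
noncomputable def graphAut (hok : GraphOK D perm permInv rho rhoInv eps) :
    ↥(D.group F) ≃* ↥(D.group F) :=
  ((graphGL (F := F) hok).subgroupMap (D.group F)).trans
    (MulEquiv.subgroupCongr (graphGL_map hok))

theorem graphAut_val (hok : GraphOK D perm permInv rho rhoInv eps) (g : ↥(D.group F)) :
    ((graphAut (F := F) hok g : GL D.Idx F) : Matrix D.Idx D.Idx F) =
      graphMul (Equiv.sumCongr (e1 hok.c2) (e2 hok.c1)) (sg F D eps) (sg_sq hok.c3)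
        ((g : GL D.Idx F) : Matrix D.Idx D.Idx F) := rfl

/-- Existence of the graph automorphism. -/
theorem graph_exists (hok : GraphOK D perm permInv rho rhoInv eps) :
    ∃ α : ↥(D.group F) ≃* ↥(D.group F), ∀ (g : ↥(D.group F)) (i : ℕ) (t : F), i < D.rank →
      (((g : GL D.Idx F) : Matrix D.Idx D.Idx F) = D.x F (D.simple i) t →
        ((α g : GL D.Idx F) : Matrix D.Idx D.Idx F) = D.x F (D.simple (perm.getD i 0)) t) ∧
      (((g : GL D.Idx F) : Matrix D.Idx D.Idx F) = D.x F (D.neg (D.simple i)) t →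
        ((α g : GL D.Idx F) : Matrix D.Idx D.Idx F) =
          D.x F (D.neg (D.simple (perm.getD i 0))) t) := by
  refine ⟨graphAut (F := F) hok, ?_⟩
  intro g i t hi
  obtain ⟨q1, q2, q3, q4, q5, q6⟩ := hok.c6 i hi
  have key : ∀ (s s' : ℕ) (hs : s < D.nroots), rho.getD s 0 = s' → eps.getD s 1 = 1 →
      ((g : GL D.Idx F) : Matrix D.Idx D.Idx F) = D.x F s t →
        ((graphAut (F := F) hok g : GL D.Idx F) : Matrix D.Idx D.Idx F) = D.x F s' t := by
    intro s s' hs hρ hε hg
    have hs' : s' < D.nroots := by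
      rw [← hρ]
      exact (hok.c1 s hs).1
    rw [graphAut_val, hg]
    unfold ChevalleyDatum.x
    rw [dif_pos hs, dif_pos hs', graphMul_xMat hok]
    have he : e2 hok.c1 ⟨s, hs⟩ = ⟨s', hs'⟩ := Fin.ext hρ
    rw [he]
    simp only [hε, Int.cast_one, one_mul]
  exact ⟨key _ _ q1 q3 q5, key _ _ q2 q4 q6⟩

end

end ChevGraphEx
end Cfsg.Agent.Lib.Helper15
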