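import Cfsg.Agent.Lib.Helper15.ChevPath
import Cfsg.Prelude.Def_ChevAutomorphisms

set_option autoImplicit false

namespace Cfsg.Agent.Lib.Helper15
namespace ChevGen

open Cfsg.Lie

/-- Reflection paths from a list of starting roots to every fundamental root and its negative. -/
def SimpCert (D : ChevalleyDatum) (starts : List ℕ)
    (cert : List ((ℕ × List ℕ) × (ℕ × List ℕ))) : Prop :=
  ∀ k, k < D.rank →
    (cert.getD k default).1.1 ∈ starts ∧
    pathOk D (cert.getD k default).1.1 (cert.getD k default).1.2 (D.simple k) = true ∧
    (cert.getD k default).2.1 ∈ starts ∧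
    pathOk D (cert.getD k default).2.1 (cert.getD k default).2.2 (D.neg (D.simple k)) = true

instance (D : ChevalleyDatum) (starts : List ℕ) (cert : List ((ℕ × List ℕ) × (ℕ × List ℕ))) :
    Decidable (SimpCert D starts cert) := by
  unfold SimpCert
  infer_instance

/-- The certificate for generation by the monomial subgroup and one short fundamental root
subgroup. -/
def Cert16OK (D : ChevalleyDatum) (m : ℤ) (hasLong : Bool)
    (certs : List (ℕ × List ℕ × ℕ × ℤ × List ((ℕ × List ℕ) × (ℕ × List ℕ)))) : Prop :=
  ∀ i, i < D.rank → D.isLong (D.simple i) = false →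
    (hasLong = true →
      pathOk D (D.simple i) (certs.getD i default).2.1 (certs.getD i default).1 = true ∧
      (certs.getD i default).1 < D.nroots ∧
      (certs.getD i default).1 ≠ D.neg (D.simple i) ∧
      D.commTerms (D.simple i) (certs.getD i default).1 =
        [((certs.getD i default).2.2.1, (certs.getD i default).2.2.2.1, 1, 1)] ∧
      ((certs.getD i default).2.2.2.1 = m ∨ (certs.getD i default).2.2.2.1 = -m)) ∧
    SimpCert D (if hasLong then [D.simple i, (certs.getD i default).2.2.1] else [D.simple i])
      (certs.getD i default).2.2.2.2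

instance (D : ChevalleyDatum) (m : ℤ) (hasLong : Bool)
    (certs : List (ℕ × List ℕ × ℕ × ℤ × List ((ℕ × List ℕ) × (ℕ × List ℕ)))) :
    Decidable (Cert16OK D m hasLong certs) := by
  unfold Cert16OK
  refine Nat.decidableBallLT _ _

/-- The certificate for generation by the monomial subgroup and two joined fundamental root
subgroups of different lengths. -/
def Cert17OK (D : ChevalleyDatum) (cert : List ((ℕ × List ℕ) × (ℕ × List ℕ))) : Prop :=
  ∀ i, i < D.rank → ∀ j, j < D.rank → D.isLong (D.simple i) = false →
    D.isLong (D.simple j) = true → D.bonds i j ≠ 0 → SimpCert D [D.simple i, D.simple j] cert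

instance (D : ChevalleyDatum) (cert : List ((ℕ × List ℕ) × (ℕ × List ℕ))) :
    Decidable (Cert17OK D cert) := by
  unfold Cert17OK
  infer_instance

end ChevGen
end Cfsg.Agent.Lib.Helper15
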