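import Cfsg.Agent.Lib.Helper15.ChevGen
import Cfsg.Agent.Lib.Helper9.ThmUp
import Cfsg.Agent.Lib.Helper9.CertComm
import Cfsg.Agent.Lib.Helper15.ChevOrbDef

set_option autoImplicit false

namespace Cfsg.Agent.Lib.Helper15
namespace ChevGen

open Cfsg.Lie

section
variable {F : Type*} [Field F] (D : ChevalleyDatum)

/-- The element `n_p` of the monomial subgroup. -/
theorem exists_N_monomial (hD : Seven D) {p : ℕ} (hp : p < D.nroots)
    (hn : D.neg p < D.nroots) :
    ∃ N : GL D.Idx F, (N : Matrix D.Idx D.Idx F) = D.nMat F p 1 ∧ N ∈ D.monomialSubgroup F := by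
  have hval : ((xU D hD hp 1 * xU D hD hn (-(1 : F)⁻¹) * xU D hD hp 1 : GL D.Idx F) :
      Matrix D.Idx D.Idx F) = D.nMat F p 1 := by
    rw [Units.val_mul, Units.val_mul, xU_coe, xU_coe]
    unfold ChevalleyDatum.nMat ChevalleyDatum.nWord ChevalleyDatum.wordMat
    simp only [List.map_cons, List.map_nil, List.prod_cons, List.prod_nil, mul_one, mul_assoc]
  refine ⟨xU D hD hp 1 * xU D hD hn (-(1 : F)⁻¹) * xU D hD hp 1, hval, ?_⟩
  unfold ChevalleyDatum.monomialSubgroup
  exact Subgroup.mem_sup_right (Subgroup.subset_closure ⟨p, hp, hval⟩)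

/-- A subgroup containing the monomial subgroup and the root elements of a list of roots from
which all fundamental roots and their negatives are reached by reflections contains the group. -/
theorem gen_le_of_starts (hD : Seven D) (gcert : List (ℕ × List ℕ)) (hg : GenCert D gcert)
    (starts : List ℕ) (cert : List ((ℕ × List ℕ) × (ℕ × List ℕ)))
    (hc : SimpCert D starts cert) (H : Subgroup (GL D.Idx F))
    (hN : D.monomialSubgroup F ≤ H)
    (hQ : ∀ s ∈ starts, ∀ (t : F) (g : GL D.Idx F),
      (g : Matrix D.Idx D.Idx F) = D.x F s t → g ∈ H) :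
    D.group F ≤ H := by
  have hsimple := hg.1
  have hstep : ∀ i s, i < D.rank → s < D.nroots →
      (∀ (t : F) (g : GL D.Idx F), (g : Matrix D.Idx D.Idx F) = D.x F s t → g ∈ H) →
      (∀ (t : F) (g : GL D.Idx F),
        (g : Matrix D.Idx D.Idx F) = D.x F (D.reflectRoot i s) t → g ∈ H) := by
    intro i s hi hs hP
    obtain ⟨N, hNm, hNH⟩ := exists_N_monomial (F := F) D hD (hsimple i hi).1 (hsimple i hi).2
    exact step D hD H hi hs N hNm (hN hNH) hP
  refine gen_le D hD gcert hg H ?_
  intro k hk t g hg'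
  obtain ⟨h1, h2, h3, h4⟩ := hc k hk
  rcases hg' with hg' | hg'
  · exact path_sound D (fun r => ∀ (t : F) (g : GL D.Idx F),
      (g : Matrix D.Idx D.Idx F) = D.x F r t → g ∈ H) hstep _ _ _ h2 (hQ _ h1) t g hg'
  · exact path_sound D (fun r => ∀ (t : F) (g : GL D.Idx F),
      (g : Matrix D.Idx D.Idx F) = D.x F r t → g ∈ H) hstep _ _ _ h4 (hQ _ h3) t g hg'

/-- Root elements of a root obtained as a single commutator term with invertible coefficient. -/
theorem comm_long (hD : Seven D) (H : Subgroup (GL D.Idx F)) {i s l : ℕ} {c : ℤ}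
    (hi : i < D.rank) (hs : s < D.nroots) (hne : s ≠ D.neg (D.simple i))
    (hterms : D.commTerms (D.simple i) s = [(l, c, 1, 1)]) (hc : ((c : ℤ) : F) ≠ 0)
    (hp : D.simple i < D.nroots)
    (hQp : ∀ (t : F) (g : GL D.Idx F),
      (g : Matrix D.Idx D.Idx F) = D.x F (D.simple i) t → g ∈ H)
    (hQs : ∀ (t : F) (g : GL D.Idx F), (g : Matrix D.Idx D.Idx F) = D.x F s t → g ∈ H) :
    ∀ (t : F) (g : GL D.Idx F), (g : Matrix D.Idx D.Idx F) = D.x F l t → g ∈ H := by
  intro v g hg
  have key := Cfsg.Agent.Lib.Helper9.comm_simple (F := F) (Cfsg.Agent.Lib.Helper9.hok_all D hD)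
    (Cfsg.Agent.Lib.Helper9.commok_all D hD) hi hs hne (-1 : F) (v / ((c : ℤ) : F))
  have hw : D.wordMat F (D.commWord F (D.simple i) s (-1) (v / ((c : ℤ) : F))) = D.x F l v := by
    unfold ChevalleyDatum.commWord ChevalleyDatum.wordMat
    rw [hterms]
    simp only [List.map_cons, List.map_nil, List.prod_cons, List.prod_nil, mul_one, neg_neg,
      pow_one]
    congr 1
    field_simp
  rw [hw] at key
  have hgeq : g = (xU D hD hp (-1 : F) * xU D hD hs (v / ((c : ℤ) : F)))⁻¹ *
      (xU D hD hs (v / ((c : ℤ) : F)) * xU D hD hp (-1 : F)) := by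
    rw [eq_inv_mul_iff_mul_eq]
    apply Units.ext
    rw [Units.val_mul, Units.val_mul, Units.val_mul, hg, xU_coe, xU_coe]
    exact key.symm
  rw [hgeq]
  exact H.mul_mem (H.inv_mem (H.mul_mem (hQp _ _ rfl) (hQs _ _ rfl)))
    (H.mul_mem (hQs _ _ rfl) (hQp _ _ rfl))

end

/-- Generation by the monomial subgroup and one short fundamental root subgroup. -/
theorem gen_le_short {F : Type*} [Field F] (D : ChevalleyDatum) (hD : Seven D)
    (gcert : List (ℕ × List ℕ)) (hg : GenCert D gcert) (m : ℤ) (hasLong : Bool)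
    (certs : List (ℕ × List ℕ × ℕ × ℤ × List ((ℕ × List ℕ) × (ℕ × List ℕ))))
    (hcert : Cert16OK D m hasLong certs) (hm : hasLong = true → ((m : ℤ) : F) ≠ 0)
    (i : ℕ) (hi : i < D.rank) (hshort : D.isLong (D.simple i) = false) :
    D.group F ≤ D.monomialSubgroup F ⊔ D.rootSubgroup F (D.simple i) := by
  obtain ⟨h1, h2⟩ := hcert i hi hshort
  have hQp : ∀ (t : F) (g : GL D.Idx F), (g : Matrix D.Idx D.Idx F) = D.x F (D.simple i) t →
      g ∈ D.monomialSubgroup F ⊔ D.rootSubgroup F (D.simple i) := by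
    intro t g hg'
    exact Subgroup.mem_sup_right (Subgroup.subset_closure ⟨t, hg'⟩)
  have hsimple := hg.1
  have hstep : ∀ k s, k < D.rank → s < D.nroots →
      (∀ (t : F) (g : GL D.Idx F), (g : Matrix D.Idx D.Idx F) = D.x F s t →
        g ∈ D.monomialSubgroup F ⊔ D.rootSubgroup F (D.simple i)) →
      (∀ (t : F) (g : GL D.Idx F),
        (g : Matrix D.Idx D.Idx F) = D.x F (D.reflectRoot k s) t →
          g ∈ D.monomialSubgroup F ⊔ D.rootSubgroup F (D.simple i)) := by
    intro k s hk hs hP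
    obtain ⟨N, hNm, hNH⟩ := exists_N_monomial (F := F) D hD (hsimple k hk).1 (hsimple k hk).2
    exact step D hD _ hk hs N hNm (Subgroup.mem_sup_left hNH) hP
  refine gen_le_of_starts D hD gcert hg _ _ h2 _ le_sup_left ?_
  intro s hs
  cases hL : hasLong with
  | false =>
    rw [hL] at hs
    simp only [Bool.false_eq_true, if_false, List.mem_singleton] at hs
    rw [hs]
    exact hQp
  | true =>
    rw [hL] at hs
    simp only [if_true, List.mem_cons, List.not_mem_nil, or_false] at hs
    obtain ⟨p1, p2, p3, p4, p5⟩ := h1 hL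
    rcases hs with hs | hs
    · rw [hs]
      exact hQp
    · rw [hs]
      have hcF : (((certs.getD i default).2.2.2.1 : ℤ) : F) ≠ 0 := by
        rcases p5 with p5 | p5
        · rw [p5]
          exact hm hL
        · rw [p5, Int.cast_neg]
          exact neg_ne_zero.2 (hm hL)
      refine comm_long D hD _ hi p2 p3 p4 hcF (hsimple i hi).1 hQp ?_
      exact path_sound D (fun r => ∀ (t : F) (g : GL D.Idx F),
        (g : Matrix D.Idx D.Idx F) = D.x F r t →
          g ∈ D.monomialSubgroup F ⊔ D.rootSubgroup F (D.simple i)) hstep _ _ _ p1 hQp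

/-- Generation by the monomial subgroup and two fundamental root subgroups. -/
theorem gen_le_two {F : Type*} [Field F] (D : ChevalleyDatum) (hD : Seven D)
    (gcert : List (ℕ × List ℕ)) (hg : GenCert D gcert)
    (cert : List ((ℕ × List ℕ) × (ℕ × List ℕ))) (i j : ℕ)
    (hcert : SimpCert D [D.simple i, D.simple j] cert) :
    D.group F ≤ D.monomialSubgroup F ⊔ D.rootSubgroup F (D.simple i) ⊔
      D.rootSubgroup F (D.simple j) := by
  refine gen_le_of_starts D hD gcert hg _ _ hcert _ (le_sup_of_le_left le_sup_left) ?_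
  intro s hs t g hg'
  simp only [List.mem_cons, List.not_mem_nil, or_false] at hs
  rcases hs with hs | hs
  · rw [hs] at hg'
    exact Subgroup.mem_sup_left (Subgroup.mem_sup_right (Subgroup.subset_closure ⟨t, hg'⟩))
  · rw [hs] at hg'
    exact Subgroup.mem_sup_right (Subgroup.subset_closure ⟨t, hg'⟩)

end ChevGen
end Cfsg.Agent.Lib.Helper15
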