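import Cfsg.Agent.Lib.Helper15.ChevPath
import Cfsg.Prelude.Def_ChevB2

set_option autoImplicit false

namespace Cfsg.Agent.Lib.Helper15
namespace ChevGen

open Cfsg.Lie

/-- Reflection paths from fundamental roots (or their negatives) to every root, type B2. -/
def gcertB2 : List (ℕ × List ℕ) :=
  [(3, [0]), (2, [1]), (2, []), (3, []), (4, []), (5, []), (5, [1]), (4, [0])]

set_option maxRecDepth 100000 in
theorem gcertB2_ok : GenCert chevB2 gcertB2 := by
  decide +kernel

end ChevGen
end Cfsg.Agent.Lib.Helper15
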