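import Cfsg.Agent.Lib.Helper15.ChevPath
import Cfsg.Prelude.Def_ChevD4

set_option autoImplicit false

namespace Cfsg.Agent.Lib.Helper15
namespace ChevGen

open Cfsg.Lie

/-- Reflection paths from fundamental roots (or their negatives) to every root, type D4. -/
def gcertD4 : List (ℕ × List ℕ) :=
  [(5, [1, 2, 3, 1]), (5, [1, 2, 3]), (5, [1, 2]), (5, [1, 3]), (5, [1]), (5, []), (9, [2, 3]),
   (9, [2]), (9, [3]), (9, []), (10, []), (11, []), (12, []), (13, []), (14, []), (14, [3]),
   (14, [2]), (14, [2, 3]), (18, []), (18, [1]), (18, [1, 3]), (18, [1, 2]), (18, [1, 2, 3]),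
   (18, [1, 2, 3, 1])]

set_option maxRecDepth 100000 in
theorem gcertD4_ok : GenCert chevD4 gcertD4 := by
  decide +kernel

end ChevGen
end Cfsg.Agent.Lib.Helper15
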