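import Cfsg.Agent.Lib.Helper15.ChevPath
import Cfsg.Prelude.Def_ChevE6

set_option autoImplicit false

namespace Cfsg.Agent.Lib.Helper15
namespace ChevGen

open Cfsg.Lie

/-- Reflection paths from fundamental roots (or their negatives) to every root, type E6. -/
def gcertE6 : List (ℕ × List ℕ) :=
  [(15, [2, 3, 1, 4, 3, 2, 5, 4, 3, 1]), (15, [2, 3, 1, 4, 3, 2, 5, 4, 3]),
   (15, [2, 3, 1, 4, 3, 2, 5, 4]), (15, [2, 3, 1, 4, 3, 2, 5]), (15, [2, 3, 1, 4, 3, 2]),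
   (15, [2, 3, 1, 4, 3, 5, 4]), (15, [2, 3, 1, 4, 3, 5]), (15, [2, 3, 1, 4, 3]),
   (15, [2, 3, 1, 4, 5]), (15, [2, 3, 1, 4]), (15, [2, 3, 1]), (15, [2, 3, 4, 5]),
   (15, [2, 3, 4]), (15, [2, 3]), (15, [2]), (15, []), (25, [3, 2, 4, 3, 5, 4]),
   (25, [3, 2, 4, 3, 5]), (25, [3, 2, 4, 3]), (25, [3, 2, 4, 5]), (25, [3, 2, 4]), (25, [3, 2]),
   (25, [3, 4, 5]), (25, [3, 4]), (25, [3]), (25, []), (29, [3, 4, 5]), (29, [3, 4]), (29, [3]),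
   (29, []), (32, [4, 5]), (32, [4]), (32, []), (34, [5]), (34, []), (35, []), (36, []),
   (37, []), (37, [5]), (39, []), (39, [4]), (39, [4, 5]), (42, []), (42, [3]), (42, [3, 4]),
   (42, [3, 4, 5]), (46, []), (46, [3]), (46, [3, 4]), (46, [3, 4, 5]), (46, [3, 2]),
   (46, [3, 2, 4]), (46, [3, 2, 4, 5]), (46, [3, 2, 4, 3]), (46, [3, 2, 4, 3, 5]),
   (46, [3, 2, 4, 3, 5, 4]), (56, []), (56, [2]), (56, [2, 3]), (56, [2, 3, 4]),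
   (56, [2, 3, 4, 5]), (56, [2, 3, 1]), (56, [2, 3, 1, 4]), (56, [2, 3, 1, 4, 5]),
   (56, [2, 3, 1, 4, 3]), (56, [2, 3, 1, 4, 3, 5]), (56, [2, 3, 1, 4, 3, 5, 4]),
   (56, [2, 3, 1, 4, 3, 2]), (56, [2, 3, 1, 4, 3, 2, 5]), (56, [2, 3, 1, 4, 3, 2, 5, 4]),
   (56, [2, 3, 1, 4, 3, 2, 5, 4, 3]), (56, [2, 3, 1, 4, 3, 2, 5, 4, 3, 1])]

set_option maxRecDepth 100000 in
theorem gcertE6_ok : GenCert chevE6 gcertE6 := by
  decide +kernel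

end ChevGen
end Cfsg.Agent.Lib.Helper15
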