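import Cfsg.Agent.Lib.Helper15.ChevPath
import Cfsg.Prelude.Def_ChevF4

set_option autoImplicit false

namespace Cfsg.Agent.Lib.Helper15
namespace ChevGen

open Cfsg.Lie

/-- Reflection paths from fundamental roots (or their negatives) to every root, type F4. -/
def gcertF4 : List (ℕ × List ℕ) :=
  [(22, [1, 0, 3, 2, 1, 2, 3]), (22, [1, 0, 3, 2, 1, 2]), (22, [1, 0, 3, 2, 1]),
   (14, [1, 2, 1, 3, 2, 1, 0]), (22, [1, 0, 3, 2]), (22, [1, 0, 3]), (22, [1, 0]),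
   (14, [1, 2, 1, 3, 2, 1]), (14, [1, 2, 1, 3, 2]), (14, [1, 2, 1, 3]), (14, [1, 2, 1]),
   (14, [1, 2, 3]), (14, [1, 2]), (14, [1]), (14, []), (22, [1, 3, 2]), (22, [1, 3]), (22, [1]),
   (20, [2, 3]), (20, [2]), (20, []), (22, [3]), (22, []), (23, []), (24, []), (25, []),
   (25, [3]), (27, []), (27, [2]), (27, [2, 3]), (25, [1]), (25, [1, 3]), (25, [1, 3, 2]),
   (33, []), (33, [1]), (33, [1, 2]), (33, [1, 2, 3]), (33, [1, 2, 1]), (33, [1, 2, 1, 3]),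
   (33, [1, 2, 1, 3, 2]), (33, [1, 2, 1, 3, 2, 1]), (25, [1, 0]), (25, [1, 0, 3]),
   (25, [1, 0, 3, 2]), (33, [1, 2, 1, 3, 2, 1, 0]), (25, [1, 0, 3, 2, 1]),
   (25, [1, 0, 3, 2, 1, 2]), (25, [1, 0, 3, 2, 1, 2, 3])]

set_option maxRecDepth 100000 in
theorem gcertF4_ok : GenCert chevF4 gcertF4 := by
  decide +kernel

end ChevGen
end Cfsg.Agent.Lib.Helper15
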