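import Cfsg.Agent.Lib.Helper15.ChevPath
import Cfsg.Prelude.Def_ChevG2

set_option autoImplicit false

namespace Cfsg.Agent.Lib.Helper15
namespace ChevGen

open Cfsg.Lie

/-- Reflection paths from fundamental roots (or their negatives) to every root, type G2. -/
def gcertG2 : List (ℕ × List ℕ) :=
  [(5, [0, 1]), (5, [0]), (4, [1, 0]), (4, [1]), (4, []), (5, []), (6, []), (7, []), (7, [1]),
   (7, [1, 0]), (6, [0]), (6, [0, 1])]

set_option maxRecDepth 100000 in
theorem gcertG2_ok : GenCert chevG2 gcertG2 := by
  decide +kernel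

end ChevGen
end Cfsg.Agent.Lib.Helper15
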