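import Cfsg.Agent.Lib.Helper15.ChevSym
import Cfsg.Prelude.Def_ChevE6

set_option autoImplicit false

namespace Cfsg.Agent.Lib.Helper15
namespace ChevGen

open Cfsg.Lie

set_option maxRecDepth 100000 in
theorem symOK_E6 : SymOK chevE6 := by
  decide +kernel

end ChevGen
end Cfsg.Agent.Lib.Helper15
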