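import Mathlib

set_option autoImplicit false

namespace Cfsg.Agent.Lib.Helper15
namespace CommP

open Module

/-- An operator of `r`-power order on a finite vector space over a field with `q` elements, where
`r` does not divide `q (q^i - 1)` for `1 ≤ i ≤ m`, which fixes an invariant subspace `U`
pointwise, fixes every invariant subspace `U' ≥ U` with `dim U' ≤ dim U + m` pointwise. -/
theorem fix_step {F : Type*} [Field F] [Fintype F] {V : Type*} [AddCommGroup V] [Module F V]
    [Finite V] (r : ℕ) [Fact r.Prime] (s : ℕ) (c : V →ₗ[F] V) (hc : c ^ (r ^ s) = 1) (m : ℕ)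
    (hr : ∀ i, 1 ≤ i → i ≤ m → ¬ r ∣ Fintype.card F ^ i - 1) (hrq : ¬ r ∣ Fintype.card F)
    (U U' : Submodule F V) (hUU' : U ≤ U') (hinv : ∀ v ∈ U', c v ∈ U')
    (hdim : finrank F U' ≤ finrank F U + m) (hfix : ∀ v ∈ U, c v = v) :
    ∀ v ∈ U', c v = v := by
  classical
  have : Fintype U' := Fintype.ofFinite _
  let f : Function.End U' := fun u => ⟨c u, hinv u u.2⟩
  have hfpow : ∀ k : ℕ, ∀ u : U', ((f ^ k) u : V) = (c ^ k) u := by
    intro k
    induction k with
    | zero => intro u; rfl
    | succ k ih =>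
      intro u
      rw [pow_succ, pow_succ]
      show ((f ^ k) (f u) : V) = (c ^ k) (c u)
      rw [ih]
  have hf : f ^ r ^ s = 1 := by
    funext u
    apply Subtype.ext
    rw [hfpow, hc]
    rfl
  have hmod := Equiv.Perm.card_fixedPoints_modEq (f := f) (p := r) (n := s) hf
  let C : Submodule F U' := LinearMap.ker ((c - 1).domRestrict U')
  have hC : ∀ u : U', u ∈ C ↔ c u = u := by
    intro u
    simp [C, sub_eq_zero]
  have hfp : Fintype.card (Function.fixedPoints f) = Nat.card C := by
    rw [← Nat.card_eq_fintype_card]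
    apply Nat.card_congr
    exact Equiv.subtypeEquivRight (fun u => by
      rw [Function.mem_fixedPoints, Function.IsFixedPt]
      show f u = u ↔ u ∈ C
      rw [hC]
      constructor
      · intro h
        exact congrArg Subtype.val h
      · intro h
        exact Subtype.ext h)
  have hcU' : Fintype.card U' = Fintype.card F ^ finrank F U' := by
    rw [← Nat.card_eq_fintype_card, Module.natCard_eq_pow_finrank (K := F),
      Nat.card_eq_fintype_card]
  have hcC : Nat.card C = Fintype.card F ^ finrank F C := by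
    rw [Module.natCard_eq_pow_finrank (K := F), Nat.card_eq_fintype_card]
  have hUC : finrank F U ≤ finrank F C := by
    have hle : Submodule.comap U'.subtype U ≤ C := by
      intro u hu
      rw [hC]
      exact hfix _ hu
    have h1 := Submodule.finrank_mono hle
    rw [LinearEquiv.finrank_eq (Submodule.comapSubtypeEquivOfLe hUU')] at h1
    exact h1
  have hfd : finrank F C ≤ finrank F U' := Submodule.finrank_le C
  by_cases heq : finrank F C = finrank F U'
  · have htop : C = ⊤ := Submodule.eq_top_of_finrank_eq heq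
    intro v hv
    have h1 : (⟨v, hv⟩ : U') ∈ C := by
      rw [htop]
      trivial
    exact (hC _).1 h1
  · exfalso
    have hlt : finrank F C < finrank F U' := lt_of_le_of_ne hfd heq
    rw [hcU', hfp, hcC] at hmod
    have hq1 : 1 ≤ Fintype.card F := Fintype.card_pos
    have hle : Fintype.card F ^ finrank F C ≤ Fintype.card F ^ finrank F U' :=
      Nat.pow_le_pow_right hq1 hfd
    have h1 : r ∣ Fintype.card F ^ finrank F U' - Fintype.card F ^ finrank F C :=
      (Nat.modEq_iff_dvd' hle).1 hmod.symm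
    have h2 : Fintype.card F ^ finrank F U' - Fintype.card F ^ finrank F C =
        Fintype.card F ^ finrank F C * (Fintype.card F ^ (finrank F U' - finrank F C) - 1) := by
      rw [Nat.mul_sub, mul_one, ← pow_add]
      congr 2
      omega
    rw [h2] at h1
    have hrp : r.Prime := Fact.out
    rcases (Nat.Prime.dvd_mul hrp).1 h1 with h | h
    · exact hrq (hrp.dvd_of_dvd_pow h)
    · exact hr _ (by omega) (by omega) h

/-- An operator of `r`-power order commuting with a nonzero nilpotent operator on a space of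
dimension `n ≥ 4` is trivial when `r` does not divide `q (q^i - 1)` for `1 ≤ i ≤ n - 2`. -/
theorem eq_one_of_commute_nilpotent {F : Type*} [Field F] [Fintype F] {V : Type*}
    [AddCommGroup V] [Module F V] [Finite V] (r : ℕ) [Fact r.Prime] (s : ℕ) (c N : V →ₗ[F] V)
    (hc : c ^ (r ^ s) = 1) (hcN : c * N = N * c) (hN0 : N ≠ 0) (k : ℕ) (hNk : N ^ k = 0) (m : ℕ)
    (hr : ∀ i, 1 ≤ i → i ≤ m → ¬ r ∣ Fintype.card F ^ i - 1) (hrq : ¬ r ∣ Fintype.card F)
    (h4 : 4 ≤ finrank F V) (hm : finrank F V ≤ m + 2) : c = 1 := by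
  classical
  set K := LinearMap.ker N with hK
  set I := LinearMap.range N with hI
  have hcNv : ∀ v, c (N v) = N (c v) := fun v =>
    congrArg (fun f : V →ₗ[F] V => f v) hcN
  have hKinv : ∀ v ∈ K, c v ∈ K := by
    intro v hv
    rw [hK, LinearMap.mem_ker] at hv ⊢
    rw [← hcNv, hv, map_zero]
  have hIinv : ∀ v ∈ I, c v ∈ I := by
    rintro _ ⟨u, rfl⟩
    exact ⟨c u, (hcNv u).symm⟩
  have hinf_inv : ∀ v ∈ K ⊓ I, c v ∈ K ⊓ I := fun v hv => ⟨hKinv v hv.1, hIinv v hv.2⟩
  have hsup_inv : ∀ v ∈ K ⊔ I, c v ∈ K ⊔ I := by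
    intro v hv
    obtain ⟨x, hx, y, hy, rfl⟩ := Submodule.mem_sup.1 hv
    rw [map_add]
    exact Submodule.add_mem _ (Submodule.mem_sup_left (hKinv x hx))
      (Submodule.mem_sup_right (hIinv y hy))
  have hsum : finrank F ↥(K ⊔ I) + finrank F ↥(K ⊓ I) = finrank F V := by
    rw [Submodule.finrank_sup_add_finrank_inf_eq, add_comm]
    exact LinearMap.finrank_range_add_finrank_ker N
  have hpos : 1 ≤ finrank F ↥(K ⊓ I) := by
    have hex : ∃ j, N ^ j = 0 := ⟨k, hNk⟩
    have hj0 : Nat.find hex ≠ 0 := by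
      intro h0
      have h1 := Nat.find_spec hex
      rw [h0, pow_zero] at h1
      apply hN0
      rw [← mul_one N, h1, mul_zero]
    have hj1 : Nat.find hex ≠ 1 := by
      intro h0
      have h1 := Nat.find_spec hex
      rw [h0, pow_one] at h1
      exact hN0 h1
    obtain ⟨j, hj⟩ : ∃ j, Nat.find hex = j + 2 := ⟨Nat.find hex - 2, by omega⟩
    have hne : N ^ (j + 1) ≠ 0 := Nat.find_min hex (by omega)
    obtain ⟨u, hu⟩ : ∃ u, (N ^ (j + 1)) u ≠ 0 := by
      by_contra hcon
      push Not at hcon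
      exact hne (LinearMap.ext hcon)
    have hmem : (N ^ (j + 1)) u ∈ K ⊓ I := by
      refine Submodule.mem_inf.2 ⟨?_, ?_⟩
      · rw [hK, LinearMap.mem_ker]
        have h1 := Nat.find_spec hex
        rw [hj, pow_succ'] at h1
        exact congrArg (fun f : V →ₗ[F] V => f u) h1
      · rw [pow_succ']
        exact ⟨(N ^ j) u, rfl⟩
    have hnt : Nontrivial ↥(K ⊓ I) := ⟨⟨⟨_, hmem⟩, 0, fun h => hu (congrArg Subtype.val h)⟩⟩
    exact Module.finrank_pos
  have hle : finrank F ↥(K ⊓ I) ≤ finrank F ↥(K ⊔ I) := Submodule.finrank_mono inf_le_sup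
  have s1 := fix_step r s c hc m hr hrq ⊥ (K ⊓ I) bot_le hinf_inv (by
    rw [finrank_bot]
    omega) (by
    intro v hv
    rw [(Submodule.mem_bot F).1 hv, map_zero])
  have s2 := fix_step r s c hc m hr hrq (K ⊓ I) (K ⊔ I) inf_le_sup hsup_inv (by omega) s1
  have s3 := fix_step r s c hc m hr hrq (K ⊔ I) ⊤ le_top (fun v _ => Submodule.mem_top) (by
    rw [finrank_top]
    omega) s2
  ext v
  exact s3 v Submodule.mem_top

end CommP
end Cfsg.Agent.Lib.Helper15
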