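import Cfsg.Agent.Lib.Helper15.CommP
import Cfsg.Agent.Lib.Helper15.GL2Centralizer

set_option autoImplicit false

namespace Cfsg.Agent.Lib.Helper15
namespace CommP

open Module

/-- Matrix form: a matrix of `r`-power order commuting with a nontrivial matrix of order `p` is
trivial when `r` does not divide `q (q^i - 1)` for `1 ≤ i ≤ n - 2`. -/
theorem mat_eq_one {F : Type*} [Field F] [Fintype F] (p : ℕ) [Fact p.Prime] [CharP F p] {n : ℕ}
    (hn : 4 ≤ n) (r : ℕ) [Fact r.Prime] (s : ℕ) (g u : Matrix (Fin n) (Fin n) F)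
    (hg : g ^ (r ^ s) = 1) (hu1 : u ≠ 1) (hup : u ^ p = 1) (hgu : g * u = u * g)
    (hr : ∀ i, 1 ≤ i → i ≤ n - 2 → ¬ r ∣ Fintype.card F ^ i - 1)
    (hrq : ¬ r ∣ Fintype.card F) : g = 1 := by
  classical
  have hne : Nonempty (Fin n) := ⟨⟨0, by omega⟩⟩
  have hN : (u - 1) ^ p = 0 := by
    rw [sub_pow_char_of_commute (p := p) (h := Commute.one_right u), hup, one_pow, sub_self]
  have key := eq_one_of_commute_nilpotent (V := Fin n → F) r s (Matrix.toLinAlgEquiv' g)
    (Matrix.toLinAlgEquiv' (u - 1)) (by rw [← map_pow, hg, map_one])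
    (by rw [← map_mul, ← map_mul, mul_sub, sub_mul, hgu, mul_one, one_mul])
    (by
      intro h
      apply hu1
      have h1 : u - 1 = 0 := by
        apply (Matrix.toLinAlgEquiv' (R := F) (n := Fin n)).injective
        rw [h, map_zero]
      exact sub_eq_zero.1 h1)
    p (by rw [← map_pow, hN, map_zero]) (n - 2) hr hrq
    (by rw [Module.finrank_fin_fun]; exact hn) (by rw [Module.finrank_fin_fun]; omega)
  apply (Matrix.toLinAlgEquiv' (R := F) (n := Fin n)).injective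
  rw [key, map_one]

/-- Central elements of `SL_n(F)` have order dividing `q - 1`. -/
theorem center_pow {F : Type*} [Field F] [Fintype F] {n : ℕ} (hn : 1 ≤ n)
    (z : Matrix.SpecialLinearGroup (Fin n) F)
    (hz : z ∈ Subgroup.center (Matrix.SpecialLinearGroup (Fin n) F)) :
    z ^ (Fintype.card F - 1) = 1 := by
  rw [Matrix.SpecialLinearGroup.mem_center_iff] at hz
  obtain ⟨μ, hμ, hμz⟩ := hz
  have hμ0 : μ ≠ 0 := by
    rintro rfl
    rw [Fintype.card_fin, zero_pow (by omega)] at hμ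
    exact zero_ne_one hμ
  apply Subtype.ext
  rw [Matrix.SpecialLinearGroup.coe_pow, ← hμz, ← map_pow,
    FiniteField.pow_card_sub_one_eq_one μ hμ0, map_one]
  rfl

/-- Lifting a commuting pair from `PSL_n` to `SL_n`. -/
theorem exists_lifts {F : Type*} [Field F] [Fintype F] (p : ℕ) [Fact p.Prime] [CharP F p]
    (n : ℕ) (hn : 1 ≤ n) (a b : Matrix.ProjectiveSpecialLinearGroup (Fin n) F)
    (ha : orderOf a = p) (hab : Commute a b) (r : ℕ) (hr : r.Prime) (hrb : r ∣ orderOf b) :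
    ∃ (s : ℕ) (a₁ c₁ : Matrix.SpecialLinearGroup (Fin n) F),
      a₁ ≠ 1 ∧ a₁ ^ p = 1 ∧ c₁ ≠ 1 ∧ c₁ ^ (r ^ s) = 1 ∧ a₁ * c₁ = c₁ * a₁ := by
  classical
  set q := Fintype.card F with hq
  have hp : p.Prime := Fact.out
  obtain ⟨f, -, hqf⟩ := FiniteField.card F p
  have hpq : p ∣ q := by
    rw [hq, hqf]
    exact dvd_pow_self p f.ne_zero
  have hq2 : 2 ≤ q := Fintype.one_lt_card
  have hpq1 : ¬ p ∣ q - 1 := by
    intro h
    have h1 := Nat.dvd_sub hpq h
    rw [Nat.sub_sub_self (by omega)] at h1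
    exact hp.one_lt.ne' (Nat.dvd_one.1 h1)
  have hcen := fun z hz => center_pow (F := F) hn z hz
  obtain ⟨a', rfl⟩ := QuotientGroup.mk_surjective a
  obtain ⟨b', rfl⟩ := QuotientGroup.mk_surjective b
  have ha'p : a' ^ p ∈ Subgroup.center (Matrix.SpecialLinearGroup (Fin n) F) := by
    rw [← QuotientGroup.eq_one_iff, QuotientGroup.mk_pow]
    conv_lhs => rw [← ha]
    exact pow_orderOf_eq_one _
  set a₁ := a' ^ (q - 1) with ha₁
  have ha₁p : a₁ ^ p = 1 := by
    rw [ha₁, ← pow_mul, mul_comm, pow_mul]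
    exact hcen _ ha'p
  have ha₁1 : a₁ ≠ 1 := by
    intro h
    have h1 : ((a' : Matrix.ProjectiveSpecialLinearGroup (Fin n) F)) ^ (q - 1) = 1 := by
      rw [← QuotientGroup.mk_pow, ← ha₁, h]
      rfl
    have h2 := orderOf_dvd_of_pow_eq_one h1
    rw [ha] at h2
    exact hpq1 h2
  set o := orderOf (b' : Matrix.ProjectiveSpecialLinearGroup (Fin n) F) with ho
  have ho0 : o ≠ 0 := (orderOf_pos _).ne'
  set b₁ := b' ^ (o / r) with hb₁
  have hb₁o : orderOf ((b₁ : Matrix.ProjectiveSpecialLinearGroup (Fin n) F)) = r := by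
    rw [hb₁, QuotientGroup.mk_pow]
    exact orderOf_pow_orderOf_div ho0 hrb
  have hb₁r : b₁ ^ r ∈ Subgroup.center (Matrix.SpecialLinearGroup (Fin n) F) := by
    rw [← QuotientGroup.eq_one_iff, QuotientGroup.mk_pow]
    conv_lhs => rw [← hb₁o]
    exact pow_orderOf_eq_one _
  obtain ⟨u, w, hw, hqw⟩ := Nat.exists_eq_pow_mul_and_not_dvd (n := q - 1) (by omega) r hr.ne_one
  set c₁ := b₁ ^ w with hc₁
  have hc₁p : c₁ ^ (r ^ (u + 1)) = 1 := by
    have e1 : w * r ^ (u + 1) = r * (q - 1) := by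
      rw [hqw, pow_succ]
      ring
    rw [hc₁, ← pow_mul, e1, pow_mul]
    exact hcen _ hb₁r
  have hc₁1 : c₁ ≠ 1 := by
    intro h
    have h1 : ((b₁ : Matrix.ProjectiveSpecialLinearGroup (Fin n) F)) ^ w = 1 := by
      rw [← QuotientGroup.mk_pow, ← hc₁, h]
      rfl
    have h2 := orderOf_dvd_of_pow_eq_one h1
    rw [hb₁o] at h2
    exact hw h2
  obtain ⟨ζ, hζ⟩ : ∃ ζ, ζ = a₁ * c₁ * a₁⁻¹ * c₁⁻¹ := ⟨_, rfl⟩
  have hζc : ζ ∈ Subgroup.center (Matrix.SpecialLinearGroup (Fin n) F) := by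
    rw [← QuotientGroup.eq_one_iff]
    have h1 : Commute ((a₁ : Matrix.ProjectiveSpecialLinearGroup (Fin n) F))
        ((c₁ : Matrix.ProjectiveSpecialLinearGroup (Fin n) F)) := by
      rw [ha₁, hc₁, hb₁, QuotientGroup.mk_pow, QuotientGroup.mk_pow, QuotientGroup.mk_pow]
      exact (hab.pow_pow _ _).pow_right _
    rw [hζ, QuotientGroup.mk_mul, QuotientGroup.mk_mul, QuotientGroup.mk_mul,
      QuotientGroup.mk_inv, QuotientGroup.mk_inv, h1.eq, mul_inv_cancel_right, mul_inv_cancel]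
  have hζcomm : ∀ x : Matrix.SpecialLinearGroup (Fin n) F, x * ζ = ζ * x := fun x =>
    (Subgroup.mem_center_iff.1 hζc x)
  have hconj : a₁ * c₁ * a₁⁻¹ = ζ * c₁ := by
    rw [hζ]
    group
  have key : ∀ k : ℕ, a₁ ^ k * c₁ * (a₁ ^ k)⁻¹ = ζ ^ k * c₁ := by
    intro k
    induction k with
    | zero => simp
    | succ k ih =>
      have hζk : a₁ * ζ ^ k = ζ ^ k * a₁ := by
        have := (Subgroup.mem_center_iff.1 (Subgroup.pow_mem _ hζc k) a₁)
        exact this
      calc a₁ ^ (k + 1) * c₁ * (a₁ ^ (k + 1))⁻¹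
          = a₁ * (a₁ ^ k * c₁ * (a₁ ^ k)⁻¹) * a₁⁻¹ := by
            rw [pow_succ']
            group
        _ = a₁ * (ζ ^ k * c₁) * a₁⁻¹ := by rw [ih]
        _ = ζ ^ k * (a₁ * c₁ * a₁⁻¹) := by
            rw [← mul_assoc, hζk]
            group
        _ = ζ ^ (k + 1) * c₁ := by
            rw [hconj, pow_succ, mul_assoc]
  have hζp : ζ ^ p = 1 := by
    have h1 := key p
    rw [ha₁p, one_mul, inv_one, mul_one] at h1
    exact (mul_eq_right (a := ζ ^ p) (b := c₁)).1 h1.symm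
  have hζ1 : ζ = 1 := by
    have h1 := orderOf_dvd_of_pow_eq_one hζp
    have h2 := orderOf_dvd_of_pow_eq_one (hcen ζ hζc)
    have h3 : Nat.Coprime p (q - 1) := (Nat.Prime.coprime_iff_not_dvd hp).2 hpq1
    have h4 : orderOf ζ = 1 := Nat.eq_one_of_dvd_coprimes h3 h1 h2
    exact orderOf_eq_one_iff.1 h4
  refine ⟨u + 1, a₁, c₁, ha₁1, ha₁p, hc₁1, hc₁p, ?_⟩
  rw [hζ1, one_mul] at hconj
  calc a₁ * c₁ = a₁ * c₁ * a₁⁻¹ * a₁ := by group
    _ = c₁ * a₁ := by rw [hconj]

/-- Primes dividing `q` or some `q^i - 1`, `1 ≤ i ≤ m`, divide the order of `SL_m(q)`. -/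
theorem dvd_card_SL {F : Type*} [Field F] [Fintype F] (m : ℕ) (hm : 2 ≤ m) (r : ℕ)
    (hr : r.Prime)
    (h : r ∣ Fintype.card F ∨ ∃ i, 1 ≤ i ∧ i ≤ m ∧ r ∣ Fintype.card F ^ i - 1) :
    r ∣ Nat.card (Matrix.SpecialLinearGroup (Fin m) F) := by
  classical
  set q := Fintype.card F with hq
  have hq2 : 2 ≤ q := Fintype.one_lt_card
  have hmul : Nat.card (Matrix.SpecialLinearGroup (Fin m) F) * (q - 1) =
      ∏ i : Fin m, (q ^ m - q ^ (i : ℕ)) := by
    rw [hq, card_SL_mul m (by omega), Matrix.card_GL_field]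
  have hfac : ∀ j : ℕ, j ≤ m → q ^ m - q ^ j = q ^ j * (q ^ (m - j) - 1) := by
    intro j hj
    rw [Nat.mul_sub, mul_one, ← pow_add]
    congr 2
    omega
  have hfd : ∀ j : Fin m, q ^ m - q ^ (j : ℕ) ∣
      Nat.card (Matrix.SpecialLinearGroup (Fin m) F) * (q - 1) := by
    intro j
    rw [hmul]
    exact Finset.dvd_prod_of_mem _ (Finset.mem_univ j)
  have h1 : q - 1 ∣ Nat.card (Matrix.SpecialLinearGroup (Fin m) F) := by
    have hne : (⟨m - 1, by omega⟩ : Fin m) ≠ ⟨m - 2, by omega⟩ := by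
      intro h
      have := congrArg Fin.val h
      simp only at this
      omega
    have h2 : (q ^ m - q ^ (m - 1)) * (q ^ m - q ^ (m - 2)) ∣
        ∏ i : Fin m, (q ^ m - q ^ (i : ℕ)) := by
      have := Finset.prod_dvd_prod_of_subset {(⟨m - 1, by omega⟩ : Fin m), ⟨m - 2, by omega⟩}
        Finset.univ (fun i : Fin m => q ^ m - q ^ (i : ℕ)) (Finset.subset_univ _)
      rwa [Finset.prod_pair hne] at this
    rw [← hmul] at h2
    have h3 : (q - 1) * (q - 1) ∣ (q ^ m - q ^ (m - 1)) * (q ^ m - q ^ (m - 2)) := by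
      apply mul_dvd_mul
      · rw [hfac (m - 1) (by omega)]
        have : m - (m - 1) = 1 := by omega
        rw [this, pow_one]
        exact Dvd.intro_left _ rfl
      · rw [hfac (m - 2) (by omega)]
        have : m - (m - 2) = 2 := by omega
        rw [this]
        apply Dvd.dvd.mul_left
        have : q ^ 2 - 1 = (q - 1) * (q + 1) := by
          have h5 : 1 ≤ q := by omega
          zify [h5, Nat.one_le_pow 2 q h5]
          ring
        rw [this]
        exact Dvd.intro _ rfl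
    exact Nat.dvd_of_mul_dvd_mul_right (by omega) (h3.trans h2)
  by_cases hr1 : r ∣ q - 1
  · exact hr1.trans h1
  · have hmain : ∀ j : Fin m, r ∣ q ^ m - q ^ (j : ℕ) →
        r ∣ Nat.card (Matrix.SpecialLinearGroup (Fin m) F) := by
      intro j hj
      rcases (Nat.Prime.dvd_mul hr).1 (hj.trans (hfd j)) with h5 | h5
      · exact h5
      · exact absurd h5 hr1
    rcases h with h | ⟨i, hi1, him, hi⟩
    · apply hmain ⟨m - 1, by omega⟩
      show r ∣ q ^ m - q ^ (m - 1)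
      rw [hfac (m - 1) (by omega)]
      exact Dvd.dvd.mul_right (h.trans (dvd_pow_self q (by omega))) _
    · apply hmain ⟨m - i, by omega⟩
      show r ∣ q ^ m - q ^ (m - i)
      rw [hfac (m - i) (by omega)]
      have : m - (m - i) = i := by omega
      rw [this]
      exact Dvd.dvd.mul_left hi _

end CommP
end Cfsg.Agent.Lib.Helper15
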