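import Mathlib

set_option autoImplicit false

namespace Cfsg.Agent.Lib.Helper15.Semi

open Polynomial

universe u w

variable {F : Type w} [Field F]

/-- An irreducible factor of the characteristic polynomial of a matrix is singular at the
matrix. -/
theorem det_aeval_eq_zero {n : Type*} [Fintype n] [DecidableEq n] (B : Matrix n n F) (f : F[X])
    (hf : Irreducible f) (hdvd : f ∣ B.charpoly) : (aeval B f).det = 0 := by
  have : Fact (Irreducible f) := ⟨hf⟩
  obtain ⟨ι, hι⟩ : ∃ ι : F →+* AdjoinRoot f, ι = AdjoinRoot.of f := ⟨_, rfl⟩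
  obtain ⟨θ, hθ⟩ : ∃ θ : AdjoinRoot f, θ = AdjoinRoot.root f := ⟨_, rfl⟩
  have hroot : Polynomial.eval₂ ι θ f = 0 := by
    rw [hι, hθ]
    exact AdjoinRoot.eval₂_root f
  have h1 : (B.map ι).charpoly.eval θ = 0 := by
    rw [Matrix.charpoly_map, Polynomial.eval_map]
    obtain ⟨g, hg⟩ := hdvd
    rw [hg, Polynomial.eval₂_mul, hroot, zero_mul]
  rw [Matrix.eval_charpoly] at h1
  obtain ⟨w, hw0, hw⟩ := Matrix.exists_mulVec_eq_zero_iff.mpr h1
  have hw' : (B.map ι).mulVec w = θ • w := by
    rw [Matrix.sub_mulVec, sub_eq_zero] at hw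
    rw [← hw]
    funext i
    rw [Matrix.scalar_apply, Matrix.mulVec_diagonal, Pi.smul_apply, smul_eq_mul]
  have hpow : ∀ k : ℕ, ((B ^ k).map ι).mulVec w = θ ^ k • w := by
    intro k
    induction k with
    | zero =>
      rw [pow_zero, pow_zero, one_smul, Matrix.map_one ι (map_zero ι) (map_one ι),
        Matrix.one_mulVec]
    | succ k ih =>
      rw [pow_succ, Matrix.map_mul, ← Matrix.mulVec_mulVec, hw', Matrix.mulVec_smul, ih, pow_succ,
        smul_smul, mul_comm]
  have key : ((aeval B f).map ι).mulVec w = (Polynomial.eval₂ ι θ f) • w := by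
    rw [Polynomial.aeval_eq_sum_range, Polynomial.eval₂_eq_sum_range, Finset.sum_smul]
    have hmap : (∑ i ∈ Finset.range (f.natDegree + 1), f.coeff i • B ^ i).map ι =
        ∑ i ∈ Finset.range (f.natDegree + 1), ι (f.coeff i) • (B ^ i).map ι := by
      ext a b
      simp only [Matrix.map_apply, Matrix.sum_apply, Matrix.smul_apply, smul_eq_mul, map_sum,
        map_mul]
    rw [hmap, Matrix.sum_mulVec]
    apply Finset.sum_congr rfl
    intro i _
    rw [Matrix.smul_mulVec, hpow, smul_smul]
  rw [hroot, zero_smul] at key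
  have h2 : ((aeval B f).map ι).det = 0 := Matrix.exists_mulVec_eq_zero_iff.mp ⟨w, hw0, key⟩
  have h3 : ι ((aeval B f).det) = 0 := by
    rw [RingHom.map_det]
    exact h2
  exact (map_eq_zero ι).mp h3

/-- An irreducible factor of the characteristic polynomial of an endomorphism has a nonzero
kernel vector. -/
theorem exists_ker_of_dvd_charpoly {W : Type*} [AddCommGroup W] [Module F W]
    [FiniteDimensional F W] (b : Module.End F W) (f : F[X]) (hf : Irreducible f)
    (hdvd : f ∣ b.charpoly) : ∃ w : W, w ≠ 0 ∧ aeval b f w = 0 := by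
  classical
  obtain ⟨bas⟩ : Nonempty (Module.Basis (Fin (Module.finrank F W)) F W) := ⟨Module.finBasis F W⟩
  have h1 : (LinearMap.toMatrix bas bas b).charpoly = b.charpoly := LinearMap.charpoly_toMatrix b bas
  have h2 : (aeval (LinearMap.toMatrix bas bas b) f).det = 0 :=
    det_aeval_eq_zero _ f hf (by rw [h1]; exact hdvd)
  have h3 : aeval (LinearMap.toMatrix bas bas b) f = LinearMap.toMatrix bas bas (aeval b f) :=
    Polynomial.aeval_algHom_apply (LinearMap.toMatrixAlgEquiv bas) b f
  rw [h3, LinearMap.det_toMatrix] at h2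
  have h4 := LinearMap.bot_lt_ker_of_det_eq_zero h2
  obtain ⟨w, hw, hw0⟩ := (Submodule.ne_bot_iff _).mp h4.ne'
  exact ⟨w, hw0, LinearMap.mem_ker.mp hw⟩

theorem fin_adj (f : F[X]) (hf : Irreducible f) : Module.Finite F (AdjoinRoot f) :=
  (AdjoinRoot.powerBasis hf.ne_zero).finite

theorem aeval_mul_apply {V : Type*} [AddCommGroup V] [Module F V] (a : Module.End F V)
    (g h : F[X]) (v : V) : aeval a (g * h) v = aeval a g (aeval a h v) := by
  rw [map_mul]
  rfl

/-- The cyclic module generated by a vector killed by an irreducible polynomial is a copy of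
the field `F[X]/(f)`. -/
theorem cyc_embed {V : Type*} [AddCommGroup V] [Module F V] (a : Module.End F V) (f : F[X])
    [hf : Fact (Irreducible f)] (v : V) (hv : v ≠ 0) (hfv : aeval a f v = 0) :
    ∃ ψ : AdjoinRoot f →ₗ[F] V, Function.Injective ψ ∧
      ∀ x, ψ (AdjoinRoot.root f * x) = a (ψ x) := by
  let q : F[X] →ₗ[F] AdjoinRoot f := (AdjoinRoot.mkₐ f).toLinearMap
  have hq : Function.Surjective q := AdjoinRoot.mk_surjective
  let pv : F[X] →ₗ[F] V := (LinearMap.applyₗ v) ∘ₗ (aeval a).toLinearMap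
  have hpv : ∀ h : F[X], pv h = aeval a h v := fun h => rfl
  have hle : LinearMap.ker q ≤ LinearMap.ker pv := by
    intro h hh
    rw [LinearMap.mem_ker] at hh ⊢
    have h1 : AdjoinRoot.mk f h = 0 := hh
    obtain ⟨r, hr⟩ := AdjoinRoot.mk_eq_zero.mp h1
    rw [hpv, hr, mul_comm, aeval_mul_apply, hfv, map_zero]
  let ψ : AdjoinRoot f →ₗ[F] V :=
    ((LinearMap.ker q).liftQ pv hle) ∘ₗ (q.quotKerEquivOfSurjective hq).symm.toLinearMap
  have hψ : ∀ h : F[X], ψ (AdjoinRoot.mk f h) = aeval a h v := by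
    intro h
    have h1 : (q.quotKerEquivOfSurjective hq).symm (q h) = Submodule.Quotient.mk h :=
      LinearMap.quotKerEquivOfSurjective_symm_apply q hq h
    show ((LinearMap.ker q).liftQ pv hle) ((q.quotKerEquivOfSurjective hq).symm (q h)) = _
    rw [h1]
    rfl
  refine ⟨ψ, ?_, ?_⟩
  · rw [← LinearMap.ker_eq_bot, LinearMap.ker_eq_bot']
    intro x hx
    by_contra hx0
    obtain ⟨h, rfl⟩ := AdjoinRoot.mk_surjective x
    obtain ⟨h', hh'⟩ := AdjoinRoot.mk_surjective (AdjoinRoot.mk f h)⁻¹
    have h1 : AdjoinRoot.mk f (h' * h) = AdjoinRoot.mk f 1 := by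
      rw [map_mul, hh', inv_mul_cancel₀ hx0, map_one]
    have h2 : ψ (AdjoinRoot.mk f (h' * h)) = 0 := by
      rw [hψ, aeval_mul_apply, ← hψ h, hx, map_zero]
    rw [h1, hψ, map_one] at h2
    exact hv h2
  · intro x
    obtain ⟨h, rfl⟩ := AdjoinRoot.mk_surjective x
    rw [← AdjoinRoot.mk_X, ← map_mul, hψ, hψ, aeval_mul_apply, Polynomial.aeval_X]

/-- Splitting off a simple summand from a semisimple endomorphism. -/
theorem decomp {V : Type*} [AddCommGroup V] [Module F V] [FiniteDimensional F V]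
    (a : Module.End F V) (ha : a.IsSemisimple) (f : F[X]) [hf : Fact (Irreducible f)]
    (hdvd : f ∣ a.charpoly) :
    ∃ (V2 : Submodule F V) (h2 : V2 ∈ a.invtSubmodule) (e : (AdjoinRoot f × V2) ≃ₗ[F] V),
      ∀ (x : AdjoinRoot f) (y : V2),
        a (e (x, y)) = e (AdjoinRoot.root f * x, a.restrict h2 y) := by
  obtain ⟨v, hv0, hv⟩ := exists_ker_of_dvd_charpoly a f hf.out hdvd
  obtain ⟨ψ, hinj, heq⟩ := cyc_embed a f v hv0 hv
  have h1 : LinearMap.range ψ ∈ a.invtSubmodule := by
    rw [Module.End.mem_invtSubmodule]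
    rintro _ ⟨y, rfl⟩
    rw [Submodule.mem_comap, ← heq]
    exact ⟨_, rfl⟩
  obtain ⟨V2, h2, hc⟩ := (Module.End.isSemisimple_iff.mp ha) _ h1
  have hbij : Function.Bijective (ψ.coprod V2.subtype) := by
    constructor
    · rw [← LinearMap.ker_eq_bot, LinearMap.ker_eq_bot']
      rintro ⟨x, y⟩ hxy
      rw [LinearMap.coprod_apply] at hxy
      have h3 : ψ x = -(y : V) := eq_neg_of_add_eq_zero_left hxy
      have h4 : ψ x ∈ V2 := by
        rw [h3]
        exact V2.neg_mem y.2
      have h5 : ψ x = 0 := Submodule.disjoint_def.mp hc.disjoint _ ⟨x, rfl⟩ h4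
      have h6 : x = 0 := hinj (by rw [h5, map_zero])
      have h7 : (y : V) = 0 := by
        rw [h5] at h3
        exact neg_eq_zero.mp h3.symm
      rw [h6, Submodule.coe_eq_zero.mp h7]
      rfl
    · intro z
      have hz : z ∈ LinearMap.range ψ ⊔ V2 := by
        rw [hc.sup_eq_top]
        exact Submodule.mem_top
      obtain ⟨y1, ⟨x, rfl⟩, y2, hy2, rfl⟩ := Submodule.mem_sup.mp hz
      exact ⟨(x, ⟨y2, hy2⟩), by rw [LinearMap.coprod_apply]; rfl⟩
  refine ⟨V2, h2, LinearEquiv.ofBijective _ hbij, ?_⟩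
  intro x y
  rw [LinearEquiv.ofBijective_apply, LinearEquiv.ofBijective_apply, LinearMap.coprod_apply,
    LinearMap.coprod_apply, map_add, heq]
  rfl

theorem charpoly_decomp {V : Type*} [AddCommGroup V] [Module F V] [FiniteDimensional F V]
    (a : Module.End F V) (f : F[X]) [hf : Fact (Irreducible f)] [Module.Finite F (AdjoinRoot f)]
    (V2 : Submodule F V) (h2 : V2 ∈ a.invtSubmodule) (e : (AdjoinRoot f × V2) ≃ₗ[F] V)
    (he : ∀ (x : AdjoinRoot f) (y : V2),
        a (e (x, y)) = e (AdjoinRoot.root f * x, a.restrict h2 y)) :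
    a.charpoly = (LinearMap.mulLeft F (AdjoinRoot.root f)).charpoly * (a.restrict h2).charpoly := by
  have hconj : e.conj (LinearMap.prodMap (LinearMap.mulLeft F (AdjoinRoot.root f))
      (a.restrict h2)) = a := by
    apply LinearMap.ext
    intro v
    obtain ⟨⟨x, y⟩, rfl⟩ := e.surjective v
    rw [LinearEquiv.conj_apply, LinearMap.comp_apply, LinearMap.comp_apply, LinearEquiv.coe_coe,
      LinearEquiv.coe_coe, e.symm_apply_apply, he]
    rfl
  rw [← LinearMap.charpoly_prodMap]
  have h := LinearEquiv.charpoly_conj e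
    (LinearMap.prodMap (LinearMap.mulLeft F (AdjoinRoot.root f)) (a.restrict h2))
  rw [hconj] at h
  exact h

/-- Semisimple endomorphisms with the same characteristic polynomial are conjugate. -/
theorem ss_conj : ∀ (d : ℕ) (V W : Type u) [AddCommGroup V] [Module F V] [FiniteDimensional F V]
    [AddCommGroup W] [Module F W] [FiniteDimensional F W] (a : Module.End F V)
    (b : Module.End F W), Module.finrank F V ≤ d → a.IsSemisimple → b.IsSemisimple →
    a.charpoly = b.charpoly → ∃ φ : V ≃ₗ[F] W, ∀ v, φ (a v) = b (φ v) := by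
  have base : ∀ (V W : Type u) [AddCommGroup V] [Module F V] [FiniteDimensional F V]
      [AddCommGroup W] [Module F W] [FiniteDimensional F W] (a : Module.End F V)
      (b : Module.End F W), Module.finrank F V = 0 → a.charpoly = b.charpoly →
      ∃ φ : V ≃ₗ[F] W, ∀ v, φ (a v) = b (φ v) := by
    intro V W _ _ _ _ _ _ a b hV hc
    have hW : Module.finrank F W = 0 := by
      rw [← LinearMap.charpoly_natDegree b, ← hc, LinearMap.charpoly_natDegree, hV]
    have : Subsingleton V := Module.finrank_zero_iff.mp hV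
    have : Subsingleton W := Module.finrank_zero_iff.mp hW
    exact ⟨LinearEquiv.ofSubsingleton V W, fun v => Subsingleton.elim _ _⟩
  intro d
  induction d with
  | zero =>
    intro V W _ _ _ _ _ _ a b hd ha hb hc
    exact base V W a b (Nat.le_zero.mp hd) hc
  | succ d ih =>
    intro V W _ _ _ _ _ _ a b hd ha hb hc
    by_cases hV : Module.finrank F V = 0
    · exact base V W a b hV hc
    · have hpos : 0 < a.charpoly.natDegree := by
        rw [LinearMap.charpoly_natDegree]
        omega
      obtain ⟨f, hf, hfd⟩ := Polynomial.exists_irreducible_of_natDegree_pos hpos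
      have : Fact (Irreducible f) := ⟨hf⟩
      have := fin_adj f hf
      obtain ⟨V2, h2, e, he⟩ := decomp a ha f hfd
      obtain ⟨W2, k2, e', he'⟩ := decomp b hb f (hc ▸ hfd)
      have c1 := charpoly_decomp a f V2 h2 e he
      have c2 := charpoly_decomp b f W2 k2 e' he'
      have hc2 : (a.restrict h2).charpoly = (b.restrict k2).charpoly := by
        have hm : (LinearMap.mulLeft F (AdjoinRoot.root f)).charpoly ≠ 0 :=
          (LinearMap.charpoly_monic _).ne_zero
        apply mul_left_cancel₀ hm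
        rw [← c1, ← c2, hc]
      have hdim : Module.finrank F V = Module.finrank F (AdjoinRoot f) + Module.finrank F V2 := by
        rw [← e.finrank_eq, Module.finrank_prod]
      have hEpos : 0 < Module.finrank F (AdjoinRoot f) := Module.finrank_pos
      obtain ⟨φ2, hφ2⟩ := ih V2 W2 (a.restrict h2) (b.restrict k2) (by omega) (ha.restrict h2)
        (hb.restrict k2) hc2
      refine ⟨e.symm ≪≫ₗ (LinearEquiv.prodCongr (LinearEquiv.refl F _) φ2) ≪≫ₗ e', ?_⟩
      intro v
      obtain ⟨⟨x, y⟩, rfl⟩ := e.surjective v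
      rw [he]
      simp only [LinearEquiv.trans_apply, LinearEquiv.symm_apply_apply,
        LinearEquiv.prodCongr_apply, LinearEquiv.refl_apply]
      rw [hφ2, he']

/-- The centraliser of a semisimple endomorphism of a nonzero space over a finite field has
surjective determinant. -/
theorem ds [Finite F] {V : Type*} [AddCommGroup V] [Module F V] [FiniteDimensional F V]
    (a : Module.End F V) (ha : a.IsSemisimple) (hV : 0 < Module.finrank F V) (μ : F) :
    ∃ c : Module.End F V, (∀ v, c (a v) = a (c v)) ∧ LinearMap.det c = μ := by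
  have hpos : 0 < a.charpoly.natDegree := by
    rw [LinearMap.charpoly_natDegree]
    exact hV
  obtain ⟨f, hf, hfd⟩ := Polynomial.exists_irreducible_of_natDegree_pos hpos
  have : Fact (Irreducible f) := ⟨hf⟩
  have := fin_adj f hf
  have : Finite (AdjoinRoot f) := Module.finite_of_finite F
  obtain ⟨V2, h2, e, he⟩ := decomp a ha f hfd
  obtain ⟨ε, hε⟩ := FiniteField.norm_surjective F (AdjoinRoot f) μ
  refine ⟨(e : (AdjoinRoot f × V2) →ₗ[F] V) ∘ₗ
    (LinearMap.prodMap (LinearMap.mulLeft F ε) LinearMap.id) ∘ₗ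
    (e.symm : V →ₗ[F] (AdjoinRoot f × V2)), ?_, ?_⟩
  · intro v
    obtain ⟨⟨x, y⟩, rfl⟩ := e.surjective v
    rw [he]
    simp only [LinearMap.comp_apply, LinearEquiv.coe_coe, LinearEquiv.symm_apply_apply]
    show e (ε * (AdjoinRoot.root f * x), a.restrict h2 y) = a (e (ε * x, y))
    rw [he, mul_left_comm]
  · rw [LinearMap.det_conj, LinearMap.det_prodMap, LinearMap.det_id, mul_one, ← hε,
      Algebra.norm_apply]
    rfl

end Cfsg.Agent.Lib.Helper15.Semi
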