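import Mathlib
import Cfsg.Agent.Lib.Helper15.SemiA

set_option autoImplicit false

namespace Cfsg.Agent.Lib.Helper15.Semi

open Polynomial

universe w

variable {F : Type w} [Field F]

theorem toLin_aeval {n : ℕ} (A : Matrix (Fin n) (Fin n) F) (P : F[X]) :
    aeval (Matrix.toLin' A) P = Matrix.toLin' (aeval A P) :=
  Polynomial.aeval_algHom_apply (Matrix.toLinAlgEquiv' (R := F) (n := Fin n)) A P

/-- A matrix of finite order prime to the characteristic is semisimple. -/
theorem ss_of_pow {n : ℕ} (p : ℕ) [Fact p.Prime] [CharP F p] (A : Matrix (Fin n) (Fin n) F)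
    (N : ℕ) (hN : N.Coprime p) (hA : A ^ N = 1) : Module.End.IsSemisimple (Matrix.toLin' A) := by
  have hp : p.Prime := Fact.out
  have hN0 : (N : F) ≠ 0 := by
    intro h
    have h1 : p ∣ N := (CharP.cast_eq_zero_iff F p N).mp h
    have h2 : p ∣ Nat.gcd N p := Nat.dvd_gcd h1 dvd_rfl
    have h3 : Nat.gcd N p = 1 := hN
    rw [h3] at h2
    exact hp.one_lt.ne' (Nat.dvd_one.mp h2)
  have hsep : (X ^ N - C (1 : F)).Separable :=
    Polynomial.separable_X_pow_sub_C (1 : F) hN0 one_ne_zero
  apply Module.End.isSemisimple_of_squarefree_aeval_eq_zero hsep.squarefree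
  rw [toLin_aeval, map_sub, map_pow, Polynomial.aeval_X, Polynomial.aeval_C, hA, map_one,
    sub_self, map_zero]

theorem ss_of_order {n : ℕ} (p : ℕ) [Fact p.Prime] [CharP F p] (g : GL (Fin n) F)
    (hg : (orderOf g).Coprime p) :
    Module.End.IsSemisimple (Matrix.toLin' (g : Matrix (Fin n) (Fin n) F)) := by
  apply ss_of_pow p _ (orderOf g) hg
  rw [← Units.val_pow_eq_pow_val, pow_orderOf_eq_one]
  rfl

/-- Semisimple elements of `GL` with the same characteristic polynomial are conjugate. -/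
theorem ss_isConj {n : ℕ} (g g' : GL (Fin n) F)
    (hg : Module.End.IsSemisimple (Matrix.toLin' (g : Matrix (Fin n) (Fin n) F)))
    (hg' : Module.End.IsSemisimple (Matrix.toLin' (g' : Matrix (Fin n) (Fin n) F)))
    (hc : (g : Matrix (Fin n) (Fin n) F).charpoly = (g' : Matrix (Fin n) (Fin n) F).charpoly) :
    IsConj g g' := by
  obtain ⟨φ, hφ⟩ := ss_conj (F := F) (Module.finrank F (Fin n → F)) (Fin n → F) (Fin n → F)
    (Matrix.toLin' (g : Matrix (Fin n) (Fin n) F)) (Matrix.toLin' (g' : Matrix (Fin n) (Fin n) F))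
    le_rfl hg hg' (by rw [Matrix.charpoly_toLin', Matrix.charpoly_toLin', hc])
  set P := LinearMap.toMatrix' φ.toLinearMap with hP
  set P' := LinearMap.toMatrix' φ.symm.toLinearMap with hP'
  have hPP' : P * P' = 1 := by
    rw [hP, hP', ← LinearMap.toMatrix'_comp]
    have : φ.toLinearMap ∘ₗ φ.symm.toLinearMap = LinearMap.id := by
      apply LinearMap.ext
      intro x
      simp
    rw [this, LinearMap.toMatrix'_id]
  have hP'P : P' * P = 1 := by
    rw [hP, hP', ← LinearMap.toMatrix'_comp]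
    have : φ.symm.toLinearMap ∘ₗ φ.toLinearMap = LinearMap.id := by
      apply LinearMap.ext
      intro x
      simp
    rw [this, LinearMap.toMatrix'_id]
  let c : GL (Fin n) F := ⟨P, P', hPP', hP'P⟩
  rw [isConj_iff]
  refine ⟨c, ?_⟩
  rw [mul_inv_eq_iff_eq_mul]
  apply Units.ext
  show P * (g : Matrix (Fin n) (Fin n) F) = (g' : Matrix (Fin n) (Fin n) F) * P
  apply Matrix.toLin'.injective
  apply LinearMap.ext
  intro x
  rw [Matrix.toLin'_mul, Matrix.toLin'_mul, LinearMap.comp_apply, LinearMap.comp_apply, hP,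
    Matrix.toLin'_toMatrix']
  exact hφ x

/-- Elements of `GL` of order prime to the characteristic with the same characteristic
polynomial are conjugate. -/
theorem isConj_of_charpoly {n : ℕ} (p : ℕ) [Fact p.Prime] [CharP F p] (g g' : GL (Fin n) F)
    (hg : (orderOf g).Coprime p) (hg' : (orderOf g').Coprime p)
    (hc : (g : Matrix (Fin n) (Fin n) F).charpoly = (g' : Matrix (Fin n) (Fin n) F).charpoly) :
    IsConj g g' :=
  ss_isConj g g' (ss_of_order p g hg) (ss_of_order p g' hg') hc

theorem charpoly_of_isConj {n : ℕ} {g g' : GL (Fin n) F} (h : IsConj g g') :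
    (g : Matrix (Fin n) (Fin n) F).charpoly = (g' : Matrix (Fin n) (Fin n) F).charpoly := by
  obtain ⟨c, hc⟩ := isConj_iff.mp h
  rw [← hc, Units.val_mul, Units.val_mul, Matrix.coe_units_inv]
  exact (Matrix.charpoly_units_conj c (g : Matrix (Fin n) (Fin n) F)).symm

theorem ds_matrix [Finite F] {n : ℕ} (A : Matrix (Fin n) (Fin n) F)
    (hA : Module.End.IsSemisimple (Matrix.toLin' A)) (hn : 0 < n) (μ : F) :
    ∃ C : Matrix (Fin n) (Fin n) F, C * A = A * C ∧ C.det = μ := by
  have hV : 0 < Module.finrank F (Fin n → F) := by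
    rw [Module.finrank_fin_fun]
    exact hn
  obtain ⟨c, hc, hdet⟩ := ds (Matrix.toLin' A) hA hV μ
  refine ⟨LinearMap.toMatrix' c, ?_, ?_⟩
  · apply Matrix.toLin'.injective
    apply LinearMap.ext
    intro v
    rw [Matrix.toLin'_mul, Matrix.toLin'_mul, Matrix.toLin'_toMatrix', LinearMap.comp_apply,
      LinearMap.comp_apply]
    exact hc v
  · rw [LinearMap.det_toMatrix']
    exact hdet

/-- Every monic polynomial of degree `n` with nonzero constant term is the characteristic
polynomial of an element of `GL_n` of order prime to the characteristic. -/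
theorem exists_charpoly [Fintype F] (p : ℕ) [Fact p.Prime] [CharP F p] (n : ℕ) (f : F[X])
    (hm : f.Monic) (hd : f.natDegree = n) (h0 : f.coeff 0 ≠ 0) :
    ∃ g : GL (Fin n) F, (g : Matrix (Fin n) (Fin n) F).charpoly = f ∧ (orderOf g).Coprime p := by
  classical
  have hp : p.Prime := Fact.out
  obtain ⟨pb, hpb⟩ : ∃ pb : PowerBasis F (AdjoinRoot f), pb = AdjoinRoot.powerBasis hm.ne_zero :=
    ⟨_, rfl⟩
  have hdim : pb.dim = n := by
    rw [hpb, AdjoinRoot.powerBasis_dim, hd]
  have hA0 : (Algebra.leftMulMatrix pb.basis pb.gen).charpoly = f := by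
    rw [charpoly_leftMulMatrix pb, hpb]
    exact AdjoinRoot.minpoly_powerBasis_gen_of_monic hm
  obtain ⟨A, hAdef⟩ : ∃ A : Matrix (Fin n) (Fin n) F,
      A = Matrix.reindex (finCongr hdim) (finCongr hdim) (Algebra.leftMulMatrix pb.basis pb.gen) :=
    ⟨_, rfl⟩
  have hA : A.charpoly = f := by
    rw [hAdef, Matrix.charpoly_reindex, hA0]
  have hdet : A.det ≠ 0 := by
    rw [Matrix.det_eq_sign_charpoly_coeff, hA]
    exact mul_ne_zero (pow_ne_zero _ (neg_ne_zero.mpr one_ne_zero)) h0
  obtain ⟨g0, hg0⟩ : ∃ g0 : GL (Fin n) F, (g0 : Matrix (Fin n) (Fin n) F) = A :=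
    ⟨Matrix.GeneralLinearGroup.mkOfDetNeZero A hdet, rfl⟩
  have ho : orderOf g0 ≠ 0 := (orderOf_pos g0).ne'
  obtain ⟨k, b, hb, hkb⟩ := Nat.exists_eq_pow_mul_and_not_dvd ho p hp.ne_one
  obtain ⟨e, -, he⟩ := FiniteField.card F p
  have hcharp : ∀ j : ℕ,
      ((g0 ^ (Fintype.card F ^ j) : GL (Fin n) F) : Matrix (Fin n) (Fin n) F).charpoly = f := by
    intro j
    induction j with
    | zero =>
      rw [pow_zero, pow_one, hg0]
      exact hA
    | succ j ih =>
      rw [pow_succ, pow_mul, Units.val_pow_eq_pow_val, FiniteField.Matrix.charpoly_pow_card]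
      exact ih
  refine ⟨g0 ^ (Fintype.card F ^ k), hcharp k, ?_⟩
  have hek : (e : ℕ) * k = k + ((e : ℕ) * k - k) := by
    have h1 : 1 ≤ (e : ℕ) := e.pos
    have h2 : k ≤ (e : ℕ) * k := Nat.le_mul_of_pos_left k h1
    omega
  have hqk : Fintype.card F ^ k = p ^ k * p ^ ((e : ℕ) * k - k) := by
    rw [he, ← pow_mul, ← pow_add, ← hek]
  have hord1 : orderOf (g0 ^ (p ^ k)) = b := by
    rw [orderOf_pow_of_dvd (pow_ne_zero _ hp.ne_zero) (by rw [hkb]; exact dvd_mul_right _ _), hkb,
      Nat.mul_div_cancel_left _ (pow_pos hp.pos _)]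
  have hbp : b.Coprime p := ((Nat.Prime.coprime_iff_not_dvd hp).mpr hb).symm
  have hord2 : orderOf (g0 ^ (Fintype.card F ^ k)) = b := by
    rw [hqk, pow_mul, Nat.Coprime.orderOf_pow, hord1]
    rw [hord1]
    exact Nat.Coprime.pow_right _ hbp
  rw [hord2]
  exact hbp

/-- Counting functions on `Fin n` with a condition on one coordinate. -/
theorem card_fun_coord [Fintype F] (n : ℕ) (i0 : Fin n) (P : F → Prop) [DecidablePred P] :
    Fintype.card {c : Fin n → F // P (c i0)} =
      Fintype.card {x : F // P x} * Fintype.card F ^ (n - 1) := by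
  classical
  have e1 : {c : Fin n → F // P (c i0)} ≃ {s : F × ({j // j ≠ i0} → F) // P s.1} :=
    (Equiv.funSplitAt i0 F).subtypeEquiv (fun c => Iff.rfl)
  rw [Fintype.card_congr (e1.trans Equiv.prodSubtypeFstEquivSubtypeProd), Fintype.card_prod,
    Fintype.card_fun, Fintype.card_subtype_compl, Fintype.card_fin, Fintype.card_subtype_eq]

end Cfsg.Agent.Lib.Helper15.Semi
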