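import Mathlib
import Cfsg.Agent.Lib.Helper15.SemiB

set_option autoImplicit false

namespace Cfsg.Agent.Lib.Helper15.Semi

open Polynomial

universe w

variable {F : Type w} [Field F]

/-- Counting monic polynomials of degree `n` with a condition on the constant term. -/
theorem card_monic [Fintype F] (n : ℕ) (hn : 0 < n) (P : F → Prop) [DecidablePred P] :
    Nat.card {f : F[X] // f.Monic ∧ f.natDegree = n ∧ P (f.coeff 0)} =
      Fintype.card {x : F // P x} * Fintype.card F ^ (n - 1) := by
  classical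
  rw [← card_fun_coord n ⟨0, hn⟩ P, ← Nat.card_eq_fintype_card]
  apply Nat.card_eq_of_bijective
    (fun f : {f : F[X] // f.Monic ∧ f.natDegree = n ∧ P (f.coeff 0)} =>
      (⟨fun i : Fin n => f.1.coeff i, f.2.2.2⟩ : {c : Fin n → F // P (c ⟨0, hn⟩)}))
  constructor
  · rintro ⟨f, hfm, hfd, hf0⟩ ⟨f', hfm', hfd', hf0'⟩ hff
    apply Subtype.ext
    have h1 : ∀ i : Fin n, f.coeff i = f'.coeff i := fun i => congrFun (congrArg Subtype.val hff) i
    apply Polynomial.ext
    intro k
    rcases lt_trichotomy k n with hk | hk | hk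
    · exact h1 ⟨k, hk⟩
    · have e1 : f.coeff k = 1 := by
        rw [hk, ← hfd]
        exact hfm.coeff_natDegree
      have e2 : f'.coeff k = 1 := by
        rw [hk, ← hfd']
        exact hfm'.coeff_natDegree
      rw [e1, e2]
    · rw [Polynomial.coeff_eq_zero_of_natDegree_lt (by rw [hfd]; exact hk),
        Polynomial.coeff_eq_zero_of_natDegree_lt (by rw [hfd']; exact hk)]
  · rintro ⟨c, hc⟩
    obtain ⟨g, hg⟩ : ∃ g : Polynomial.degreeLT F n, g = (Polynomial.degreeLTEquiv F n).symm c :=
      ⟨_, rfl⟩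
    have hgd : (g : F[X]).degree < n := Polynomial.mem_degreeLT.mp g.2
    have hcoef : ∀ i : Fin n, (g : F[X]).coeff i = c i := by
      intro i
      have h1 := congrFun ((Polynomial.degreeLTEquiv F n).apply_symm_apply c) i
      rw [← hg] at h1
      exact h1
    have hco : ∀ i : Fin n, (X ^ n + (g : F[X])).coeff i = c i := by
      intro i
      rw [Polynomial.coeff_add, Polynomial.coeff_X_pow, if_neg (ne_of_lt i.2), zero_add, hcoef]
    refine ⟨⟨X ^ n + (g : F[X]), Polynomial.monic_X_pow_add hgd, ?_, ?_⟩, ?_⟩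
    · rw [Polynomial.natDegree_add_eq_left_of_degree_lt (by rw [Polynomial.degree_X_pow]; exact hgd),
        Polynomial.natDegree_X_pow]
    · have h2 : (X ^ n + (g : F[X])).coeff 0 = c ⟨0, hn⟩ := hco ⟨0, hn⟩
      rw [h2]
      exact hc
    · apply Subtype.ext
      funext i
      exact hco i

theorem charpoly_props {n : ℕ} (A : Matrix (Fin n) (Fin n) F) :
    A.charpoly.Monic ∧ A.charpoly.natDegree = n := by
  refine ⟨Matrix.charpoly_monic _, ?_⟩
  rw [Matrix.charpoly_natDegree_eq_dim, Fintype.card_fin]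

end Cfsg.Agent.Lib.Helper15.Semi
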