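import Mathlib
import Cfsg.Agent.Lib.Helper15.SemiC

set_option autoImplicit false

namespace Cfsg.Agent.Lib.Helper15.Semi

open Polynomial

universe w

variable {F : Type w} [Field F]

/-- Distinct monic irreducible polynomials are coprime. -/
theorem coprime_of_ne {g h : F[X]} (hg : Irreducible g) (hgm : g.Monic) (hh : Irreducible h)
    (hhm : h.Monic) (hne : g ≠ h) : IsCoprime g h := by
  rw [hg.coprime_iff_not_dvd]
  intro hd
  exact hne (Polynomial.eq_of_monic_of_associated hgm hhm (hg.associated_of_dvd hh hd))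

section Family

variable {J : Type*} [Fintype J] [DecidableEq J] (h : J → F[X])

theorem prod_pow_injective (hinj : Function.Injective h) (hirr : ∀ j, Irreducible (h j))
    (hmon : ∀ j, (h j).Monic) : Function.Injective (fun a : J → ℕ => ∏ j, h j ^ a j) := by
  intro a b hab
  have hab' : ∏ j, h j ^ a j = ∏ j, h j ^ b j := hab
  have key : ∀ (a b : J → ℕ), ∏ j, h j ^ a j = ∏ j, h j ^ b j → ∀ j, a j ≤ b j := by
    intro a b hab j
    have h1 : h j ^ a j ∣ ∏ k, h k ^ b k := by
      rw [← hab]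
      exact Finset.dvd_prod_of_mem (fun k => h k ^ a k) (Finset.mem_univ j)
    rw [← Finset.mul_prod_erase Finset.univ (fun k => h k ^ b k) (Finset.mem_univ j)] at h1
    have hcop : IsCoprime (h j ^ a j) (∏ k ∈ Finset.univ.erase j, h k ^ b k) := by
      apply IsCoprime.pow_left
      apply IsCoprime.prod_right
      intro k hk
      apply IsCoprime.pow_right
      exact coprime_of_ne (hirr j) (hmon j) (hirr k) (hmon k)
        (fun e => (Finset.ne_of_mem_erase hk) (hinj e).symm)
    have h2 : h j ^ a j ∣ h j ^ b j := hcop.dvd_of_dvd_mul_right h1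
    exact (pow_dvd_pow_iff (hirr j).ne_zero (hirr j).not_isUnit).mp h2
  funext j
  exact le_antisymm (key a b hab' j) (key b a hab'.symm j)

omit [DecidableEq J] in
theorem natDegree_prod_pow (hmon : ∀ j, (h j).Monic) (a : J → ℕ) :
    (∏ j, h j ^ a j).natDegree = ∑ j, a j * (h j).natDegree := by
  rw [Polynomial.natDegree_prod_of_monic _ _ (fun j _ => (hmon j).pow (a j))]
  apply Finset.sum_congr rfl
  intro j _
  rw [(hmon j).natDegree_pow]

omit [DecidableEq J] in
theorem monic_prod_pow (hmon : ∀ j, (h j).Monic) (a : J → ℕ) : (∏ j, h j ^ a j).Monic :=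
  Polynomial.monic_prod_of_monic _ _ (fun j _ => (hmon j).pow (a j))

theorem exists_exponents :
    ∀ (d : ℕ) (f : F[X]), f.natDegree < d → f.Monic →
      (∀ g : F[X], g.Monic → Irreducible g → g ∣ f → ∃ j, h j = g) →
      ∃ a : J → ℕ, f = ∏ j, h j ^ a j := by
  intro d
  induction d with
  | zero =>
    intro f hd _ _
    exact absurd hd (Nat.not_lt_zero _)
  | succ d ih =>
    intro f hd hf hfac
    by_cases hu : IsUnit f
    · have h1 : f = 1 := hf.eq_one_of_isUnit hu
      refine ⟨fun _ => 0, ?_⟩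
      rw [h1]
      simp
    · obtain ⟨g, hgm, hgi, hgd⟩ := Polynomial.exists_monic_irreducible_factor f hu
      obtain ⟨j, hj⟩ := hfac g hgm hgi hgd
      obtain ⟨f', hf'⟩ := hgd
      have hf'm : f'.Monic := by
        rw [hf'] at hf
        exact hgm.of_mul_monic_left hf
      have hdeg : f'.natDegree < d := by
        have h1 : f.natDegree = g.natDegree + f'.natDegree := by
          rw [hf', hgm.natDegree_mul hf'm]
        have h2 : 0 < g.natDegree := hgi.natDegree_pos
        omega
      obtain ⟨a', ha'⟩ := ih f' hdeg hf'm (fun g' hg'm hg'i hg'd =>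
        hfac g' hg'm hg'i (by rw [hf']; exact Dvd.dvd.mul_left hg'd g))
      refine ⟨fun k => a' k + (if k = j then 1 else 0), ?_⟩
      rw [hf', ha', ← hj]
      simp only [pow_add, Finset.prod_mul_distrib, pow_ite, pow_one, pow_zero,
        Finset.prod_ite_eq', Finset.mem_univ, if_true]
      rw [mul_comm]

end Family

theorem irr_dvd_of_pow_eq_one {n : ℕ} (M : Matrix (Fin n) (Fin n) F) (r : ℕ) (hM : M ^ r = 1)
    (g : F[X]) (hg : Irreducible g) (hgd : g ∣ M.charpoly) : g ∣ X ^ r - 1 := by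
  by_contra hnd
  have hcop : IsCoprime g (X ^ r - 1) := hg.coprime_iff_not_dvd.mpr hnd
  obtain ⟨u, w, huw⟩ := hcop
  have h1 := congrArg (aeval M) huw
  rw [map_add, map_mul, map_mul, map_sub, map_pow, aeval_X, map_one, hM, sub_self, mul_zero,
    add_zero] at h1
  have h2 := congrArg Matrix.det h1
  rw [Matrix.det_mul, det_aeval_eq_zero M g hg hgd, mul_zero, Matrix.det_one] at h2
  exact zero_ne_one h2

theorem pow_eq_one_of_charpoly_dvd {n : ℕ} (M : Matrix (Fin n) (Fin n) F)
    (hss : Module.End.IsSemisimple (Matrix.toLin' M)) (r k : ℕ)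
    (hd : M.charpoly ∣ (X ^ r - 1) ^ k) : M ^ r = 1 := by
  have h1 : aeval M ((X ^ r - 1 : F[X]) ^ k) = 0 := by
    obtain ⟨c, hc⟩ := hd
    rw [hc, map_mul, Matrix.aeval_self_charpoly, zero_mul]
  have h2 : (aeval (Matrix.toLin' M) (X ^ r - 1 : F[X])) ^ k = 0 := by
    rw [← map_pow, toLin_aeval, h1, map_zero]
  have h3 : aeval (Matrix.toLin' M) (X ^ r - 1 : F[X]) = 0 :=
    Module.End.eq_zero_of_isNilpotent_isSemisimple ⟨k, h2⟩ (hss.aeval _)
  rw [toLin_aeval] at h3
  have h4 : aeval M (X ^ r - 1 : F[X]) = 0 := by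
    apply (Matrix.toLin' (R := F) (m := Fin n) (n := Fin n)).injective
    rw [h3, map_zero]
  rw [map_sub, map_pow, aeval_X, map_one] at h4
  exact sub_eq_zero.mp h4

/-- Conjugacy classes of elements of order dividing a prime `r` (not the characteristic) in
`GL_n` correspond to exponent vectors over the monic irreducible factors of `X ^ r - 1`. -/
theorem gl_pow_classes [Fintype F] (p : ℕ) [Fact p.Prime] [CharP F p] (n r : ℕ) (hr : r.Prime)
    (hrp : r ≠ p) {J : Type} [Fintype J] [DecidableEq J] (h : J → F[X])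
    (hinj : Function.Injective h) (hirr : ∀ j, Irreducible (h j)) (hmon : ∀ j, (h j).Monic)
    (hdiv : ∀ j, h j ∣ X ^ r - 1)
    (hall : ∀ g : F[X], g.Monic → Irreducible g → g ∣ X ^ r - 1 → ∃ j, h j = g) :
    Nat.card {C : ConjClasses (Matrix.GeneralLinearGroup (Fin n) F) //
        ∃ g : Matrix.GeneralLinearGroup (Fin n) F, ConjClasses.mk g = C ∧ g ^ r = 1} =
      Nat.card {a : J → ℕ // ∑ j, a j * (h j).natDegree = n} := by
  classical
  have hp : p.Prime := Fact.out
  have hcop : r.Coprime p := (Nat.coprime_primes hr hp).mpr hrp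
  have hval : ∀ g : Matrix.GeneralLinearGroup (Fin n) F, g ^ r = 1 →
      (g : Matrix (Fin n) (Fin n) F) ^ r = 1 := by
    intro g hg
    rw [← Units.val_pow_eq_pow_val, hg]
    rfl
  have hss : ∀ g : Matrix.GeneralLinearGroup (Fin n) F, g ^ r = 1 →
      Module.End.IsSemisimple (Matrix.toLin' (g : Matrix (Fin n) (Fin n) F)) :=
    fun g hg => ss_of_pow p _ r hcop (hval g hg)
  have hexp : ∀ g : Matrix.GeneralLinearGroup (Fin n) F, g ^ r = 1 →
      ∃ a : J → ℕ, (∑ j, a j * (h j).natDegree = n) ∧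
        (g : Matrix (Fin n) (Fin n) F).charpoly = ∏ j, h j ^ a j := by
    intro g hg
    obtain ⟨a, ha⟩ := exists_exponents h _ _ (Nat.lt_succ_self _) (Matrix.charpoly_monic _)
      (fun g' hg'm hg'i hg'd => hall g' hg'm hg'i
        (irr_dvd_of_pow_eq_one _ r (hval g hg) g' hg'i hg'd))
    refine ⟨a, ?_, ha⟩
    rw [← natDegree_prod_pow h hmon a, ← ha, (charpoly_props _).2]
  have hrep : ∀ c : {C : ConjClasses (Matrix.GeneralLinearGroup (Fin n) F) //
      ∃ g : Matrix.GeneralLinearGroup (Fin n) F, ConjClasses.mk g = C ∧ g ^ r = 1},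
      ∃ g : Matrix.GeneralLinearGroup (Fin n) F, ConjClasses.mk g = c.1 ∧ g ^ r = 1 := fun c => c.2
  choose rep hrep1 hrep2 using hrep
  have hexp' : ∀ c : {C : ConjClasses (Matrix.GeneralLinearGroup (Fin n) F) //
      ∃ g : Matrix.GeneralLinearGroup (Fin n) F, ConjClasses.mk g = C ∧ g ^ r = 1},
      ∃ a : J → ℕ, (∑ j, a j * (h j).natDegree = n) ∧
        ((rep c : Matrix.GeneralLinearGroup (Fin n) F) : Matrix (Fin n) (Fin n) F).charpoly =
          ∏ j, h j ^ a j := fun c => hexp (rep c) (hrep2 c)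
  choose ex hex1 hex2 using hexp'
  apply Nat.card_eq_of_bijective
    (fun c => (⟨ex c, hex1 c⟩ : {a : J → ℕ // ∑ j, a j * (h j).natDegree = n}))
  constructor
  · intro c c' hcc
    have h1 : ex c = ex c' := congrArg Subtype.val hcc
    apply Subtype.ext
    rw [← hrep1 c, ← hrep1 c', ConjClasses.mk_eq_mk_iff_isConj]
    apply ss_isConj _ _ (hss _ (hrep2 c)) (hss _ (hrep2 c'))
    rw [hex2 c, hex2 c', h1]
  · rintro ⟨a, ha⟩
    obtain ⟨f, hf⟩ : ∃ f : F[X], f = ∏ j, h j ^ a j := ⟨_, rfl⟩
    have hfm : f.Monic := by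
      rw [hf]
      exact monic_prod_pow h hmon a
    have hfd : f.natDegree = n := by
      rw [hf, natDegree_prod_pow h hmon a, ha]
    have hfdvd : f ∣ (X ^ r - 1) ^ (∑ j, a j) := by
      rw [hf, ← Finset.prod_pow_eq_pow_sum]
      exact Finset.prod_dvd_prod_of_dvd _ _ (fun j _ => pow_dvd_pow_of_dvd (hdiv j) (a j))
    have hf0 : f.coeff 0 ≠ 0 := by
      intro h0
      have hX : (X : F[X]) ∣ f := Polynomial.X_dvd_iff.mpr h0
      have hX2 : (X : F[X]) ∣ (X ^ r - 1) ^ (∑ j, a j) := hX.trans hfdvd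
      have hX3 : (X : F[X]) ∣ X ^ r - 1 := Polynomial.prime_X.dvd_of_dvd_pow hX2
      have h4 := Polynomial.X_dvd_iff.mp hX3
      rw [Polynomial.coeff_sub, Polynomial.coeff_X_pow, Polynomial.coeff_one_zero,
        if_neg hr.ne_zero.symm, zero_sub] at h4
      exact one_ne_zero (neg_eq_zero.mp h4)
    obtain ⟨g, hg, hgo⟩ := exists_charpoly p n f hfm hfd hf0
    have hgss := ss_of_order p g hgo
    have hgr : g ^ r = 1 := by
      apply Units.ext
      rw [Units.val_pow_eq_pow_val]
      exact pow_eq_one_of_charpoly_dvd _ hgss r _ (by rw [hg]; exact hfdvd)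
    refine ⟨⟨ConjClasses.mk g, g, rfl, hgr⟩, ?_⟩
    apply Subtype.ext
    show ex ⟨ConjClasses.mk g, g, rfl, hgr⟩ = a
    apply prod_pow_injective h hinj hirr hmon
    show ∏ j, h j ^ ex ⟨ConjClasses.mk g, g, rfl, hgr⟩ j = ∏ j, h j ^ a j
    rw [← hex2, ← hf, ← hg]
    exact charpoly_of_isConj (ConjClasses.mk_eq_mk_iff_isConj.mp
      (hrep1 ⟨ConjClasses.mk g, g, rfl, hgr⟩))

/-- Classes of elements of prime order `r` are the classes of elements of order dividing `r`
other than the identity class. -/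
theorem order_classes_card {G : Type*} [Group G] [Finite G] (r : ℕ) (hr : r.Prime) :
    Nat.card {C : ConjClasses G // ∃ g : G, ConjClasses.mk g = C ∧ orderOf g = r} =
      Nat.card {C : ConjClasses G // ∃ g : G, ConjClasses.mk g = C ∧ g ^ r = 1} - 1 := by
  have : Fact r.Prime := ⟨hr⟩
  have e1 : {C : ConjClasses G | ∃ g : G, ConjClasses.mk g = C ∧ g ^ r = 1} =
      insert (ConjClasses.mk 1) {C : ConjClasses G | ∃ g : G, ConjClasses.mk g = C ∧
        orderOf g = r} := by
    ext C
    constructor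
    · rintro ⟨g, rfl, hg⟩
      by_cases h1 : g = 1
      · left
        rw [h1]
      · right
        exact ⟨g, rfl, orderOf_eq_prime hg h1⟩
    · rintro (rfl | ⟨g, rfl, hg⟩)
      · exact ⟨1, rfl, one_pow r⟩
      · exact ⟨g, rfl, by rw [← hg]; exact pow_orderOf_eq_one g⟩
  have e2 : ConjClasses.mk (1 : G) ∉ {C : ConjClasses G | ∃ g : G, ConjClasses.mk g = C ∧
      orderOf g = r} := by
    rintro ⟨g, hg, ho⟩
    have h1 : g = 1 := isConj_one_left.mp (ConjClasses.mk_eq_mk_iff_isConj.mp hg)
    rw [h1, orderOf_one] at ho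
    exact hr.one_lt.ne ho
  have e3 : Nat.card {C : ConjClasses G // ∃ g : G, ConjClasses.mk g = C ∧ g ^ r = 1} =
      Nat.card {C : ConjClasses G // ∃ g : G, ConjClasses.mk g = C ∧ orderOf g = r} + 1 := by
    show Nat.card ↥{C : ConjClasses G | ∃ g : G, ConjClasses.mk g = C ∧ g ^ r = 1} =
      Nat.card ↥{C : ConjClasses G | ∃ g : G, ConjClasses.mk g = C ∧ orderOf g = r} + 1
    rw [Nat.card_coe_set_eq, Nat.card_coe_set_eq, e1, Set.ncard_insert_of_notMem e2 (Set.toFinite _)]
  rw [e3, Nat.add_sub_cancel]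

/-- The monic irreducible factors of `X ^ r - 1` over a finite field, `r` a prime different from
the characteristic. -/
theorem cyc_family [Fintype F] (p : ℕ) [Fact p.Prime] [CharP F p] (r : ℕ) (hr : r.Prime)
    (hrp : r ≠ p) (d t : ℕ) (hd : d = orderOf ((Fintype.card F : ℕ) : ZMod r))
    (ht : t * d = r - 1) :
    ∃ h : Fin (t + 1) → F[X], Function.Injective h ∧ (∀ j, Irreducible (h j)) ∧
      (∀ j, (h j).Monic) ∧ (∀ j, h j ∣ X ^ r - 1) ∧
      (∀ g : F[X], g.Monic → Irreducible g → g ∣ X ^ r - 1 → ∃ j, h j = g) ∧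
      h 0 = X - 1 ∧ (∀ j : Fin t, (h j.succ).natDegree = d) ∧
      (∀ j : Fin t, h j.succ ∣ cyclotomic r F) := by
  classical
  have hp : p.Prime := Fact.out
  have : Fact r.Prime := ⟨hr⟩
  obtain ⟨k, -, hcard⟩ := FiniteField.card F p
  have hcop : p.Coprime r := (Nat.coprime_primes hp hr).mpr (Ne.symm hrp)
  have hord : orderOf (ZMod.unitOfCoprime (p ^ (k : ℕ)) (hcop.pow_left (k : ℕ))) = d := by
    rw [← orderOf_units, ZMod.coe_unitOfCoprime, hd, hcard]
  have hdeg : ∀ P : F[X], P ∣ cyclotomic r F → Irreducible P → P.natDegree = d := by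
    intro P hP hPi
    rw [Polynomial.natDegree_of_dvd_cyclotomic_of_irreducible hcard hcop hP hPi, hord]
  have hd0 : 0 < d := by
    rw [← hord]
    exact orderOf_pos _
  have hr1 : 1 ≤ r := hr.one_lt.le
  have hcardG : (UniqueFactorizationMonoid.normalizedFactors (cyclotomic r F)).toFinset.card =
      t := by
    rw [Polynomial.normalizedFactors_cyclotomic_card hcard hcop, Nat.totient_prime hr, hord, ← ht,
      Nat.mul_div_cancel _ hd0]
  have hcardG' : Fintype.card ↥(UniqueFactorizationMonoid.normalizedFactors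
      (cyclotomic r F)).toFinset = t := by
    rw [Fintype.card_coe, hcardG]
  obtain ⟨e⟩ : Nonempty (Fin t ≃ ↥(UniqueFactorizationMonoid.normalizedFactors
      (cyclotomic r F)).toFinset) := ⟨(Fintype.equivFinOfCardEq hcardG').symm⟩
  have hmemG : ∀ P : F[X], P ∈ (UniqueFactorizationMonoid.normalizedFactors
      (cyclotomic r F)).toFinset ↔ (P.Monic ∧ Irreducible P ∧ P ∣ cyclotomic r F) := by
    intro P
    rw [Multiset.mem_toFinset,
      UniqueFactorizationMonoid.mem_normalizedFactors_iff' (cyclotomic_ne_zero r F)]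
    constructor
    · rintro ⟨h1, h2, h3⟩
      refine ⟨?_, h1, h3⟩
      rw [← h2]
      exact Polynomial.monic_normalize h1.ne_zero
    · rintro ⟨h1, h2, h3⟩
      exact ⟨h2, h1.normalize_eq_self, h3⟩
  have hX1 : ¬ ((X - 1 : F[X]) ∣ cyclotomic r F) := by
    intro hdvd
    have h1 : (cyclotomic r F).eval 1 = 0 := by
      obtain ⟨c, hc⟩ := hdvd
      rw [hc]
      simp
    rw [Polynomial.eval_one_cyclotomic_prime] at h1
    have h2 : p ∣ r := (CharP.cast_eq_zero_iff F p r).mp h1
    exact hrp ((Nat.prime_dvd_prime_iff_eq hp hr).mp h2).symm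
  have hfact : (X ^ r - 1 : F[X]) = cyclotomic r F * (X - 1) :=
    (Polynomial.cyclotomic_prime_mul_X_sub_one F r).symm
  have hXC : (X - 1 : F[X]) = X - C 1 := by
    rw [map_one]
  obtain ⟨h, hh0, hhs⟩ : ∃ h : Fin (t + 1) → F[X], h 0 = X - 1 ∧
      ∀ j : Fin t, h j.succ = ((e j : ↥(UniqueFactorizationMonoid.normalizedFactors
        (cyclotomic r F)).toFinset) : F[X]) :=
    ⟨Fin.cons (X - 1) (fun j => ((e j : ↥(UniqueFactorizationMonoid.normalizedFactors
        (cyclotomic r F)).toFinset) : F[X])), rfl, fun j => rfl⟩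
  have hprop : ∀ j : Fin t, (h j.succ).Monic ∧ Irreducible (h j.succ) ∧
      h j.succ ∣ cyclotomic r F := by
    intro j
    rw [hhs]
    exact (hmemG _).mp (e j).2
  refine ⟨h, ?_, ?_, ?_, ?_, ?_, hh0, ?_, fun j => (hprop j).2.2⟩
  · intro j j' hjj
    induction j using Fin.cases with
    | zero =>
      induction j' using Fin.cases with
      | zero => rfl
      | succ j' =>
        exfalso
        rw [hh0] at hjj
        apply hX1
        rw [hjj]
        exact (hprop j').2.2
    | succ j =>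
      induction j' using Fin.cases with
      | zero =>
        exfalso
        rw [hh0] at hjj
        apply hX1
        rw [← hjj]
        exact (hprop j).2.2
      | succ j' =>
        rw [hhs, hhs] at hjj
        have h1 := e.injective (Subtype.ext hjj)
        rw [h1]
  · intro j
    induction j using Fin.cases with
    | zero =>
      rw [hh0, hXC]
      exact Polynomial.irreducible_X_sub_C 1
    | succ j => exact (hprop j).2.1
  · intro j
    induction j using Fin.cases with
    | zero =>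
      rw [hh0, hXC]
      exact Polynomial.monic_X_sub_C 1
    | succ j => exact (hprop j).1
  · intro j
    induction j using Fin.cases with
    | zero =>
      rw [hh0, hfact]
      exact Dvd.intro_left _ rfl
    | succ j =>
      rw [hfact]
      exact Dvd.dvd.mul_right (hprop j).2.2 _
  · intro g hgm hgi hgd
    rw [hfact] at hgd
    rcases hgi.prime.dvd_or_dvd hgd with h1 | h1
    · have hmem : g ∈ (UniqueFactorizationMonoid.normalizedFactors (cyclotomic r F)).toFinset :=
        (hmemG g).mpr ⟨hgm, hgi, h1⟩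
      refine ⟨(e.symm ⟨g, hmem⟩).succ, ?_⟩
      rw [hhs, Equiv.apply_symm_apply]
    · refine ⟨0, ?_⟩
      rw [hh0]
      have h2 : Irreducible (X - 1 : F[X]) := by
        rw [hXC]
        exact Polynomial.irreducible_X_sub_C 1
      have h3 : (X - 1 : F[X]).Monic := by
        rw [hXC]
        exact Polynomial.monic_X_sub_C 1
      exact (Polynomial.eq_of_monic_of_associated hgm h3 (hgi.associated_of_dvd h2 h1)).symm
  · intro j
    exact hdeg _ (hprop j).2.2 (hprop j).2.1

/-- Counting exponent vectors: one factor of degree one and `t` factors of degree `i`. -/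
theorem card_exponents (n i t : ℕ) (hi : 0 < i) (d : Fin (t + 1) → ℕ) (hd0 : d 0 = 1)
    (hds : ∀ j : Fin t, d j.succ = i) :
    Nat.card {a : Fin (t + 1) → ℕ // ∑ j, a j * d j = n} = Nat.choose (n / i + t) t := by
  have h1 : Nat.card {P : Fin (t + 1) → ℕ // ∑ j, P j = n / i} = Nat.choose (n / i + t) t := by
    rw [← Nat.card_congr (Sym.equivNatSumOfFintype (Fin (t + 1)) (n / i)),
      Nat.card_eq_fintype_card, Sym.card_sym_eq_choose, Fintype.card_fin]
    have e1 : t + 1 + n / i - 1 = n / i + t := by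
      generalize n / i = N
      omega
    rw [e1, Nat.choose_symm_add]
  rw [← h1]
  have key1 : ∀ a : Fin (t + 1) → ℕ, ∑ j, a j * d j = a 0 + i * ∑ j : Fin t, a j.succ := by
    intro a
    rw [Fin.sum_univ_succ, hd0, mul_one, Finset.mul_sum]
    congr 1
    apply Finset.sum_congr rfl
    intro j _
    rw [hds, mul_comm]
  have key2 : ∀ a : Fin (t + 1) → ℕ, ∑ j, a j * d j = n → ∑ j : Fin t, a j.succ ≤ n / i := by
    intro a ha
    rw [key1] at ha
    rw [Nat.le_div_iff_mul_le hi]
    rw [mul_comm]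
    omega
  have key3 : ∀ a : {a : Fin (t + 1) → ℕ // ∑ j, a j * d j = n},
      ∑ j, (Fin.cons (n / i - ∑ j : Fin t, a.1 j.succ) (fun j : Fin t => a.1 j.succ) :
        Fin (t + 1) → ℕ) j = n / i := by
    intro a
    rw [Fin.sum_univ_succ]
    simp only [Fin.cons_zero, Fin.cons_succ]
    have := key2 a.1 a.2
    omega
  apply Nat.card_eq_of_bijective (fun a : {a : Fin (t + 1) → ℕ // ∑ j, a j * d j = n} =>
      (⟨Fin.cons (n / i - ∑ j : Fin t, a.1 j.succ) (fun j : Fin t => a.1 j.succ), key3 a⟩ :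
        {P : Fin (t + 1) → ℕ // ∑ j, P j = n / i}))
  constructor
  · rintro ⟨a, ha⟩ ⟨a', ha'⟩ haa
    have h2 : (Fin.cons (n / i - ∑ j : Fin t, a j.succ) (fun j : Fin t => a j.succ) :
        Fin (t + 1) → ℕ) = Fin.cons (n / i - ∑ j : Fin t, a' j.succ) (fun j : Fin t => a' j.succ) :=
      congrArg Subtype.val haa
    have h3 : ∀ j : Fin t, a j.succ = a' j.succ := by
      intro j
      have h4 := congrFun h2 j.succ
      simp only [Fin.cons_succ] at h4
      exact h4
    have h5 : ∑ j : Fin t, a j.succ = ∑ j : Fin t, a' j.succ :=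
      Finset.sum_congr rfl (fun j _ => h3 j)
    rw [key1] at ha ha'
    apply Subtype.ext
    funext j
    induction j using Fin.cases with
    | zero =>
      show a 0 = a' 0
      rw [h5] at ha
      omega
    | succ j => exact h3 j
  · rintro ⟨P, hP⟩
    have hP' : P 0 + ∑ j : Fin t, P j.succ = n / i := by
      rw [← Fin.sum_univ_succ]
      exact hP
    have h60 : ∑ j : Fin t, P j.succ ≤ n / i := by omega
    have h6 : i * ∑ j : Fin t, P j.succ ≤ n := by
      calc i * ∑ j : Fin t, P j.succ ≤ i * (n / i) := Nat.mul_le_mul_left i h60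
        _ ≤ n := Nat.mul_div_le n i
    have h7 : ∑ j, (Fin.cons (n - i * ∑ j : Fin t, P j.succ) (fun j : Fin t => P j.succ) :
        Fin (t + 1) → ℕ) j * d j = n := by
      rw [key1]
      simp only [Fin.cons_zero, Fin.cons_succ]
      omega
    refine ⟨⟨Fin.cons (n - i * ∑ j : Fin t, P j.succ) (fun j : Fin t => P j.succ), h7⟩, ?_⟩
    apply Subtype.ext
    funext j
    induction j using Fin.cases with
    | zero =>
      show n / i - ∑ j : Fin t, (Fin.cons (n - i * ∑ j : Fin t, P j.succ)
        (fun j : Fin t => P j.succ) : Fin (t + 1) → ℕ) j.succ = P 0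
      simp only [Fin.cons_succ]
      omega
    | succ j =>
      show (Fin.cons (n - i * ∑ j : Fin t, P j.succ) (fun j : Fin t => P j.succ) :
        Fin (t + 1) → ℕ) j.succ = P j.succ
      simp only [Fin.cons_succ]

end Cfsg.Agent.Lib.Helper15.Semi
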