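import Cfsg.Agent.Lib.Helper15.WallA

set_option autoImplicit false

namespace Cfsg.Agent.Lib.Helper15.Wall

open Polynomial Matrix

variable {K : Type*} [Field K] {n : Type*} [Fintype n] [DecidableEq n]

/-- Conjugate transpose with respect to a ring endomorphism. -/
def cstar (φ : K →+* K) (M : Matrix n n K) : Matrix n n K := (M.map φ)ᵀ

theorem cstar_apply (φ : K →+* K) (M : Matrix n n K) (i j : n) : cstar φ M i j = φ (M j i) := rfl

theorem cstar_mul (φ : K →+* K) (M N : Matrix n n K) :
    cstar φ (M * N) = cstar φ N * cstar φ M := by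
  unfold cstar
  rw [Matrix.map_mul, Matrix.transpose_mul]

theorem cstar_one (φ : K →+* K) : cstar φ (1 : Matrix n n K) = 1 := by
  unfold cstar
  rw [Matrix.map_one _ (map_zero φ) (map_one φ), Matrix.transpose_one]

theorem cstar_cstar (φ : K →+* K) (hφ : ∀ x, φ (φ x) = x) (M : Matrix n n K) :
    cstar φ (cstar φ M) = M := by
  ext i j
  rw [cstar_apply, cstar_apply, hφ]

theorem cstar_add (φ : K →+* K) (M N : Matrix n n K) :
    cstar φ (M + N) = cstar φ M + cstar φ N := by
  ext i j
  rw [cstar_apply, Matrix.add_apply, Matrix.add_apply, cstar_apply, cstar_apply, map_add]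

theorem cstar_smul (φ : K →+* K) (c : K) (M : Matrix n n K) :
    cstar φ (c • M) = φ c • cstar φ M := by
  ext i j
  rw [cstar_apply, Matrix.smul_apply, Matrix.smul_apply, cstar_apply, smul_eq_mul, smul_eq_mul,
    map_mul]

theorem cstar_pow (φ : K →+* K) (M : Matrix n n K) (k : ℕ) :
    cstar φ (M ^ k) = cstar φ M ^ k := by
  induction k with
  | zero => rw [pow_zero, pow_zero, cstar_one]
  | succ k ih => rw [pow_succ, cstar_mul, ih, pow_succ']

theorem cstar_det (φ : K →+* K) (M : Matrix n n K) : (cstar φ M).det = φ M.det := by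
  unfold cstar
  rw [Matrix.det_transpose]
  exact (RingHom.map_det φ M).symm

theorem cstar_aeval (φ : K →+* K) (h : Matrix n n K) (f : K[X]) :
    cstar φ (aeval h f) = aeval (cstar φ h) (cj φ f) := by
  induction f using Polynomial.induction_on' with
  | add p q hp hq => rw [map_add, cstar_add, hp, hq, map_add, map_add]
  | monomial k a =>
    rw [Polynomial.aeval_monomial, cj_apply, Polynomial.map_monomial, Polynomial.aeval_monomial,
      Algebra.algebraMap_eq_smul_one, Algebra.algebraMap_eq_smul_one, smul_mul_assoc, one_mul,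
      smul_mul_assoc, one_mul, cstar_smul, cstar_pow]

theorem commute_aeval (a h : Matrix n n K) (hah : a * h = h * a) (f : K[X]) :
    a * aeval h f = aeval h f * a := by
  have hc : Commute a h := hah
  induction f using Polynomial.induction_on' with
  | add p q hp hq => rw [map_add, mul_add, add_mul, hp, hq]
  | monomial k c =>
    rw [Polynomial.aeval_monomial, ← mul_assoc, ← Algebra.commutes, mul_assoc,
      (hc.pow_right k).eq, mul_assoc]

/-- Every invertible Hermitian matrix over a finite field with an involution is `c* c` with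
`c` a polynomial in it. -/
theorem herm_factor [Finite K] (φ : K →+* K) (hφ : ∀ x, φ (φ x) = x) (hne : ∃ a, φ a ≠ a)
    (h : Matrix n n K) (hdet : h.det ≠ 0) (hh : cstar φ h = h) :
    ∃ f : K[X], cstar φ (aeval h f) * aeval h f = h := by
  obtain ⟨a, ha⟩ := hne
  have ha' : a - φ a ≠ 0 := fun h0 => ha (sub_eq_zero.mp h0).symm
  have hlam : a / (a - φ a) + φ (a / (a - φ a)) = 1 := by
    rw [map_div₀, map_sub, hφ]
    have h2 : φ a - a ≠ 0 := fun h0 => ha (sub_eq_zero.mp h0)
    field_simp
    ring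
  have hp0 : h.charpoly ≠ 0 := (Matrix.charpoly_monic h).ne_zero
  have hpreal : cj φ h.charpoly = h.charpoly := by
    rw [cj_apply, ← Matrix.charpoly_map, ← Matrix.charpoly_transpose]
    exact congrArg Matrix.charpoly hh
  have hpX : IsCoprime h.charpoly X := by
    apply IsCoprime.symm
    apply Polynomial.irreducible_X.coprime_iff_not_dvd.mpr
    rw [Polynomial.X_dvd_iff]
    intro h0
    apply hdet
    rw [Matrix.det_eq_sign_charpoly_coeff, h0, mul_zero]
  obtain ⟨g, k, hk⟩ := exists_norm_X φ hφ ⟨a, ha⟩ _ hlam h.charpoly.natDegree h.charpoly rfl hp0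
    (by rw [hpreal]) hpX
  refine ⟨g, ?_⟩
  have h1 : cj φ g * g = X + h.charpoly * k := by linear_combination hk
  rw [cstar_aeval, hh, ← map_mul, h1, map_add, map_mul, Matrix.aeval_self_charpoly, zero_mul,
    add_zero, Polynomial.aeval_X]

/-- Two unitary matrices conjugate under an invertible matrix are conjugate under a unitary
matrix. -/
theorem unitary_conj [Finite K] (φ : K →+* K) (hφ : ∀ x, φ (φ x) = x) (hne : ∃ a, φ a ≠ a)
    (a b G : Matrix n n K) (ha : cstar φ a * a = 1) (hb : cstar φ b * b = 1) (hG : G.det ≠ 0)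
    (hGab : G * a = b * G) :
    ∃ u : Matrix n n K, cstar φ u * u = 1 ∧ u * a = b * u := by
  obtain ⟨h, hhdef⟩ : ∃ h : Matrix n n K, h = cstar φ G * G := ⟨_, rfl⟩
  have hh : cstar φ h = h := by
    rw [hhdef, cstar_mul, cstar_cstar φ hφ]
  have hdet : h.det ≠ 0 := by
    rw [hhdef, Matrix.det_mul, cstar_det]
    exact mul_ne_zero ((map_ne_zero φ).mpr hG) hG
  have haa : a * cstar φ a = 1 := mul_eq_one_comm.mp ha
  have key : cstar φ a * h * a = h := by
    calc cstar φ a * h * a = cstar φ (G * a) * (G * a) := by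
          rw [hhdef, cstar_mul]
          simp only [Matrix.mul_assoc]
      _ = cstar φ (b * G) * (b * G) := by rw [hGab]
      _ = cstar φ G * (cstar φ b * b) * G := by
          rw [cstar_mul]
          simp only [Matrix.mul_assoc]
      _ = h := by rw [hb, Matrix.mul_one, hhdef]
  have hcomm : a * h = h * a := by
    calc a * h = a * (cstar φ a * h * a) := by rw [key]
      _ = (a * cstar φ a) * h * a := by simp only [Matrix.mul_assoc]
      _ = h * a := by rw [haa, Matrix.one_mul]
  obtain ⟨f, hf⟩ := herm_factor φ hφ hne h hdet hh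
  obtain ⟨c, hc⟩ : ∃ c : Matrix n n K, c = aeval h f := ⟨_, rfl⟩
  rw [← hc] at hf
  have hca : a * c = c * a := by
    rw [hc]
    exact commute_aeval a h hcomm f
  have hcdet : c.det ≠ 0 := by
    intro h0
    apply hdet
    rw [← hf, Matrix.det_mul, h0, mul_zero]
  have hcu : IsUnit c.det := isUnit_iff_ne_zero.mpr hcdet
  have hci1 : c * c⁻¹ = 1 := Matrix.mul_nonsing_inv c hcu
  have hci2 : c⁻¹ * c = 1 := Matrix.nonsing_inv_mul c hcu
  have hcia : c⁻¹ * a = a * c⁻¹ := by
    calc c⁻¹ * a = c⁻¹ * a * (c * c⁻¹) := by rw [hci1, Matrix.mul_one]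
      _ = c⁻¹ * (a * c) * c⁻¹ := by simp only [Matrix.mul_assoc]
      _ = c⁻¹ * (c * a) * c⁻¹ := by rw [hca]
      _ = (c⁻¹ * c) * a * c⁻¹ := by simp only [Matrix.mul_assoc]
      _ = a * c⁻¹ := by rw [hci2, Matrix.one_mul]
  refine ⟨G * c⁻¹, ?_, ?_⟩
  · calc cstar φ (G * c⁻¹) * (G * c⁻¹) = cstar φ c⁻¹ * (cstar φ G * G) * c⁻¹ := by
          rw [cstar_mul]
          simp only [Matrix.mul_assoc]
      _ = cstar φ c⁻¹ * (cstar φ c * c) * c⁻¹ := by rw [← hhdef, hf]
      _ = (cstar φ c⁻¹ * cstar φ c) * (c * c⁻¹) := by simp only [Matrix.mul_assoc]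
      _ = 1 := by rw [← cstar_mul, hci1, cstar_one, Matrix.mul_one]
  · calc G * c⁻¹ * a = G * (c⁻¹ * a) := by rw [Matrix.mul_assoc]
      _ = G * a * c⁻¹ := by rw [hcia, Matrix.mul_assoc]
      _ = b * (G * c⁻¹) := by rw [hGab, Matrix.mul_assoc]

end Cfsg.Agent.Lib.Helper15.Wall
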