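import Cfsg.Prelude.Def_LieClassical
import Cfsg.Agent.Lib.Helper15.LawUnitary
import Cfsg.Agent.Lib.Helper15.WallB

set_option autoImplicit false

namespace Cfsg.Agent.Lib.Helper15.Wall

open Polynomial Matrix

/-- Hilbert 90 for a finite commutative group with an involution whose norm is onto the fixed
points. -/
theorem hilbert90 {G : Type*} [CommGroup G] [Finite G] (s : G →* G) (hs : ∀ x, s (s x) = x)
    (hN : ∀ z, s z = z → ∃ w, w * s w = z) (r : G) (hr : r * s r = 1) :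
    ∃ x : G, x = s x * r := by
  let Nm : G →* G := MonoidHom.id G * s
  let D : G →* G := MonoidHom.id G * s⁻¹
  have hNm : ∀ x, Nm x = x * s x := fun x => rfl
  have hD : ∀ x, D x = x * (s x)⁻¹ := fun x => rfl
  have h1 : D.ker = Nm.range := by
    ext z
    rw [MonoidHom.mem_ker, MonoidHom.mem_range, hD]
    constructor
    · intro h
      have hz : s z = z := (mul_inv_eq_one.mp h).symm
      obtain ⟨w, hw⟩ := hN z hz
      exact ⟨w, hw⟩
    · rintro ⟨w, rfl⟩
      rw [hNm, map_mul, hs, mul_comm (s w) w, mul_inv_cancel]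
  have h2 : D.range ≤ Nm.ker := by
    rintro _ ⟨x, rfl⟩
    rw [MonoidHom.mem_ker, hNm, hD, map_mul, map_inv, hs]
    group
  have h3 : Nat.card D.range = Nat.card Nm.ker := by
    have e1 := Subgroup.card_mul_index D.ker
    have e2 := Subgroup.card_mul_index Nm.ker
    rw [Subgroup.index_ker] at e1 e2
    rw [h1] at e1
    have hpos : 0 < Nat.card Nm.range := Nat.card_pos
    have e3 : Nat.card Nm.range * Nat.card D.range = Nat.card Nm.range * Nat.card Nm.ker := by
      rw [e1, mul_comm, e2]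
    exact Nat.eq_of_mul_eq_mul_left hpos e3
  have h4 : D.range = Nm.ker := Subgroup.eq_of_le_of_card_ge h2 (le_of_eq h3.symm)
  have h5 : r ∈ Nm.ker := by
    rw [MonoidHom.mem_ker, hNm]
    exact hr
  rw [← h4] at h5
  obtain ⟨x, hx⟩ := h5
  refine ⟨x, ?_⟩
  rw [hD] at hx
  rw [← hx, mul_comm, inv_mul_cancel_right]

variable {K : Type*} [Field K]

theorem exists_trace_one (φ : K →+* K) (hφ : ∀ x, φ (φ x) = x) (hne : ∃ a, φ a ≠ a) :
    ∃ lam : K, lam + φ lam = 1 := by
  obtain ⟨a, ha⟩ := hne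
  have ha' : a - φ a ≠ 0 := fun h0 => ha (sub_eq_zero.mp h0).symm
  refine ⟨a / (a - φ a), ?_⟩
  rw [map_div₀, map_sub, hφ]
  have h2 : φ a - a ≠ 0 := fun h0 => ha (sub_eq_zero.mp h0)
  field_simp
  ring

section Cyc

theorem cyc_ne_zero (N : ℕ) (hN : 0 < N) : (X ^ N - 1 : K[X]) ≠ 0 := by
  have h := Polynomial.X_pow_sub_C_ne_zero hN (1 : K)
  rwa [Polynomial.C_1] at h

theorem cyc_root_pow (N : ℕ) : (AdjoinRoot.root (X ^ N - 1 : K[X])) ^ N = 1 := by
  have h : AdjoinRoot.mk (X ^ N - 1 : K[X]) (X ^ N - 1) = 0 := AdjoinRoot.mk_self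
  rw [map_sub, map_pow, AdjoinRoot.mk_X, map_one] at h
  exact sub_eq_zero.mp h

theorem cyc_root_sq (N : ℕ) (hN : 0 < N) :
    (AdjoinRoot.root (X ^ N - 1 : K[X])) ^ ((N - 1) * (N - 1)) = AdjoinRoot.root (X ^ N - 1 : K[X]) := by
  have hexp : (N - 1) * (N - 1) = N * (N - 2) + 1 ∨ N = 1 := by
    rcases Nat.lt_or_ge N 2 with h | h
    · right
      omega
    · left
      obtain ⟨k, rfl⟩ : ∃ k, N = k + 2 := ⟨N - 2, by omega⟩
      have e1 : k + 2 - 1 = k + 1 := by omega
      have e2 : k + 2 - 2 = k := by omega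
      rw [e1, e2]
      ring
  have h2 : ∀ m : ℕ, m = 1 →
      (AdjoinRoot.root (X ^ N - 1 : K[X])) ^ m = AdjoinRoot.root (X ^ N - 1 : K[X]) :=
    fun m hm => by rw [hm, pow_one]
  rcases hexp with h | h
  · rw [h, pow_succ, pow_mul, cyc_root_pow, one_pow, one_mul]
  · have h0 : (N - 1) * (N - 1) = 0 := by
      have : N - 1 = 0 := by omega
      rw [this]
    have h1 := cyc_root_pow (K := K) N
    rw [h0, pow_zero]
    exact h1.symm.trans (h2 N h)

theorem cyc_sharp_aux (φ : K →+* K) (N : ℕ) :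
    (X ^ N - 1 : K[X]).eval₂ ((AdjoinRoot.of (X ^ N - 1 : K[X])).comp φ)
      ((AdjoinRoot.root (X ^ N - 1 : K[X])) ^ (N - 1)) = 0 := by
  rw [Polynomial.eval₂_sub, Polynomial.eval₂_X_pow, Polynomial.eval₂_one, ← pow_mul, mul_comm,
    pow_mul, cyc_root_pow, one_pow, sub_self]

/-- The twisted involution of the cyclic group algebra: conjugate coefficients and invert the
generator. -/
noncomputable def cycSharp (φ : K →+* K) (N : ℕ) :
    AdjoinRoot (X ^ N - 1 : K[X]) →+* AdjoinRoot (X ^ N - 1 : K[X]) :=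
  AdjoinRoot.lift ((AdjoinRoot.of (X ^ N - 1 : K[X])).comp φ)
    ((AdjoinRoot.root (X ^ N - 1 : K[X])) ^ (N - 1)) (cyc_sharp_aux φ N)

theorem cycSharp_of (φ : K →+* K) (N : ℕ) (a : K) :
    cycSharp φ N (AdjoinRoot.of (X ^ N - 1 : K[X]) a) = AdjoinRoot.of (X ^ N - 1 : K[X]) (φ a) := by
  unfold cycSharp
  rw [AdjoinRoot.lift_of]
  rfl

theorem cycSharp_root (φ : K →+* K) (N : ℕ) :
    cycSharp φ N (AdjoinRoot.root (X ^ N - 1 : K[X])) =
      (AdjoinRoot.root (X ^ N - 1 : K[X])) ^ (N - 1) := by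
  unfold cycSharp
  rw [AdjoinRoot.lift_root]

theorem cycSharp_aeval (φ : K →+* K) (N : ℕ) (y : AdjoinRoot (X ^ N - 1 : K[X])) (f : K[X]) :
    cycSharp φ N (aeval y f) = aeval (cycSharp φ N y) (cj φ f) := by
  rw [Polynomial.aeval_def, Polynomial.hom_eval₂, Polynomial.aeval_def, cj_apply,
    Polynomial.eval₂_map]
  congr 1
  apply RingHom.ext
  intro a
  show cycSharp φ N (algebraMap K _ a) = algebraMap K _ (φ a)
  rw [AdjoinRoot.algebraMap_eq, cycSharp_of]

theorem cycSharp_invol (φ : K →+* K) (hφ : ∀ x, φ (φ x) = x) (N : ℕ) (hN : 0 < N)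
    (x : AdjoinRoot (X ^ N - 1 : K[X])) : cycSharp φ N (cycSharp φ N x) = x := by
  obtain ⟨f, rfl⟩ := AdjoinRoot.mk_surjective x
  rw [← AdjoinRoot.aeval_eq, cycSharp_aeval, cycSharp_aeval, cj_cj φ hφ, cycSharp_root, map_pow,
    cycSharp_root, ← pow_mul, cyc_root_sq N hN]

theorem cyc_finite [Finite K] (N : ℕ) (hN : 0 < N) : Finite (AdjoinRoot (X ^ N - 1 : K[X])) := by
  have : Module.Finite K (AdjoinRoot (X ^ N - 1 : K[X])) :=
    (AdjoinRoot.powerBasis (cyc_ne_zero N hN)).finite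
  exact Module.finite_of_finite K

theorem cyc_norm_surj [Finite K] (φ : K →+* K) (hφ : ∀ x, φ (φ x) = x) (hne : ∃ a, φ a ≠ a)
    (N : ℕ) (hN : 0 < N) (z : (AdjoinRoot (X ^ N - 1 : K[X]))ˣ)
    (hz : cycSharp φ N (z : AdjoinRoot (X ^ N - 1 : K[X])) = z) :
    ∃ w : (AdjoinRoot (X ^ N - 1 : K[X]))ˣ,
      w * Units.map (cycSharp φ N).toMonoidHom w = z := by
  have hfin : Module.Finite K (AdjoinRoot (X ^ N - 1 : K[X])) :=
    (AdjoinRoot.powerBasis (cyc_ne_zero N hN)).finite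
  obtain ⟨lam, hlam⟩ := exists_trace_one φ hφ hne
  have hint : IsIntegral K (z : AdjoinRoot (X ^ N - 1 : K[X])) := IsIntegral.of_finite K _
  obtain ⟨m, hm⟩ : ∃ m : K[X], m = minpoly K (z : AdjoinRoot (X ^ N - 1 : K[X])) := ⟨_, rfl⟩
  have hm0 : m ≠ 0 := by
    rw [hm]
    exact minpoly.ne_zero hint
  have hmz : aeval (z : AdjoinRoot (X ^ N - 1 : K[X])) m = 0 := by
    rw [hm]
    exact minpoly.aeval K _
  have hreal : m ∣ cj φ m := by
    have h0 : aeval (z : AdjoinRoot (X ^ N - 1 : K[X])) (cj φ m) = 0 := by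
      rw [← hz, ← cycSharp_aeval, hmz, map_zero]
    have h1 := minpoly.dvd K (z : AdjoinRoot (X ^ N - 1 : K[X])) h0
    rwa [← hm] at h1
  have hX : IsCoprime m X := by
    apply IsCoprime.symm
    apply Polynomial.irreducible_X.coprime_iff_not_dvd.mpr
    rintro ⟨q, hq⟩
    have hq0 : q ≠ 0 := by
      rintro rfl
      exact hm0 (by rw [hq, mul_zero])
    have h1 : aeval (z : AdjoinRoot (X ^ N - 1 : K[X])) q = 0 := by
      have h2 : (z : AdjoinRoot (X ^ N - 1 : K[X])) * aeval (z : AdjoinRoot (X ^ N - 1 : K[X])) q = 0 := by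
        rw [← hmz, hq, map_mul, Polynomial.aeval_X]
      exact (Units.mul_right_eq_zero z).mp h2
    have h3 : m ∣ q := by
      have h4 := minpoly.dvd K (z : AdjoinRoot (X ^ N - 1 : K[X])) h1
      rwa [← hm] at h4
    have h4 := Polynomial.natDegree_le_of_dvd h3 hq0
    rw [hq, Polynomial.natDegree_X_mul hq0] at h4
    omega
  obtain ⟨f, k, hk⟩ := exists_norm_X φ hφ hne lam hlam m.natDegree m rfl hm0 hreal hX
  have h1 : cj φ f * f = X + m * k := by linear_combination hk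
  obtain ⟨w₀, hw₀⟩ : ∃ w₀ : AdjoinRoot (X ^ N - 1 : K[X]),
      w₀ = aeval (z : AdjoinRoot (X ^ N - 1 : K[X])) f := ⟨_, rfl⟩
  have hsw : cycSharp φ N w₀ = aeval (z : AdjoinRoot (X ^ N - 1 : K[X])) (cj φ f) := by
    rw [hw₀, cycSharp_aeval, hz]
  have hw : cycSharp φ N w₀ * w₀ = z := by
    rw [hsw, hw₀, ← map_mul, h1, map_add, map_mul, hmz, zero_mul, add_zero, Polynomial.aeval_X]
  refine ⟨Units.mkOfMulEqOne w₀
    (cycSharp φ N w₀ * ((z⁻¹ : (AdjoinRoot (X ^ N - 1 : K[X]))ˣ) : AdjoinRoot (X ^ N - 1 : K[X]))) ?_, ?_⟩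
  · rw [← mul_assoc, mul_comm w₀, hw, Units.mul_inv]
  · apply Units.ext
    rw [Units.val_mul, Units.coe_map, Units.val_mkOfMulEqOne]
    show w₀ * cycSharp φ N w₀ = z
    rw [mul_comm, hw]

end Cyc

section Mat

variable {n : Type*} [Fintype n] [DecidableEq n]

theorem mat_left_cancel (M A B : Matrix n n K) (hM : M.det ≠ 0) (h : M * A = M * B) : A = B := by
  have hu : IsUnit M.det := isUnit_iff_ne_zero.mpr hM
  calc A = M⁻¹ * (M * A) := by rw [← Matrix.mul_assoc, Matrix.nonsing_inv_mul M hu, Matrix.one_mul]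
    _ = M⁻¹ * (M * B) := by rw [h]
    _ = B := by rw [← Matrix.mul_assoc, Matrix.nonsing_inv_mul M hu, Matrix.one_mul]

theorem conj_aeval (gi g : Matrix n n K) (h1 : g * gi = 1) (h2 : gi * g = 1) (z : Matrix n n K)
    (f : K[X]) : gi * aeval z f * g = aeval (gi * z * g) f := by
  have hpow : ∀ k : ℕ, (gi * z * g) ^ k = gi * z ^ k * g := by
    intro k
    induction k with
    | zero => rw [pow_zero, pow_zero, Matrix.mul_one, h2]
    | succ k ih =>
      rw [pow_succ, ih, pow_succ]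
      calc gi * z ^ k * g * (gi * z * g) = gi * z ^ k * (g * gi) * z * g := by
            simp only [Matrix.mul_assoc]
        _ = gi * (z ^ k * z) * g := by
            rw [h1, Matrix.mul_one]
            simp only [Matrix.mul_assoc]
  induction f using Polynomial.induction_on' with
  | add p q hp hq => rw [map_add, Matrix.mul_add, Matrix.add_mul, hp, hq, map_add]
  | monomial k a =>
    rw [Polynomial.aeval_monomial, Polynomial.aeval_monomial, Algebra.algebraMap_eq_smul_one,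
      smul_mul_assoc, one_mul, smul_mul_assoc, one_mul, Matrix.mul_smul, Matrix.smul_mul, hpow]

/-- An invertible invariant sesquilinear form can be replaced by a Hermitian one. -/
theorem herm_invariant [Finite K] (φ : K →+* K) (hφ : ∀ x, φ (φ x) = x) (hne : ∃ a, φ a ≠ a)
    (a g : Matrix n n K) (ha : a.det ≠ 0) (hg : g.det ≠ 0) (hag : cstar φ a * g * a = g) :
    ∃ h : Matrix n n K, h.det ≠ 0 ∧ cstar φ h = h ∧ cstar φ a * h * a = h := by
  classical
  have hgu : IsUnit g.det := isUnit_iff_ne_zero.mpr hg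
  obtain ⟨gi, hgi⟩ : ∃ gi : Matrix n n K, gi = g⁻¹ := ⟨_, rfl⟩
  have hg1 : g * gi = 1 := by
    rw [hgi]
    exact Matrix.mul_nonsing_inv g hgu
  have hg2 : gi * g = 1 := by
    rw [hgi]
    exact Matrix.nonsing_inv_mul g hgu
  have hsg2 : cstar φ g * cstar φ gi = 1 := by rw [← cstar_mul, hg2, cstar_one]
  obtain ⟨c, hc⟩ : ∃ c : Matrix n n K, c = gi * cstar φ g := ⟨_, rfl⟩
  obtain ⟨d, hd⟩ : ∃ d : Matrix n n K, d = cstar φ gi * g := ⟨_, rfl⟩
  have hcd : c * d = 1 := by
    rw [hc, hd]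
    calc gi * cstar φ g * (cstar φ gi * g) = gi * (cstar φ g * cstar φ gi) * g := by
          simp only [Matrix.mul_assoc]
      _ = 1 := by rw [hsg2, Matrix.mul_one, hg2]
  have hdc : d * c = 1 := mul_eq_one_comm.mp hcd
  have hag' : cstar φ a * cstar φ g * a = cstar φ g := by
    have h := congrArg (cstar φ) hag
    rw [cstar_mul, cstar_mul, cstar_cstar φ hφ, ← Matrix.mul_assoc] at h
    exact h
  have hdetag : (cstar φ a * g).det ≠ 0 := by
    rw [Matrix.det_mul, cstar_det]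
    exact mul_ne_zero ((map_ne_zero φ).mpr ha) hg
  have hca : c * a = a * c := by
    apply mat_left_cancel (cstar φ a * g) _ _ hdetag
    rw [hc]
    calc cstar φ a * g * (gi * cstar φ g * a) = cstar φ a * (g * gi) * cstar φ g * a := by
          simp only [Matrix.mul_assoc]
      _ = cstar φ g := by rw [hg1, Matrix.mul_one, hag']
      _ = (cstar φ a * g * a) * gi * cstar φ g := by rw [hag, hg1, Matrix.one_mul]
      _ = cstar φ a * g * (a * (gi * cstar φ g)) := by simp only [Matrix.mul_assoc]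
  obtain ⟨N, hN0, hcN⟩ : ∃ N : ℕ, 0 < N ∧ c ^ N = 1 := by
    obtain ⟨N, hN0, hN⟩ :=
      (isOfFinOrder_of_finite (⟨c, d, hcd, hdc⟩ : (Matrix n n K)ˣ)).exists_pow_eq_one
    refine ⟨N, hN0, ?_⟩
    have h := congrArg Units.val hN
    rw [Units.val_pow_eq_pow_val, Units.val_one] at h
    exact h
  have hdN : d = c ^ (N - 1) := by
    calc d = d * (c * c ^ (N - 1)) := by
          rw [← pow_succ', Nat.sub_add_cancel hN0, hcN, Matrix.mul_one]
      _ = c ^ (N - 1) := by rw [← Matrix.mul_assoc, hdc, Matrix.one_mul]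
  haveI := cyc_finite (K := K) N hN0
  let s : (AdjoinRoot (X ^ N - 1 : K[X]))ˣ →* (AdjoinRoot (X ^ N - 1 : K[X]))ˣ :=
    Units.map (cycSharp φ N).toMonoidHom
  have hsval : ∀ x : (AdjoinRoot (X ^ N - 1 : K[X]))ˣ,
      ((s x : (AdjoinRoot (X ^ N - 1 : K[X]))ˣ) : AdjoinRoot (X ^ N - 1 : K[X])) =
        cycSharp φ N (x : AdjoinRoot (X ^ N - 1 : K[X])) := fun x => rfl
  have hs : ∀ x, s (s x) = x := by
    intro x
    apply Units.ext
    rw [hsval, hsval, cycSharp_invol φ hφ N hN0]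
  have hNs : ∀ z, s z = z → ∃ w, w * s w = z := by
    intro z hz
    have hz' := congrArg Units.val hz
    rw [hsval] at hz'
    exact cyc_norm_surj φ hφ hne N hN0 z hz'
  have hru : AdjoinRoot.root (X ^ N - 1 : K[X]) * (AdjoinRoot.root (X ^ N - 1 : K[X])) ^ (N - 1) = 1 := by
    rw [← pow_succ', Nat.sub_add_cancel hN0, cyc_root_pow]
  have hr : Units.mkOfMulEqOne _ _ hru * s (Units.mkOfMulEqOne _ _ hru) = 1 := by
    apply Units.ext
    rw [Units.val_mul, hsval, Units.val_mkOfMulEqOne, cycSharp_root, hru, Units.val_one]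
  obtain ⟨x, hx⟩ := hilbert90 s hs hNs (Units.mkOfMulEqOne _ _ hru) hr
  have hx' : (x : AdjoinRoot (X ^ N - 1 : K[X])) =
      cycSharp φ N (x : AdjoinRoot (X ^ N - 1 : K[X])) * AdjoinRoot.root (X ^ N - 1 : K[X]) := by
    have h := congrArg Units.val hx
    rw [Units.val_mul, hsval, Units.val_mkOfMulEqOne] at h
    exact h
  obtain ⟨f, hf⟩ := AdjoinRoot.mk_surjective (x : AdjoinRoot (X ^ N - 1 : K[X]))
  obtain ⟨f', hf'⟩ := AdjoinRoot.mk_surjective
    ((x⁻¹ : (AdjoinRoot (X ^ N - 1 : K[X]))ˣ) : AdjoinRoot (X ^ N - 1 : K[X]))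
  have hd1 : (X ^ N - 1 : K[X]) ∣ f * f' - 1 := by
    rw [← AdjoinRoot.mk_eq_zero, map_sub, map_mul, hf, hf', Units.mul_inv, map_one, sub_self]
  have hsx : cycSharp φ N (AdjoinRoot.mk (X ^ N - 1 : K[X]) f) =
      AdjoinRoot.mk (X ^ N - 1 : K[X]) ((cj φ f).comp (X ^ (N - 1))) := by
    rw [← AdjoinRoot.aeval_eq, cycSharp_aeval, cycSharp_root, ← AdjoinRoot.aeval_eq,
      Polynomial.aeval_comp, map_pow, Polynomial.aeval_X]
  have hd2 : (X ^ N - 1 : K[X]) ∣ f - (cj φ f).comp (X ^ (N - 1)) * X := by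
    rw [← AdjoinRoot.mk_eq_zero, map_sub, map_mul, ← hsx, hf, AdjoinRoot.mk_X, ← hx', sub_self]
  have hPc : ∀ u : K[X], (X ^ N - 1 : K[X]) ∣ u → aeval c u = 0 := by
    rintro u ⟨v, rfl⟩
    rw [map_mul, map_sub, map_pow, Polynomial.aeval_X, map_one, hcN, sub_self, zero_mul]
  obtain ⟨xm, hxm⟩ : ∃ xm : Matrix n n K, xm = aeval c f := ⟨_, rfl⟩
  have hxinv : xm * aeval c f' = 1 := by
    have h := hPc _ hd1
    rw [map_sub, map_mul, map_one, sub_eq_zero] at h
    rw [hxm]
    exact h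
  have hxdet : xm.det ≠ 0 := by
    intro h0
    have h := congrArg Matrix.det hxinv
    rw [Matrix.det_mul, h0, zero_mul, Matrix.det_one] at h
    exact zero_ne_one h
  have hsc : gi * cstar φ c * g = d := by
    rw [hc, cstar_mul, cstar_cstar φ hφ, hd]
    calc gi * (g * cstar φ gi) * g = (gi * g) * cstar φ gi * g := by simp only [Matrix.mul_assoc]
      _ = cstar φ gi * g := by rw [hg2, Matrix.one_mul]
  have hxrel : xm = gi * cstar φ xm * g * c := by
    have h := hPc _ hd2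
    rw [map_sub, map_mul, Polynomial.aeval_comp, map_pow, Polynomial.aeval_X,
      sub_eq_zero] at h
    rw [hxm, cstar_aeval, conj_aeval gi g hg1 hg2, hsc, hdN]
    exact h
  have hgc : g * c = cstar φ g := by rw [hc, ← Matrix.mul_assoc, hg1, Matrix.one_mul]
  refine ⟨g * xm, ?_, ?_, ?_⟩
  · rw [Matrix.det_mul]
    exact mul_ne_zero hg hxdet
  · rw [cstar_mul]
    calc cstar φ xm * cstar φ g = cstar φ xm * (g * c) := by rw [hgc]
      _ = (g * gi) * cstar φ xm * g * c := by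
          rw [hg1, Matrix.one_mul]
          simp only [Matrix.mul_assoc]
      _ = g * (gi * cstar φ xm * g * c) := by simp only [Matrix.mul_assoc]
      _ = g * xm := by rw [← hxrel]
  · have hxa : a * xm = xm * a := by
      rw [hxm]
      exact commute_aeval a c hca.symm f
    calc cstar φ a * (g * xm) * a = cstar φ a * g * (xm * a) := by simp only [Matrix.mul_assoc]
      _ = cstar φ a * g * (a * xm) := by rw [hxa]
      _ = (cstar φ a * g * a) * xm := by simp only [Matrix.mul_assoc]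
      _ = g * xm := by rw [hag]

/-- A matrix preserving an invertible sesquilinear form is conjugate to a unitary matrix. -/
theorem unitary_exists [Finite K] (φ : K →+* K) (hφ : ∀ x, φ (φ x) = x) (hne : ∃ a, φ a ≠ a)
    (a g : Matrix n n K) (ha : a.det ≠ 0) (hg : g.det ≠ 0) (hag : cstar φ a * g * a = g) :
    ∃ w b : Matrix n n K, w.det ≠ 0 ∧ cstar φ b * b = 1 ∧ w * a = b * w := by
  obtain ⟨h, hdet, hh, hinv⟩ := herm_invariant φ hφ hne a g ha hg hag
  obtain ⟨f, hf⟩ := herm_factor φ hφ hne h hdet hh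
  obtain ⟨w, hw⟩ : ∃ w : Matrix n n K, w = aeval h f := ⟨_, rfl⟩
  rw [← hw] at hf
  have hwdet : w.det ≠ 0 := by
    intro h0
    apply hdet
    rw [← hf, Matrix.det_mul, h0, mul_zero]
  have hwu : IsUnit w.det := isUnit_iff_ne_zero.mpr hwdet
  have hw1 : w * w⁻¹ = 1 := Matrix.mul_nonsing_inv w hwu
  have hw2 : w⁻¹ * w = 1 := Matrix.nonsing_inv_mul w hwu
  refine ⟨w, w * a * w⁻¹, hwdet, ?_, ?_⟩
  · calc cstar φ (w * a * w⁻¹) * (w * a * w⁻¹)
        = cstar φ w⁻¹ * (cstar φ a * (cstar φ w * w) * a) * w⁻¹ := by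
          rw [cstar_mul, cstar_mul]
          simp only [Matrix.mul_assoc]
      _ = cstar φ w⁻¹ * (cstar φ w * w) * w⁻¹ := by rw [hf, hinv, ← hf]
      _ = (cstar φ w⁻¹ * cstar φ w) * (w * w⁻¹) := by simp only [Matrix.mul_assoc]
      _ = 1 := by rw [← cstar_mul, hw1, cstar_one, Matrix.mul_one]
  · rw [Matrix.mul_assoc, Matrix.mul_assoc, hw2, Matrix.mul_one]

theorem rank_map_le {m : Type*} [Fintype m] (φ : K →+* K) (M : Matrix m n K) :
    (M.map φ).rank ≤ M.rank := by
  classical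
  let W := LinearMap.range M.mulVecLin
  let b := Module.finBasis K W
  let B : Matrix m (Fin (Module.finrank K W)) K := Matrix.of fun i k => (b k : m → K) i
  let C : Matrix (Fin (Module.finrank K W)) n K := Matrix.of fun k j =>
    b.repr ⟨M.mulVec (Pi.single j 1), ⟨Pi.single j 1, rfl⟩⟩ k
  have hfac : M = B * C := by
    ext i j
    rw [Matrix.mul_apply]
    have h1 := b.sum_repr ⟨M.mulVec (Pi.single j 1), ⟨Pi.single j 1, rfl⟩⟩
    have h2 := congrArg (fun w : W => (w : m → K) i) h1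
    simp only [Submodule.coe_sum, Submodule.coe_smul, Finset.sum_apply, Pi.smul_apply,
      smul_eq_mul] at h2
    have h4 : M.mulVec (Pi.single j 1) i = M i j := by
      rw [Matrix.mulVec_single_one]
      rfl
    rw [← h4, ← h2]
    apply Finset.sum_congr rfl
    intro k _
    rw [mul_comm]
    rfl
  have h3 : M.map φ = B.map φ * C.map φ := by
    rw [← Matrix.map_mul, ← hfac]
  rw [h3]
  calc (B.map φ * C.map φ).rank ≤ (B.map φ).rank := Matrix.rank_mul_le_left _ _
    _ ≤ Fintype.card (Fin (Module.finrank K W)) := Matrix.rank_le_card_width _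
    _ = M.rank := by
        rw [Fintype.card_fin]
        rfl

theorem rank_map_eq {m : Type*} [Fintype m] (φ : K →+* K) (hφ : ∀ x, φ (φ x) = x)
    (M : Matrix m n K) : (M.map φ).rank = M.rank := by
  apply le_antisymm (rank_map_le φ M)
  have h := rank_map_le φ (M.map φ)
  have h1 : (M.map φ).map φ = M := by
    ext i j
    simp [hφ]
  rwa [h1] at h

end Mat

section GU

variable [Fintype K] {q m : ℕ}

theorem frob_ne (hK : Fintype.card K = q ^ 2) (φ : K →+* K) (hφq : ∀ x, φ x = x ^ q) :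
    ∃ a, φ a ≠ a := by
  by_contra hcon
  push Not at hcon
  have hq2 : 2 ≤ q := by
    have h1 : 1 < Fintype.card K := Fintype.one_lt_card
    rw [hK] at h1
    by_contra h2
    have h3 : q ≤ 1 := by omega
    have h4 : q ^ 2 ≤ 1 := by nlinarith
    omega
  have h2 : (X ^ q - X : K[X]) ≠ 0 := FiniteField.X_pow_card_sub_X_ne_zero K (by omega)
  have h3 : Fintype.card K ≤ (X ^ q - X : K[X]).natDegree := by
    classical
    have h4 := Polynomial.card_roots' (X ^ q - X : K[X])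
    have h5 : (X ^ q - X : K[X]).roots.toFinset = Finset.univ := by
      ext a
      have h6 : a ^ q = a := by rw [← hφq, hcon]
      simp [h2, h6]
    have h6 : Fintype.card K ≤ Multiset.card (X ^ q - X : K[X]).roots := by
      rw [← Finset.card_univ, ← h5]
      exact Multiset.toFinset_card_le _
    exact h6.trans h4
  rw [FiniteField.X_pow_card_sub_X_natDegree_eq K (by omega), hK] at h3
  nlinarith

theorem card_sq_ne_zero (hK : Fintype.card K = q ^ 2) : q ≠ 0 := by
  rintro rfl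
  have h1 : 1 < Fintype.card K := Fintype.one_lt_card
  rw [hK] at h1
  simp at h1

theorem mem_GU_cstar (hq0 : q ≠ 0) (φ : K →+* K) (hφq : ∀ x, φ x = x ^ q)
    (M : GL (Fin m) K) (hM : M ∈ Cfsg.GU m K q) :
    cstar φ (M : Matrix (Fin m) (Fin m) K) * (M : Matrix (Fin m) (Fin m) K) = 1 := by
  ext i j
  have h1 := hM (Pi.single j 1) (Pi.single i 1)
  have h2 : ∀ k : Fin m, ((Units.coeHom (Matrix (Fin m) (Fin m) K)) M).mulVec (Pi.single k 1) =
      fun r => (M : Matrix (Fin m) (Fin m) K) r k := by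
    intro k
    show (M : Matrix (Fin m) (Fin m) K).mulVec (Pi.single k 1) = _
    rw [Matrix.mulVec_single_one]
    rfl
  rw [h2, h2] at h1
  unfold Cfsg.hermForm at h1
  rw [Matrix.mul_apply]
  have h3 : ∑ k, cstar φ (M : Matrix (Fin m) (Fin m) K) i k *
      (M : Matrix (Fin m) (Fin m) K) k j =
      ∑ k, (M : Matrix (Fin m) (Fin m) K) k j * (M : Matrix (Fin m) (Fin m) K) k i ^ q := by
    apply Finset.sum_congr rfl
    intro k _
    rw [cstar_apply, hφq, mul_comm]
  rw [h3, h1, Matrix.one_apply]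
  by_cases hij : i = j
  · subst hij
    rw [if_pos rfl, Finset.sum_eq_single i]
    · simp
    · intro k _ hk
      simp [Pi.single_eq_of_ne hk]
    · intro hi
      exact absurd (Finset.mem_univ i) hi
  · rw [if_neg hij]
    apply Finset.sum_eq_zero
    intro k _
    by_cases hk : k = j
    · subst hk
      have hki : k ≠ i := fun h0 => hij h0.symm
      simp [Pi.single_eq_of_ne hki, hq0]
    · simp [Pi.single_eq_of_ne hk]

theorem GU_of_cstar (φ : K →+* K) (hφq : ∀ x, φ x = x ^ q) (u : Matrix (Fin m) (Fin m) K)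
    (hu : cstar φ u * u = 1) :
    ∃ U : GL (Fin m) K, U ∈ Cfsg.GU m K q ∧ (U : Matrix (Fin m) (Fin m) K) = u := by
  have hu1' : u * cstar φ u = 1 := mul_eq_one_comm.mp hu
  have hu3 : u.transpose * u.map φ = 1 := by
    have h1 := congrArg Matrix.transpose hu
    unfold cstar at h1
    rw [Matrix.transpose_mul, Matrix.transpose_transpose, Matrix.transpose_one] at h1
    exact h1
  refine ⟨⟨u, cstar φ u, hu1', hu⟩, ?_, rfl⟩
  intro x y
  exact Cfsg.Agent.Lib.Helper15.herm_preserved φ hφq u hu3 x y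

/-- An invertible matrix preserving an invertible sesquilinear form is conjugate in `GL` to an
element of the unitary group. -/
theorem exists_GU_conj (hK : Fintype.card K = q ^ 2) (φ : K →+* K) (hφq : ∀ x, φ x = x ^ q)
    (hφ : ∀ x, φ (φ x) = x) (A : GL (Fin m) K) (g : Matrix (Fin m) (Fin m) K) (hg : g.det ≠ 0)
    (hag : cstar φ (A : Matrix (Fin m) (Fin m) K) * g * (A : Matrix (Fin m) (Fin m) K) = g) :
    ∃ B : ↥(Cfsg.GU m K q), IsConj A (B : GL (Fin m) K) := by
  have hAdet : (A : Matrix (Fin m) (Fin m) K).det ≠ 0 :=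
    ((Matrix.isUnit_iff_isUnit_det _).mp A.isUnit).ne_zero
  obtain ⟨w, b, hwdet, hb, hwab⟩ := unitary_exists φ hφ (frob_ne hK φ hφq) _ g hAdet hg hag
  obtain ⟨B, hBmem, hBval⟩ := GU_of_cstar φ hφq b hb
  have hwu : IsUnit w.det := isUnit_iff_ne_zero.mpr hwdet
  refine ⟨⟨B, hBmem⟩, ?_⟩
  apply isConj_iff.mpr
  refine ⟨⟨w, w⁻¹, Matrix.mul_nonsing_inv w hwu, Matrix.nonsing_inv_mul w hwu⟩, ?_⟩
  rw [mul_inv_eq_iff_eq_mul]
  apply Units.ext
  show w * (A : Matrix (Fin m) (Fin m) K) = (B : Matrix (Fin m) (Fin m) K) * w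
  rw [hBval]
  exact hwab

end GU

end Cfsg.Agent.Lib.Helper15.Wall
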