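import Mathlib
import Cfsg.Agent.Lib.Helper15.SemiC
import Cfsg.Agent.Lib.Helper15.WallC

set_option autoImplicit false

namespace Cfsg.Agent.Lib.Helper15.Semi

open Polynomial Cfsg.Agent.Lib.Helper15.Wall

universe w

variable {K : Type w} [Field K]

/-- The characteristic polynomial of the inverse conjugate transpose, as a function of the
characteristic polynomial. -/
noncomputable def dual (φ : K →+* K) (f : K[X]) : K[X] := (C (f.coeff 0)⁻¹ * f.reverse).map φ

theorem dual_mul (φ : K →+* K) (f g : K[X]) : dual φ (f * g) = dual φ f * dual φ g := by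
  unfold dual
  rw [← Polynomial.map_mul]
  congr 1
  rw [Polynomial.mul_coeff_zero, mul_inv, map_mul, Polynomial.reverse_mul_of_domain]
  ring

theorem charpoly_inv' {n : ℕ} (A : Matrix (Fin n) (Fin n) K) (hA : A.det ≠ 0) :
    A⁻¹.charpoly = C (A.charpoly.coeff 0)⁻¹ * A.charpoly.reverse := by
  have hu : IsUnit A := (Matrix.isUnit_iff_isUnit_det A).mpr (isUnit_iff_ne_zero.mpr hA)
  rw [Matrix.charpoly_inv A hu, Matrix.reverse_charpoly]
  congr 1
  have h1 : A.det = (-1) ^ Fintype.card (Fin n) * A.charpoly.coeff 0 :=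
    Matrix.det_eq_sign_charpoly_coeff A
  have h2 : ((-1 : K[X]) ^ Fintype.card (Fin n)) = C ((-1 : K) ^ Fintype.card (Fin n)) := by
    rw [map_pow, map_neg, map_one]
  rw [Ring.inverse_eq_inv, h2, ← map_mul]
  congr 1
  rw [h1, mul_inv, ← mul_assoc, mul_inv_cancel₀ (pow_ne_zero _ (neg_ne_zero.mpr one_ne_zero)),
    one_mul]

theorem charpoly_cstar (φ : K →+* K) {n : ℕ} (X : Matrix (Fin n) (Fin n) K) :
    (cstar φ X).charpoly = X.charpoly.map φ := by
  unfold cstar
  rw [Matrix.charpoly_transpose, Matrix.charpoly_map]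

/-- The inverse conjugate transpose of an invertible matrix. -/
noncomputable def starInv (φ : K →+* K) {n : ℕ} (M : GL (Fin n) K) : GL (Fin n) K :=
  ⟨cstar φ ((M⁻¹ : GL (Fin n) K) : Matrix (Fin n) (Fin n) K),
    cstar φ (M : Matrix (Fin n) (Fin n) K),
    by rw [← cstar_mul, M.mul_inv, cstar_one],
    by rw [← cstar_mul, M.inv_mul, cstar_one]⟩

theorem starInv_val (φ : K →+* K) {n : ℕ} (M : GL (Fin n) K) :
    ((starInv φ M : GL (Fin n) K) : Matrix (Fin n) (Fin n) K) =
      cstar φ ((M⁻¹ : GL (Fin n) K) : Matrix (Fin n) (Fin n) K) := rfl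

theorem starInv_inv_val (φ : K →+* K) {n : ℕ} (M : GL (Fin n) K) :
    (((starInv φ M)⁻¹ : GL (Fin n) K) : Matrix (Fin n) (Fin n) K) =
      cstar φ (M : Matrix (Fin n) (Fin n) K) := rfl

theorem starInv_charpoly (φ : K →+* K) {n : ℕ} (M : GL (Fin n) K) :
    ((starInv φ M : GL (Fin n) K) : Matrix (Fin n) (Fin n) K).charpoly =
      dual φ (M : Matrix (Fin n) (Fin n) K).charpoly := by
  have hdet : (M : Matrix (Fin n) (Fin n) K).det ≠ 0 :=
    ((Matrix.isUnit_iff_isUnit_det _).mp M.isUnit).ne_zero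
  rw [starInv_val, charpoly_cstar, Matrix.coe_units_inv, charpoly_inv' _ hdet]
  rfl

theorem starInv_starInv (φ : K →+* K) (hφ : ∀ x, φ (φ x) = x) {n : ℕ} (M : GL (Fin n) K) :
    starInv φ (starInv φ M) = M := by
  apply Units.ext
  rw [starInv_val, starInv_inv_val, cstar_cstar φ hφ]

theorem starInv_pow (φ : K →+* K) {n : ℕ} (M : GL (Fin n) K) (N : ℕ) (h : M ^ N = 1) :
    starInv φ M ^ N = 1 := by
  apply Units.ext
  rw [Units.val_pow_eq_pow_val, starInv_val, ← cstar_pow, ← Units.val_pow_eq_pow_val, inv_pow, h,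
    inv_one, Units.val_one, cstar_one]

section Blk

variable {m1 m2 n : ℕ} (h : m1 + m2 = n)

/-- Block diagonal matrix on `Fin n`. -/
noncomputable def blk (X : Matrix (Fin m1) (Fin m1) K) (Y : Matrix (Fin m2) (Fin m2) K) :
    Matrix (Fin n) (Fin n) K :=
  Matrix.reindexAlgEquiv K K (finSumFinEquiv.trans (finCongr h)) (Matrix.fromBlocks X 0 0 Y)

theorem blk_mul (X X' : Matrix (Fin m1) (Fin m1) K) (Y Y' : Matrix (Fin m2) (Fin m2) K) :
    blk h X Y * blk h X' Y' = blk h (X * X') (Y * Y') := by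
  unfold blk
  rw [← map_mul, Matrix.fromBlocks_multiply]
  simp only [Matrix.mul_zero, Matrix.zero_mul, add_zero, zero_add]

theorem blk_one : blk h (1 : Matrix (Fin m1) (Fin m1) K) (1 : Matrix (Fin m2) (Fin m2) K) = 1 := by
  unfold blk
  rw [Matrix.fromBlocks_one, map_one]

theorem blk_pow (X : Matrix (Fin m1) (Fin m1) K) (Y : Matrix (Fin m2) (Fin m2) K) (k : ℕ) :
    blk h X Y ^ k = blk h (X ^ k) (Y ^ k) := by
  induction k with
  | zero => rw [pow_zero, pow_zero, pow_zero, blk_one]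
  | succ k ih => rw [pow_succ, ih, blk_mul, pow_succ, pow_succ]

theorem blk_det (X : Matrix (Fin m1) (Fin m1) K) (Y : Matrix (Fin m2) (Fin m2) K) :
    (blk h X Y).det = X.det * Y.det := by
  unfold blk
  rw [Matrix.coe_reindexAlgEquiv, Matrix.det_reindex_self, Matrix.det_fromBlocks_zero₁₂]

theorem blk_charpoly (X : Matrix (Fin m1) (Fin m1) K) (Y : Matrix (Fin m2) (Fin m2) K) :
    (blk h X Y).charpoly = X.charpoly * Y.charpoly := by
  unfold blk
  rw [Matrix.coe_reindexAlgEquiv, Matrix.charpoly_reindex, Matrix.charpoly_fromBlocks_zero₁₂]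

theorem blk_cstar (φ : K →+* K) (X : Matrix (Fin m1) (Fin m1) K)
    (Y : Matrix (Fin m2) (Fin m2) K) :
    cstar φ (blk h X Y) = blk h (cstar φ X) (cstar φ Y) := by
  ext i j
  rw [cstar_apply]
  unfold blk
  simp only [Matrix.coe_reindexAlgEquiv, Matrix.reindex_apply, Matrix.submatrix_apply]
  generalize (finSumFinEquiv.trans (finCongr h)).symm i = a
  generalize (finSumFinEquiv.trans (finCongr h)).symm j = b
  rcases a with a | a <;> rcases b with b | b <;> simp [cstar_apply]

/-- Block diagonal element of `GL`. -/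
noncomputable def blkGL (X : GL (Fin m1) K) (Y : GL (Fin m2) K) : GL (Fin n) K :=
  ⟨blk h (X : Matrix (Fin m1) (Fin m1) K) (Y : Matrix (Fin m2) (Fin m2) K),
    blk h ((X⁻¹ : GL (Fin m1) K) : Matrix (Fin m1) (Fin m1) K)
      ((Y⁻¹ : GL (Fin m2) K) : Matrix (Fin m2) (Fin m2) K),
    by rw [blk_mul, X.mul_inv, Y.mul_inv, blk_one],
    by rw [blk_mul, X.inv_mul, Y.inv_mul, blk_one]⟩

theorem blkGL_val (X : GL (Fin m1) K) (Y : GL (Fin m2) K) :
    ((blkGL h X Y : GL (Fin n) K) : Matrix (Fin n) (Fin n) K) =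
      blk h (X : Matrix (Fin m1) (Fin m1) K) (Y : Matrix (Fin m2) (Fin m2) K) := rfl

theorem blkGL_pow_eq_one (X : GL (Fin m1) K) (Y : GL (Fin m2) K) (k : ℕ) (hX : X ^ k = 1)
    (hY : Y ^ k = 1) : blkGL h X Y ^ k = 1 := by
  apply Units.ext
  rw [Units.val_pow_eq_pow_val, blkGL_val, blk_pow, ← Units.val_pow_eq_pow_val,
    ← Units.val_pow_eq_pow_val, hX, hY, Units.val_one, Units.val_one, blk_one, Units.val_one]

end Blk

/-- A semisimple element whose characteristic polynomial is self-dual is conjugate to a unitary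
matrix. -/
theorem unitary_model [Fintype K] {q : ℕ} (hK : Fintype.card K = q ^ 2) (φ : K →+* K)
    (hφq : ∀ x, φ x = x ^ q) (hφ : ∀ x, φ (φ x) = x) (p : ℕ) [Fact p.Prime] [CharP K p] {m : ℕ}
    (M : GL (Fin m) K) (N : ℕ) (hN : N.Coprime p) (hMN : M ^ N = 1)
    (hc : ((starInv φ M : GL (Fin m) K) : Matrix (Fin m) (Fin m) K).charpoly =
      (M : Matrix (Fin m) (Fin m) K).charpoly) :
    ∃ b : Matrix (Fin m) (Fin m) K, cstar φ b * b = 1 ∧
      b.charpoly = (M : Matrix (Fin m) (Fin m) K).charpoly ∧ b ^ N = 1 := by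
  have hMss : Module.End.IsSemisimple (Matrix.toLin' (M : Matrix (Fin m) (Fin m) K)) := by
    apply ss_of_pow p _ N hN
    rw [← Units.val_pow_eq_pow_val, hMN]
    rfl
  have hSss : Module.End.IsSemisimple
      (Matrix.toLin' ((starInv φ M : GL (Fin m) K) : Matrix (Fin m) (Fin m) K)) := by
    apply ss_of_pow p _ N hN
    rw [← Units.val_pow_eq_pow_val, starInv_pow φ M N hMN]
    rfl
  obtain ⟨P, hP⟩ := isConj_iff.mp (ss_isConj M (starInv φ M) hMss hSss hc.symm)
  have hPM : (P : Matrix (Fin m) (Fin m) K) * (M : Matrix (Fin m) (Fin m) K) =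
      cstar φ ((M⁻¹ : GL (Fin m) K) : Matrix (Fin m) (Fin m) K) * (P : Matrix (Fin m) (Fin m) K) :=
    congrArg Units.val (mul_inv_eq_iff_eq_mul.mp hP)
  have hPdet : (P : Matrix (Fin m) (Fin m) K).det ≠ 0 :=
    ((Matrix.isUnit_iff_isUnit_det _).mp P.isUnit).ne_zero
  have hag : cstar φ (M : Matrix (Fin m) (Fin m) K) * (P : Matrix (Fin m) (Fin m) K) *
      (M : Matrix (Fin m) (Fin m) K) = (P : Matrix (Fin m) (Fin m) K) := by
    rw [Matrix.mul_assoc, hPM, ← Matrix.mul_assoc, ← cstar_mul, M.inv_mul, cstar_one,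
      Matrix.one_mul]
  obtain ⟨B, hB⟩ := exists_GU_conj hK φ hφq hφ M (P : Matrix (Fin m) (Fin m) K) hPdet hag
  refine ⟨((B : GL (Fin m) K) : Matrix (Fin m) (Fin m) K),
    mem_GU_cstar (card_sq_ne_zero hK) φ hφq _ B.2, (charpoly_of_isConj hB).symm, ?_⟩
  obtain ⟨c, hc'⟩ := isConj_iff.mp hB
  have h1 : (B : GL (Fin m) K) ^ N = 1 := by
    rw [← hc', conj_pow, hMN, mul_one, mul_inv_cancel]
  rw [← Units.val_pow_eq_pow_val, h1]
  rfl

theorem charpoly_mulLeft_root (f : K[X]) (hm : f.Monic) [hf : Fact (Irreducible f)]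
    [Module.Finite K (AdjoinRoot f)] :
    (LinearMap.mulLeft K (AdjoinRoot.root f)).charpoly = f := by
  classical
  obtain ⟨pb, hpb⟩ : ∃ pb : PowerBasis K (AdjoinRoot f), pb = AdjoinRoot.powerBasis hm.ne_zero :=
    ⟨_, rfl⟩
  rw [← LinearMap.charpoly_toMatrix _ pb.basis]
  have h1 : LinearMap.toMatrix pb.basis pb.basis (LinearMap.mulLeft K (AdjoinRoot.root f)) =
      Algebra.leftMulMatrix pb.basis pb.gen := by
    rw [Algebra.leftMulMatrix_apply, hpb, AdjoinRoot.powerBasis_gen]
    rfl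
  rw [h1, charpoly_leftMulMatrix pb, hpb]
  exact AdjoinRoot.minpoly_powerBasis_gen_of_monic hm

/-- For a semisimple matrix in whose characteristic polynomial an irreducible `f` occurs exactly
once, polynomials in the matrix realise every determinant. -/
theorem dsp [Finite K] {m : ℕ} (B : Matrix (Fin m) (Fin m) K)
    (hB : Module.End.IsSemisimple (Matrix.toLin' B)) (f t : K[X]) (hfm : f.Monic)
    (hf : Irreducible f) (hχ : B.charpoly = f * t) (hcop : IsCoprime f t) (ν : K) :
    ∃ P : K[X], (aeval B P).det = ν := by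
  have : Fact (Irreducible f) := ⟨hf⟩
  have := fin_adj f hf
  have : Finite (AdjoinRoot f) := Module.finite_of_finite K
  obtain ⟨a, ha⟩ : ∃ a : Module.End K (Fin m → K), a = Matrix.toLin' B := ⟨_, rfl⟩
  have hac : a.charpoly = f * t := by rw [ha, Matrix.charpoly_toLin', hχ]
  have hass : a.IsSemisimple := by
    rw [ha]
    exact hB
  obtain ⟨V2, h2, e, he⟩ := decomp a hass f (by rw [hac]; exact dvd_mul_right f t)
  have c1 := charpoly_decomp a f V2 h2 e he
  rw [charpoly_mulLeft_root f hfm, hac] at c1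
  have ht : (a.restrict h2).charpoly = t := (mul_left_cancel₀ hfm.ne_zero c1).symm
  obtain ⟨ε, hε⟩ := FiniteField.norm_surjective K (AdjoinRoot f) ν
  obtain ⟨P0, hP0⟩ := AdjoinRoot.mk_surjective ε
  obtain ⟨u, v, huv⟩ := hcop
  obtain ⟨P, hPdef⟩ : ∃ P : K[X], P = P0 * (v * t) + u * f := ⟨_, rfl⟩
  have hmkP : AdjoinRoot.mk f P = ε := by
    have h1 : AdjoinRoot.mk f (v * t) = 1 := by
      have h0 : v * t = 1 - u * f := by linear_combination huv
      rw [h0, map_sub, map_one, map_mul, AdjoinRoot.mk_self, mul_zero, sub_zero]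
    rw [hPdef, map_add, map_mul, h1, mul_one, map_mul, AdjoinRoot.mk_self, mul_zero, add_zero, hP0]
  have ha2 : aeval (a.restrict h2) P = 1 := by
    have h1 : P = 1 + (P0 - 1) * v * (a.restrict h2).charpoly := by
      rw [ht, hPdef]
      linear_combination huv
    rw [h1, map_add, map_one, map_mul, LinearMap.aeval_self_charpoly, mul_zero, add_zero]
  have hpow : ∀ (k : ℕ) (x : AdjoinRoot f) (y : V2),
      (a ^ k) (e (x, y)) = e (AdjoinRoot.root f ^ k * x, ((a.restrict h2) ^ k) y) := by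
    intro k
    induction k with
    | zero =>
      intro x y
      rw [pow_zero, pow_zero, pow_zero, one_mul]
      rfl
    | succ k ih =>
      intro x y
      rw [pow_succ, Module.End.mul_apply, he, ih, pow_succ, pow_succ, mul_assoc,
        Module.End.mul_apply]
  have key : ∀ (Q : K[X]) (x : AdjoinRoot f) (y : V2),
      aeval a Q (e (x, y)) = e (AdjoinRoot.mk f Q * x, aeval (a.restrict h2) Q y) := by
    intro Q
    induction Q using Polynomial.induction_on' with
    | add p q hp hq =>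
      intro x y
      rw [map_add, LinearMap.add_apply, hp, hq, ← map_add, map_add (AdjoinRoot.mk f),
        map_add (aeval (a.restrict h2)), LinearMap.add_apply, Prod.mk_add_mk, add_mul]
    | monomial k c =>
      intro x y
      rw [Polynomial.aeval_monomial, Polynomial.aeval_monomial, Module.End.mul_apply,
        Module.End.mul_apply, hpow, Module.algebraMap_end_apply, Module.algebraMap_end_apply,
        ← map_smul, Prod.smul_mk]
      congr 2
      rw [← Polynomial.C_mul_X_pow_eq_monomial, map_mul, map_pow, AdjoinRoot.mk_C, AdjoinRoot.mk_X,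
        Algebra.smul_def, AdjoinRoot.algebraMap_eq, mul_assoc]
  have hconj : aeval a P = (e : (AdjoinRoot f × V2) →ₗ[K] (Fin m → K)) ∘ₗ
      (LinearMap.prodMap (LinearMap.mulLeft K ε) LinearMap.id) ∘ₗ
      (e.symm : (Fin m → K) →ₗ[K] (AdjoinRoot f × V2)) := by
    apply LinearMap.ext
    intro w
    obtain ⟨⟨x, y⟩, rfl⟩ := e.surjective w
    rw [key, hmkP, ha2]
    simp only [LinearMap.comp_apply, LinearEquiv.coe_coe, LinearEquiv.symm_apply_apply]
    rfl
  refine ⟨P, ?_⟩
  rw [← LinearMap.det_toLin', ← toLin_aeval, ← ha, hconj, LinearMap.det_conj,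
    LinearMap.det_prodMap, LinearMap.det_id, mul_one, ← hε, Algebra.norm_apply]
  rfl

end Cfsg.Agent.Lib.Helper15.Semi
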