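import Mathlib
import Cfsg.Agent.Lib.Helper15.UnitA

set_option autoImplicit false

namespace Cfsg.Agent.Lib.Helper15.Semi

open Polynomial Cfsg.Agent.Lib.Helper15.Wall

universe w

variable {K : Type w} [Field K]

/-- Unitary centraliser elements of prescribed determinant for a unitary matrix in whose
characteristic polynomial an irreducible `f` occurs exactly once. -/
theorem dsu_model [Finite K] (φ : K →+* K) (hφ : ∀ x, φ (φ x) = x) (hne : ∃ a, φ a ≠ a) {m : ℕ}
    (b : Matrix (Fin m) (Fin m) K) (hb : cstar φ b * b = 1)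
    (hss : Module.End.IsSemisimple (Matrix.toLin' b)) (f t : K[X]) (hfm : f.Monic)
    (hf : Irreducible f) (hχ : b.charpoly = f * t) (hcop : IsCoprime f t) (μ : K)
    (hμ : μ * φ μ = 1) :
    ∃ C : Matrix (Fin m) (Fin m) K, cstar φ C * C = 1 ∧ C * b = b * C ∧ C.det = μ := by
  have hμ0 : μ ≠ 0 := left_ne_zero_of_mul_eq_one hμ
  obtain ⟨x, hx⟩ := hilbert90 (G := Kˣ) (Units.map (φ : K →* K)) (fun x => Units.ext (hφ x))
    (by
      intro z hz
      have hz' : φ (z : K) = z := congrArg Units.val hz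
      obtain ⟨γ, hγ⟩ := norm_surj φ hφ hne (z : K) hz' z.ne_zero
      have hγ0 : γ ≠ 0 := by
        rintro rfl
        rw [mul_zero] at hγ
        exact z.ne_zero hγ.symm
      refine ⟨Units.mk0 γ hγ0, Units.ext ?_⟩
      show γ * φ γ = z
      rw [mul_comm]
      exact hγ)
    (Units.mk0 μ hμ0) (Units.ext hμ)
  have hν : (x : K) = φ (x : K) * μ := congrArg Units.val hx
  obtain ⟨P, hP⟩ := dsp b hss f t hfm hf hχ hcop (x : K)
  obtain ⟨c0, hc0⟩ : ∃ c0 : Matrix (Fin m) (Fin m) K, c0 = aeval b P := ⟨_, rfl⟩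
  obtain ⟨d, hd⟩ : ∃ d : Matrix (Fin m) (Fin m) K, d = cstar φ c0 := ⟨_, rfl⟩
  have hd' : d = aeval (cstar φ b) (cj φ P) := by rw [hd, hc0, cstar_aeval]
  have hc0det : c0.det = x := by
    rw [hc0]
    exact hP
  have hddet : d.det = φ x := by rw [hd, cstar_det, hc0det]
  have hφx : φ (x : K) ≠ 0 := (map_ne_zero φ).mpr x.ne_zero
  have hdu : IsUnit d.det := by
    rw [hddet]
    exact isUnit_iff_ne_zero.mpr hφx
  have hb' : b * cstar φ b = 1 := mul_eq_one_comm.mp hb
  have hbc : b * cstar φ b = cstar φ b * b := by rw [hb, hb']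
  have h1 : cstar φ b * c0 = c0 * cstar φ b := by
    rw [hc0]
    exact commute_aeval (cstar φ b) b hbc.symm P
  have h2 : c0 * d = d * c0 := by
    rw [hd']
    exact commute_aeval c0 (cstar φ b) h1.symm (cj φ P)
  have h3 : b * c0 = c0 * b := by
    rw [hc0]
    exact commute_aeval b b rfl P
  have h4 : b * d = d * b := by
    rw [hd']
    exact commute_aeval b (cstar φ b) hbc (cj φ P)
  have h5 : b * d⁻¹ = d⁻¹ * b := by
    calc b * d⁻¹ = (d⁻¹ * d) * b * d⁻¹ := by rw [Matrix.nonsing_inv_mul _ hdu, Matrix.one_mul]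
      _ = d⁻¹ * (d * b) * d⁻¹ := by simp only [Matrix.mul_assoc]
      _ = d⁻¹ * (b * d) * d⁻¹ := by rw [h4]
      _ = d⁻¹ * b * (d * d⁻¹) := by simp only [Matrix.mul_assoc]
      _ = d⁻¹ * b := by rw [Matrix.mul_nonsing_inv _ hdu, Matrix.mul_one]
  refine ⟨c0 * d⁻¹, ?_, ?_, ?_⟩
  · have h6 : cstar φ (d⁻¹) * c0 = 1 := by
      have h7 : cstar φ d = c0 := by rw [hd, cstar_cstar φ hφ]
      rw [← h7, ← cstar_mul, Matrix.mul_nonsing_inv _ hdu, cstar_one]
    rw [cstar_mul]
    calc cstar φ d⁻¹ * cstar φ c0 * (c0 * d⁻¹) = cstar φ d⁻¹ * (d * c0) * d⁻¹ := by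
          rw [← hd]
          simp only [Matrix.mul_assoc]
      _ = cstar φ d⁻¹ * (c0 * d) * d⁻¹ := by rw [h2]
      _ = (cstar φ d⁻¹ * c0) * (d * d⁻¹) := by simp only [Matrix.mul_assoc]
      _ = 1 := by rw [h6, Matrix.mul_nonsing_inv _ hdu, Matrix.one_mul]
  · calc c0 * d⁻¹ * b = c0 * (d⁻¹ * b) := Matrix.mul_assoc _ _ _
      _ = c0 * (b * d⁻¹) := by rw [h5]
      _ = (c0 * b) * d⁻¹ := (Matrix.mul_assoc _ _ _).symm
      _ = (b * c0) * d⁻¹ := by rw [h3]
      _ = b * (c0 * d⁻¹) := Matrix.mul_assoc _ _ _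
  · rw [Matrix.det_mul, Matrix.det_nonsing_inv, hc0det, hddet, Ring.inverse_eq_inv,
      mul_inv_eq_iff_eq_mul₀ hφx, mul_comm]
    exact hν

/-- The unitary centraliser of a semisimple unitary matrix has determinant image all of the
norm-one elements. -/
theorem dsu [Fintype K] {q : ℕ} (hK : Fintype.card K = q ^ 2) (φ : K →+* K)
    (hφq : ∀ x, φ x = x ^ q) (hφ : ∀ x, φ (φ x) = x) (p : ℕ) [Fact p.Prime] [CharP K p] {n : ℕ}
    (hn : 0 < n) (A : Matrix (Fin n) (Fin n) K) (hA : cstar φ A * A = 1) (N : ℕ)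
    (hN : N.Coprime p) (hAN : A ^ N = 1) (μ : K) (hμ : μ * φ μ = 1) :
    ∃ C : Matrix (Fin n) (Fin n) K, cstar φ C * C = 1 ∧ C * A = A * C ∧ C.det = μ := by
  classical
  have hne := frob_ne hK φ hφq
  have hA' : A * cstar φ A = 1 := mul_eq_one_comm.mp hA
  obtain ⟨GA, hGA, hGAinv⟩ : ∃ GA : GL (Fin n) K, (GA : Matrix (Fin n) (Fin n) K) = A ∧
      ((GA⁻¹ : GL (Fin n) K) : Matrix (Fin n) (Fin n) K) = cstar φ A :=
    ⟨⟨A, cstar φ A, hA', hA⟩, rfl, rfl⟩
  have hdual : dual φ A.charpoly = A.charpoly := by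
    have h1 := starInv_charpoly φ GA
    rw [starInv_val, hGAinv, cstar_cstar φ hφ, hGA] at h1
    exact h1.symm
  have hχm : A.charpoly.Monic := Matrix.charpoly_monic A
  have hχd : A.charpoly.natDegree = n := (charpoly_props A).2
  have hnu : ¬ IsUnit A.charpoly := by
    intro hu
    have h1 := Polynomial.natDegree_eq_zero_of_isUnit hu
    omega
  obtain ⟨f, hfm, hf, hfχ⟩ := Polynomial.exists_monic_irreducible_factor A.charpoly hnu
  have hχ0 : A.charpoly.coeff 0 ≠ 0 := by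
    intro h0
    have hdet : A.det ≠ 0 := by
      intro hd0
      have h1 := congrArg Matrix.det hA
      rw [Matrix.det_mul, hd0, mul_zero, Matrix.det_one] at h1
      exact zero_ne_one h1
    rw [Matrix.det_eq_sign_charpoly_coeff, h0, mul_zero] at hdet
    exact hdet rfl
  have hf0 : f.coeff 0 ≠ 0 := by
    intro h0
    obtain ⟨r, hr⟩ := hfχ
    rw [hr, Polynomial.mul_coeff_zero, h0, zero_mul] at hχ0
    exact hχ0 rfl
  obtain ⟨Cf, hCf, hCfo⟩ := exists_charpoly p f.natDegree f hfm rfl hf0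
  have hCfN : Cf ^ orderOf Cf = 1 := pow_orderOf_eq_one Cf
  have hNf : ((starInv φ Cf : GL (Fin f.natDegree) K) :
      Matrix (Fin f.natDegree) (Fin f.natDegree) K).charpoly = dual φ f := by
    rw [starInv_charpoly, hCf]
  have hdd : dual φ (dual φ f) = f := by
    rw [← hNf, ← starInv_charpoly, starInv_starInv φ hφ, hCf]
  have hmodel : ∃ (m1 : ℕ) (M1 : GL (Fin m1) K) (N1 : ℕ) (t : K[X]), N1.Coprime p ∧ M1 ^ N1 = 1 ∧
      (M1 : Matrix (Fin m1) (Fin m1) K).charpoly = f * t ∧ IsCoprime f t ∧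
      (f * t) ∣ A.charpoly ∧
      ((starInv φ M1 : GL (Fin m1) K) : Matrix (Fin m1) (Fin m1) K).charpoly = f * t := by
    rcases hf.isCoprime_or_dvd (dual φ f) with hcop | hdvd
    · refine ⟨f.natDegree + f.natDegree, blkGL rfl Cf (starInv φ Cf), orderOf Cf, dual φ f, hCfo,
        blkGL_pow_eq_one rfl Cf (starInv φ Cf) _ hCfN (starInv_pow φ Cf _ hCfN), ?_, hcop, ?_, ?_⟩
      · rw [blkGL_val, blk_charpoly, hCf, hNf]
      · apply hcop.mul_dvd hfχ
        obtain ⟨r, hr⟩ := hfχ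
        rw [← hdual, hr, dual_mul]
        exact dvd_mul_right _ _
      · rw [starInv_charpoly, blkGL_val, blk_charpoly, hCf, hNf, dual_mul, hdd, mul_comm]
    · have heq : dual φ f = f := by
        have hm' : (dual φ f).Monic := by
          rw [← hNf]
          exact Matrix.charpoly_monic _
        have hd' : (dual φ f).natDegree = f.natDegree := by
          rw [← hNf]
          exact (charpoly_props _).2
        exact Polynomial.eq_of_monic_of_dvd_of_natDegree_le hfm hm' hdvd (le_of_eq hd')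
      refine ⟨f.natDegree, Cf, orderOf Cf, 1, hCfo, hCfN, by rw [hCf, mul_one],
        isCoprime_one_right, by rw [mul_one]; exact hfχ, ?_⟩
      rw [hNf, heq, mul_one]
  obtain ⟨m1, M1, N1, t, hN1, hM1N, hM1c, hcop, hdvd1, hM1s⟩ := hmodel
  obtain ⟨s, hs⟩ := hdvd1
  have hχ1m : (f * t).Monic := by
    rw [← hM1c]
    exact Matrix.charpoly_monic _
  have hsm : s.Monic := hχ1m.of_mul_monic_left (by rw [← hs]; exact hχm)
  have hs0 : s.coeff 0 ≠ 0 := by
    intro h0
    rw [hs, Polynomial.mul_coeff_zero, h0, mul_zero] at hχ0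
    exact hχ0 rfl
  have hduals : dual φ s = s := by
    have h1 : dual φ (f * t) = f * t := by
      rw [← hM1c, ← starInv_charpoly, hM1s, hM1c]
    have h2 := hdual
    rw [hs, dual_mul, h1] at h2
    exact mul_left_cancel₀ hχ1m.ne_zero h2
  obtain ⟨M2, hM2c, hM2o⟩ := exists_charpoly p s.natDegree s hsm rfl hs0
  have hm12 : m1 + s.natDegree = n := by
    have h1 : (f * t).natDegree = m1 := by
      rw [← hM1c]
      exact (charpoly_props _).2
    rw [← hχd, hs, Polynomial.natDegree_mul hχ1m.ne_zero hsm.ne_zero, h1]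
  obtain ⟨b1, hb1u, hb1c, hb1N⟩ := unitary_model hK φ hφq hφ p M1 N1 hN1 hM1N
    (by rw [hM1s, hM1c])
  obtain ⟨b2, hb2u, hb2c, hb2N⟩ := unitary_model hK φ hφq hφ p M2 (orderOf M2) hM2o
    (pow_orderOf_eq_one M2) (by rw [starInv_charpoly, hM2c, hduals])
  obtain ⟨A', hA'def⟩ : ∃ A' : Matrix (Fin n) (Fin n) K, A' = blk hm12 b1 b2 := ⟨_, rfl⟩
  have hA'u : cstar φ A' * A' = 1 := by
    rw [hA'def, blk_cstar, blk_mul, hb1u, hb2u, blk_one]
  have hA'c : A'.charpoly = A.charpoly := by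
    rw [hA'def, blk_charpoly, hb1c, hb2c, hM1c, hM2c, hs]
  have hA'N : A' ^ (N1 * orderOf M2) = 1 := by
    rw [hA'def, blk_pow, pow_mul, hb1N, one_pow, mul_comm, pow_mul, hb2N, one_pow, blk_one]
  have hNN : (N1 * orderOf M2).Coprime p := Nat.Coprime.mul_left hN1 hM2o
  have hA'' : A' * cstar φ A' = 1 := mul_eq_one_comm.mp hA'u
  have hss : Module.End.IsSemisimple (Matrix.toLin' A) := ss_of_pow p A N hN hAN
  have hss' : Module.End.IsSemisimple (Matrix.toLin' A') := ss_of_pow p A' _ hNN hA'N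
  obtain ⟨G, hG⟩ := isConj_iff.mp (ss_isConj (⟨A, cstar φ A, hA', hA⟩ : GL (Fin n) K)
    (⟨A', cstar φ A', hA'', hA'u⟩ : GL (Fin n) K) hss hss' hA'c.symm)
  have hGdet : (G : Matrix (Fin n) (Fin n) K).det ≠ 0 :=
    ((Matrix.isUnit_iff_isUnit_det _).mp G.isUnit).ne_zero
  have hGA' : (G : Matrix (Fin n) (Fin n) K) * A = A' * (G : Matrix (Fin n) (Fin n) K) :=
    congrArg Units.val (mul_inv_eq_iff_eq_mul.mp hG)
  obtain ⟨u, huu, huA⟩ := unitary_conj φ hφ hne A A' (G : Matrix (Fin n) (Fin n) K) hA hA'u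
    hGdet hGA'
  have hb1ss : Module.End.IsSemisimple (Matrix.toLin' b1) := ss_of_pow p b1 N1 hN1 hb1N
  obtain ⟨C1, hC1u, hC1c, hC1d⟩ := dsu_model φ hφ hne b1 hb1u hb1ss f t hfm hf
    (by rw [hb1c, hM1c]) hcop μ hμ
  obtain ⟨C', hC'def⟩ : ∃ C' : Matrix (Fin n) (Fin n) K, C' = blk hm12 C1 1 := ⟨_, rfl⟩
  have hC'u : cstar φ C' * C' = 1 := by
    rw [hC'def, blk_cstar, blk_mul, hC1u, cstar_one, Matrix.one_mul, blk_one]
  have hC'c : C' * A' = A' * C' := by
    rw [hC'def, hA'def, blk_mul, blk_mul, hC1c, Matrix.one_mul, Matrix.mul_one]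
  have hC'd : C'.det = μ := by
    rw [hC'def, blk_det, hC1d, Matrix.det_one, mul_one]
  have huu' : u * cstar φ u = 1 := mul_eq_one_comm.mp huu
  have hAu : A * cstar φ u = cstar φ u * A' := by
    calc A * cstar φ u = (cstar φ u * u) * A * cstar φ u := by rw [huu, Matrix.one_mul]
      _ = cstar φ u * (u * A) * cstar φ u := by simp only [Matrix.mul_assoc]
      _ = cstar φ u * (A' * u) * cstar φ u := by rw [huA]
      _ = cstar φ u * A' * (u * cstar φ u) := by simp only [Matrix.mul_assoc]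
      _ = cstar φ u * A' := by rw [huu', Matrix.mul_one]
  refine ⟨cstar φ u * C' * u, ?_, ?_, ?_⟩
  · rw [cstar_mul, cstar_mul, cstar_cstar φ hφ]
    calc cstar φ u * (cstar φ C' * u) * (cstar φ u * C' * u)
        = cstar φ u * cstar φ C' * (u * cstar φ u) * C' * u := by simp only [Matrix.mul_assoc]
      _ = cstar φ u * (cstar φ C' * C') * u := by
          rw [huu', Matrix.mul_one]
          simp only [Matrix.mul_assoc]
      _ = 1 := by rw [hC'u, Matrix.mul_one, huu]
  · calc cstar φ u * C' * u * A = cstar φ u * C' * (u * A) := by simp only [Matrix.mul_assoc]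
      _ = cstar φ u * (C' * A') * u := by
          rw [huA]
          simp only [Matrix.mul_assoc]
      _ = (cstar φ u * A') * C' * u := by
          rw [hC'c]
          simp only [Matrix.mul_assoc]
      _ = A * (cstar φ u * C' * u) := by
          rw [← hAu]
          simp only [Matrix.mul_assoc]
  · rw [Matrix.det_mul, Matrix.det_mul, hC'd, cstar_det]
    have h1 : φ u.det * u.det = 1 := by
      have h2 := congrArg Matrix.det huu
      rw [Matrix.det_mul, cstar_det, Matrix.det_one] at h2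
      exact h2
    calc φ u.det * μ * u.det = (φ u.det * u.det) * μ := by ring
      _ = μ := by rw [h1, one_mul]

end Cfsg.Agent.Lib.Helper15.Semi
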