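import Mathlib
import Cfsg.Agent.Lib.Helper15.UnitB
import Cfsg.Agent.Lib.Helper15.SemiC

set_option autoImplicit false

namespace Cfsg.Agent.Lib.Helper15.Semi

open Polynomial Cfsg.Agent.Lib.Helper15.Wall

universe w

variable {K : Type w} [Field K]

/-- Fixed points of a semilinear additive involution: the square of their number is the size of
the module. -/
theorem card_fix_sq {V : Type*} [AddCommGroup V] [Module K V] [Finite V] (φ : K →+* K)
    (hφ : ∀ x, φ (φ x) = x) (hne : ∃ a, φ a ≠ a) (S : V →+ V) (hS : ∀ v, S (S v) = v)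
    (hsl : ∀ (a : K) (v : V), S (a • v) = φ a • S v) :
    Nat.card {v : V // S v = v} ^ 2 = Nat.card V := by
  obtain ⟨l, hl⟩ := hne
  have hl0 : l - φ l ≠ 0 := fun h => hl (sub_eq_zero.mp h).symm
  rw [sq, ← Nat.card_prod]
  apply Nat.card_eq_of_bijective
    (fun xy : {v : V // S v = v} × {v : V // S v = v} => (xy.1 : V) + l • (xy.2 : V))
  constructor
  · rintro ⟨⟨x, hx⟩, ⟨y, hy⟩⟩ ⟨⟨x', hx'⟩, ⟨y', hy'⟩⟩ h
    have h1 : x + l • y = x' + l • y' := h
    have h2 : x + φ l • y = x' + φ l • y' := by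
      have h0 := congrArg S h1
      rw [map_add, map_add, hsl, hsl, hx, hy, hx', hy'] at h0
      exact h0
    have h3 : (l - φ l) • y = (l - φ l) • y' := by
      rw [sub_smul, sub_smul]
      have e1 : l • y - φ l • y = (x + l • y) - (x + φ l • y) := by
        rw [add_sub_add_left_eq_sub]
      have e2 : l • y' - φ l • y' = (x' + l • y') - (x' + φ l • y') := by
        rw [add_sub_add_left_eq_sub]
      rw [e1, e2, h1, h2]
    have hyy : y = y' := smul_right_injective V hl0 h3
    subst hyy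
    have hxx : x = x' := add_right_cancel h1
    subst hxx
    rfl
  · intro v
    obtain ⟨c, hc⟩ : ∃ c : K, c = (l - φ l)⁻¹ := ⟨_, rfl⟩
    have hφc : φ c = -c := by
      rw [hc, map_inv₀, map_sub, hφ, ← neg_sub, neg_inv]
    have hy : S (c • (v - S v)) = c • (v - S v) := by
      rw [hsl, hφc, map_sub, hS, neg_smul, ← smul_neg, neg_sub]
    have h4 : l • c • (v - S v) - φ l • c • (v - S v) = v - S v := by
      rw [← sub_smul, smul_smul, hc, mul_inv_cancel₀ hl0, one_smul]
    have hx : S (v - l • c • (v - S v)) = v - l • c • (v - S v) := by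
      rw [map_sub, hsl, hy]
      generalize l • c • (v - S v) = A at h4 ⊢
      generalize φ l • c • (v - S v) = B at h4 ⊢
      have e1 : A = v - S v + B := by
        rw [← h4, sub_add_cancel]
      rw [e1]
      abel
    refine ⟨(⟨_, hx⟩, ⟨_, hy⟩), ?_⟩
    show v - l • c • (v - S v) + l • c • (v - S v) = v
    rw [sub_add_cancel]

/-- The semilinear reversal map on coefficient vectors. -/
def revS (φ : K →+* K) (ε : K) (m : ℕ) : (Fin m → K) →+ (Fin m → K) where
  toFun c := fun j => ε * φ (c (Fin.rev j))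
  map_zero' := by
    funext j
    simp
  map_add' := by
    intro c d
    funext j
    simp [mul_add]

theorem revS_apply (φ : K →+* K) (ε : K) (m : ℕ) (c : Fin m → K) (j : Fin m) :
    revS φ ε m c j = ε * φ (c (Fin.rev j)) := rfl

theorem card_revS [Fintype K] {q : ℕ} (hK : Fintype.card K = q ^ 2) (φ : K →+* K)
    (hφq : ∀ x, φ x = x ^ q) (hφ : ∀ x, φ (φ x) = x) (ε : K) (hε : ε * φ ε = 1) (m : ℕ) :
    Nat.card {c : Fin m → K // revS φ ε m c = c} = q ^ m := by
  have h1 := card_fix_sq (K := K) (V := Fin m → K) φ hφ (frob_ne hK φ hφq) (revS φ ε m)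
    (by
      intro c
      funext j
      rw [revS_apply, revS_apply, Fin.rev_rev, map_mul, hφ, ← mul_assoc, hε, one_mul])
    (by
      intro a c
      funext j
      rw [revS_apply, Pi.smul_apply, Pi.smul_apply, revS_apply, smul_eq_mul, smul_eq_mul, map_mul]
      ring)
  have h2 : Nat.card (Fin m → K) = (q ^ m) ^ 2 := by
    rw [Nat.card_eq_fintype_card, Fintype.card_fun, Fintype.card_fin, hK, ← pow_mul, ← pow_mul,
      mul_comm]
  rw [h2] at h1
  exact Nat.pow_left_injective (n := 2) (by norm_num) h1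

theorem dual_coeff (φ : K →+* K) (f : K[X]) (i : ℕ) :
    (dual φ f).coeff i = φ ((f.coeff 0)⁻¹ * f.coeff (Polynomial.revAt f.natDegree i)) := by
  unfold dual
  rw [Polynomial.coeff_map, Polynomial.coeff_C_mul, Polynomial.coeff_reverse]

/-- Self-duality of a monic polynomial with constant term `ε`, in terms of its middle
coefficients. -/
theorem selfdual_iff (φ : K →+* K) (ε : K) (hε : ε * ε = 1) (hφε : φ ε = ε) (n : ℕ) (hn : 0 < n)
    (f : K[X]) (hm : f.Monic) (hd : f.natDegree = n) (h0 : f.coeff 0 = ε) :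
    dual φ f = f ↔
      revS φ ε (n - 1) (fun j : Fin (n - 1) => f.coeff ((j : ℕ) + 1)) =
        (fun j : Fin (n - 1) => f.coeff ((j : ℕ) + 1)) := by
  have hεinv : ε⁻¹ = ε := inv_eq_of_mul_eq_one_right hε
  have hfn : f.coeff n = 1 := by
    rw [← hd]
    exact hm.coeff_natDegree
  have hφmul : ∀ x : K, φ (ε⁻¹ * x) = ε * φ x := by
    intro x
    rw [map_mul, hεinv, hφε]
  constructor
  · intro hdual
    funext j
    rw [revS_apply]
    have h1 := dual_coeff φ f ((j : ℕ) + 1)
    rw [hdual, hd, h0, Polynomial.revAt_le (by have := j.2; omega), hφmul] at h1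
    have e1 : ((Fin.rev j : Fin (n - 1)) : ℕ) + 1 = n - ((j : ℕ) + 1) := by
      rw [Fin.val_rev]
      have := j.2
      omega
    show ε * φ (f.coeff (((Fin.rev j : Fin (n - 1)) : ℕ) + 1)) = f.coeff ((j : ℕ) + 1)
    rw [e1]
    exact h1.symm
  · intro hfix
    ext i
    rw [dual_coeff, hd, h0, hφmul]
    rcases lt_or_ge n i with hi | hi
    · rw [Polynomial.revAt_eq_self_of_lt hi,
        Polynomial.coeff_eq_zero_of_natDegree_lt (by rw [hd]; exact hi), map_zero, mul_zero]
    · rw [Polynomial.revAt_le hi]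
      rcases Nat.eq_zero_or_pos i with rfl | hi0
      · rw [Nat.sub_zero, hfn, map_one, mul_one, h0]
      · rcases eq_or_lt_of_le hi with rfl | hin
        · rw [Nat.sub_self, h0, hφε, hε, hfn]
        · have h1 := congrFun hfix ⟨i - 1, by omega⟩
          rw [revS_apply] at h1
          have e1 : ((Fin.rev (⟨i - 1, by omega⟩ : Fin (n - 1)) : Fin (n - 1)) : ℕ) + 1 = n - i := by
            rw [Fin.val_rev]
            show n - 1 - (i - 1 + 1) + 1 = n - i
            omega
          have e2 : i - 1 + 1 = i := by omega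
          have h2 : ε * φ (f.coeff (((Fin.rev (⟨i - 1, by omega⟩ : Fin (n - 1)) : Fin (n - 1)) : ℕ)
              + 1)) = f.coeff (i - 1 + 1) := h1
          rw [e1, e2] at h2
          exact h2

/-- Monic polynomials of degree `n` with constant term `ε` correspond to vectors of middle
coefficients. -/
theorem vec_bij (ε : K) (n : ℕ) (hn : 0 < n) :
    Function.Bijective (fun f : {f : K[X] // f.Monic ∧ f.natDegree = n ∧ f.coeff 0 = ε} =>
      (fun j : Fin (n - 1) => f.1.coeff ((j : ℕ) + 1))) := by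
  constructor
  · rintro ⟨f, hfm, hfd, hf0⟩ ⟨f', hfm', hfd', hf0'⟩ hff
    apply Subtype.ext
    have h1 : ∀ j : Fin (n - 1), f.coeff ((j : ℕ) + 1) = f'.coeff ((j : ℕ) + 1) :=
      fun j => congrFun hff j
    apply Polynomial.ext
    intro k
    rcases lt_trichotomy k n with hk | hk | hk
    · rcases Nat.eq_zero_or_pos k with rfl | hk0
      · show f.coeff 0 = f'.coeff 0
        rw [hf0, hf0']
      · have h2 := h1 ⟨k - 1, by omega⟩
        have e2 : k - 1 + 1 = k := by omega
        have h3 : f.coeff (k - 1 + 1) = f'.coeff (k - 1 + 1) := h2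
        rw [e2] at h3
        exact h3
    · have e1 : f.coeff k = 1 := by
        rw [hk, ← hfd]
        exact hfm.coeff_natDegree
      have e2 : f'.coeff k = 1 := by
        rw [hk, ← hfd']
        exact hfm'.coeff_natDegree
      show f.coeff k = f'.coeff k
      rw [e1, e2]
    · show f.coeff k = f'.coeff k
      rw [Polynomial.coeff_eq_zero_of_natDegree_lt (by rw [hfd]; exact hk),
        Polynomial.coeff_eq_zero_of_natDegree_lt (by rw [hfd']; exact hk)]
  · intro c
    obtain ⟨d, hd⟩ : ∃ d : Fin n → K, d = fun i : Fin n =>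
        if h : (i : ℕ) = 0 then ε else c ⟨(i : ℕ) - 1, by have := i.2; omega⟩ := ⟨_, rfl⟩
    obtain ⟨g, hg⟩ : ∃ g : Polynomial.degreeLT K n, g = (Polynomial.degreeLTEquiv K n).symm d :=
      ⟨_, rfl⟩
    have hgd : (g : K[X]).degree < n := Polynomial.mem_degreeLT.mp g.2
    have hcoef : ∀ i : Fin n, (g : K[X]).coeff i = d i := by
      intro i
      have h1 := congrFun ((Polynomial.degreeLTEquiv K n).apply_symm_apply d) i
      rw [← hg] at h1
      exact h1
    have hco : ∀ i : Fin n, (X ^ n + (g : K[X])).coeff i = d i := by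
      intro i
      rw [Polynomial.coeff_add, Polynomial.coeff_X_pow, if_neg (ne_of_lt i.2), zero_add, hcoef]
    refine ⟨⟨X ^ n + (g : K[X]), Polynomial.monic_X_pow_add hgd, ?_, ?_⟩, ?_⟩
    · rw [Polynomial.natDegree_add_eq_left_of_degree_lt (by rw [Polynomial.degree_X_pow]; exact hgd),
        Polynomial.natDegree_X_pow]
    · have h2 : (X ^ n + (g : K[X])).coeff 0 = d ⟨0, hn⟩ := hco ⟨0, hn⟩
      rw [h2, hd]
      exact dif_pos rfl
    · funext j
      have h2 : (X ^ n + (g : K[X])).coeff ((j : ℕ) + 1) = d ⟨(j : ℕ) + 1, by have := j.2; omega⟩ :=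
        hco ⟨(j : ℕ) + 1, by have := j.2; omega⟩
      show (X ^ n + (g : K[X])).coeff ((j : ℕ) + 1) = c j
      rw [h2, hd]
      show (if h : (j : ℕ) + 1 = 0 then ε else c ⟨(j : ℕ) + 1 - 1, _⟩) = c j
      rw [dif_neg (Nat.succ_ne_zero _)]
      rfl

/-- The number of self-dual monic polynomials of degree `n` with constant term `(-1) ^ n`. -/
theorem card_selfdual [Fintype K] {q : ℕ} (hK : Fintype.card K = q ^ 2) (φ : K →+* K)
    (hφq : ∀ x, φ x = x ^ q) (hφ : ∀ x, φ (φ x) = x) (n : ℕ) (hn : 0 < n) :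
    Nat.card {f : K[X] // f.Monic ∧ f.natDegree = n ∧ f.coeff 0 = (-1) ^ n ∧ dual φ f = f} =
      q ^ (n - 1) := by
  obtain ⟨ε, hεdef⟩ : ∃ ε : K, ε = (-1) ^ n := ⟨_, rfl⟩
  have hε : ε * ε = 1 := by
    rw [hεdef, ← pow_add, ← two_mul, pow_mul, neg_one_sq, one_pow]
  have hφε : φ ε = ε := by
    rw [hεdef, map_pow, map_neg, map_one]
  rw [← hεdef, ← card_revS hK φ hφq hφ ε (by rw [hφε]; exact hε) (n - 1)]
  have hbij := vec_bij ε n hn
  apply Nat.card_eq_of_bijective
    (fun f : {f : K[X] // f.Monic ∧ f.natDegree = n ∧ f.coeff 0 = ε ∧ dual φ f = f} =>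
      (⟨fun j : Fin (n - 1) => f.1.coeff ((j : ℕ) + 1),
        (selfdual_iff φ ε hε hφε n hn f.1 f.2.1 f.2.2.1 f.2.2.2.1).mp f.2.2.2.2⟩ :
        {c : Fin (n - 1) → K // revS φ ε (n - 1) c = c}))
  constructor
  · rintro ⟨f, hfm, hfd, hf0, hfdual⟩ ⟨f', hfm', hfd', hf0', hfdual'⟩ hff
    apply Subtype.ext
    have h1 := @hbij.1 ⟨f, hfm, hfd, hf0⟩ ⟨f', hfm', hfd', hf0'⟩ (congrArg Subtype.val hff)
    have h2 : f = f' := Subtype.ext_iff.mp h1
    exact h2
  · rintro ⟨c, hc⟩
    obtain ⟨⟨f, hfm, hfd, hf0⟩, hf⟩ := hbij.2 c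
    have hf' : (fun j : Fin (n - 1) => f.coeff ((j : ℕ) + 1)) = c := hf
    refine ⟨⟨f, hfm, hfd, hf0, ?_⟩, ?_⟩
    · rw [selfdual_iff φ ε hε hφε n hn f hfm hfd hf0, hf']
      exact hc
    · apply Subtype.ext
      exact hf'

/-- The characteristic polynomial of a unitary matrix is self-dual. -/
theorem charpoly_selfdual (φ : K →+* K) (hφ : ∀ x, φ (φ x) = x) {n : ℕ}
    (A : Matrix (Fin n) (Fin n) K) (hA : cstar φ A * A = 1) : dual φ A.charpoly = A.charpoly := by
  have hA' : A * cstar φ A = 1 := mul_eq_one_comm.mp hA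
  obtain ⟨GA, hGA, hGAinv⟩ : ∃ GA : GL (Fin n) K, (GA : Matrix (Fin n) (Fin n) K) = A ∧
      ((GA⁻¹ : GL (Fin n) K) : Matrix (Fin n) (Fin n) K) = cstar φ A :=
    ⟨⟨A, cstar φ A, hA', hA⟩, rfl, rfl⟩
  have h1 := starInv_charpoly φ GA
  rw [starInv_val, hGAinv, cstar_cstar φ hφ, hGA] at h1
  exact h1.symm

end Cfsg.Agent.Lib.Helper15.Semi
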