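import Mathlib
import Cfsg.Agent.Lib.Helper15.CycA
import Cfsg.Agent.Lib.Helper15.UnitC
import Cfsg.Agent.S2587

set_option autoImplicit false

namespace Cfsg.Agent.Lib.Helper15.Semi

open Polynomial Cfsg.Agent.Lib.Helper15.Wall

universe w

variable {K : Type w} [Field K]

theorem dual_one (φ : K →+* K) : dual φ (1 : K[X]) = 1 := by
  unfold dual
  rw [Polynomial.coeff_one_zero, inv_one, map_one, one_mul, ← Polynomial.C_1, Polynomial.reverse_C,
    Polynomial.map_C, map_one]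

theorem dual_pow (φ : K →+* K) (f : K[X]) (k : ℕ) : dual φ (f ^ k) = dual φ f ^ k := by
  induction k with
  | zero => rw [pow_zero, pow_zero, dual_one]
  | succ k ih => rw [pow_succ, dual_mul, ih, pow_succ]

theorem dual_prod (φ : K →+* K) {J : Type*} (s : Finset J) (f : J → K[X]) :
    dual φ (∏ j ∈ s, f j) = ∏ j ∈ s, dual φ (f j) := by
  classical
  induction s using Finset.induction_on with
  | empty => rw [Finset.prod_empty, Finset.prod_empty, dual_one]
  | insert j s hj ih => rw [Finset.prod_insert hj, Finset.prod_insert hj, dual_mul, ih]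

theorem dual_coeff_natDegree (φ : K →+* K) (f : K[X]) (h0 : f.coeff 0 ≠ 0) :
    (dual φ f).coeff f.natDegree = 1 := by
  rw [dual_coeff, Polynomial.revAt_le le_rfl, Nat.sub_self, inv_mul_cancel₀ h0, map_one]

theorem dual_natDegree (φ : K →+* K) (f : K[X]) (h0 : f.coeff 0 ≠ 0) :
    (dual φ f).natDegree = f.natDegree := by
  apply le_antisymm
  · rw [Polynomial.natDegree_le_iff_coeff_eq_zero]
    intro N hN
    rw [dual_coeff, Polynomial.revAt_eq_self_of_lt hN,
      Polynomial.coeff_eq_zero_of_natDegree_lt hN, mul_zero, map_zero]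
  · apply Polynomial.le_natDegree_of_ne_zero
    rw [dual_coeff_natDegree φ f h0]
    exact one_ne_zero

theorem dual_monic (φ : K →+* K) (f : K[X]) (h0 : f.coeff 0 ≠ 0) : (dual φ f).Monic := by
  unfold Polynomial.Monic Polynomial.leadingCoeff
  rw [dual_natDegree φ f h0, dual_coeff_natDegree φ f h0]

theorem dual_coeff_zero (φ : K →+* K) (f : K[X]) (hm : f.Monic) :
    (dual φ f).coeff 0 = φ (f.coeff 0)⁻¹ := by
  rw [dual_coeff, Polynomial.revAt_le (Nat.zero_le _), Nat.sub_zero, hm.coeff_natDegree, mul_one]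

theorem dual_dual (φ : K →+* K) (hφ : ∀ x, φ (φ x) = x) (f : K[X]) (hm : f.Monic)
    (h0 : f.coeff 0 ≠ 0) : dual φ (dual φ f) = f := by
  ext i
  rw [dual_coeff, dual_natDegree φ f h0, dual_coeff_zero φ f hm, dual_coeff,
    Polynomial.revAt_invol, ← map_inv₀, ← map_mul, hφ, inv_inv, ← mul_assoc, mul_inv_cancel₀ h0,
    one_mul]

theorem dual_X_pow_sub_one (φ : K →+* K) (r : ℕ) (hr : 0 < r) :
    dual φ (X ^ r - 1 : K[X]) = X ^ r - 1 := by
  have hnat : (X ^ r - 1 : K[X]).natDegree = r := by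
    have h1 : (X ^ r - 1 : K[X]) = X ^ r - C 1 := by rw [map_one]
    rw [h1, Polynomial.natDegree_X_pow_sub_C]
  have hc : ∀ k : ℕ, (X ^ r - 1 : K[X]).coeff k =
      (if k = r then 1 else 0) - (if k = 0 then 1 else 0) := by
    intro k
    rw [Polynomial.coeff_sub, Polynomial.coeff_X_pow, Polynomial.coeff_one]
  have h00 : (X ^ r - 1 : K[X]).coeff 0 = -1 := by
    rw [hc]
    simp [hr.ne]
  ext i
  rw [dual_coeff, hnat, h00]
  rcases lt_or_ge r i with hi | hi
  · have e1 : i ≠ r := by omega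
    have e2 : i ≠ 0 := by omega
    rw [Polynomial.revAt_eq_self_of_lt hi]
    simp [hc, e1, e2]
  · rw [Polynomial.revAt_le hi]
    rcases Nat.eq_zero_or_pos i with rfl | hi0
    · simp [hc, hr.ne, hr.ne']
    · rcases eq_or_lt_of_le hi with rfl | hir
      · simp [hc, hr.ne, hr.ne']
      · have e1 : r - i ≠ r := by omega
        have e2 : r - i ≠ 0 := by omega
        have e3 : i ≠ r := by omega
        have e4 : i ≠ 0 := by omega
        simp [hc, e1, e2, e3, e4]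

theorem coeff_zero_ne_of_dvd (r : ℕ) (hr : 0 < r) (f : K[X]) (hf : f ∣ X ^ r - 1) :
    f.coeff 0 ≠ 0 := by
  intro h0
  have hX : (X : K[X]) ∣ f := Polynomial.X_dvd_iff.mpr h0
  have h4 := Polynomial.X_dvd_iff.mp (hX.trans hf)
  rw [Polynomial.coeff_sub, Polynomial.coeff_X_pow, Polynomial.coeff_one_zero, if_neg hr.ne,
    zero_sub] at h4
  exact one_ne_zero (neg_eq_zero.mp h4)

theorem exists_dual_index (φ : K →+* K) (hφ : ∀ x, φ (φ x) = x) (r : ℕ) (hr : 0 < r)
    {J : Type*} (h : J → K[X]) (hirr : ∀ j, Irreducible (h j)) (hmon : ∀ j, (h j).Monic)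
    (hdiv : ∀ j, h j ∣ X ^ r - 1)
    (hall : ∀ g : K[X], g.Monic → Irreducible g → g ∣ X ^ r - 1 → ∃ j, h j = g) (j : J) :
    ∃ j', h j' = dual φ (h j) := by
  have h0 : ∀ j, (h j).coeff 0 ≠ 0 := fun j => coeff_zero_ne_of_dvd r hr _ (hdiv j)
  have hgnu : ¬ IsUnit (dual φ (h j)) := by
    intro hu
    have h1 := Polynomial.natDegree_eq_zero_of_isUnit hu
    rw [dual_natDegree φ _ (h0 j)] at h1
    have h2 := (hirr j).natDegree_pos
    omega
  have hgdvd : dual φ (h j) ∣ X ^ r - 1 := by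
    obtain ⟨c, hc⟩ := hdiv j
    refine ⟨dual φ c, ?_⟩
    rw [← dual_mul, ← hc, dual_X_pow_sub_one φ r hr]
  obtain ⟨g', hg'm, hg'i, hg'd⟩ := Polynomial.exists_monic_irreducible_factor _ hgnu
  obtain ⟨j', hj'⟩ := hall g' hg'm hg'i (hg'd.trans hgdvd)
  refine ⟨j', ?_⟩
  have h3 : dual φ (h j') ∣ h j := by
    obtain ⟨c, hc⟩ := hg'd
    refine ⟨dual φ c, ?_⟩
    rw [← dual_mul, hj', ← hc, dual_dual φ hφ _ (hmon j) (h0 j)]
  have h4 : ¬ IsUnit (dual φ (h j')) := by
    intro hu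
    have h1 := Polynomial.natDegree_eq_zero_of_isUnit hu
    rw [dual_natDegree φ _ (h0 j')] at h1
    have h2 := (hirr j').natDegree_pos
    omega
  obtain ⟨c, hc⟩ := h3
  have h5 : IsUnit c := ((hirr j).isUnit_or_isUnit hc).resolve_left h4
  have h6 : dual φ (h j') = h j :=
    Polynomial.eq_of_monic_of_associated (dual_monic φ _ (h0 j')) (hmon j)
      ⟨h5.unit, by rw [IsUnit.unit_spec]; exact hc.symm⟩
  rw [← h6, dual_dual φ hφ _ (hmon j') (h0 j')]

/-- Duality permutes the exponents of a product over a family closed under duality. -/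
theorem dual_prod_pow (φ : K →+* K) {J : Type*} [Fintype J] (h : J → K[X]) (σ : J → J)
    (hσσ : ∀ j, σ (σ j) = j) (hσ : ∀ j, h (σ j) = dual φ (h j)) (a : J → ℕ) :
    dual φ (∏ j, h j ^ a j) = ∏ j, h j ^ a (σ j) := by
  rw [dual_prod]
  have e1 : ∀ j, dual φ (h j ^ a j) = (fun k => h k ^ a (σ k)) (σ j) := by
    intro j
    show dual φ (h j ^ a j) = h (σ j) ^ a (σ (σ j))
    rw [dual_pow, hσ, hσσ]
  rw [Finset.prod_congr rfl (fun j _ => e1 j)]
  exact Equiv.prod_comp (Function.Involutive.toPerm σ hσσ) (fun k => h k ^ a (σ k))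

/-- Conjugacy classes of elements of order dividing a prime `r` (not the characteristic) in the
unitary group correspond to duality-invariant exponent vectors. -/
theorem gu_pow_classes [Fintype K] {q : ℕ} (hK : Fintype.card K = q ^ 2) (φ : K →+* K)
    (hφq : ∀ x, φ x = x ^ q) (hφ : ∀ x, φ (φ x) = x) (p : ℕ) [Fact p.Prime] [CharP K p]
    (n r : ℕ) (hr : r.Prime) (hrp : r ≠ p) {J : Type} [Fintype J] [DecidableEq J]
    (h : J → K[X]) (hinj : Function.Injective h) (hirr : ∀ j, Irreducible (h j))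
    (hmon : ∀ j, (h j).Monic) (hdiv : ∀ j, h j ∣ X ^ r - 1)
    (hall : ∀ g : K[X], g.Monic → Irreducible g → g ∣ X ^ r - 1 → ∃ j, h j = g)
    (σ : J → J) (hσ : ∀ j, h (σ j) = dual φ (h j)) :
    Nat.card {C : ConjClasses ↥(Cfsg.GU n K q) //
        ∃ g : ↥(Cfsg.GU n K q), ConjClasses.mk g = C ∧ g ^ r = 1} =
      Nat.card {a : J → ℕ // (∑ j, a j * (h j).natDegree = n) ∧ ∀ j, a (σ j) = a j} := by
  classical
  have hp : p.Prime := Fact.out
  have hcop : r.Coprime p := (Nat.coprime_primes hr hp).mpr hrp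
  have hq0 : q ≠ 0 := card_sq_ne_zero hK
  have h0 : ∀ j, (h j).coeff 0 ≠ 0 := fun j => coeff_zero_ne_of_dvd r hr.pos _ (hdiv j)
  have hσσ : ∀ j, σ (σ j) = j := by
    intro j
    apply hinj
    rw [hσ, hσ, dual_dual φ hφ _ (hmon j) (h0 j)]
  have hval : ∀ g : ↥(Cfsg.GU n K q), g ^ r = 1 →
      ((g : Matrix.GeneralLinearGroup (Fin n) K) : Matrix (Fin n) (Fin n) K) ^ r = 1 := by
    intro g hg
    rw [← Units.val_pow_eq_pow_val, ← Subgroup.coe_pow, hg]
    rfl
  have hss : ∀ g : ↥(Cfsg.GU n K q), g ^ r = 1 → Module.End.IsSemisimple (Matrix.toLin'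
      ((g : Matrix.GeneralLinearGroup (Fin n) K) : Matrix (Fin n) (Fin n) K)) :=
    fun g hg => ss_of_pow p _ r hcop (hval g hg)
  have hexp : ∀ g : ↥(Cfsg.GU n K q), g ^ r = 1 →
      ∃ a : J → ℕ, ((∑ j, a j * (h j).natDegree = n) ∧ ∀ j, a (σ j) = a j) ∧
        ((g : Matrix.GeneralLinearGroup (Fin n) K) : Matrix (Fin n) (Fin n) K).charpoly =
          ∏ j, h j ^ a j := by
    intro g hg
    obtain ⟨a, ha⟩ := exists_exponents h _ _ (Nat.lt_succ_self _) (Matrix.charpoly_monic _)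
      (fun g' hg'm hg'i hg'd => hall g' hg'm hg'i
        (irr_dvd_of_pow_eq_one _ r (hval g hg) g' hg'i hg'd))
    refine ⟨a, ⟨?_, ?_⟩, ha⟩
    · rw [← natDegree_prod_pow h hmon a, ← ha, (charpoly_props _).2]
    · have h1 := charpoly_selfdual φ hφ _ (mem_GU_cstar hq0 φ hφq
        (g : Matrix.GeneralLinearGroup (Fin n) K) g.2)
      rw [ha, dual_prod_pow φ h σ hσσ hσ a] at h1
      have h2 := prod_pow_injective h hinj hirr hmon h1
      intro j
      exact congrFun h2 j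
  have hrep : ∀ c : {C : ConjClasses ↥(Cfsg.GU n K q) //
      ∃ g : ↥(Cfsg.GU n K q), ConjClasses.mk g = C ∧ g ^ r = 1},
      ∃ g : ↥(Cfsg.GU n K q), ConjClasses.mk g = c.1 ∧ g ^ r = 1 := fun c => c.2
  choose rep hrep1 hrep2 using hrep
  have hexp' : ∀ c : {C : ConjClasses ↥(Cfsg.GU n K q) //
      ∃ g : ↥(Cfsg.GU n K q), ConjClasses.mk g = C ∧ g ^ r = 1},
      ∃ a : J → ℕ, ((∑ j, a j * (h j).natDegree = n) ∧ ∀ j, a (σ j) = a j) ∧
        (((rep c : ↥(Cfsg.GU n K q)) : Matrix.GeneralLinearGroup (Fin n) K) :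
          Matrix (Fin n) (Fin n) K).charpoly = ∏ j, h j ^ a j := fun c => hexp (rep c) (hrep2 c)
  choose ex hex1 hex2 using hexp'
  apply Nat.card_eq_of_bijective
    (fun c => (⟨ex c, hex1 c⟩ :
      {a : J → ℕ // (∑ j, a j * (h j).natDegree = n) ∧ ∀ j, a (σ j) = a j}))
  constructor
  · intro c c' hcc
    have h1 : ex c = ex c' := congrArg Subtype.val hcc
    apply Subtype.ext
    rw [← hrep1 c, ← hrep1 c', ConjClasses.mk_eq_mk_iff_isConj, Cfsg.Agent.S2587.result hK]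
    apply ss_isConj _ _ (hss _ (hrep2 c)) (hss _ (hrep2 c'))
    rw [hex2 c, hex2 c', h1]
  · rintro ⟨a, ha, haσ⟩
    obtain ⟨f, hf⟩ : ∃ f : K[X], f = ∏ j, h j ^ a j := ⟨_, rfl⟩
    have hfm : f.Monic := by
      rw [hf]
      exact monic_prod_pow h hmon a
    have hfd : f.natDegree = n := by
      rw [hf, natDegree_prod_pow h hmon a, ha]
    have hfdvd : f ∣ (X ^ r - 1) ^ (∑ j, a j) := by
      rw [hf, ← Finset.prod_pow_eq_pow_sum]
      exact Finset.prod_dvd_prod_of_dvd _ _ (fun j _ => pow_dvd_pow_of_dvd (hdiv j) (a j))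
    have hf0 : f.coeff 0 ≠ 0 := by
      intro h0'
      have hX : (X : K[X]) ∣ f := Polynomial.X_dvd_iff.mpr h0'
      have hX2 : (X : K[X]) ∣ (X ^ r - 1) ^ (∑ j, a j) := hX.trans hfdvd
      have hX3 : (X : K[X]) ∣ X ^ r - 1 := Polynomial.prime_X.dvd_of_dvd_pow hX2
      exact coeff_zero_ne_of_dvd r hr.pos X hX3 Polynomial.coeff_X_zero
    have hfdual : dual φ f = f := by
      rw [hf, dual_prod_pow φ h σ hσσ hσ a]
      apply Finset.prod_congr rfl
      intro j _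
      rw [haσ j]
    obtain ⟨g, hg, hgo⟩ := exists_charpoly p n f hfm hfd hf0
    have hgN : g ^ orderOf g = 1 := pow_orderOf_eq_one g
    have hcs : ((starInv φ g : Matrix.GeneralLinearGroup (Fin n) K) :
        Matrix (Fin n) (Fin n) K).charpoly = (g : Matrix (Fin n) (Fin n) K).charpoly := by
      rw [starInv_charpoly, hg, hfdual]
    obtain ⟨b, hbu, hbc, hbN⟩ := unitary_model hK φ hφq hφ p g (orderOf g) hgo hgN hcs
    have hbss : Module.End.IsSemisimple (Matrix.toLin' b) := ss_of_pow p b (orderOf g) hgo hbN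
    have hbr : b ^ r = 1 :=
      pow_eq_one_of_charpoly_dvd b hbss r _ (by rw [hbc, hg]; exact hfdvd)
    obtain ⟨U, hUmem, hUval⟩ := GU_of_cstar (q := q) φ hφq b hbu
    have hUr : (⟨U, hUmem⟩ : ↥(Cfsg.GU n K q)) ^ r = 1 := by
      apply Subtype.ext
      apply Units.ext
      show ((U ^ r : Matrix.GeneralLinearGroup (Fin n) K) : Matrix (Fin n) (Fin n) K) = 1
      rw [Units.val_pow_eq_pow_val, hUval, hbr]
    refine ⟨⟨ConjClasses.mk ⟨U, hUmem⟩, ⟨U, hUmem⟩, rfl, hUr⟩, ?_⟩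
    apply Subtype.ext
    show ex ⟨ConjClasses.mk ⟨U, hUmem⟩, ⟨U, hUmem⟩, rfl, hUr⟩ = a
    apply prod_pow_injective h hinj hirr hmon
    show ∏ j, h j ^ ex ⟨ConjClasses.mk ⟨U, hUmem⟩, ⟨U, hUmem⟩, rfl, hUr⟩ j = ∏ j, h j ^ a j
    rw [← hex2, ← hf, ← hg, ← hbc, ← hUval]
    exact charpoly_of_isConj ((Cfsg.Agent.S2587.result hK _ _).mp
      (ConjClasses.mk_eq_mk_iff_isConj.mp
        (hrep1 ⟨ConjClasses.mk ⟨U, hUmem⟩, ⟨U, hUmem⟩, rfl, hUr⟩)))

end Cfsg.Agent.Lib.Helper15.Semi
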