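import Mathlib
import Cfsg.Agent.Lib.Helper15.CycB

set_option autoImplicit false

namespace Cfsg.Agent.Lib.Helper15.Semi

open Polynomial Cfsg.Agent.Lib.Helper15.Wall

universe w

variable {K : Type w} [Field K]

theorem dual_X_sub_one (φ : K →+* K) : dual φ (X - 1 : K[X]) = X - 1 := by
  have h := dual_X_pow_sub_one φ 1 one_pos
  rw [pow_one] at h
  exact h

theorem exists_pow_hom (L : Type*) [CommRing L] (p : ℕ) [Fact p.Prime] [CharP L p] (e : ℕ) :
    ∃ ψ : L →+* L, ∀ x, ψ x = x ^ p ^ e :=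
  ⟨{ toFun := fun x => x ^ p ^ e
     map_one' := one_pow _
     map_mul' := fun x y => mul_pow x y _
     map_zero' := zero_pow (pow_ne_zero e (Fact.out : p.Prime).ne_zero)
     map_add' := fun x y => add_pow_char_pow x y p e }, fun x => rfl⟩

/-- An irreducible factor of the `r`-th cyclotomic polynomial over the field with `q ^ 2`
elements is self-dual exactly when `-q` is a power of `q ^ 2` modulo `r`. -/
theorem selfdual_iff_cyc [Fintype K] {q : ℕ} (hK : Fintype.card K = q ^ 2) (φ : K →+* K)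
    (hφq : ∀ x, φ x = x ^ q) (p : ℕ) [Fact p.Prime] [CharP K p] (r d : ℕ)
    (hr : r.Prime) (hrp : r ≠ p) (g : K[X]) (hgm : g.Monic) (hgi : Irreducible g)
    (hgd : g ∣ cyclotomic r K) (hd : d = orderOf ((Fintype.card K : ℕ) : ZMod r))
    (hgdeg : g.natDegree = d) :
    dual φ g = g ↔ ∃ k : ℕ, r ∣ q + (q ^ 2) ^ k := by
  classical
  have hp : p.Prime := Fact.out
  have : Fact r.Prime := ⟨hr⟩
  have : Fact (Irreducible g) := ⟨hgi⟩
  obtain ⟨k0, -, hcard⟩ := FiniteField.card K p
  obtain ⟨e, -, hqe⟩ := (Nat.dvd_prime_pow hp).mp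
    (show q ∣ p ^ (k0 : ℕ) by rw [← hcard, hK]; exact dvd_pow_self q two_ne_zero)
  have : CharP (AdjoinRoot g) p :=
    charP_of_injective_algebraMap (algebraMap K (AdjoinRoot g)).injective p
  obtain ⟨ζ, hζ⟩ : ∃ ζ : AdjoinRoot g, ζ = AdjoinRoot.root g := ⟨_, rfl⟩
  have hroot : ∀ P : K[X], aeval ζ P = 0 ↔ g ∣ P := by
    intro P
    rw [hζ, AdjoinRoot.aeval_eq, AdjoinRoot.mk_eq_zero]
  have hgX : g ∣ X ^ r - 1 := by
    rw [← Polynomial.cyclotomic_prime_mul_X_sub_one K r]
    exact Dvd.dvd.mul_right hgd _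
  have hg0 : g.coeff 0 ≠ 0 := coeff_zero_ne_of_dvd r hr.pos g hgX
  have hζr : ζ ^ r = 1 := by
    have h1 := (hroot (X ^ r - 1)).mpr hgX
    rw [map_sub, map_pow, aeval_X, map_one] at h1
    exact sub_eq_zero.mp h1
  have hζ1 : ζ ≠ 1 := by
    intro h1
    have h2 : g ∣ X - 1 := by
      rw [← hroot, map_sub, aeval_X, map_one, h1, sub_self]
    have hXC : (X - 1 : K[X]) = X - C 1 := by rw [map_one]
    have h3 : Irreducible (X - 1 : K[X]) := by
      rw [hXC]
      exact Polynomial.irreducible_X_sub_C 1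
    have h4 : (X - 1 : K[X]).Monic := by
      rw [hXC]
      exact Polynomial.monic_X_sub_C 1
    have h5 : g = X - 1 :=
      Polynomial.eq_of_monic_of_associated hgm h4 (hgi.associated_of_dvd h3 h2)
    rw [h5] at hgd
    obtain ⟨c, hc⟩ := hgd
    have h6 : (cyclotomic r K).eval 1 = 0 := by
      rw [hc]
      simp
    rw [Polynomial.eval_one_cyclotomic_prime] at h6
    have h7 : p ∣ r := (CharP.cast_eq_zero_iff K p r).mp h6
    exact hrp ((Nat.prime_dvd_prime_iff_eq hp hr).mp h7).symm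
  have hord : orderOf ζ = r := orderOf_eq_prime hζr hζ1
  have hfin : IsOfFinOrder ζ := isOfFinOrder_iff_pow_eq_one.mpr ⟨r, hr.pos, hζr⟩
  have hpow : ∀ a b : ℕ, ζ ^ a = ζ ^ b ↔ a ≡ b [MOD r] := by
    intro a b
    rw [hfin.pow_eq_pow_iff_modEq, hord]
  obtain ⟨ψ, hψ⟩ := exists_pow_hom (AdjoinRoot g) p e
  have hψq : ∀ x, ψ x = x ^ q := by
    intro x
    rw [hψ, hqe]
  have hψφ : ψ.comp (algebraMap K (AdjoinRoot g)) = (algebraMap K (AdjoinRoot g)).comp φ := by
    ext x
    rw [RingHom.comp_apply, RingHom.comp_apply, hψq, hφq, map_pow]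
  have hD1 : ∀ (P : K[X]) (y : AdjoinRoot g), aeval (ψ y) (P.map φ) = ψ (aeval y P) := by
    intro P y
    rw [aeval_def, aeval_def, Polynomial.eval₂_map, ← hψφ, Polynomial.hom_eval₂]
  have hζ0 : ζ ≠ 0 := by
    intro h0
    rw [h0, zero_pow hr.ne_zero] at hζr
    exact zero_ne_one hζr
  have hgζ : aeval ζ g = 0 := (hroot g).mpr dvd_rfl
  have hrev : aeval ζ⁻¹ g.reverse = 0 := by
    haveI : Invertible ζ := invertibleOfNonzero hζ0
    have h1 := (Polynomial.eval₂_reverse_eq_zero_iff (algebraMap K (AdjoinRoot g)) ζ g).mpr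
      (by rw [← aeval_def]; exact hgζ)
    rw [invOf_eq_inv] at h1
    rw [aeval_def]
    exact h1
  have hdualroot : aeval (ψ ζ⁻¹) (dual φ g) = 0 := by
    unfold dual
    rw [hD1, map_mul, hrev, mul_zero, map_zero]
  have hζinv : ζ⁻¹ = ζ ^ (r - 1) := by
    apply inv_eq_of_mul_eq_one_right
    rw [← pow_succ', Nat.sub_add_cancel hr.one_lt.le, hζr]
  have hy : ψ ζ⁻¹ = ζ ^ ((r - 1) * q) := by
    rw [hψq, hζinv, ← pow_mul]
  have hconj : ∀ k : ℕ, aeval (ζ ^ (Fintype.card K) ^ k) g = 0 := by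
    intro k
    obtain ⟨θ, hθ⟩ := exists_pow_hom (AdjoinRoot g) p ((k0 : ℕ) * k)
    have hθ' : ∀ x, θ x = x ^ (Fintype.card K) ^ k := by
      intro x
      rw [hθ, hcard, ← pow_mul]
    have hθK : θ.comp (algebraMap K (AdjoinRoot g)) = algebraMap K (AdjoinRoot g) := by
      ext x
      rw [RingHom.comp_apply, hθ', ← map_pow, FiniteField.pow_card_pow]
    have h1 : Polynomial.eval₂ (algebraMap K (AdjoinRoot g)) (θ ζ) g =
        Polynomial.eval₂ (θ.comp (algebraMap K (AdjoinRoot g))) (θ ζ) g := by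
      rw [hθK]
    rw [← hθ', aeval_def, h1, ← Polynomial.hom_eval₂, ← aeval_def, hgζ, map_zero]
  have hQinj : ∀ k l : ℕ, k < d → l < d →
      ζ ^ (Fintype.card K) ^ k = ζ ^ (Fintype.card K) ^ l → k = l := by
    intro k l hk hl hkl
    rw [hpow, ← ZMod.natCast_eq_natCast_iff, Nat.cast_pow, Nat.cast_pow] at hkl
    exact pow_injOn_Iio_orderOf (by rw [← hd]; exact hk) (by rw [← hd]; exact hl) hkl
  have hC2 : ∀ z : AdjoinRoot g, aeval z g = 0 → ∃ k : ℕ, z = ζ ^ (Fintype.card K) ^ k := by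
    intro z hz
    by_contra hcon
    push Not at hcon
    obtain ⟨gL, hgL⟩ : ∃ gL : (AdjoinRoot g)[X], gL = g.map (algebraMap K (AdjoinRoot g)) :=
      ⟨_, rfl⟩
    have hgL0 : gL ≠ 0 := by
      rw [hgL]
      exact (hgm.map _).ne_zero
    have hgLd : gL.natDegree = d := by
      rw [hgL, hgm.natDegree_map, hgdeg]
    have hrootL : ∀ w : AdjoinRoot g, aeval w g = 0 → w ∈ gL.roots := by
      intro w hw
      rw [Polynomial.mem_roots hgL0, Polynomial.IsRoot.def, hgL, Polynomial.eval_map_algebraMap]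
      exact hw
    obtain ⟨S, hS⟩ : ∃ S : Finset (AdjoinRoot g),
        S = (Finset.range d).image (fun k => ζ ^ (Fintype.card K) ^ k) := ⟨_, rfl⟩
    have hScard : S.card = d := by
      rw [hS, Finset.card_image_of_injOn, Finset.card_range]
      intro k hk l hl hkl
      exact hQinj k l (Finset.mem_range.mp (Finset.mem_coe.mp hk))
        (Finset.mem_range.mp (Finset.mem_coe.mp hl)) hkl
    have hzS : z ∉ S := by
      rw [hS]
      intro hmem
      obtain ⟨k, -, hk⟩ := Finset.mem_image.mp hmem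
      exact hcon k hk.symm
    have hsub : insert z S ⊆ gL.roots.toFinset := by
      intro w hw
      rw [Multiset.mem_toFinset]
      rcases Finset.mem_insert.mp hw with rfl | hw
      · exact hrootL _ hz
      · rw [hS] at hw
        obtain ⟨k, -, hk⟩ := Finset.mem_image.mp hw
        rw [← hk]
        exact hrootL _ (hconj k)
    have h1 := Finset.card_le_card hsub
    rw [Finset.card_insert_of_notMem hzS, hScard] at h1
    have h2 := Multiset.toFinset_card_le gL.roots
    have h3 := Polynomial.card_roots' gL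
    omega
  have hmod1 : ∀ k : ℕ, ((r - 1) * q ≡ (Fintype.card K) ^ k [MOD r]) ↔
      r ∣ q + (q ^ 2) ^ k := by
    intro k
    rw [hK]
    have e1 : (r - 1) * q + q = r * q := by
      have h1 := hr.one_lt
      obtain ⟨r', rfl⟩ : ∃ r', r = r' + 1 := ⟨r - 1, by omega⟩
      rw [Nat.add_sub_cancel]
      ring
    have h2 : (r - 1) * q + q ≡ 0 [MOD r] := by
      rw [e1]
      exact (Nat.modEq_zero_iff_dvd).mpr (dvd_mul_right r q)
    constructor
    · intro h
      have h1 := Nat.ModEq.add_right q h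
      have h3 := h1.symm.trans h2
      rw [add_comm]
      exact (Nat.modEq_zero_iff_dvd).mp h3
    · intro h
      have h3 : (q ^ 2) ^ k + q ≡ 0 [MOD r] := by
        rw [add_comm]
        exact (Nat.modEq_zero_iff_dvd).mpr h
      exact Nat.ModEq.add_right_cancel' q (h2.trans h3.symm)
  constructor
  · intro hdual
    have h1 : aeval (ψ ζ⁻¹) g = 0 := by
      have h0 := hdualroot
      rw [hdual] at h0
      exact h0
    obtain ⟨k, hk⟩ := hC2 _ h1
    rw [hy, hpow] at hk
    exact ⟨k, (hmod1 k).mp hk⟩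
  · rintro ⟨k, hk⟩
    have h1 : ζ ^ (Fintype.card K) ^ k = ψ ζ⁻¹ := by
      rw [hy, hpow]
      exact ((hmod1 k).mpr hk).symm
    have h2 : aeval (ψ ζ⁻¹) g = 0 := by
      rw [← h1]
      exact hconj k
    have h3 : g ∣ dual φ g := by
      by_contra hnd
      obtain ⟨u, w, huw⟩ := hgi.coprime_iff_not_dvd.mpr hnd
      have h4 := congrArg (aeval (ψ ζ⁻¹)) huw
      rw [map_add, map_mul, map_mul, h2, hdualroot, mul_zero, mul_zero, add_zero, map_one] at h4
      exact zero_ne_one h4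
    exact Polynomial.eq_of_monic_of_dvd_of_natDegree_le hgm (dual_monic φ g hg0) h3
      (le_of_eq (dual_natDegree φ g hg0))

/-- `-q` is a power of `q ^ 2` modulo the odd prime `r` exactly when the order of `q` is
`2` modulo `4`. -/
theorem neg_mem_sq_iff (r q : ℕ) (hr : r.Prime) (hr2 : r ≠ 2) (hrq : ¬ r ∣ q) :
    (∃ k : ℕ, r ∣ q + (q ^ 2) ^ k) ↔ orderOf (q : ZMod r) % 4 = 2 := by
  have : Fact r.Prime := ⟨hr⟩
  obtain ⟨x, hx⟩ : ∃ x : ZMod r, x = (q : ZMod r) := ⟨_, rfl⟩
  rw [← hx]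
  have hx0 : x ≠ 0 := by
    rw [hx, Ne, ZMod.natCast_eq_zero_iff]
    exact hrq
  have hconv : ∀ k : ℕ, r ∣ q + (q ^ 2) ^ k ↔ x ^ (2 * k) = -x := by
    intro k
    rw [← ZMod.natCast_eq_zero_iff, Nat.cast_add, Nat.cast_pow, Nat.cast_pow, ← hx, ← pow_mul,
      add_comm, add_eq_zero_iff_eq_neg]
  have h11 : (1 : ZMod r) ≠ -1 := by
    intro h
    have h2 : ((2 : ℕ) : ZMod r) = 0 := by
      have h3 : (1 : ZMod r) + 1 = 0 := by
        nth_rewrite 2 [h]
        exact add_neg_cancel 1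
      rw [← h3]
      norm_num
    rw [ZMod.natCast_eq_zero_iff] at h2
    exact hr2 ((Nat.prime_dvd_prime_iff_eq hr Nat.prime_two).mp h2)
  have hi0 : 0 < orderOf x := by
    obtain ⟨u, hu⟩ := isUnit_iff_ne_zero.mpr hx0
    rw [← hu, orderOf_units]
    exact orderOf_pos u
  constructor
  · rintro ⟨k, hk⟩
    rw [hconv] at hk
    have heven : Even (orderOf x) := by
      by_contra hodd
      rw [Nat.not_even_iff_odd] at hodd
      have h1 : (-x) ^ orderOf x = -1 := by
        rw [hodd.neg_pow, pow_orderOf_eq_one]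
      have h2 : (-x) ^ orderOf x = 1 := by
        rw [← hk, ← pow_mul, mul_comm, pow_mul, pow_orderOf_eq_one, one_pow]
      exact h11 (h2.symm.trans h1)
    have hsq : x ^ (4 * k) = x ^ 2 := by
      have h1 : x ^ (4 * k) = (x ^ (2 * k)) ^ 2 := by
        rw [← pow_mul]
        congr 1
        ring
      rw [h1, hk, neg_sq]
    rcases Nat.eq_zero_or_pos k with rfl | hk0
    · rw [mul_zero, pow_zero] at hsq
      have hdvd : orderOf x ∣ 2 := orderOf_dvd_of_pow_eq_one hsq.symm
      have hle := Nat.le_of_dvd (by norm_num) hdvd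
      obtain ⟨c, hc⟩ := heven
      omega
    · have h1 : x ^ (4 * k - 2) = 1 := by
        have h2 : x ^ (4 * k - 2) * x ^ 2 = 1 * x ^ 2 := by
          rw [← pow_add, Nat.sub_add_cancel (by omega), hsq, one_mul]
        exact mul_right_cancel₀ (pow_ne_zero 2 hx0) h2
      obtain ⟨c, hc⟩ := orderOf_dvd_of_pow_eq_one h1
      obtain ⟨b', hb'⟩ := heven
      by_contra hne
      have hb2 : b' % 2 = 0 := by omega
      obtain ⟨b'', hb''⟩ : ∃ b'', b' = 2 * b'' := ⟨b' / 2, by omega⟩
      have h3 : orderOf x * c = 4 * (b'' * c) := by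
        rw [hb', hb'']
        ring
      rw [h3] at hc
      omega
  · intro h4
    obtain ⟨b, hb⟩ : ∃ b, orderOf x = 2 * b := ⟨orderOf x / 2, by omega⟩
    have hbodd : b % 2 = 1 := by omega
    have hb0 : 0 < b := by omega
    have h1 : (x ^ b) * (x ^ b) = 1 := by
      rw [← pow_add, ← two_mul, ← hb, pow_orderOf_eq_one]
    have h2 : x ^ b ≠ 1 := pow_ne_one_of_lt_orderOf hb0.ne' (by omega)
    have h3 : x ^ b = -1 := (mul_self_eq_one_iff.mp h1).resolve_left h2
    refine ⟨(b + 1) / 2, ?_⟩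
    rw [hconv]
    have e1 : 2 * ((b + 1) / 2) = b + 1 := by omega
    rw [e1, pow_succ, h3, neg_one_mul]

/-- Counting exponent vectors invariant under a fixed-point-free involution of the factors of
degree `b`. -/
theorem card_exponents_invol (n b s : ℕ) (hb : 0 < b) (d : Fin (s + 1) → ℕ) (hd0 : d 0 = 1)
    (hds : ∀ j : Fin s, d j.succ = b) (σ : Fin (s + 1) → Fin (s + 1)) (hσ0 : σ 0 = 0)
    (hσσ : ∀ j, σ (σ j) = j) (hfix : ∀ j : Fin s, σ j.succ ≠ j.succ) :
    Nat.card {a : Fin (s + 1) → ℕ // (∑ j, a j * d j = n) ∧ ∀ j, a (σ j) = a j} =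
      Nat.choose (n / (2 * b) + s / 2) (s / 2) := by
  classical
  have hσne : ∀ j : Fin s, σ j.succ ≠ 0 := by
    intro j h0
    have h1 : σ (σ j.succ) = σ 0 := by rw [h0]
    rw [hσσ, hσ0] at h1
    exact Fin.succ_ne_zero j h1
  obtain ⟨τ, hτ⟩ : ∃ τ : Fin s → Fin s, ∀ j, (τ j).succ = σ j.succ :=
    ⟨fun j => (σ j.succ).pred (hσne j), fun j => Fin.succ_pred _ _⟩
  have hττ : ∀ j, τ (τ j) = j := by
    intro j
    apply Fin.succ_injective
    rw [hτ, hτ, hσσ]
  have hτfix : ∀ j, τ j ≠ j := by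
    intro j h
    apply hfix j
    rw [← hτ, h]
  obtain ⟨R, hR⟩ : ∃ R : Finset (Fin s), R = Finset.univ.filter (fun j => j < τ j) := ⟨_, rfl⟩
  have hmemR : ∀ j, j ∈ R ↔ j < τ j := by
    intro j
    rw [hR]
    simp
  have hnotR : ∀ j, j ∉ R → τ j ∈ R := by
    intro j hj
    rw [hmemR] at hj ⊢
    rw [hττ]
    exact lt_of_le_of_ne (not_lt.mp hj) (hτfix j)
  have hRnot : ∀ j, j ∈ R → τ j ∉ R := by
    intro j hj
    rw [hmemR] at hj ⊢
    rw [hττ]
    exact not_lt.mpr hj.le
  have hsplit : ∀ f : Fin s → ℕ, ∑ j, f j = ∑ j ∈ R, (f j + f (τ j)) := by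
    intro f
    rw [← Finset.sum_add_sum_compl R f, Finset.sum_add_distrib]
    congr 1
    apply Finset.sum_nbij' τ τ
    · intro j hj
      exact hnotR j (Finset.mem_compl.mp hj)
    · intro j hj
      exact Finset.mem_compl.mpr (hRnot j hj)
    · intro j _
      exact hττ j
    · intro j _
      exact hττ j
    · intro j _
      rw [hττ]
  have hs2 : s = 2 * R.card := by
    have h1 := hsplit (fun _ => 1)
    simp at h1
    omega
  have hm : s / 2 = R.card := by omega
  rw [hm]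
  obtain ⟨e⟩ : Nonempty (Fin R.card ≃ ↥R) := ⟨(Fintype.equivFinOfCardEq (Fintype.card_coe R)).symm⟩
  have key1 : ∀ a : Fin (s + 1) → ℕ, ∑ j, a j * d j = a 0 + b * ∑ j : Fin s, a j.succ := by
    intro a
    rw [Fin.sum_univ_succ, hd0, mul_one, Finset.mul_sum]
    congr 1
    apply Finset.sum_congr rfl
    intro j _
    rw [hds, mul_comm]
  have key2 : ∀ a : Fin (s + 1) → ℕ, (∀ j, a (σ j) = a j) →
      ∑ j : Fin s, a j.succ = 2 * ∑ k : Fin R.card, a ((e k : ↥R) : Fin s).succ := by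
    intro a ha
    rw [hsplit (fun j => a j.succ)]
    have h1 : ∀ j ∈ R, a j.succ + a (τ j).succ = 2 * a j.succ := by
      intro j _
      rw [hτ, ha, two_mul]
    rw [Finset.sum_congr rfl h1, ← Finset.mul_sum]
    congr 1
    rw [← Finset.sum_coe_sort R (fun j => a j.succ)]
    exact (Equiv.sum_comp e (fun x : ↥R => a (x : Fin s).succ)).symm
  obtain ⟨d', hd'⟩ : ∃ d' : Fin (R.card + 1) → ℕ, d' = Fin.cons 1 (fun _ => 2 * b) := ⟨_, rfl⟩
  have hd'0 : d' 0 = 1 := by
    rw [hd']
    rfl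
  have hd's : ∀ k : Fin R.card, d' k.succ = 2 * b := by
    intro k
    rw [hd']
    rfl
  have key1' : ∀ c : Fin (R.card + 1) → ℕ,
      ∑ j, c j * d' j = c 0 + (2 * b) * ∑ k : Fin R.card, c k.succ := by
    intro c
    rw [Fin.sum_univ_succ, hd'0, mul_one, Finset.mul_sum]
    congr 1
    apply Finset.sum_congr rfl
    intro j _
    rw [hd's, mul_comm]
  rw [← card_exponents n (2 * b) R.card (by omega) d' hd'0 hd's]
  have key3 : ∀ a : {a : Fin (s + 1) → ℕ // (∑ j, a j * d j = n) ∧ ∀ j, a (σ j) = a j},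
      ∑ j, (Fin.cons (a.1 0) (fun k : Fin R.card => a.1 ((e k : ↥R) : Fin s).succ) :
        Fin (R.card + 1) → ℕ) j * d' j = n := by
    intro a
    rw [key1']
    simp only [Fin.cons_zero, Fin.cons_succ]
    have h1 := a.2.1
    rw [key1, key2 a.1 a.2.2] at h1
    rw [show ∀ S : ℕ, 2 * b * S = b * (2 * S) from fun S => by ring]
    exact h1
  apply Nat.card_eq_of_bijective
    (fun a : {a : Fin (s + 1) → ℕ // (∑ j, a j * d j = n) ∧ ∀ j, a (σ j) = a j} =>
      (⟨Fin.cons (a.1 0) (fun k : Fin R.card => a.1 ((e k : ↥R) : Fin s).succ), key3 a⟩ :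
        {c : Fin (R.card + 1) → ℕ // ∑ j, c j * d' j = n}))
  constructor
  · rintro ⟨a, ha, haσ⟩ ⟨a', ha', haσ'⟩ haa
    have h2 : (Fin.cons (a 0) (fun k : Fin R.card => a ((e k : ↥R) : Fin s).succ) :
        Fin (R.card + 1) → ℕ) =
        Fin.cons (a' 0) (fun k : Fin R.card => a' ((e k : ↥R) : Fin s).succ) :=
      congrArg Subtype.val haa
    have h0 : a 0 = a' 0 := by
      have h3 := congrFun h2 0
      simp only [Fin.cons_zero] at h3
      exact h3
    have hk : ∀ k : Fin R.card, a ((e k : ↥R) : Fin s).succ = a' ((e k : ↥R) : Fin s).succ := by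
      intro k
      have h3 := congrFun h2 k.succ
      simp only [Fin.cons_succ] at h3
      exact h3
    have hR1 : ∀ j : Fin s, j ∈ R → a j.succ = a' j.succ := by
      intro j hj
      have h3 := hk (e.symm ⟨j, hj⟩)
      rw [Equiv.apply_symm_apply] at h3
      exact h3
    apply Subtype.ext
    funext j
    induction j using Fin.cases with
    | zero => exact h0
    | succ j =>
      by_cases hj : j ∈ R
      · exact hR1 j hj
      · have h3 := hR1 (τ j) (hnotR j hj)
        have h4 : a (τ j).succ = a j.succ := by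
          rw [hτ, haσ]
        have h5 : a' (τ j).succ = a' j.succ := by
          rw [hτ, haσ']
        show a j.succ = a' j.succ
        rw [← h4, ← h5]
        exact h3
  · rintro ⟨c, hc⟩
    obtain ⟨rep, hrep⟩ : ∃ rep : Fin s → Fin s, rep = fun j => if j < τ j then j else τ j :=
      ⟨_, rfl⟩
    have hrepR : ∀ j, rep j ∈ R := by
      intro j
      rw [hrep]
      by_cases hj : j < τ j
      · simp only [if_pos hj]
        exact (hmemR j).mpr hj
      · simp only [if_neg hj]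
        exact hnotR j (fun h => hj ((hmemR j).mp h))
    have hrepτ : ∀ j, rep (τ j) = rep j := by
      intro j
      rw [hrep]
      by_cases hj : j < τ j
      · have h1 : ¬ (τ j < j) := not_lt.mpr hj.le
        simp only [if_pos hj, hττ, if_neg h1]
      · have h1 : τ j < j := lt_of_le_of_ne (not_lt.mp hj) (hτfix j)
        simp only [if_neg hj, hττ, if_pos h1]
    have hrepe : ∀ k : Fin R.card, rep ((e k : ↥R) : Fin s) = ((e k : ↥R) : Fin s) := by
      intro k
      rw [hrep]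
      exact if_pos ((hmemR _).mp (e k).2)
    obtain ⟨a, ha0, has⟩ : ∃ a : Fin (s + 1) → ℕ, a 0 = c 0 ∧
        ∀ j : Fin s, a j.succ = c (e.symm ⟨rep j, hrepR j⟩).succ :=
      ⟨Fin.cons (c 0) (fun j => c (e.symm ⟨rep j, hrepR j⟩).succ), rfl, fun j => rfl⟩
    have haσ : ∀ j, a (σ j) = a j := by
      intro j
      induction j using Fin.cases with
      | zero => rw [hσ0]
      | succ j =>
        rw [← hτ, has, has]
        have h1 : (⟨rep (τ j), hrepR (τ j)⟩ : ↥R) = ⟨rep j, hrepR j⟩ := Subtype.ext (hrepτ j)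
        rw [h1]
    have hae : ∀ k : Fin R.card, a ((e k : ↥R) : Fin s).succ = c k.succ := by
      intro k
      rw [has]
      have h1 : (⟨rep ((e k : ↥R) : Fin s), hrepR _⟩ : ↥R) = e k := Subtype.ext (hrepe k)
      rw [h1, Equiv.symm_apply_apply]
    have hasum : ∑ j, a j * d j = n := by
      rw [key1, key2 a haσ, ha0, Finset.sum_congr rfl (fun k _ => hae k), ← hc, key1']
      ring
    refine ⟨⟨a, hasum, haσ⟩, ?_⟩
    apply Subtype.ext
    funext j
    induction j using Fin.cases with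
    | zero =>
      show (Fin.cons (a 0) (fun k : Fin R.card => a ((e k : ↥R) : Fin s).succ) :
        Fin (R.card + 1) → ℕ) 0 = c 0
      simp only [Fin.cons_zero]
      exact ha0
    | succ k =>
      show (Fin.cons (a 0) (fun k : Fin R.card => a ((e k : ↥R) : Fin s).succ) :
        Fin (R.card + 1) → ℕ) k.succ = c k.succ
      simp only [Fin.cons_succ]
      exact hae k

end Cfsg.Agent.Lib.Helper15.Semi
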