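import Mathlib

set_option autoImplicit false

namespace Cfsg.Agent.Lib.Helper15

open Module

section Flag

variable {F : Type*} [Field F] {n : ℕ}

/-- The ascending series of iterated fixed spaces of a group of matrices. -/
def fixSeries (U : Subgroup (Matrix.SpecialLinearGroup (Fin n) F)) :
    ℕ → Submodule F (Fin n → F)
  | 0 => ⊥
  | (i + 1) => ⨅ u : U, (fixSeries U i).comap
      (Matrix.mulVecLin ((u : Matrix.SpecialLinearGroup (Fin n) F) : Matrix (Fin n) (Fin n) F)
        - LinearMap.id)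

theorem mem_fixSeries_succ (U : Subgroup (Matrix.SpecialLinearGroup (Fin n) F)) (i : ℕ)
    (v : Fin n → F) : v ∈ fixSeries U (i + 1) ↔
      ∀ u ∈ U, (u : Matrix (Fin n) (Fin n) F).mulVec v - v ∈ fixSeries U i := by
  rw [fixSeries, Submodule.mem_iInf]
  constructor
  · intro h u hu
    have := h ⟨u, hu⟩
    simpa using this
  · intro h u
    have := h u.1 u.2
    simpa using this

theorem fixSeries_le_succ (U : Subgroup (Matrix.SpecialLinearGroup (Fin n) F)) (i : ℕ) :
    fixSeries U i ≤ fixSeries U (i + 1) := by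
  induction i with
  | zero => rw [fixSeries]; exact bot_le
  | succ i ih =>
    intro v hv
    rw [mem_fixSeries_succ] at hv ⊢
    intro u hu
    exact ih (hv u hu)

theorem fixSeries_mono (U : Subgroup (Matrix.SpecialLinearGroup (Fin n) F)) :
    Monotone (fixSeries U) :=
  monotone_nat_of_le_succ (fixSeries_le_succ U)

theorem fixSeries_invariant (U : Subgroup (Matrix.SpecialLinearGroup (Fin n) F)) (i : ℕ)
    (u : Matrix.SpecialLinearGroup (Fin n) F) (hu : u ∈ U) (v : Fin n → F)
    (hv : v ∈ fixSeries U i) : (u : Matrix (Fin n) (Fin n) F).mulVec v ∈ fixSeries U i := by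
  cases i with
  | zero =>
    rw [fixSeries, Submodule.mem_bot] at hv ⊢
    rw [hv, Matrix.mulVec_zero]
  | succ i =>
    have h1 := (mem_fixSeries_succ U i v).mp hv u hu
    have h2 := fixSeries_le_succ U i h1
    have := Submodule.add_mem _ h2 hv
    rwa [sub_add_cancel] at this

theorem fixSeries_normalizer (U : Subgroup (Matrix.SpecialLinearGroup (Fin n) F)) (i : ℕ)
    (g : Matrix.SpecialLinearGroup (Fin n) F)
    (hg : g ∈ Subgroup.normalizer (U : Set (Matrix.SpecialLinearGroup (Fin n) F)))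
    (v : Fin n → F) (hv : v ∈ fixSeries U i) :
    (g : Matrix (Fin n) (Fin n) F).mulVec v ∈ fixSeries U i := by
  induction i generalizing v with
  | zero =>
    rw [fixSeries, Submodule.mem_bot] at hv ⊢
    rw [hv, Matrix.mulVec_zero]
  | succ i ih =>
    rw [mem_fixSeries_succ] at hv ⊢
    intro u hu
    have hu' : g⁻¹ * u * g ∈ U := by
      have h1 := (Subgroup.mem_normalizer_iff.mp hg (g⁻¹ * u * g))
      apply h1.mpr
      have : g * (g⁻¹ * u * g) * g⁻¹ = u := by group
      rw [this]; exact hu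
    have h2 := ih _ (hv _ hu')
    have hgrp : g * (g⁻¹ * u * g) = u * g := by group
    have hgg : (g : Matrix (Fin n) (Fin n) F) * ((g⁻¹ * u * g : Matrix.SpecialLinearGroup (Fin n) F)
        : Matrix (Fin n) (Fin n) F) = (u : Matrix (Fin n) (Fin n) F) * (g : Matrix (Fin n) (Fin n) F) := by
      rw [← Matrix.SpecialLinearGroup.coe_mul, ← Matrix.SpecialLinearGroup.coe_mul, hgrp]
    rw [Matrix.mulVec_sub, Matrix.mulVec_mulVec, hgg, ← Matrix.mulVec_mulVec] at h2
    exact h2

theorem fixSeries_map_normalizer (U : Subgroup (Matrix.SpecialLinearGroup (Fin n) F)) (i : ℕ)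
    (g : Matrix.SpecialLinearGroup (Fin n) F)
    (hg : g ∈ Subgroup.normalizer (U : Set (Matrix.SpecialLinearGroup (Fin n) F))) :
    (fixSeries U i).map (Matrix.mulVecLin (g : Matrix (Fin n) (Fin n) F)) = fixSeries U i := by
  apply le_antisymm
  · rintro _ ⟨v, hv, rfl⟩
    exact fixSeries_normalizer U i g hg v hv
  · intro v hv
    refine ⟨(g⁻¹ : Matrix.SpecialLinearGroup (Fin n) F).1.mulVec v,
      fixSeries_normalizer U i g⁻¹ (inv_mem hg) v hv, ?_⟩
    rw [Matrix.mulVecLin_apply, Matrix.mulVec_mulVec]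
    have : (g : Matrix (Fin n) (Fin n) F) * (g⁻¹ : Matrix.SpecialLinearGroup (Fin n) F).1 = 1 := by
      rw [← Matrix.SpecialLinearGroup.coe_mul, mul_inv_cancel, Matrix.SpecialLinearGroup.coe_one]
    rw [this, Matrix.one_mulVec]

/-- A `p`-group of matrices in characteristic `p` fixes a non-zero coset of every proper
invariant subspace. -/
theorem exists_fixed_coset [Fintype F] (p : ℕ) [Fact p.Prime] [CharP F p]
    (U : Subgroup (Matrix.SpecialLinearGroup (Fin n) F)) (hU : IsPGroup p U)
    (W : Submodule F (Fin n → F))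
    (hW : ∀ u ∈ U, ∀ v ∈ W, (u : Matrix (Fin n) (Fin n) F).mulVec v ∈ W)
    (hne : W ≠ ⊤) :
    ∃ v, v ∉ W ∧ ∀ u ∈ U, (u : Matrix (Fin n) (Fin n) F).mulVec v - v ∈ W := by
  classical
  let ρ : U → ((Fin n → F) ⧸ W) →ₗ[F] ((Fin n → F) ⧸ W) := fun u =>
    W.mapQ W (Matrix.mulVecLin ((u : Matrix.SpecialLinearGroup (Fin n) F) :
      Matrix (Fin n) (Fin n) F)) (fun v hv => hW u.1 u.2 v hv)
  have hρ : ∀ (u : U) (v : Fin n → F), ρ u (Submodule.Quotient.mk v)
      = Submodule.Quotient.mk (((u : Matrix.SpecialLinearGroup (Fin n) F) :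
        Matrix (Fin n) (Fin n) F).mulVec v) := fun u v => rfl
  let act : MulAction U ((Fin n → F) ⧸ W) :=
    { smul := fun u x => ρ u x
      one_smul := by
        intro x
        induction x using Submodule.Quotient.induction_on with
        | _ v =>
          show ρ 1 (Submodule.Quotient.mk v) = _
          rw [hρ]
          simp
      mul_smul := by
        intro u u' x
        induction x using Submodule.Quotient.induction_on with
        | _ v =>
          show ρ (u * u') (Submodule.Quotient.mk v) = ρ u (ρ u' (Submodule.Quotient.mk v))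
          rw [hρ, hρ, hρ]
          simp [Matrix.mulVec_mulVec] }
  have hsmul : ∀ (u : U) (v : Fin n → F), u • (Submodule.Quotient.mk v : (Fin n → F) ⧸ W)
      = Submodule.Quotient.mk (((u : Matrix.SpecialLinearGroup (Fin n) F) :
        Matrix (Fin n) (Fin n) F).mulVec v) := fun u v => hρ u v
  have hnt : Nontrivial ((Fin n → F) ⧸ W) := Submodule.Quotient.nontrivial_iff.mpr hne
  have hpos : 0 < finrank F ((Fin n → F) ⧸ W) := Module.finrank_pos
  have hcard : Nat.card ((Fin n → F) ⧸ W) = Nat.card F ^ finrank F ((Fin n → F) ⧸ W) :=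
    Module.natCard_eq_pow_finrank
  have hpF : p ∣ Nat.card F := by
    rw [Nat.card_eq_fintype_card]
    exact (CharP.cast_eq_zero_iff F p _).mp (Nat.cast_card_eq_zero F)
  have hp : p ∣ Nat.card ((Fin n → F) ⧸ W) := by
    rw [hcard]
    exact dvd_trans hpF (dvd_pow_self _ hpos.ne')
  have h0 : (0 : (Fin n → F) ⧸ W) ∈ MulAction.fixedPoints U ((Fin n → F) ⧸ W) := by
    intro u
    have := hsmul u 0
    rw [Matrix.mulVec_zero] at this
    exact this
  obtain ⟨b, hb, hb0⟩ := hU.exists_fixed_point_of_prime_dvd_card_of_fixed_point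
    ((Fin n → F) ⧸ W) hp h0
  obtain ⟨v, rfl⟩ := Submodule.Quotient.mk_surjective W b
  refine ⟨v, ?_, ?_⟩
  · intro hv
    apply hb0
    exact ((Submodule.Quotient.mk_eq_zero W).mpr hv).symm
  · intro u hu
    have := hb ⟨u, hu⟩
    rw [hsmul] at this
    rw [← Submodule.Quotient.mk_eq_zero W, Submodule.Quotient.mk_sub, sub_eq_zero]
    exact this

theorem fixSeries_lt [Fintype F] (p : ℕ) [Fact p.Prime] [CharP F p]
    (U : Subgroup (Matrix.SpecialLinearGroup (Fin n) F)) (hU : IsPGroup p U) (i : ℕ)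
    (hne : fixSeries U i ≠ ⊤) : fixSeries U i < fixSeries U (i + 1) := by
  obtain ⟨v, hv1, hv2⟩ := exists_fixed_coset p U hU (fixSeries U i)
    (fun u hu v hv => fixSeries_invariant U i u hu v hv) hne
  refine lt_of_le_of_ne (fixSeries_le_succ U i) ?_
  intro h
  apply hv1
  rw [h, mem_fixSeries_succ]
  exact hv2

theorem fixSeries_eventually_top [Fintype F] (p : ℕ) [Fact p.Prime] [CharP F p]
    (U : Subgroup (Matrix.SpecialLinearGroup (Fin n) F)) (hU : IsPGroup p U) :
    ∃ m, fixSeries U m = ⊤ := by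
  have key : ∀ i, fixSeries U i = ⊤ ∨ i ≤ finrank F (fixSeries U i) := by
    intro i
    induction i with
    | zero => right; exact Nat.zero_le _
    | succ i ih =>
      by_cases h : fixSeries U i = ⊤
      · left
        exact top_le_iff.mp (h ▸ fixSeries_le_succ U i)
      · right
        have h1 := ih.resolve_left h
        have h2 := Submodule.finrank_lt_finrank_of_lt (fixSeries_lt p U hU i h)
        omega
  refine ⟨n + 1, (key (n + 1)).resolve_right ?_⟩
  have := Submodule.finrank_le (fixSeries U (n + 1))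
  rw [Module.finrank_fin_fun] at this
  omega

theorem eq_bot_of_fixSeries_one [Fintype F]
    (U : Subgroup (Matrix.SpecialLinearGroup (Fin n) F)) (h : fixSeries U 1 = ⊤) : U = ⊥ := by
  rw [Subgroup.eq_bot_iff_forall]
  intro u hu
  apply Subtype.ext
  rw [Matrix.SpecialLinearGroup.coe_one]
  apply Matrix.toLin'.injective
  apply LinearMap.ext
  intro v
  have hv : v ∈ fixSeries U 1 := by rw [h]; exact Submodule.mem_top
  have := (mem_fixSeries_succ U 0 v).mp hv u hu
  rw [fixSeries, Submodule.mem_bot, sub_eq_zero] at this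
  rw [Matrix.toLin'_apply, this, Matrix.toLin'_one, LinearMap.id_apply]

/-- Borel–Tits in flag form for `SL_n`. -/
theorem borel_tits_flag [Fintype F] (p : ℕ) [Fact p.Prime] [CharP F p]
    (U : Subgroup (Matrix.SpecialLinearGroup (Fin n) F)) (hU : IsPGroup p ↥U) (hne : U ≠ ⊥) :
    ∃ (k : ℕ) (V : Fin (k + 2) → Submodule F (Fin n → F)), 1 ≤ k ∧ StrictMono V ∧ V 0 = ⊥ ∧
      V (Fin.last (k + 1)) = ⊤ ∧
      (∀ g ∈ Subgroup.normalizer (U : Set (Matrix.SpecialLinearGroup (Fin n) F)), ∀ i,
        (V i).map (Matrix.mulVecLin (g : Matrix (Fin n) (Fin n) F)) = V i) ∧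
      (∀ u ∈ U, ∀ i : Fin (k + 1), ∀ v ∈ V i.succ,
        (u : Matrix (Fin n) (Fin n) F).mulVec v - v ∈ V (Fin.castSucc i)) := by
  classical
  have hex := fixSeries_eventually_top p U hU
  set m := Nat.find hex with hm
  have hmtop : fixSeries U m = ⊤ := Nat.find_spec hex
  have hmmin : ∀ i, i < m → fixSeries U i ≠ ⊤ := fun i hi => Nat.find_min hex hi
  have hm2 : 2 ≤ m := by
    by_contra hcon
    have hle : m ≤ 1 := by omega
    have h1 : fixSeries U 1 = ⊤ := top_le_iff.mp (hmtop ▸ fixSeries_mono U hle)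
    exact hne (eq_bot_of_fixSeries_one U h1)
  obtain ⟨k, hk⟩ : ∃ k, m = k + 1 := ⟨m - 1, by omega⟩
  refine ⟨k, fun i => fixSeries U i.val, by omega, ?_, ?_, ?_, ?_, ?_⟩
  · rw [Fin.strictMono_iff_lt_succ]
    intro i
    exact fixSeries_lt p U hU i.val (hmmin _ (by have := i.2; omega))
  · rfl
  · show fixSeries U (k + 1) = ⊤
    rw [← hk]; exact hmtop
  · intro g hg i
    exact fixSeries_map_normalizer U i.val g hg
  · intro u hu i v hv
    exact (mem_fixSeries_succ U i.val v).mp hv u hu

end Flag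

end Cfsg.Agent.Lib.Helper15
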