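import Mathlib

set_option autoImplicit false

namespace Cfsg.Agent.Lib.Helper15.Jordan

open Module

universe u w

variable {F : Type w} [Field F]

/-- The rank of the `k`-th power of an endomorphism. -/
noncomputable def rk {V : Type*} [AddCommGroup V] [Module F V] (N : V →ₗ[F] V) (k : ℕ) : ℕ :=
  finrank F (LinearMap.range (N ^ k))

theorem rk_zero {V : Type*} [AddCommGroup V] [Module F V] (N : V →ₗ[F] V) :
    rk N 0 = finrank F V := by
  unfold rk
  rw [pow_zero, Module.End.one_eq_id, LinearMap.range_id, finrank_top]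

theorem rk_eq_zero_iff {V : Type*} [AddCommGroup V] [Module F V] [FiniteDimensional F V]
    (N : V →ₗ[F] V) (k : ℕ) : rk N k = 0 ↔ N ^ k = 0 := by
  unfold rk
  rw [Submodule.finrank_eq_zero, LinearMap.range_eq_bot]

theorem pow_apply_zero {V : Type*} [AddCommGroup V] [Module F V] {N : V →ₗ[F] V} {e : ℕ}
    (hNe : N ^ e = 0) (m : ℕ) (x : V) (hm : e ≤ m) : (N ^ m) x = 0 := by
  obtain ⟨d, rfl⟩ := Nat.exists_eq_add_of_le hm
  rw [add_comm, pow_add, hNe, mul_zero]
  rfl

theorem pow_pow_apply {V : Type*} [AddCommGroup V] [Module F V] (N : V →ₗ[F] V) (a b : ℕ)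
    (x : V) : (N ^ a) ((N ^ b) x) = (N ^ (a + b)) x := by
  rw [pow_add]
  rfl

/-- Splitting off a Jordan block of maximal size. -/
theorem exists_split {V : Type*} [AddCommGroup V] [Module F V] [FiniteDimensional F V]
    [Nontrivial V] (N : V →ₗ[F] V) (hN : IsNilpotent N) :
    ∃ (e : ℕ) (v : V) (M : Submodule F V), 0 < e ∧ N ^ e = 0 ∧ (N ^ (e - 1)) v ≠ 0 ∧
      LinearIndependent F (fun j : Fin e => (N ^ (j : ℕ)) v) ∧
      (∀ x ∈ M, N x ∈ M) ∧
      IsCompl (Submodule.span F (Set.range (fun j : Fin e => (N ^ (j : ℕ)) v))) M := by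
  classical
  have hex : ∃ k, N ^ k = 0 := hN
  set e := Nat.find hex with he
  have hNe : N ^ e = 0 := Nat.find_spec hex
  have he0 : e ≠ 0 := by
    intro h
    rw [h, pow_zero] at hNe
    obtain ⟨x, hx⟩ := exists_ne (0 : V)
    have h1 := congrArg (fun f : V →ₗ[F] V => f x) hNe
    exact hx h1
  have hpos : 0 < e := Nat.pos_of_ne_zero he0
  have hNe1 : N ^ (e - 1) ≠ 0 := Nat.find_min hex (by omega)
  obtain ⟨v, hv⟩ : ∃ v, (N ^ (e - 1)) v ≠ 0 := by
    by_contra h
    push Not at h
    exact hNe1 (LinearMap.ext h)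
  obtain ⟨f, hf⟩ : ∃ f : V →ₗ[F] F, f ((N ^ (e - 1)) v) ≠ 0 := by
    by_contra h
    push Not at h
    exact hv ((Module.forall_dual_apply_eq_zero_iff F _).mp h)
  let Φ : V →ₗ[F] (Fin e → F) := LinearMap.pi (fun j => f ∘ₗ (N ^ (j : ℕ)))
  have hΦ : ∀ x j, Φ x j = f ((N ^ (j : ℕ)) x) := fun x j => rfl
  let c : Fin e → V := fun j => (N ^ (j : ℕ)) v
  have hinj : ∀ a : Fin e → F, Φ (∑ i, a i • c i) = 0 → a = 0 := by
    intro a ha
    have hall : ∀ (m : ℕ) (i : Fin e), (i : ℕ) = m → a i = 0 := by
      intro m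
      induction m using Nat.strong_induction_on with
      | _ m ih =>
        intro i him
        have hj : e - 1 - m < e := by omega
        have h1 := congrFun ha ⟨e - 1 - m, hj⟩
        rw [hΦ] at h1
        simp only [map_sum, map_smul, smul_eq_mul, Pi.zero_apply] at h1
        rw [Finset.sum_eq_single i] at h1
        · have h2 : (N ^ (e - 1 - m)) (c i) = (N ^ (e - 1)) v := by
            show (N ^ (e - 1 - m)) ((N ^ (i : ℕ)) v) = _
            rw [pow_pow_apply]
            congr 2
            have := i.2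
            omega
          rw [h2] at h1
          exact (mul_eq_zero.mp h1).resolve_right hf
        · intro i' _ hne
          have hne' : (i' : ℕ) ≠ i := fun h => hne (Fin.ext h)
          rcases Nat.lt_or_gt_of_ne hne' with hlt | hgt
          · rw [ih i' (by omega) i' rfl, zero_mul]
          · have h2 : (N ^ (e - 1 - m)) (c i') = 0 := by
              show (N ^ (e - 1 - m)) ((N ^ (i' : ℕ)) v) = _
              rw [pow_pow_apply]
              exact pow_apply_zero hNe _ _ (by omega)
            rw [h2, map_zero, mul_zero]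
        · intro h
          exact absurd (Finset.mem_univ i) h
    funext i
    exact hall i i rfl
  have hli : LinearIndependent F c := by
    rw [Fintype.linearIndependent_iff]
    intro a ha i
    have h1 := hinj a (by rw [ha, map_zero])
    rw [h1]
    rfl
  refine ⟨e, v, LinearMap.ker Φ, hpos, hNe, hv, hli, ?_, ?_⟩
  · intro x hx
    rw [LinearMap.mem_ker] at hx ⊢
    funext j
    rw [hΦ, Pi.zero_apply]
    have h1 : (N ^ (j : ℕ)) (N x) = (N ^ ((j : ℕ) + 1)) x := by
      rw [pow_succ]
      rfl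
    rw [h1]
    by_cases hj : (j : ℕ) + 1 < e
    · have h2 := congrFun hx ⟨j + 1, hj⟩
      rw [hΦ] at h2
      exact h2
    · rw [pow_apply_zero hNe _ _ (by omega), map_zero]
  · constructor
    · rw [Submodule.disjoint_def]
      intro x hx hxM
      obtain ⟨a, rfl⟩ := (Submodule.mem_span_range_iff_exists_fun F).mp hx
      rw [hinj a (LinearMap.mem_ker.mp hxM)]
      simp
    · rw [codisjoint_iff, eq_top_iff]
      intro x _
      let ψ : (Fin e → F) →ₗ[F] V := ∑ i, (LinearMap.proj i).smulRight (c i)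
      have hψ : ∀ a, ψ a = ∑ i, a i • c i := fun a => by
        simp [ψ, LinearMap.sum_apply]
      have hinj' : Function.Injective (Φ ∘ₗ ψ) := by
        rw [← LinearMap.ker_eq_bot, LinearMap.ker_eq_bot']
        intro a ha
        apply hinj a
        rw [← hψ]
        exact ha
      have hsurj : Function.Surjective (Φ ∘ₗ ψ) := LinearMap.injective_iff_surjective.mp hinj'
      obtain ⟨a, ha⟩ := hsurj (Φ x)
      have hx : x = ψ a + (x - ψ a) := by abel
      rw [hx]
      apply Submodule.add_mem_sup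
      · rw [hψ]
        exact Submodule.sum_mem _ (fun i _ =>
          Submodule.smul_mem _ _ (Submodule.subset_span ⟨i, rfl⟩))
      · rw [LinearMap.mem_ker, map_sub, ← ha]
        simp

theorem pow_restrict_apply {V : Type*} [AddCommGroup V] [Module F V] (N : V →ₗ[F] V)
    (M : Submodule F V) (hM : ∀ x ∈ M, N x ∈ M) (k : ℕ) (m : M) :
    (((N.restrict hM) ^ k) m : V) = (N ^ k) (m : V) := by
  rw [Module.End.pow_restrict]
  rfl

theorem restrict_nilpotent {V : Type*} [AddCommGroup V] [Module F V] (N : V →ₗ[F] V)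
    (M : Submodule F V) (hM : ∀ x ∈ M, N x ∈ M) (hN : IsNilpotent N) :
    IsNilpotent (N.restrict hM) := by
  obtain ⟨e, he⟩ := hN
  refine ⟨e, LinearMap.ext fun m => Subtype.ext ?_⟩
  rw [pow_restrict_apply, he]
  rfl

/-- The rank sequence splits along a Jordan block decomposition. -/
theorem rk_split {V : Type*} [AddCommGroup V] [Module F V] [FiniteDimensional F V]
    (N : V →ₗ[F] V) (e : ℕ) (v : V) (M : Submodule F V) (hNe : N ^ e = 0)
    (hli : LinearIndependent F (fun j : Fin e => (N ^ (j : ℕ)) v))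
    (hM : ∀ x ∈ M, N x ∈ M)
    (hc : IsCompl (Submodule.span F (Set.range (fun j : Fin e => (N ^ (j : ℕ)) v))) M) (k : ℕ) :
    rk N k = (e - k) + rk (N.restrict hM) k := by
  classical
  set Z := Submodule.span F (Set.range (fun j : Fin e => (N ^ (j : ℕ)) v)) with hZ
  have h1 : LinearMap.range (N ^ k) = Z.map (N ^ k) ⊔ M.map (N ^ k) := by
    rw [← Submodule.map_sup, hc.sup_eq_top, Submodule.map_top]
  have h2 : Z.map (N ^ k) =
      Submodule.span F (Set.range (fun j : Fin (e - k) => (N ^ (k + (j : ℕ))) v)) := by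
    rw [hZ, Submodule.map_span, ← Set.range_comp]
    apply le_antisymm
    · rw [Submodule.span_le]
      rintro _ ⟨j, rfl⟩
      show (N ^ k) ((N ^ (j : ℕ)) v) ∈ _
      rw [pow_pow_apply]
      by_cases hj : k + (j : ℕ) < e
      · exact Submodule.subset_span ⟨⟨j, by omega⟩, rfl⟩
      · rw [pow_apply_zero hNe _ _ (by omega)]
        exact Submodule.zero_mem _
    · rw [Submodule.span_le]
      rintro _ ⟨j, rfl⟩
      apply Submodule.subset_span
      refine ⟨⟨j, by have := j.2; omega⟩, ?_⟩
      show (N ^ k) ((N ^ (j : ℕ)) v) = _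
      rw [pow_pow_apply]
  have h3 : finrank F (Z.map (N ^ k)) = e - k := by
    rw [h2]
    have hli' : LinearIndependent F (fun j : Fin (e - k) => (N ^ (k + (j : ℕ))) v) := by
      have h := hli.comp (fun j : Fin (e - k) => (⟨k + j, by have := j.2; omega⟩ : Fin e)) (by
        intro a b hab
        have h' := congrArg Fin.val hab
        simp only [add_right_inj] at h'
        exact Fin.ext h')
      exact h
    rw [finrank_span_eq_card hli', Fintype.card_fin]
  have h4 : M.map (N ^ k) = (LinearMap.range ((N.restrict hM) ^ k)).map M.subtype := by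
    ext x
    simp only [Submodule.mem_map, LinearMap.mem_range]
    constructor
    · rintro ⟨m, hm, rfl⟩
      exact ⟨((N.restrict hM) ^ k) ⟨m, hm⟩, ⟨⟨m, hm⟩, rfl⟩, pow_restrict_apply N M hM k ⟨m, hm⟩⟩
    · rintro ⟨_, ⟨m, rfl⟩, rfl⟩
      exact ⟨m, m.2, (pow_restrict_apply N M hM k m).symm⟩
  have h5 : finrank F (M.map (N ^ k)) = rk (N.restrict hM) k := by
    rw [h4, Submodule.finrank_map_subtype_eq]
    rfl
  have h6 : Z.map (N ^ k) ⊓ M.map (N ^ k) = ⊥ := by
    rw [eq_bot_iff, ← hc.inf_eq_bot]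
    apply inf_le_inf
    · rw [h2, Submodule.span_le]
      rintro _ ⟨j, rfl⟩
      exact Submodule.subset_span ⟨⟨k + j, by have := j.2; omega⟩, rfl⟩
    · rintro _ ⟨m, hm, rfl⟩
      exact Module.End.pow_apply_mem_of_forall_mem k hM m hm
  have h7 := Submodule.finrank_sup_add_finrank_inf_eq (Z.map (N ^ k)) (M.map (N ^ k))
  rw [h6, finrank_bot, add_zero, h3, h5, ← h1] at h7
  exact h7

end Cfsg.Agent.Lib.Helper15.Jordan
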