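import Cfsg.Agent.Lib.Helper15.JordanA

set_option autoImplicit false

namespace Cfsg.Agent.Lib.Helper15.Jordan

open Module

universe u w

variable {F : Type w} [Field F]

/-- Nilpotent endomorphisms with the same rank sequence are conjugate. -/
theorem nilp_conj : ∀ (d : ℕ) (V V' : Type u) [AddCommGroup V] [Module F V]
    [FiniteDimensional F V] [AddCommGroup V'] [Module F V'] [FiniteDimensional F V']
    (N : V →ₗ[F] V) (N' : V' →ₗ[F] V'), finrank F V = d → IsNilpotent N → IsNilpotent N' →
    (∀ k, rk N k = rk N' k) → ∃ g : V ≃ₗ[F] V', ∀ x, g (N x) = N' (g x) := by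
  intro d
  induction d using Nat.strong_induction_on with
  | _ d ih =>
    intro V V' _ _ _ _ _ _ N N' hd hN hN' hrk
    have hdim : finrank F V = finrank F V' := by
      have h := hrk 0
      rwa [rk_zero, rk_zero] at h
    by_cases hd0 : d = 0
    · have h1 : Subsingleton V := (finrank_zero_iff (R := F)).mp (by omega)
      have h2 : Subsingleton V' := (finrank_zero_iff (R := F)).mp (by omega)
      exact ⟨LinearEquiv.ofFinrankEq V V' hdim, fun x => Subsingleton.elim _ _⟩
    · have hV : Nontrivial V := nontrivial_of_finrank_pos (R := F) (by omega)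
      have hV' : Nontrivial V' := nontrivial_of_finrank_pos (R := F) (by omega)
      obtain ⟨e, v, M, hpos, hNe, hv, hli, hM, hc⟩ := exists_split N hN
      obtain ⟨e', v', M', hpos', hNe', hv', hli', hM', hc'⟩ := exists_split N' hN'
      have hee : e = e' := by
        by_contra hne
        rcases Nat.lt_or_gt_of_ne hne with h | h
        · have h1 : N' ^ e = 0 := by
            rw [← rk_eq_zero_iff, ← hrk, rk_eq_zero_iff]
            exact hNe
          exact hv' (pow_apply_zero h1 _ _ (by omega))
        · have h1 : N ^ e' = 0 := by
            rw [← rk_eq_zero_iff, hrk, rk_eq_zero_iff]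
            exact hNe'
          exact hv (pow_apply_zero h1 _ _ (by omega))
      subst hee
      have hrkM : ∀ k, rk (N.restrict hM) k = rk (N'.restrict hM') k := by
        intro k
        have h1 := rk_split N e v M hNe hli hM hc k
        have h2 := rk_split N' e v' M' hNe' hli' hM' hc' k
        have h3 := hrk k
        omega
      have hdM : finrank F M < d := by
        have h1 := rk_split N e v M hNe hli hM hc 0
        rw [rk_zero, rk_zero] at h1
        omega
      obtain ⟨gM, hgM⟩ := ih (finrank F M) hdM M M' (N.restrict hM) (N'.restrict hM') rfl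
        (restrict_nilpotent N M hM hN) (restrict_nilpotent N' M' hM' hN') hrkM
      let b := Module.Basis.span hli
      let b' := Module.Basis.span hli'
      let gZ := b.equiv b' (Equiv.refl _)
      let g : V ≃ₗ[F] V' := (Submodule.prodEquivOfIsCompl _ M hc).symm ≪≫ₗ
        (gZ.prodCongr gM) ≪≫ₗ Submodule.prodEquivOfIsCompl _ M' hc'
      have hgZ : ∀ z : Submodule.span F (Set.range (fun j : Fin e => (N ^ (j : ℕ)) v)),
          g (z : V) = (gZ z : V') := by
        intro z
        show (Submodule.prodEquivOfIsCompl _ M' hc') ((gZ.prodCongr gM)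
          ((Submodule.prodEquivOfIsCompl _ M hc).symm (z : V))) = _
        rw [Submodule.prodEquivOfIsCompl_symm_apply_left]
        simp [Submodule.coe_prodEquivOfIsCompl']
      have hgM' : ∀ m : M, g (m : V) = (gM m : V') := by
        intro m
        show (Submodule.prodEquivOfIsCompl _ M' hc') ((gZ.prodCongr gM)
          ((Submodule.prodEquivOfIsCompl _ M hc).symm (m : V))) = _
        rw [Submodule.prodEquivOfIsCompl_symm_apply_right]
        simp [Submodule.coe_prodEquivOfIsCompl']
      have hgc : ∀ j : Fin e, g ((N ^ (j : ℕ)) v) = (N' ^ (j : ℕ)) v' := by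
        intro j
        have h1 : ((b j : Submodule.span F (Set.range (fun j : Fin e => (N ^ (j : ℕ)) v))) : V)
            = (N ^ (j : ℕ)) v := congrArg Subtype.val (Module.Basis.span_apply hli j)
        have h2 : ((b' j : Submodule.span F (Set.range (fun j : Fin e => (N' ^ (j : ℕ)) v'))) : V')
            = (N' ^ (j : ℕ)) v' := congrArg Subtype.val (Module.Basis.span_apply hli' j)
        have h3 : gZ (b j) = b' j := Module.Basis.equiv_apply ..
        rw [← h1, hgZ, h3, h2]
      refine ⟨g, ?_⟩
      have hle : (⊤ : Submodule F V) ≤
          LinearMap.eqLocus (g.toLinearMap ∘ₗ N) (N' ∘ₗ g.toLinearMap) := by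
        rw [← hc.sup_eq_top]
        apply sup_le
        · rw [Submodule.span_le]
          rintro _ ⟨j, rfl⟩
          show g (N ((N ^ (j : ℕ)) v)) = N' (g ((N ^ (j : ℕ)) v))
          rw [hgc j]
          have h1 : N ((N ^ (j : ℕ)) v) = (N ^ ((j : ℕ) + 1)) v := by
            rw [pow_succ']
            rfl
          have h2 : N' ((N' ^ (j : ℕ)) v') = (N' ^ ((j : ℕ) + 1)) v' := by
            rw [pow_succ']
            rfl
          rw [h1, h2]
          by_cases hj : (j : ℕ) + 1 < e
          · exact hgc ⟨j + 1, hj⟩
          · rw [pow_apply_zero hNe _ _ (by omega), pow_apply_zero hNe' _ _ (by omega), map_zero]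
        · intro m hm
          show g (N m) = N' (g m)
          have h1 := hgM ⟨m, hm⟩
          have h2 : N m = ((N.restrict hM ⟨m, hm⟩ : M) : V) := rfl
          rw [h2, hgM', h1, hgM' ⟨m, hm⟩]
          rfl
      intro x
      exact hle (Submodule.mem_top : x ∈ ⊤)

/-- Every nilpotent endomorphism has a rank sequence of partition type. -/
theorem exists_type : ∀ (d : ℕ) (V : Type u) [AddCommGroup V] [Module F V]
    [FiniteDimensional F V] (N : V →ₗ[F] V), finrank F V = d → IsNilpotent N →
    ∃ l : Multiset ℕ, (∀ x ∈ l, 0 < x) ∧ l.sum = d ∧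
      ∀ k, rk N k = (l.map (fun x => x - k)).sum := by
  intro d
  induction d using Nat.strong_induction_on with
  | _ d ih =>
    intro V _ _ _ N hd hN
    by_cases hd0 : d = 0
    · refine ⟨0, by simp, by simp [hd0], fun k => ?_⟩
      have h1 : rk N k ≤ finrank F V := Submodule.finrank_le _
      simp only [Multiset.map_zero, Multiset.sum_zero]
      omega
    · have hV : Nontrivial V := nontrivial_of_finrank_pos (R := F) (by omega)
      obtain ⟨e, v, M, hpos, hNe, hv, hli, hM, hc⟩ := exists_split N hN
      have h0 := rk_split N e v M hNe hli hM hc 0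
      rw [rk_zero, rk_zero] at h0
      obtain ⟨l, hl1, hl2, hl3⟩ := ih (finrank F M) (by omega) M (N.restrict hM) rfl
        (restrict_nilpotent N M hM hN)
      refine ⟨e ::ₘ l, ?_, ?_, fun k => ?_⟩
      · intro x hx
        rcases Multiset.mem_cons.mp hx with rfl | hx
        · exact hpos
        · exact hl1 x hx
      · rw [Multiset.sum_cons, hl2]
        omega
      · rw [rk_split N e v M hNe hli hM hc k, hl3 k, Multiset.map_cons, Multiset.sum_cons]

/-- A multiset of positive integers is determined by its truncated sums. -/
theorem type_injective (l l' : Multiset ℕ) (hl : ∀ x ∈ l, 0 < x) (hl' : ∀ x ∈ l', 0 < x)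
    (h : ∀ k, (l.map (fun x => x - k)).sum = (l'.map (fun x => x - k)).sum) : l = l' := by
  classical
  have key1 : ∀ (s : Multiset ℕ) (k : ℕ), (s.map (fun x => x - k)).sum =
      (s.map (fun x => x - (k + 1))).sum + (s.filter (fun x => k < x)).card := by
    intro s k
    induction s using Multiset.induction_on with
    | empty => simp
    | cons a s ih =>
      rw [Multiset.map_cons, Multiset.sum_cons, Multiset.map_cons, Multiset.sum_cons,
        Multiset.filter_cons, ih]
      by_cases hk : k < a
      · rw [if_pos hk]
        simp only [Multiset.card_add, Multiset.card_singleton]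
        omega
      · rw [if_neg hk]
        simp only [zero_add]
        omega
  have key2 : ∀ (s : Multiset ℕ) (k : ℕ), (s.filter (fun x => k < x)).card =
      (s.filter (fun x => k + 1 < x)).card + s.count (k + 1) := by
    intro s k
    induction s using Multiset.induction_on with
    | empty => simp
    | cons a s ih =>
      rw [Multiset.filter_cons, Multiset.filter_cons, Multiset.count_cons]
      by_cases hk : k < a
      · rw [if_pos hk]
        by_cases hk1 : k + 1 < a
        · rw [if_pos hk1, if_neg (by omega)]
          simp only [Multiset.card_add, Multiset.card_singleton]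
          omega
        · rw [if_neg hk1, if_pos (by omega)]
          simp only [Multiset.card_add, Multiset.card_singleton, zero_add]
          omega
      · rw [if_neg hk, if_neg (by omega), if_neg (by omega)]
        simp only [zero_add, add_zero]
        exact ih
  rw [Multiset.ext]
  intro a
  rcases Nat.eq_zero_or_pos a with rfl | ha
  · rw [Multiset.count_eq_zero_of_notMem (fun h0 => absurd (hl 0 h0) (lt_irrefl 0)),
      Multiset.count_eq_zero_of_notMem (fun h0 => absurd (hl' 0 h0) (lt_irrefl 0))]
  · obtain ⟨k, rfl⟩ : ∃ k, a = k + 1 := ⟨a - 1, by omega⟩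
    have a1 := key1 l k
    have a2 := key1 l (k + 1)
    have a3 := key2 l k
    have b1 := key1 l' k
    have b2 := key1 l' (k + 1)
    have b3 := key2 l' k
    have c1 := h k
    have c2 := h (k + 1)
    have c3 := h (k + 1 + 1)
    omega

end Cfsg.Agent.Lib.Helper15.Jordan
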