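import Cfsg.Agent.Lib.Helper15.JordanB

set_option autoImplicit false

namespace Cfsg.Agent.Lib.Helper15.Jordan

open Module

universe u w

variable {F : Type w} [Field F]

theorem rk_conj {V W : Type*} [AddCommGroup V] [Module F V] [AddCommGroup W] [Module F W]
    (φ : V ≃ₗ[F] W) (N : V →ₗ[F] V) (T : W →ₗ[F] W) (h : ∀ x, φ (N x) = T (φ x)) (k : ℕ) :
    rk N k = rk T k := by
  have hk : ∀ (k : ℕ) (x : V), φ ((N ^ k) x) = (T ^ k) (φ x) := by
    intro k
    induction k with
    | zero => intro x; simp
    | succ k ih =>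
      intro x
      rw [pow_succ', pow_succ']
      show φ (N ((N ^ k) x)) = T ((T ^ k) (φ x))
      rw [h, ih]
  unfold rk
  have h1 : LinearMap.range (T ^ k) = (LinearMap.range (N ^ k)).map φ.toLinearMap := by
    ext y
    simp only [LinearMap.mem_range, Submodule.mem_map]
    constructor
    · rintro ⟨x, rfl⟩
      refine ⟨(N ^ k) (φ.symm x), ⟨φ.symm x, rfl⟩, ?_⟩
      show φ ((N ^ k) (φ.symm x)) = _
      rw [hk, LinearEquiv.apply_symm_apply]
    · rintro ⟨_, ⟨x, rfl⟩, rfl⟩
      exact ⟨φ x, (hk k x).symm⟩
  rw [h1]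
  exact (LinearEquiv.finrank_map_eq φ _).symm

/-- The product of two submodules, as a product type. -/
def prodSubEquiv {V W : Type*} [AddCommGroup V] [Module F V] [AddCommGroup W] [Module F W]
    (p : Submodule F V) (q : Submodule F W) : (p × q) ≃ₗ[F] ↥(p.prod q) where
  toFun x := ⟨(x.1.1, x.2.1), ⟨x.1.2, x.2.2⟩⟩
  map_add' _ _ := rfl
  map_smul' _ _ := rfl
  invFun z := (⟨z.1.1, z.2.1⟩, ⟨z.1.2, z.2.2⟩)
  left_inv _ := rfl
  right_inv _ := rfl

theorem prodMap_pow {V W : Type*} [AddCommGroup V] [Module F V] [AddCommGroup W] [Module F W]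
    (A : V →ₗ[F] V) (B : W →ₗ[F] W) (k : ℕ) :
    (A.prodMap B) ^ k = (A ^ k).prodMap (B ^ k) := by
  induction k with
  | zero =>
    apply LinearMap.ext
    intro x
    simp
  | succ k ih => rw [pow_succ, ih, pow_succ, pow_succ, LinearMap.prodMap_mul]

theorem rk_prodMap {V W : Type*} [AddCommGroup V] [Module F V] [AddCommGroup W] [Module F W]
    [FiniteDimensional F V] [FiniteDimensional F W] (A : V →ₗ[F] V) (B : W →ₗ[F] W) (k : ℕ) :
    rk (A.prodMap B) k = rk A k + rk B k := by
  unfold rk
  rw [prodMap_pow, LinearMap.range_prodMap,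
    ← (prodSubEquiv (LinearMap.range (A ^ k)) (LinearMap.range (B ^ k))).finrank_eq,
    Module.finrank_prod]

/-- The nilpotent shift on `F^e`. -/
def shift (F : Type w) [Field F] (e : ℕ) : (Fin e → F) →ₗ[F] (Fin e → F) where
  toFun a := fun i => if h : 0 < (i : ℕ) then a ⟨i - 1, by have := i.2; omega⟩ else 0
  map_add' a b := by
    funext i
    simp only [Pi.add_apply]
    split_ifs <;> simp
  map_smul' c a := by
    funext i
    simp only [Pi.smul_apply, RingHom.id_apply]
    split_ifs <;> simp

theorem shift_apply (e : ℕ) (a : Fin e → F) (i : Fin e) :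
    shift F e a i = if h : 0 < (i : ℕ) then a ⟨i - 1, by have := i.2; omega⟩ else 0 := rfl

theorem shift_pow (e k : ℕ) (a : Fin e → F) (i : Fin e) :
    ((shift F e) ^ k) a i =
      if h : k ≤ (i : ℕ) then a ⟨i - k, by have := i.2; omega⟩ else 0 := by
  induction k generalizing i with
  | zero => simp
  | succ k ih =>
    rw [pow_succ']
    show (shift F e) (((shift F e) ^ k) a) i = _
    rw [shift_apply]
    by_cases hi : 0 < (i : ℕ)
    · rw [dif_pos hi, ih]
      by_cases hk : k + 1 ≤ (i : ℕ)
      · rw [dif_pos hk, dif_pos (by show k ≤ (i : ℕ) - 1; omega)]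
        congr 1
        apply Fin.ext
        show (i : ℕ) - 1 - k = (i : ℕ) - (k + 1)
        omega
      · rw [dif_neg hk, dif_neg (by show ¬ k ≤ (i : ℕ) - 1; omega)]
    · rw [dif_neg hi, dif_neg (by omega)]

theorem rk_shift (e k : ℕ) : rk (shift F e) k = e - k := by
  classical
  rcases Nat.eq_zero_or_pos e with rfl | hpos
  · have h1 : rk (shift F 0) k ≤ finrank F (Fin 0 → F) := Submodule.finrank_le _
    rw [Module.finrank_fin_fun] at h1
    omega
  · let v : Fin e → F := Pi.single ⟨0, hpos⟩ 1
    have hchain : ∀ j : Fin e, ((shift F e) ^ (j : ℕ)) v = Pi.single j 1 := by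
      intro j
      funext i
      rw [shift_pow]
      by_cases h : (j : ℕ) ≤ i
      · rw [dif_pos h]
        simp only [v, Pi.single_apply]
        by_cases hij : i = j
        · subst hij
          simp
        · rw [if_neg hij, if_neg]
          intro h'
          apply hij
          apply Fin.ext
          have h'' := congrArg Fin.val h'
          simp only at h''
          omega
      · rw [dif_neg h, Pi.single_apply, if_neg]
        rintro rfl
        exact h le_rfl
    have hNe : (shift F e) ^ e = 0 := by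
      apply LinearMap.ext
      intro a
      funext i
      rw [shift_pow, dif_neg (by have := i.2; omega)]
      rfl
    have hfun : (fun j : Fin e => ((shift F e) ^ (j : ℕ)) v) = ⇑(Pi.basisFun F (Fin e)) := by
      funext j
      rw [hchain, Pi.basisFun_apply]
    have hli : LinearIndependent F (fun j : Fin e => ((shift F e) ^ (j : ℕ)) v) := by
      rw [hfun]
      exact (Pi.basisFun F (Fin e)).linearIndependent
    have hspan : Submodule.span F (Set.range (fun j : Fin e => ((shift F e) ^ (j : ℕ)) v)) = ⊤ := by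
      rw [hfun]
      exact (Pi.basisFun F (Fin e)).span_eq
    have hM : ∀ x ∈ (⊥ : Submodule F (Fin e → F)), shift F e x ∈ (⊥ : Submodule F (Fin e → F)) := by
      intro x hx
      rw [Submodule.mem_bot] at hx ⊢
      rw [hx, map_zero]
    have hc : IsCompl (Submodule.span F (Set.range (fun j : Fin e => ((shift F e) ^ (j : ℕ)) v)))
        (⊥ : Submodule F (Fin e → F)) := by
      rw [hspan]
      exact isCompl_top_bot
    rw [rk_split (shift F e) e v ⊥ hNe hli hM hc k]
    have h0 : rk ((shift F e).restrict hM) k = 0 := by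
      have h1 : rk ((shift F e).restrict hM) k ≤ finrank F (⊥ : Submodule F (Fin e → F)) :=
        Submodule.finrank_le _
      rw [finrank_bot] at h1
      omega
    omega

/-- Every multiset of natural numbers is the type of a nilpotent endomorphism. -/
theorem exists_nilp (l : Multiset ℕ) : ∀ (n : ℕ), l.sum = n →
    ∃ N : (Fin n → F) →ₗ[F] (Fin n → F), IsNilpotent N ∧
      ∀ k, rk N k = (l.map (fun x => x - k)).sum := by
  induction l using Multiset.induction_on with
  | empty =>
    intro n hn
    refine ⟨0, ⟨1, pow_one 0⟩, fun k => ?_⟩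
    have h1 : rk (0 : (Fin n → F) →ₗ[F] (Fin n → F)) k ≤ finrank F (Fin n → F) :=
      Submodule.finrank_le _
    rw [Module.finrank_fin_fun] at h1
    simp only [Multiset.sum_zero] at hn
    simp only [Multiset.map_zero, Multiset.sum_zero]
    omega
  | cons e l ih =>
    intro n hn
    obtain ⟨N', hN', hrk'⟩ := ih l.sum rfl
    have hfr : finrank F ((Fin e → F) × (Fin l.sum → F)) = finrank F (Fin n → F) := by
      rw [Module.finrank_prod, Module.finrank_fin_fun, Module.finrank_fin_fun,
        Module.finrank_fin_fun, ← hn, Multiset.sum_cons]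
    let φ := LinearEquiv.ofFinrankEq _ _ hfr
    let T := (shift F e).prodMap N'
    have hconj : ∀ k, rk (φ.conj T) k = rk T k := fun k =>
      (rk_conj φ T (φ.conj T) (fun x => by simp [LinearEquiv.conj_apply]) k).symm
    have hT : ∀ k, rk T k = (e - k) + rk N' k := fun k => by
      rw [rk_prodMap, rk_shift]
    refine ⟨φ.conj T, ?_, fun k => ?_⟩
    · obtain ⟨m, hm⟩ := hN'
      refine ⟨e + m, ?_⟩
      rw [← rk_eq_zero_iff, hconj, hT]
      have h1 : rk N' (e + m) = 0 := by
        rw [rk_eq_zero_iff, add_comm, pow_add, hm, zero_mul]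
      omega
    · rw [hconj, hT, hrk', Multiset.map_cons, Multiset.sum_cons]

end Cfsg.Agent.Lib.Helper15.Jordan
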