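import Cfsg.Agent.Lib.Helper15.JordanC
import Cfsg.Agent.Lib.Helper15.Unipotent

set_option autoImplicit false

namespace Cfsg.Agent.Lib.Helper15.Jordan

open Module Cfsg.Agent.Lib.Helper15

variable {F : Type*} [Field F] {n : ℕ}

/-- The endomorphism `g - 1` attached to an invertible matrix. -/
noncomputable def NmGL (g : Matrix.GeneralLinearGroup (Fin n) F) : (Fin n → F) →ₗ[F] (Fin n → F) :=
  Matrix.toLin' ((g : Matrix (Fin n) (Fin n) F) - 1)

theorem toLin_pow (A : Matrix (Fin n) (Fin n) F) (k : ℕ) :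
    (Matrix.toLin' A) ^ k = Matrix.toLin' (A ^ k) := by
  induction k with
  | zero => rw [pow_zero, pow_zero, Matrix.toLin'_one]; rfl
  | succ k ih => rw [pow_succ, ih, pow_succ, Matrix.toLin'_mul]; rfl

theorem NmGL_pow_eq_zero_iff (g : Matrix.GeneralLinearGroup (Fin n) F) (k : ℕ) :
    (NmGL g) ^ k = 0 ↔ ((g : Matrix (Fin n) (Fin n) F) - 1) ^ k = 0 := by
  unfold NmGL
  rw [toLin_pow]
  constructor
  · intro h
    apply Matrix.toLin'.injective
    rw [h, map_zero]
  · intro h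
    rw [h, map_zero]

theorem NmGL_nilpotent_iff (g : Matrix.GeneralLinearGroup (Fin n) F) :
    IsNilpotent (NmGL g) ↔ IsNilpotent ((g : Matrix (Fin n) (Fin n) F) - 1) := by
  constructor
  · rintro ⟨k, hk⟩
    exact ⟨k, (NmGL_pow_eq_zero_iff g k).mp hk⟩
  · rintro ⟨k, hk⟩
    exact ⟨k, (NmGL_pow_eq_zero_iff g k).mpr hk⟩

/-- In characteristic `p`: `g ^ (p ^ k) = 1` iff `(g - 1) ^ (p ^ k) = 0`. -/
theorem pow_eq_one_iff (p : ℕ) [Fact p.Prime] [CharP F p]
    (g : Matrix.GeneralLinearGroup (Fin n) F) (k : ℕ) :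
    g ^ (p ^ k) = 1 ↔ (NmGL g) ^ (p ^ k) = 0 := by
  rw [NmGL_pow_eq_zero_iff, sub_one_pow_char_pow p, sub_eq_zero]
  constructor
  · intro h
    have h2 := congrArg (fun x : GL (Fin n) F => (x : Matrix (Fin n) (Fin n) F)) h
    simpa using h2
  · intro h
    apply Units.ext
    simpa using h

theorem nilpotent_of_order (p : ℕ) [Fact p.Prime] [CharP F p]
    (g : Matrix.GeneralLinearGroup (Fin n) F) (h : ∃ k : ℕ, orderOf g = p ^ k) :
    IsNilpotent (NmGL g) := by
  obtain ⟨k, hk⟩ := h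
  refine ⟨p ^ k, (pow_eq_one_iff p g k).mp ?_⟩
  rw [← hk]
  exact pow_orderOf_eq_one g

theorem rk_isConj {g g' : Matrix.GeneralLinearGroup (Fin n) F} (hgg' : IsConj g g') (k : ℕ) :
    rk (NmGL g) k = rk (NmGL g') k := by
  obtain ⟨c, hc⟩ := isConj_iff.mp hgg'
  have h1 : ((c⁻¹ : GL (Fin n) F) : Matrix (Fin n) (Fin n) F) * (c : Matrix (Fin n) (Fin n) F) = 1 := by
    rw [← Matrix.GeneralLinearGroup.coe_mul, inv_mul_cancel]
    rfl
  have h2 : (c : Matrix (Fin n) (Fin n) F) * ((c⁻¹ : GL (Fin n) F) : Matrix (Fin n) (Fin n) F) = 1 := by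
    rw [← Matrix.GeneralLinearGroup.coe_mul, mul_inv_cancel]
    rfl
  let φ : (Fin n → F) ≃ₗ[F] (Fin n → F) := Matrix.toLin'OfInv h1 h2
  have hφ : ∀ x, φ x = Matrix.toLin' (c : Matrix (Fin n) (Fin n) F) x := fun x => rfl
  have hcg : (c : Matrix (Fin n) (Fin n) F) * (g : Matrix (Fin n) (Fin n) F) =
      (g' : Matrix (Fin n) (Fin n) F) * (c : Matrix (Fin n) (Fin n) F) := by
    have h3 : c * g = g' * c := by rw [← hc]; group
    have h4 := congrArg (fun x : GL (Fin n) F => (x : Matrix (Fin n) (Fin n) F)) h3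
    simpa using h4
  apply rk_conj φ
  intro x
  rw [hφ, hφ]
  show Matrix.toLin' (c : Matrix (Fin n) (Fin n) F)
      (Matrix.toLin' ((g : Matrix (Fin n) (Fin n) F) - 1) x) =
    Matrix.toLin' ((g' : Matrix (Fin n) (Fin n) F) - 1)
      (Matrix.toLin' (c : Matrix (Fin n) (Fin n) F) x)
  rw [← LinearMap.comp_apply, ← LinearMap.comp_apply, ← Matrix.toLin'_mul, ← Matrix.toLin'_mul,
    Matrix.mul_sub, Matrix.sub_mul, hcg, Matrix.mul_one, Matrix.one_mul]

theorem isConj_of_rk {g g' : Matrix.GeneralLinearGroup (Fin n) F} (hg : IsNilpotent (NmGL g))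
    (hg' : IsNilpotent (NmGL g')) (hrk : ∀ k, rk (NmGL g) k = rk (NmGL g') k) : IsConj g g' := by
  obtain ⟨φ, hφ⟩ := nilp_conj (F := F) (Module.finrank F (Fin n → F)) (Fin n → F) (Fin n → F)
    (NmGL g) (NmGL g') rfl hg hg' hrk
  set P := LinearMap.toMatrix' φ.toLinearMap with hP
  set P' := LinearMap.toMatrix' φ.symm.toLinearMap with hP'
  have hPP' : P * P' = 1 := by
    rw [hP, hP', ← LinearMap.toMatrix'_comp]
    have : φ.toLinearMap ∘ₗ φ.symm.toLinearMap = LinearMap.id := by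
      apply LinearMap.ext
      intro x
      simp
    rw [this, LinearMap.toMatrix'_id]
  have hP'P : P' * P = 1 := by
    rw [hP, hP', ← LinearMap.toMatrix'_comp]
    have : φ.symm.toLinearMap ∘ₗ φ.toLinearMap = LinearMap.id := by
      apply LinearMap.ext
      intro x
      simp
    rw [this, LinearMap.toMatrix'_id]
  let c : GL (Fin n) F := ⟨P, P', hPP', hP'P⟩
  rw [isConj_iff]
  refine ⟨c, ?_⟩
  rw [mul_inv_eq_iff_eq_mul]
  apply Units.ext
  show P * (g : Matrix (Fin n) (Fin n) F) = (g' : Matrix (Fin n) (Fin n) F) * P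
  have h1 : P * ((g : Matrix (Fin n) (Fin n) F) - 1) = ((g' : Matrix (Fin n) (Fin n) F) - 1) * P := by
    apply Matrix.toLin'.injective
    apply LinearMap.ext
    intro x
    rw [Matrix.toLin'_mul, Matrix.toLin'_mul, LinearMap.comp_apply, LinearMap.comp_apply, hP,
      Matrix.toLin'_toMatrix']
    exact hφ x
  rw [Matrix.mul_sub, Matrix.sub_mul, Matrix.mul_one, Matrix.one_mul] at h1
  exact sub_left_injective h1

theorem exists_partition {g : Matrix.GeneralLinearGroup (Fin n) F} (hg : IsNilpotent (NmGL g)) :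
    ∃ l : Nat.Partition n, ∀ k, rk (NmGL g) k = (l.parts.map (fun x => x - k)).sum := by
  obtain ⟨l, hl1, hl2, hl3⟩ := exists_type (F := F) (Module.finrank F (Fin n → F)) (Fin n → F)
    (NmGL g) rfl hg
  rw [Module.finrank_fin_fun] at hl2
  exact ⟨⟨l, fun {i} hi => hl1 i hi, hl2⟩, hl3⟩

theorem exists_of_partition (l : Nat.Partition n) :
    ∃ g : Matrix.GeneralLinearGroup (Fin n) F, IsNilpotent (NmGL g) ∧
      ∀ k, rk (NmGL g) k = (l.parts.map (fun x => x - k)).sum := by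
  obtain ⟨N, hN, hrk⟩ := exists_nilp (F := F) l.parts n l.parts_sum
  have hA : IsNilpotent (LinearMap.toMatrix' N) := by
    obtain ⟨m, hm⟩ := hN
    refine ⟨m, ?_⟩
    apply Matrix.toLin'.injective
    rw [← toLin_pow, Matrix.toLin'_toMatrix', hm, map_zero]
  obtain ⟨u, hu⟩ := hA.isUnit_one_add
  have hu' : (u : Matrix (Fin n) (Fin n) F) - 1 = LinearMap.toMatrix' N := by
    rw [hu]
    simp
  have h2 : NmGL u = N := by
    show Matrix.toLin' ((u : Matrix (Fin n) (Fin n) F) - 1) = N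
    rw [hu', Matrix.toLin'_toMatrix']
  refine ⟨u, ?_, fun k => ?_⟩
  · rw [h2]
    exact hN
  · rw [h2, hrk]

end Cfsg.Agent.Lib.Helper15.Jordan
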