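import Cfsg.Agent.Lib.Helper15.JordanD
import Cfsg.Agent.Lib.Helper15.SpInvol

set_option autoImplicit false

namespace Cfsg.Agent.Lib.Helper15.Jordan

open Module Matrix

variable {F : Type*} [Field F]

/-- The rank of the `i`-th power of `M - 1`. -/
noncomputable def urk {ι : Type*} [Fintype ι] [DecidableEq ι] (M : Matrix ι ι F) (i : ℕ) : ℕ :=
  ((M - 1) ^ i).rank

section Basic

variable {ι : Type*} [Fintype ι] [DecidableEq ι]

theorem toLin_pow' (A : Matrix ι ι F) (k : ℕ) :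
    (Matrix.toLin' A) ^ k = Matrix.toLin' (A ^ k) := by
  induction k with
  | zero => rw [pow_zero, pow_zero, Matrix.toLin'_one]; rfl
  | succ k ih => rw [pow_succ, ih, pow_succ, Matrix.toLin'_mul]; rfl

theorem urk_eq_rk (M : Matrix ι ι F) (i : ℕ) : urk M i = rk (Matrix.toLin' (M - 1)) i := by
  unfold urk rk
  rw [toLin_pow']
  rfl

theorem urk_zero (M : Matrix ι ι F) : urk M 0 = Fintype.card ι := by
  unfold urk
  rw [pow_zero, Matrix.rank_one]

theorem urk_le (M : Matrix ι ι F) (i : ℕ) : urk M i ≤ Fintype.card ι :=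
  Matrix.rank_le_card_width _

theorem urk_reindex {κ : Type*} [Fintype κ] [DecidableEq κ] (e : ι ≃ κ) (M : Matrix ι ι F)
    (i : ℕ) : urk (Matrix.reindex e e M) i = urk M i := by
  unfold urk
  have h1 : Matrix.reindex e e M - 1 = Matrix.reindexAlgEquiv F F e (M - 1) := by
    rw [map_sub, map_one, Matrix.coe_reindexAlgEquiv]
  rw [h1, ← map_pow, Matrix.coe_reindexAlgEquiv, Matrix.rank_reindex]

theorem urk_of_isConj {M M' : Matrix ι ι F} (h : IsConj M M') (i : ℕ) : urk M i = urk M' i := by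
  obtain ⟨c, hc⟩ := h
  have hc' : (c : Matrix ι ι F) * M = M' * (c : Matrix ι ι F) := hc
  have h1 : SemiconjBy (c : Matrix ι ι F) (M - 1) (M' - 1) := by
    show (c : Matrix ι ι F) * (M - 1) = (M' - 1) * (c : Matrix ι ι F)
    rw [Matrix.mul_sub, Matrix.sub_mul, hc', Matrix.mul_one, Matrix.one_mul]
  have h2 : (c : Matrix ι ι F) * (M - 1) ^ i = (M' - 1) ^ i * (c : Matrix ι ι F) :=
    h1.pow_right i
  have hdet : IsUnit (c : Matrix ι ι F).det := (Matrix.isUnit_iff_isUnit_det _).mp c.isUnit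
  unfold urk
  rw [← Matrix.rank_mul_eq_right_of_isUnit_det (c : Matrix ι ι F) _ hdet, h2,
    Matrix.rank_mul_eq_left_of_isUnit_det _ _ hdet]

/-- Unipotent matrices with the same rank sequence are conjugate. -/
theorem isConj_of_urk {ι : Type} [Fintype ι] [DecidableEq ι] {M M' : Matrix ι ι F} (n : ℕ)
    (hn : urk M n = 0) (h : ∀ i, urk M i = urk M' i) : IsConj M M' := by
  have hN : IsNilpotent (Matrix.toLin' (M - 1)) :=
    ⟨n, (rk_eq_zero_iff _ n).mp (by rw [← urk_eq_rk]; exact hn)⟩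
  have hN' : IsNilpotent (Matrix.toLin' (M' - 1)) :=
    ⟨n, (rk_eq_zero_iff _ n).mp (by rw [← urk_eq_rk, ← h]; exact hn)⟩
  obtain ⟨φ, hφ⟩ := nilp_conj (F := F) (Module.finrank F (ι → F)) (ι → F) (ι → F)
    (Matrix.toLin' (M - 1)) (Matrix.toLin' (M' - 1)) rfl hN hN'
    (fun k => by rw [← urk_eq_rk, ← urk_eq_rk]; exact h k)
  set P := LinearMap.toMatrix' φ.toLinearMap with hP
  set P' := LinearMap.toMatrix' φ.symm.toLinearMap with hP'
  have hPP' : P * P' = 1 := by
    rw [hP, hP', ← LinearMap.toMatrix'_comp]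
    have : φ.toLinearMap ∘ₗ φ.symm.toLinearMap = LinearMap.id := by
      apply LinearMap.ext
      intro x
      simp
    rw [this, LinearMap.toMatrix'_id]
  have hP'P : P' * P = 1 := by
    rw [hP, hP', ← LinearMap.toMatrix'_comp]
    have : φ.symm.toLinearMap ∘ₗ φ.toLinearMap = LinearMap.id := by
      apply LinearMap.ext
      intro x
      simp
    rw [this, LinearMap.toMatrix'_id]
  let c : (Matrix ι ι F)ˣ := ⟨P, P', hPP', hP'P⟩
  refine ⟨c, ?_⟩
  show P * M = M' * P
  have h1 : P * (M - 1) = (M' - 1) * P := by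
    apply Matrix.toLin'.injective
    apply LinearMap.ext
    intro x
    rw [Matrix.toLin'_mul, Matrix.toLin'_mul, LinearMap.comp_apply, LinearMap.comp_apply, hP,
      Matrix.toLin'_toMatrix']
    exact hφ x
  rw [Matrix.mul_sub, Matrix.sub_mul, Matrix.mul_one, Matrix.one_mul] at h1
  exact sub_left_injective h1

theorem pow_blocks {ι₁ ι₂ : Type*} [Fintype ι₁] [DecidableEq ι₁] [Fintype ι₂] [DecidableEq ι₂]
    (P : Matrix ι₁ ι₁ F) (Q : Matrix ι₂ ι₂ F) (i : ℕ) :
    (Matrix.fromBlocks P 0 0 Q) ^ i = Matrix.fromBlocks (P ^ i) 0 0 (Q ^ i) := by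
  induction i with
  | zero => rw [pow_zero, pow_zero, pow_zero, Matrix.fromBlocks_one]
  | succ i ih =>
    rw [pow_succ, ih, Matrix.fromBlocks_multiply, pow_succ, pow_succ]
    simp

theorem rank_blocks {ι₁ ι₂ : Type*} [Fintype ι₁] [DecidableEq ι₁] [Fintype ι₂] [DecidableEq ι₂]
    (P : Matrix ι₁ ι₁ F) (Q : Matrix ι₂ ι₂ F) :
    (Matrix.fromBlocks P 0 0 Q).rank = P.rank + Q.rank := by
  have h := rk_conj (LinearEquiv.sumArrowLequivProdArrow ι₁ ι₂ F F)
    (Matrix.toLin' (Matrix.fromBlocks P 0 0 Q))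
    ((Matrix.toLin' P).prodMap (Matrix.toLin' Q)) (by
      intro x
      rw [Matrix.toLin'_apply]
      apply Prod.ext
      · funext a
        simp [LinearEquiv.sumArrowLequivProdArrow, Matrix.mulVec, dotProduct,
          Fintype.sum_sum_type, Matrix.fromBlocks_apply₁₁, Matrix.fromBlocks_apply₁₂]
      · funext a
        simp [LinearEquiv.sumArrowLequivProdArrow, Matrix.mulVec, dotProduct,
          Fintype.sum_sum_type, Matrix.fromBlocks_apply₂₁, Matrix.fromBlocks_apply₂₂]) 1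
  rw [rk_prodMap] at h
  unfold rk at h
  rw [pow_one, pow_one, pow_one] at h
  exact h

theorem urk_blocks {ι₁ ι₂ : Type*} [Fintype ι₁] [DecidableEq ι₁] [Fintype ι₂] [DecidableEq ι₂]
    (P : Matrix ι₁ ι₁ F) (Q : Matrix ι₂ ι₂ F) (i : ℕ) :
    urk (Matrix.fromBlocks P 0 0 Q) i = urk P i + urk Q i := by
  unfold urk
  have h1 : Matrix.fromBlocks P 0 0 Q - 1 = Matrix.fromBlocks (P - 1) 0 0 (Q - 1) := by
    ext (a | a) (b | b) <;> simp [Matrix.one_apply]
  rw [h1, pow_blocks, rank_blocks]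

theorem urk_inv_transpose (U U' : Matrix ι ι F) (h : U * U' = 1) (h' : U' * U = 1) (i : ℕ) :
    urk U'ᵀ i = urk U i := by
  unfold urk
  have h1 : U'ᵀ - 1 = (U' - 1)ᵀ := by
    rw [Matrix.transpose_sub, Matrix.transpose_one]
  have h2 : U' - 1 = (-U') * (U - 1) := by
    rw [Matrix.mul_sub, Matrix.neg_mul, h', Matrix.mul_one]
    abel
  have hc : Commute (-U') (U - 1) := by
    show (-U') * (U - 1) = (U - 1) * (-U')
    rw [Matrix.mul_sub, Matrix.sub_mul, Matrix.neg_mul, Matrix.mul_neg, h, h', Matrix.mul_one,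
      Matrix.one_mul]
  have hu : IsUnit ((-U') ^ i).det := by
    apply (Matrix.isUnit_iff_isUnit_det _).mp
    apply IsUnit.pow
    exact (IsUnit.of_mul_eq_one U h').neg
  rw [h1, ← Matrix.transpose_pow, Matrix.rank_transpose, h2, hc.mul_pow,
    Matrix.rank_mul_eq_right_of_isUnit_det _ _ hu]

end Basic

section PPerm

/-- The rank of a partial permutation matrix. -/
theorem rank_pperm {ι : Type*} [Fintype ι] [DecidableEq ι] (T : Finset ι) (f : ι → ι)
    (hf : ∀ a ∈ T, ∀ b ∈ T, f a = f b → a = b) (M : Matrix ι ι F)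
    (hM : ∀ p q, M p q = if q ∈ T ∧ p = f q then 1 else 0) : M.rank = T.card := by
  classical
  set D : Matrix ι ι F := Matrix.diagonal (fun q => if q ∈ T then 1 else 0) with hD
  have h1 : M * D = M := by
    ext p q
    rw [hD, Matrix.mul_diagonal, hM]
    by_cases hq : q ∈ T
    · rw [if_pos hq, mul_one]
    · rw [if_neg hq, mul_zero, if_neg (fun h => hq h.1)]
  have h2 : Mᵀ * M = D := by
    ext q q'
    rw [Matrix.mul_apply, hD, Matrix.diagonal_apply]
    simp only [Matrix.transpose_apply, hM]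
    by_cases hqq : q = q'
    · subst hqq
      rw [if_pos rfl]
      by_cases hq : q ∈ T
      · rw [if_pos hq, Finset.sum_eq_single (f q)]
        · rw [if_pos ⟨hq, rfl⟩, mul_one]
        · intro b _ hb
          rw [if_neg (fun h => hb h.2), mul_zero]
        · intro h
          exact absurd (Finset.mem_univ _) h
      · rw [if_neg hq]
        apply Finset.sum_eq_zero
        intro b _
        rw [if_neg (fun h => hq h.1), mul_zero]
    · rw [if_neg hqq]
      apply Finset.sum_eq_zero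
      intro b _
      by_cases h1 : q ∈ T ∧ b = f q
      · by_cases h2 : q' ∈ T ∧ b = f q'
        · exact absurd (hf q h1.1 q' h2.1 (h1.2.symm.trans h2.2)) hqq
        · rw [if_neg h2, mul_zero]
      · rw [if_neg h1, zero_mul]
  have hDr : D.rank = T.card := by
    rw [hD, Matrix.rank_diagonal, Fintype.card_subtype]
    congr 1
    ext q
    simp
  apply le_antisymm
  · rw [← hDr, ← h1]
    exact Matrix.rank_mul_le_right _ _
  · rw [← hDr, ← h2]
    exact Matrix.rank_mul_le_right _ _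

theorem jordan_sub_apply {t : ℕ} (d : Fin t → ℕ) (p q : (k : Fin t) × Fin (d k)) :
    (Cfsg.jordanTypeMatrix d F - 1) p q =
      if p.1 = q.1 ∧ (p.2 : ℕ) = (q.2 : ℕ) + 1 then 1 else 0 := by
  obtain ⟨k, a⟩ := p
  obtain ⟨k', b⟩ := q
  unfold Cfsg.jordanTypeMatrix Cfsg.jordanBlock
  rw [Matrix.sub_apply, Matrix.blockDiagonal'_apply, Matrix.one_apply]
  by_cases hk : k = k'
  · subst hk
    by_cases hab : a = b
    · subst hab
      simp
    · have hab' : (a : ℕ) ≠ (b : ℕ) := fun h => hab (Fin.ext h)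
      simp [hab, hab']
  · simp [hk]

theorem sigma_eq_iff {t : ℕ} (d : Fin t → ℕ) (p q : (k : Fin t) × Fin (d k)) :
    p = q ↔ p.1 = q.1 ∧ (p.2 : ℕ) = (q.2 : ℕ) := by
  obtain ⟨k, a⟩ := p
  obtain ⟨k', b⟩ := q
  constructor
  · intro h
    cases h
    exact ⟨rfl, rfl⟩
  · rintro ⟨h1, h2⟩
    simp only at h1 h2
    subst h1
    rw [Fin.ext h2]

theorem jordan_pow_apply {t : ℕ} (d : Fin t → ℕ) (i : ℕ) (p q : (k : Fin t) × Fin (d k)) :
    ((Cfsg.jordanTypeMatrix d F - 1) ^ i) p q =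
      if p.1 = q.1 ∧ (p.2 : ℕ) = (q.2 : ℕ) + i then 1 else 0 := by
  induction i generalizing p q with
  | zero =>
    rw [pow_zero, Matrix.one_apply]
    simp only [add_zero]
    by_cases h : p = q
    · rw [if_pos h, if_pos ((sigma_eq_iff d p q).mp h)]
    · rw [if_neg h, if_neg (fun h' => h ((sigma_eq_iff d p q).mpr h'))]
  | succ i ih =>
    rw [pow_succ, Matrix.mul_apply]
    simp only [ih, jordan_sub_apply]
    by_cases hc : p.1 = q.1 ∧ (p.2 : ℕ) = (q.2 : ℕ) + (i + 1)
    · rw [if_pos hc]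
      have hlt : (q.2 : ℕ) + 1 < d q.1 := by
        have h1 := p.2.2
        have h2 : d p.1 = d q.1 := by rw [hc.1]
        omega
      rw [Finset.sum_eq_single (⟨q.1, ⟨(q.2 : ℕ) + 1, hlt⟩⟩ : (k : Fin t) × Fin (d k))]
      · rw [if_pos ⟨hc.1, by show (p.2 : ℕ) = (q.2 : ℕ) + 1 + i; omega⟩, if_pos ⟨rfl, rfl⟩,
          mul_one]
      · intro r _ hr
        by_cases h2 : r.1 = q.1 ∧ (r.2 : ℕ) = (q.2 : ℕ) + 1
        · exact (hr ((sigma_eq_iff d _ _).mpr ⟨h2.1, h2.2⟩)).elim
        · rw [if_neg h2, mul_zero]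
      · intro h
        exact absurd (Finset.mem_univ _) h
    · rw [if_neg hc]
      apply Finset.sum_eq_zero
      intro r _
      by_cases h1 : p.1 = r.1 ∧ (p.2 : ℕ) = (r.2 : ℕ) + i
      · by_cases h2 : r.1 = q.1 ∧ (r.2 : ℕ) = (q.2 : ℕ) + 1
        · exact absurd ⟨h1.1.trans h2.1, by omega⟩ hc
        · rw [if_neg h2, mul_zero]
      · rw [if_neg h1, zero_mul]

theorem card_filter_sigma {t : ℕ} (d : Fin t → ℕ) (i : ℕ) :
    (Finset.univ.filter (fun q : (k : Fin t) × Fin (d k) => (q.2 : ℕ) + i < d q.1)).card =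
      ∑ k, (d k - i) := by
  rw [Finset.card_filter, Fintype.sum_sigma]
  apply Finset.sum_congr rfl
  intro k _
  rw [Fin.sum_univ_eq_sum_range (fun x => if x + i < d k then 1 else 0) (d k),
    ← Finset.card_filter]
  have : (Finset.range (d k)).filter (fun x => x + i < d k) = Finset.range (d k - i) := by
    ext x
    simp only [Finset.mem_filter, Finset.mem_range]
    omega
  rw [this, Finset.card_range]

/-- The rank sequence of the unipotent matrix of Jordan type `d`. -/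
theorem urk_jordan {t : ℕ} (d : Fin t → ℕ) (i : ℕ) :
    urk (Cfsg.jordanTypeMatrix d F) i = ∑ k, (d k - i) := by
  classical
  unfold urk
  rw [← card_filter_sigma]
  apply rank_pperm _
    (fun q => if h : (q.2 : ℕ) + i < d q.1 then ⟨q.1, ⟨(q.2 : ℕ) + i, h⟩⟩ else q)
  · intro a ha b hb hab
    rw [Finset.mem_filter] at ha hb
    rw [dif_pos ha.2, dif_pos hb.2] at hab
    have h := (sigma_eq_iff d _ _).mp hab
    apply (sigma_eq_iff d _ _).mpr
    refine ⟨h.1, ?_⟩
    have h2 := h.2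
    simp only at h2
    omega
  · intro p q
    rw [jordan_pow_apply]
    by_cases hc : p.1 = q.1 ∧ (p.2 : ℕ) = (q.2 : ℕ) + i
    · have hlt : (q.2 : ℕ) + i < d q.1 := by
        have h1 := p.2.2
        have h2 : d p.1 = d q.1 := by rw [hc.1]
        omega
      rw [if_pos hc, if_pos]
      refine ⟨Finset.mem_filter.mpr ⟨Finset.mem_univ _, hlt⟩, ?_⟩
      rw [dif_pos hlt]
      exact (sigma_eq_iff d _ _).mpr ⟨hc.1, hc.2⟩
    · rw [if_neg hc, if_neg]
      rintro ⟨hq, hp⟩
      rw [Finset.mem_filter] at hq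
      rw [dif_pos hq.2] at hp
      apply hc
      rw [hp]
      exact ⟨rfl, rfl⟩

end PPerm

section Alt

theorem alt_dot {ι : Type*} [Fintype ι] (K : Matrix ι ι F) (hKt : Kᵀ = -K)
    (hKd : ∀ i, K i i = 0) (y : ι → F) : y ⬝ᵥ K *ᵥ y = 0 := by
  classical
  have hK : ∀ i j, K j i = - K i j := fun i j => by
    have := congrFun (congrFun hKt i) j
    simpa using this
  simp only [dotProduct, Matrix.mulVec, Finset.mul_sum]
  rw [← Finset.sum_product']
  apply Finset.sum_involution (fun (a : ι × ι) _ => (a.2, a.1))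
  · intro a _
    show y a.1 * (K a.1 a.2 * y a.2) + y a.2 * (K a.2 a.1 * y a.1) = 0
    rw [hK a.1 a.2]
    ring
  · intro a _ hne h
    apply hne
    have h1 : a.2 = a.1 := congrArg Prod.fst h
    show y a.1 * (K a.1 a.2 * y a.2) = 0
    rw [h1, hKd]
    ring
  · intro a _
    exact Finset.mem_univ _
  · intro a _
    rfl

/-- A congruence transform of an alternating matrix has even rank. -/
theorem even_rank_congr {ι : Type*} [Fintype ι] [DecidableEq ι] (K X : Matrix ι ι F)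
    (hKt : Kᵀ = -K) (hKd : ∀ i, K i i = 0) : Even (Xᵀ * K * X).rank := by
  set Z := Xᵀ * K * X with hZ
  let α : LinearMap.BilinForm F (ι → F) := Matrix.toBilin' Z
  have hα : ∀ x y, α x y = x ⬝ᵥ Z *ᵥ y := fun x y => Matrix.toBilin'_apply' Z x y
  have halt : α.IsAlt := by
    intro x
    rw [hα, hZ, ← Matrix.mulVec_mulVec, ← Matrix.mulVec_mulVec, Matrix.dotProduct_mulVec,
      Matrix.vecMul_transpose]
    exact alt_dot K hKt hKd _
  obtain ⟨c, hc⟩ := SpInvol.alt_even α halt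
  have hker : LinearMap.ker α = LinearMap.ker (Matrix.toLin' Zᵀ) := by
    ext x
    rw [LinearMap.mem_ker, LinearMap.mem_ker, Matrix.toLin'_apply]
    constructor
    · intro h
      funext j
      have h1 : α x (Pi.single j 1) = 0 := by rw [h]; rfl
      rw [hα, Matrix.dotProduct_mulVec, ← Matrix.mulVec_transpose] at h1
      simpa using h1
    · intro h
      apply LinearMap.ext
      intro y
      rw [hα, Matrix.dotProduct_mulVec, ← Matrix.mulVec_transpose, h]
      simp
  have hrn := LinearMap.finrank_range_add_finrank_ker (Matrix.toLin' Zᵀ)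
  rw [← hker, Module.finrank_fintype_fun_eq_card] at hrn
  rw [Module.finrank_fintype_fun_eq_card] at hc
  have hr : Zᵀ.rank = Module.finrank F (LinearMap.range (Matrix.toLin' Zᵀ)) := rfl
  rw [← Matrix.rank_transpose, hr]
  exact ⟨c, by omega⟩

/-- For an isometry `A` of a non-degenerate alternating form, the even powers of `A - 1` have
even rank. -/
theorem even_urk {ι : Type*} [Fintype ι] [DecidableEq ι] (K A : Matrix ι ι F) (hKt : Kᵀ = -K)
    (hKd : ∀ i, K i i = 0) (hK : IsUnit K.det) (hA : Aᵀ * K * A = K) (l : ℕ) :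
    Even (urk A (2 * l)) := by
  have hdet : IsUnit A.det := by
    have h := congrArg Matrix.det hA
    rw [Matrix.det_mul, Matrix.det_mul, Matrix.det_transpose] at h
    have hK0 : K.det ≠ 0 := hK.ne_zero
    have h1 : A.det * A.det = 1 := by
      have : K.det * (A.det * A.det) = K.det * 1 := by
        rw [mul_one]
        linear_combination h
      exact mul_left_cancel₀ hK0 this
    exact IsUnit.of_mul_eq_one _ h1
  have hAi : A * A⁻¹ = 1 := Matrix.mul_nonsing_inv A hdet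
  have hiA : A⁻¹ * A = 1 := Matrix.nonsing_inv_mul A hdet
  have h1 : Aᵀ * K = K * A⁻¹ := by
    calc Aᵀ * K = Aᵀ * K * (A * A⁻¹) := by rw [hAi, Matrix.mul_one]
      _ = (Aᵀ * K * A) * A⁻¹ := by rw [Matrix.mul_assoc (Aᵀ * K) A A⁻¹]
      _ = K * A⁻¹ := by rw [hA]
  have h2 : (A - 1)ᵀ * K = K * ((-A⁻¹) * (A - 1)) := by
    rw [Matrix.transpose_sub, Matrix.transpose_one, Matrix.sub_mul, h1, Matrix.one_mul,
      Matrix.neg_mul, Matrix.mul_sub, hiA, Matrix.mul_one, Matrix.mul_neg, Matrix.mul_sub,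
      Matrix.mul_one]
    abel
  have h3 : ∀ j : ℕ, ((A - 1)ᵀ) ^ j * K = K * ((-A⁻¹) * (A - 1)) ^ j := by
    intro j
    induction j with
    | zero => simp
    | succ j ih =>
      rw [pow_succ, Matrix.mul_assoc, h2, ← Matrix.mul_assoc, ih, Matrix.mul_assoc, ← pow_succ]
  have hcomm : Commute (-A⁻¹) (A - 1) := by
    show (-A⁻¹) * (A - 1) = (A - 1) * (-A⁻¹)
    rw [Matrix.neg_mul, Matrix.mul_neg, Matrix.mul_sub, Matrix.sub_mul, hiA, hAi, Matrix.mul_one,
      Matrix.one_mul]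
  have h4 : ((A - 1) ^ l)ᵀ * K * (A - 1) ^ l = (K * (-A⁻¹) ^ l) * (A - 1) ^ (2 * l) := by
    rw [Matrix.transpose_pow, h3, hcomm.mul_pow, two_mul, pow_add, Matrix.mul_assoc,
      Matrix.mul_assoc, Matrix.mul_assoc]
  have hu : IsUnit (K * (-A⁻¹) ^ l).det := by
    rw [Matrix.det_mul]
    apply IsUnit.mul hK
    apply (Matrix.isUnit_iff_isUnit_det _).mp
    apply IsUnit.pow
    exact (IsUnit.of_mul_eq_one A hiA).neg
  have h5 := even_rank_congr K ((A - 1) ^ l) hKt hKd
  rw [h4, Matrix.rank_mul_eq_right_of_isUnit_det _ _ hu] at h5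
  exact h5

end Alt

section Regular

theorem sum_sub_one (l : Multiset ℕ) (hl : ∀ x ∈ l, 0 < x) :
    (l.map (fun x => x - 1)).sum + Multiset.card l = l.sum := by
  induction l using Multiset.induction_on with
  | empty => simp
  | cons a s ih =>
    have ha := hl a (Multiset.mem_cons_self a s)
    have := ih (fun x hx => hl x (Multiset.mem_cons_of_mem hx))
    rw [Multiset.map_cons, Multiset.sum_cons, Multiset.card_cons, Multiset.sum_cons]
    omega

/-- A unipotent matrix whose fixed space is at most a line is a single Jordan block. -/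
theorem urk_regular {ι : Type} [Fintype ι] [DecidableEq ι] (M : Matrix ι ι F) (n : ℕ)
    (hn : urk M n = 0) (h1 : Fintype.card ι ≤ urk M 1 + 1) (i : ℕ) :
    urk M i = Fintype.card ι - i := by
  have hN : IsNilpotent (Matrix.toLin' (M - 1)) :=
    ⟨n, (rk_eq_zero_iff _ n).mp (by rw [← urk_eq_rk]; exact hn)⟩
  obtain ⟨l, hl1, hl2, hl3⟩ := exists_type (F := F) (Module.finrank F (ι → F)) (ι → F)
    (Matrix.toLin' (M - 1)) rfl hN
  rw [Module.finrank_fintype_fun_eq_card] at hl2
  have h2 := sum_sub_one l hl1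
  have h3 := hl3 1
  rw [← urk_eq_rk] at h3
  rw [urk_eq_rk, hl3 i]
  rcases Nat.lt_or_ge (Multiset.card l) 1 with h0 | h0
  · have hc0 : Multiset.card l = 0 := by omega
    have : l = 0 := Multiset.card_eq_zero.mp hc0
    subst this
    simp at hl2 ⊢
    omega
  · have hc1 : Multiset.card l = 1 := by omega
    obtain ⟨a, rfl⟩ := Multiset.card_eq_one.mp hc1
    simp at hl2 ⊢
    omega

theorem tri_pow {ι₁ ι₂ : Type*} [Fintype ι₁] [DecidableEq ι₁] [Fintype ι₂] [DecidableEq ι₂]
    (X : Matrix ι₁ ι₁ F) (W : Matrix ι₁ ι₂ F) (Y : Matrix ι₂ ι₂ F) (i : ℕ) :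
    ∃ W' : Matrix ι₁ ι₂ F,
      (Matrix.fromBlocks X W 0 Y) ^ i = Matrix.fromBlocks (X ^ i) W' 0 (Y ^ i) := by
  induction i with
  | zero => exact ⟨0, by rw [pow_zero, pow_zero, pow_zero, Matrix.fromBlocks_one]⟩
  | succ i ih =>
    obtain ⟨W', hW'⟩ := ih
    refine ⟨X ^ i * W + W' * Y, ?_⟩
    rw [pow_succ, hW', Matrix.fromBlocks_multiply, pow_succ, pow_succ]
    simp

theorem tri_nilp {ι₁ ι₂ : Type*} [Fintype ι₁] [DecidableEq ι₁] [Fintype ι₂] [DecidableEq ι₂]
    (X : Matrix ι₁ ι₁ F) (W : Matrix ι₁ ι₂ F) (Y : Matrix ι₂ ι₂ F) (a b : ℕ) (hX : X ^ a = 0)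
    (hY : Y ^ b = 0) : (Matrix.fromBlocks X W 0 Y) ^ (a + b) = 0 := by
  obtain ⟨W1, h1⟩ := tri_pow X W Y a
  obtain ⟨W2, h2⟩ := tri_pow X W Y b
  rw [pow_add, h1, h2, hX, hY, Matrix.fromBlocks_multiply]
  simp

/-- Parity of the multiplicities of odd parts from parity of the even rank sequence. -/
theorem odd_mult_even {t : ℕ} (d : Fin t → ℕ) (h : ∀ l, Even (∑ k, (d k - 2 * l))) (j : ℕ)
    (hj : Odd j) : Even (Finset.univ.filter (fun k : Fin t => d k = j)).card := by
  obtain ⟨r, rfl⟩ := hj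
  obtain ⟨a, ha⟩ := h r
  obtain ⟨b, hb⟩ := h (r + 1)
  have key : (Finset.univ.filter (fun k : Fin t => d k = 2 * r + 1)).card +
      2 * ∑ k, (d k - (2 * r + 1)) = ∑ k, (d k - 2 * r) + ∑ k, (d k - 2 * (r + 1)) := by
    rw [Finset.card_filter, Finset.mul_sum, ← Finset.sum_add_distrib, ← Finset.sum_add_distrib]
    apply Finset.sum_congr rfl
    intro k _
    split_ifs <;> omega
  exact ⟨a + b - ∑ k, (d k - (2 * r + 1)), by omega⟩

end Regular

end Cfsg.Agent.Lib.Helper15.Jordan
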