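import Cfsg.Agent.Lib.Helper15.JordanE

set_option autoImplicit false

namespace Cfsg.Agent.Lib.Helper15.Jordan

open Module Matrix

variable {F : Type*} [Field F]

theorem pow_eq_zero_of_urk {ι : Type*} [Fintype ι] [DecidableEq ι] (M : Matrix ι ι F) (n : ℕ)
    (h : urk M n = 0) : (M - 1) ^ n = 0 := by
  rw [urk_eq_rk, rk_eq_zero_iff, toLin_pow'] at h
  apply Matrix.toLin'.injective
  rw [h, map_zero]

theorem urk_of_pow_eq_zero {ι : Type*} [Fintype ι] [DecidableEq ι] (M : Matrix ι ι F) (n : ℕ)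
    (h : (M - 1) ^ n = 0) : urk M n = 0 := by
  unfold urk
  rw [h, Matrix.rank_zero]

section Block

theorem blk_sub_apply (e : ℕ) (a b : Fin e) :
    (Cfsg.jordanBlock e F - 1) a b = if (a : ℕ) = (b : ℕ) + 1 then 1 else 0 := by
  unfold Cfsg.jordanBlock
  rw [Matrix.sub_apply, Matrix.one_apply]
  by_cases hab : a = b
  · subst hab
    simp
  · have hab' : (a : ℕ) ≠ (b : ℕ) := fun h => hab (Fin.ext h)
    simp [hab, hab']

theorem blk_mulVec (e : ℕ) (x : Fin e → F) (a : Fin e) :
    ((Cfsg.jordanBlock e F - 1) *ᵥ x) a =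
      if h : 0 < (a : ℕ) then x ⟨a - 1, by have := a.2; omega⟩ else 0 := by
  unfold Matrix.mulVec dotProduct
  simp only [blk_sub_apply]
  by_cases h : 0 < (a : ℕ)
  · rw [dif_pos h, Finset.sum_eq_single (⟨a - 1, by have := a.2; omega⟩ : Fin e)]
    · rw [if_pos (by show (a : ℕ) = (a : ℕ) - 1 + 1; omega), one_mul]
    · intro b _ hb
      rw [if_neg, zero_mul]
      intro h'
      apply hb
      apply Fin.ext
      show (b : ℕ) = (a : ℕ) - 1
      omega
    · intro h'
      exact absurd (Finset.mem_univ _) h'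
  · rw [dif_neg h]
    apply Finset.sum_eq_zero
    intro b _
    rw [if_neg (by omega), zero_mul]

theorem blk_T_mulVec (e : ℕ) (y : Fin e → F) (b : Fin e) :
    ((Cfsg.jordanBlock e F - 1)ᵀ *ᵥ y) b =
      if h : (b : ℕ) + 1 < e then y ⟨b + 1, h⟩ else 0 := by
  unfold Matrix.mulVec dotProduct
  simp only [Matrix.transpose_apply, blk_sub_apply]
  by_cases h : (b : ℕ) + 1 < e
  · rw [dif_pos h, Finset.sum_eq_single (⟨b + 1, h⟩ : Fin e)]
    · rw [if_pos rfl, one_mul]
    · intro a _ ha
      rw [if_neg, zero_mul]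
      intro h'
      apply ha
      apply Fin.ext
      exact h'
    · intro h'
      exact absurd (Finset.mem_univ _) h'
  · rw [dif_neg h]
    apply Finset.sum_eq_zero
    intro a _
    rw [if_neg (by have := a.2; omega), zero_mul]

theorem blk_toLin (e : ℕ) : Matrix.toLin' (Cfsg.jordanBlock e F - 1) = shift F e := by
  apply LinearMap.ext
  intro x
  funext a
  rw [Matrix.toLin'_apply, blk_mulVec, shift_apply]

theorem urk_block (e i : ℕ) : urk (Cfsg.jordanBlock e F) i = e - i := by
  rw [urk_eq_rk, blk_toLin, rk_shift]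

theorem exists_blk_inv (e : ℕ) : ∃ U' : Matrix (Fin e) (Fin e) F,
    Cfsg.jordanBlock e F * U' = 1 ∧ U' * Cfsg.jordanBlock e F = 1 := by
  have hnil : IsNilpotent (Cfsg.jordanBlock e F - 1) :=
    ⟨e, pow_eq_zero_of_urk _ e (by rw [urk_block]; omega)⟩
  obtain ⟨u, hu⟩ := hnil.isUnit_one_add
  have hu' : (u : Matrix (Fin e) (Fin e) F) = Cfsg.jordanBlock e F := by
    rw [hu]
    abel
  refine ⟨((u⁻¹ : (Matrix (Fin e) (Fin e) F)ˣ) : Matrix (Fin e) (Fin e) F), ?_, ?_⟩
  · rw [← hu']
    exact u.mul_inv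
  · rw [← hu']
    exact u.inv_mul

end Block

section Symp

variable {ι : Type*} [Fintype ι] [DecidableEq ι]

/-- Elements of the Siegel parabolic of the symplectic group. -/
theorem siegel_mem (U U' S : Matrix ι ι F) (hUU' : U * U' = 1) (hS : Sᵀ = S) :
    Matrix.fromBlocks U (S * U'ᵀ) 0 U'ᵀ ∈ Matrix.symplecticGroup ι F := by
  have h1 : U'ᵀ * Uᵀ = 1 := by rw [← Matrix.transpose_mul, hUU', Matrix.transpose_one]
  rw [SymplecticGroup.mem_iff, Matrix.J, Matrix.fromBlocks_transpose,
    Matrix.fromBlocks_multiply, Matrix.fromBlocks_multiply]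
  simp only [Matrix.mul_zero, Matrix.zero_mul, Matrix.mul_one, Matrix.mul_neg, Matrix.neg_mul,
    zero_add, add_zero, Matrix.transpose_zero, Matrix.transpose_transpose, Matrix.transpose_mul,
    neg_zero, hUU', hS]
  rw [Matrix.mul_assoc, h1, Matrix.mul_one, ← Matrix.mul_assoc, hUU', Matrix.one_mul]
  congr 1
  abel

omit [Fintype ι] in
theorem J_reindex {κ : Type*} [Fintype κ] [DecidableEq κ] (e : ι ≃ κ) :
    Matrix.reindex (Equiv.sumCongr e e) (Equiv.sumCongr e e) (Matrix.J ι F) = Matrix.J κ F := by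
  ext (a | a) (b | b) <;> simp [Matrix.J, Matrix.one_apply]

theorem reindex_mem {κ : Type*} [Fintype κ] [DecidableEq κ] (e : ι ≃ κ)
    {A : Matrix (ι ⊕ ι) (ι ⊕ ι) F} (hA : A ∈ Matrix.symplecticGroup ι F) :
    Matrix.reindex (Equiv.sumCongr e e) (Equiv.sumCongr e e) A ∈ Matrix.symplecticGroup κ F := by
  rw [SymplecticGroup.mem_iff] at hA ⊢
  rw [← J_reindex e, Matrix.transpose_reindex]
  simp only [Matrix.reindex_apply, Matrix.submatrix_mul_equiv]
  rw [hA]

theorem J_sum {ι₁ ι₂ : Type*} [Fintype ι₁] [DecidableEq ι₁] [Fintype ι₂] [DecidableEq ι₂] :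
    Matrix.reindex (Equiv.sumSumSumComm ι₁ ι₁ ι₂ ι₂) (Equiv.sumSumSumComm ι₁ ι₁ ι₂ ι₂)
      (Matrix.fromBlocks (Matrix.J ι₁ F) 0 0 (Matrix.J ι₂ F)) = Matrix.J (ι₁ ⊕ ι₂) F := by
  ext ((a | a) | (a | a)) ((b | b) | (b | b)) <;> simp [Matrix.J, Matrix.one_apply]

theorem sum_mem {ι₁ ι₂ : Type*} [Fintype ι₁] [DecidableEq ι₁] [Fintype ι₂] [DecidableEq ι₂]
    {A₁ : Matrix (ι₁ ⊕ ι₁) (ι₁ ⊕ ι₁) F} {A₂ : Matrix (ι₂ ⊕ ι₂) (ι₂ ⊕ ι₂) F}
    (h₁ : A₁ ∈ Matrix.symplecticGroup ι₁ F) (h₂ : A₂ ∈ Matrix.symplecticGroup ι₂ F) :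
    Matrix.reindex (Equiv.sumSumSumComm ι₁ ι₁ ι₂ ι₂) (Equiv.sumSumSumComm ι₁ ι₁ ι₂ ι₂)
      (Matrix.fromBlocks A₁ 0 0 A₂) ∈ Matrix.symplecticGroup (ι₁ ⊕ ι₂) F := by
  rw [SymplecticGroup.mem_iff] at h₁ h₂ ⊢
  rw [← J_sum, Matrix.transpose_reindex]
  simp only [Matrix.reindex_apply, Matrix.submatrix_mul_equiv]
  rw [Matrix.fromBlocks_transpose, Matrix.fromBlocks_multiply, Matrix.fromBlocks_multiply]
  simp only [Matrix.mul_zero, Matrix.zero_mul, zero_add, add_zero, Matrix.transpose_zero, h₁, h₂]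

end Symp

section Real

/-- Realisability of a Jordan type by an element of some symplectic group. -/
def Real (F : Type*) [Field F] (l : Multiset ℕ) : Prop :=
  ∃ (ι : Type) (_ : Fintype ι) (_ : DecidableEq ι) (A : Matrix (ι ⊕ ι) (ι ⊕ ι) F),
    A ∈ Matrix.symplecticGroup ι F ∧ ∀ i, urk A i = (l.map (fun x => x - i)).sum

theorem real_zero : Real F 0 := by
  refine ⟨Empty, inferInstance, inferInstance, 1, Submonoid.one_mem _, fun i => ?_⟩
  have h := urk_le (1 : Matrix (Empty ⊕ Empty) (Empty ⊕ Empty) F) i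
  simp at h ⊢
  exact h

theorem real_add {l₁ l₂ : Multiset ℕ} (h₁ : Real F l₁) (h₂ : Real F l₂) : Real F (l₁ + l₂) := by
  obtain ⟨ι₁, _, _, A₁, hA₁, hr₁⟩ := h₁
  obtain ⟨ι₂, _, _, A₂, hA₂, hr₂⟩ := h₂
  refine ⟨ι₁ ⊕ ι₂, inferInstance, inferInstance, _, sum_mem hA₁ hA₂, fun i => ?_⟩
  rw [urk_reindex, urk_blocks, hr₁, hr₂, Multiset.map_add, Multiset.sum_add]

theorem real_pair (d : ℕ) : Real F (d ::ₘ {d}) := by
  obtain ⟨U', h1, h2⟩ := exists_blk_inv (F := F) d
  refine ⟨Fin d, inferInstance, inferInstance,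
    Matrix.fromBlocks (Cfsg.jordanBlock d F) 0 0 U'ᵀ, ?_, fun i => ?_⟩
  · have := siegel_mem (Cfsg.jordanBlock d F) U' 0 h1 (Matrix.transpose_zero)
    rwa [Matrix.zero_mul] at this
  · rw [urk_blocks, urk_inv_transpose _ _ h1 h2, urk_block]
    simp

theorem real_even (k : ℕ) (hk : 1 ≤ k) : Real F {2 * k} := by
  classical
  obtain ⟨U', h1, h2⟩ := exists_blk_inv (F := F) k
  let S : Matrix (Fin k) (Fin k) F :=
    Matrix.of (fun a b => if (a : ℕ) = 0 ∧ (b : ℕ) = 0 then 1 else 0)
  have hS : Sᵀ = S := by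
    ext a b
    simp only [S, Matrix.transpose_apply, Matrix.of_apply, and_comm]
  have hA1 : Matrix.fromBlocks (Cfsg.jordanBlock k F) (S * U'ᵀ) 0 U'ᵀ - 1 =
      Matrix.fromBlocks (Cfsg.jordanBlock k F - 1) (S * U'ᵀ) 0 (U'ᵀ - 1) := by
    ext (a | a) (b | b) <;> simp [Matrix.one_apply]
  have hXk : (Cfsg.jordanBlock k F - 1) ^ k = 0 :=
    pow_eq_zero_of_urk _ k (by rw [urk_block]; omega)
  have hYk : (U'ᵀ - 1) ^ k = 0 :=
    pow_eq_zero_of_urk _ k (by rw [urk_inv_transpose _ _ h1 h2, urk_block]; omega)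
  have hnil : urk (Matrix.fromBlocks (Cfsg.jordanBlock k F) (S * U'ᵀ) 0 U'ᵀ) (k + k) = 0 := by
    apply urk_of_pow_eq_zero
    rw [hA1]
    exact tri_nilp _ _ _ k k hXk hYk
  have hker : ∀ z : Fin k ⊕ Fin k → F,
      (Matrix.fromBlocks (Cfsg.jordanBlock k F) (S * U'ᵀ) 0 U'ᵀ - 1) *ᵥ z = 0 →
      z = z (Sum.inl ⟨k - 1, by omega⟩) •
        (Sum.elim (Pi.single ⟨k - 1, by omega⟩ 1) 0 : Fin k ⊕ Fin k → F) := by
    intro z hz
    have hz' : z = Sum.elim (fun a => z (Sum.inl a)) (fun a => z (Sum.inr a)) := by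
      funext j
      rcases j with a | a <;> rfl
    rw [hA1, hz', Matrix.fromBlocks_mulVec] at hz
    have e1 : (Cfsg.jordanBlock k F - 1) *ᵥ (fun a => z (Sum.inl a)) +
        (S * U'ᵀ) *ᵥ (fun a => z (Sum.inr a)) = 0 := by
      funext a
      have := congrFun hz (Sum.inl a)
      simpa using this
    have e2 : (U'ᵀ - 1) *ᵥ (fun a => z (Sum.inr a)) = 0 := by
      funext a
      have := congrFun hz (Sum.inr a)
      simpa using this
    have e3 : U'ᵀ *ᵥ (fun a => z (Sum.inr a)) = (fun a => z (Sum.inr a)) := by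
      rw [Matrix.sub_mulVec, Matrix.one_mulVec] at e2
      exact sub_eq_zero.mp e2
    have e4 : (Cfsg.jordanBlock k F - 1)ᵀ *ᵥ (fun a => z (Sum.inr a)) = 0 := by
      have : (Cfsg.jordanBlock k F)ᵀ *ᵥ (fun a => z (Sum.inr a)) = (fun a => z (Sum.inr a)) := by
        conv_lhs => rw [← e3]
        rw [Matrix.mulVec_mulVec, ← Matrix.transpose_mul, h2, Matrix.transpose_one,
          Matrix.one_mulVec]
      rw [Matrix.transpose_sub, Matrix.transpose_one, Matrix.sub_mulVec, Matrix.one_mulVec, this,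
        sub_self]
    have hy0 : ∀ a : Fin k, 0 < (a : ℕ) → z (Sum.inr a) = 0 := by
      intro a ha
      have hlt : (a : ℕ) - 1 + 1 < k := by have := a.2; omega
      have := congrFun e4 ⟨a - 1, by have := a.2; omega⟩
      rw [blk_T_mulVec, dif_pos hlt] at this
      have e : (⟨(a : ℕ) - 1 + 1, hlt⟩ : Fin k) = a := Fin.ext (by show (a : ℕ) - 1 + 1 = a; omega)
      rw [e] at this
      exact this
    have hSy : S *ᵥ (fun a => z (Sum.inr a)) =
        fun a : Fin k => if (a : ℕ) = 0 then z (Sum.inr ⟨0, by omega⟩) else 0 := by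
      funext a
      unfold Matrix.mulVec dotProduct
      simp only [S, Matrix.of_apply]
      by_cases ha : (a : ℕ) = 0
      · rw [if_pos ha, Finset.sum_eq_single (⟨0, by omega⟩ : Fin k)]
        · simp [ha]
        · intro b _ hb
          rw [if_neg, zero_mul]
          rintro ⟨-, hb0⟩
          exact hb (Fin.ext hb0)
        · intro h
          exact absurd (Finset.mem_univ _) h
      · rw [if_neg ha]
        apply Finset.sum_eq_zero
        intro b _
        rw [if_neg (fun h => ha h.1), zero_mul]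
    have hy00 : z (Sum.inr ⟨0, by omega⟩) = 0 := by
      have := congrFun e1 ⟨0, by omega⟩
      rw [Pi.add_apply, ← Matrix.mulVec_mulVec, e3, hSy, blk_mulVec, dif_neg (by simp)] at this
      simpa using this
    have hyz : ∀ a : Fin k, z (Sum.inr a) = 0 := by
      intro a
      by_cases ha : 0 < (a : ℕ)
      · exact hy0 a ha
      · have : a = ⟨0, by omega⟩ := Fin.ext (by show (a : ℕ) = 0; omega)
        rw [this]
        exact hy00
    have e5 : (Cfsg.jordanBlock k F - 1) *ᵥ (fun a => z (Sum.inl a)) = 0 := by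
      have h0 : (fun a => z (Sum.inr a)) = 0 := funext hyz
      rw [h0, Matrix.mulVec_zero, add_zero] at e1
      exact e1
    have hx0 : ∀ b : Fin k, (b : ℕ) + 1 < k → z (Sum.inl b) = 0 := by
      intro b hb
      have := congrFun e5 ⟨b + 1, hb⟩
      rw [blk_mulVec, dif_pos (by show 0 < (b : ℕ) + 1; omega)] at this
      exact this
    funext j
    rcases j with a | a
    · by_cases ha : (a : ℕ) + 1 < k
      · have hne : a ≠ ⟨k - 1, by omega⟩ := by
          intro h
          have := congrArg Fin.val h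
          simp only at this
          omega
        simp [hx0 a ha, hne]
      · have he : a = ⟨k - 1, by omega⟩ := Fin.ext (by show (a : ℕ) = k - 1; have := a.2; omega)
        rw [he]
        simp
    · simp [hyz a]
  have h1' : Fintype.card (Fin k ⊕ Fin k) ≤
      urk (Matrix.fromBlocks (Cfsg.jordanBlock k F) (S * U'ᵀ) 0 U'ᵀ) 1 + 1 := by
    have hrn := LinearMap.finrank_range_add_finrank_ker
      (Matrix.toLin' (Matrix.fromBlocks (Cfsg.jordanBlock k F) (S * U'ᵀ) 0 U'ᵀ - 1))
    rw [Module.finrank_fintype_fun_eq_card] at hrn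
    have hr : urk (Matrix.fromBlocks (Cfsg.jordanBlock k F) (S * U'ᵀ) 0 U'ᵀ) 1 =
        Module.finrank F (LinearMap.range
          (Matrix.toLin' (Matrix.fromBlocks (Cfsg.jordanBlock k F) (S * U'ᵀ) 0 U'ᵀ - 1))) := by
      unfold urk
      rw [pow_one]
      rfl
    have hle : LinearMap.ker
        (Matrix.toLin' (Matrix.fromBlocks (Cfsg.jordanBlock k F) (S * U'ᵀ) 0 U'ᵀ - 1)) ≤
        Submodule.span F {(Sum.elim (Pi.single ⟨k - 1, by omega⟩ 1) 0 : Fin k ⊕ Fin k → F)} := by
      intro z hz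
      rw [LinearMap.mem_ker, Matrix.toLin'_apply] at hz
      rw [Submodule.mem_span_singleton]
      exact ⟨_, (hker z hz).symm⟩
    have h2' := Submodule.finrank_mono hle
    have h3 : Module.finrank F (Submodule.span F
        {(Sum.elim (Pi.single ⟨k - 1, by omega⟩ 1) 0 : Fin k ⊕ Fin k → F)}) ≤ 1 := by
      have := finrank_span_le_card (R := F)
        ({(Sum.elim (Pi.single ⟨k - 1, by omega⟩ 1) 0 : Fin k ⊕ Fin k → F)} :
          Set (Fin k ⊕ Fin k → F))
      simpa using this
    omega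
  refine ⟨Fin k, inferInstance, inferInstance,
    Matrix.fromBlocks (Cfsg.jordanBlock k F) (S * U'ᵀ) 0 U'ᵀ,
    siegel_mem (Cfsg.jordanBlock k F) U' S h1 hS, fun i => ?_⟩
  rw [urk_regular _ (k + k) hnil h1' i]
  simp [two_mul]

/-- Every Jordan type in which odd parts have even multiplicity is realised in a symplectic
group. -/
theorem real_of_cond : ∀ (n : ℕ) (l : Multiset ℕ), Multiset.card l = n → (∀ x ∈ l, 1 ≤ x) →
    (∀ j, Odd j → Even (l.count j)) → Real F l := by
  intro n
  induction n using Nat.strong_induction_on with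
  | _ n ih =>
    intro l hcard hpos hodd
    rcases Multiset.empty_or_exists_mem l with rfl | ⟨a, ha⟩
    · exact real_zero
    · obtain ⟨l', rfl⟩ := Multiset.exists_cons_of_mem ha
      rw [Multiset.card_cons] at hcard
      rcases Nat.even_or_odd a with hev | hod
      · obtain ⟨k, hk⟩ := hev
        have h1 : Real F l' := ih (Multiset.card l') (by omega) l' rfl
          (fun x hx => hpos x (Multiset.mem_cons_of_mem hx)) (fun j hj => by
            have := hodd j hj
            have hja : j ≠ a := by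
              rintro rfl
              exact (Nat.not_even_iff_odd.mpr hj) ⟨k, hk⟩
            rw [Multiset.count_cons_of_ne hja] at this
            exact this)
        have h2 : Real F {a} := by
          have hk1 : 1 ≤ k := by
            have := hpos a (Multiset.mem_cons_self a l')
            omega
          have := real_even (F := F) k hk1
          rw [two_mul, ← hk] at this
          exact this
        have := real_add h2 h1
        rwa [Multiset.singleton_add] at this
      · have hc := hodd a hod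
        rw [Multiset.count_cons_self] at hc
        have ha' : a ∈ l' := by
          rw [← Multiset.count_pos]
          rcases hc with ⟨r, hr⟩
          omega
        obtain ⟨l'', rfl⟩ := Multiset.exists_cons_of_mem ha'
        rw [Multiset.card_cons] at hcard
        have h1 : Real F l'' := ih (Multiset.card l'') (by omega) l'' rfl
          (fun x hx => hpos x (Multiset.mem_cons_of_mem (Multiset.mem_cons_of_mem hx)))
          (fun j hj => by
            have := hodd j hj
            by_cases hja : j = a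
            · subst hja
              rw [Multiset.count_cons_self, Multiset.count_cons_self] at this
              obtain ⟨r, hr⟩ := this
              exact ⟨r - 1, by omega⟩
            · rw [Multiset.count_cons_of_ne hja, Multiset.count_cons_of_ne hja] at this
              exact this)
        have h2 : Real F (a ::ₘ {a}) := real_pair a
        have := real_add h2 h1
        rwa [Multiset.cons_add, Multiset.singleton_add] at this

end Real

end Cfsg.Agent.Lib.Helper15.Jordan
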