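import Cfsg.Agent.Lib.Helper15.JordanF
import Cfsg.Agent.Lib.Helper15.OrthInvol
import Cfsg.Agent.Lib.Helper15.OrthForms2

set_option autoImplicit false

namespace Cfsg.Agent.Lib.Helper15.Jordan

open Module Matrix Cfsg.Agent.Lib.Helper15.OrthInvol Cfsg.Agent.Lib.Helper15.OrthForms2

variable {F : Type*} [Field F]

/-- The Gram matrix of the polar form of a quadratic form with an isometry. -/
theorem polar_gram {ι : Type} [Fintype ι] [DecidableEq ι] (Q : QuadraticForm F (ι → F))
    (hQ : (QuadraticMap.polarBilin Q).Nondegenerate) (A : GL ι F)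
    (hA : A ∈ Cfsg.isometryGroup F ⇑Q) :
    (LinearMap.BilinForm.toMatrix' (QuadraticMap.polarBilin Q))ᵀ =
        LinearMap.BilinForm.toMatrix' (QuadraticMap.polarBilin Q) ∧
      IsUnit (LinearMap.BilinForm.toMatrix' (QuadraticMap.polarBilin Q)).det ∧
      (A : Matrix ι ι F)ᵀ * LinearMap.BilinForm.toMatrix' (QuadraticMap.polarBilin Q) *
        (A : Matrix ι ι F) = LinearMap.BilinForm.toMatrix' (QuadraticMap.polarBilin Q) ∧
      ∀ i, LinearMap.BilinForm.toMatrix' (QuadraticMap.polarBilin Q) i i =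
        2 * Q (Pi.single i 1) := by
  refine ⟨?_, ?_, ?_, ?_⟩
  · ext i j
    rw [Matrix.transpose_apply, LinearMap.BilinForm.toMatrix'_apply,
      LinearMap.BilinForm.toMatrix'_apply, QuadraticMap.polarBilin_apply_apply,
      QuadraticMap.polarBilin_apply_apply, QuadraticMap.polar_comm]
  · have h1 := (LinearMap.BilinForm.nondegenerate_toMatrix'_iff).mpr hQ
    exact isUnit_iff_ne_zero.mpr (Matrix.nondegenerate_iff_det_ne_zero.mp h1)
  · have hAQ := (mem_isometryGroup_iff (⇑Q) A).mp hA
    have h1 := LinearMap.BilinForm.toMatrix'_comp (QuadraticMap.polarBilin Q)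
      (Matrix.toLin' (A : Matrix ι ι F)) (Matrix.toLin' (A : Matrix ι ι F))
    rw [LinearMap.toMatrix'_toLin'] at h1
    rw [← h1]
    congr 1
    apply LinearMap.ext
    intro x
    apply LinearMap.ext
    intro y
    rw [LinearMap.BilinForm.comp_apply, QuadraticMap.polarBilin_apply_apply,
      QuadraticMap.polarBilin_apply_apply, Matrix.toLin'_apply, Matrix.toLin'_apply]
    unfold QuadraticMap.polar
    rw [← Matrix.mulVec_add, hAQ, hAQ, hAQ]
  · intro i
    rw [LinearMap.BilinForm.toMatrix'_apply, QuadraticMap.polarBilin_apply_apply,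
      QuadraticMap.polar_self]
    simp

/-- Transport of a quadratic form with an isometry along a bijection of the index types. -/
theorem transport {ι κ : Type} [Fintype ι] [DecidableEq ι] [Fintype κ] [DecidableEq κ]
    (σ : ι ≃ κ) (Q : QuadraticForm F (ι → F)) (A : Matrix ι ι F) (hdet : IsUnit A.det)
    (hQA : ∀ v, Q (A *ᵥ v) = Q v)
    (hnd : ∀ x : ι → F, (∀ y, QuadraticMap.polar ⇑Q y x = 0) → x = 0) :
    ∃ Q' : QuadraticForm F (κ → F), (QuadraticMap.polarBilin Q').Nondegenerate ∧
      ∃ A' : ↥(Cfsg.isometryGroup F ⇑Q'),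
        ((A' : GL κ F) : Matrix κ κ F) = Matrix.reindex σ σ A := by
  let Q' : QuadraticForm F (κ → F) := Q.comp (LinearMap.funLeft F F σ)
  have hQ' : ∀ x : κ → F, Q' x = Q (x ∘ σ) := fun x => rfl
  have hdet' : IsUnit (Matrix.reindex σ σ A).det := by
    rw [Matrix.det_reindex_self]
    exact hdet
  refine ⟨Q', ?_, ⟨Matrix.nonsingInvUnit _ hdet', ?_⟩, rfl⟩
  · apply nondeg_of_sep
    intro x hx
    have h1 : x ∘ σ = 0 := by
      apply hnd
      intro y
      have h2 := hx (y ∘ σ.symm)
      unfold QuadraticMap.polar at h2 ⊢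
      rw [hQ', hQ', hQ'] at h2
      have e1 : (y ∘ σ.symm + x) ∘ σ = y + x ∘ σ := by
        funext k
        simp
      have e2 : (y ∘ σ.symm) ∘ σ = y := by
        funext k
        simp
      rw [e1, e2] at h2
      exact h2
    funext k
    have := congrFun h1 (σ.symm k)
    simpa using this
  · apply (mem_isometryGroup_iff _ _).mpr
    intro u
    show Q' ((Matrix.reindex σ σ A) *ᵥ u) = Q' u
    rw [hQ', hQ', Matrix.reindex_apply, Matrix.submatrix_mulVec_equiv]
    have e1 : ((A *ᵥ (u ∘ ⇑σ.symm.symm)) ∘ ⇑σ.symm) ∘ ⇑σ = A *ᵥ (u ∘ σ) := by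
      funext k
      simp
    rw [e1, hQA]

end Cfsg.Agent.Lib.Helper15.Jordan
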