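import Cfsg.Agent.Lib.Helper15.JordanG

set_option autoImplicit false

namespace Cfsg.Agent.Lib.Helper15.Jordan

open Module Matrix Cfsg.Agent.Lib.Helper15.OrthInvol Cfsg.Agent.Lib.Helper15.OrthForms2

variable {F : Type*} [Field F]

theorem mult_identity {t : ℕ} (d : Fin t → ℕ) (j : ℕ) (hj : 1 ≤ j) :
    (Finset.univ.filter (fun k : Fin t => d k = j)).card + 2 * ∑ k, (d k - j) =
      ∑ k, (d k - (j - 1)) + ∑ k, (d k - (j + 1)) := by
  rw [Finset.card_filter, Finset.mul_sum, ← Finset.sum_add_distrib, ← Finset.sum_add_distrib]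
  apply Finset.sum_congr rfl
  intro k _
  split_ifs <;> omega

/-- Parity of the multiplicities of even parts from parity of the odd rank sequence. -/
theorem even_mult_even {t : ℕ} (d : Fin t → ℕ) (h : ∀ l, Even (∑ k, (d k - (2 * l + 1))))
    (j : ℕ) (hj : Even j) (hj0 : 0 < j) :
    Even (Finset.univ.filter (fun k : Fin t => d k = j)).card := by
  obtain ⟨r, rfl⟩ := hj
  obtain ⟨a, ha⟩ := h (r - 1)
  obtain ⟨b, hb⟩ := h r
  have key := mult_identity d (r + r) (by omega)
  have e1 : r + r - 1 = 2 * (r - 1) + 1 := by omega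
  have e2 : r + r + 1 = 2 * r + 1 := by omega
  rw [e1, e2, ha, hb] at key
  exact ⟨a + b - ∑ k, (d k - (r + r)), by omega⟩

theorem iso_facts {ι : Type*} [Fintype ι] [DecidableEq ι] (K A : Matrix ι ι F)
    (hK : IsUnit K.det) (hA : Aᵀ * K * A = K) :
    A * A⁻¹ = 1 ∧ A⁻¹ * A = 1 ∧ Aᵀ * K = K * A⁻¹ ∧
      ∀ j : ℕ, ((A - 1)ᵀ) ^ j * K = K * ((-A⁻¹) * (A - 1)) ^ j := by
  have hdet : IsUnit A.det := by
    have h := congrArg Matrix.det hA
    rw [Matrix.det_mul, Matrix.det_mul, Matrix.det_transpose] at h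
    have hK0 : K.det ≠ 0 := hK.ne_zero
    have h1 : A.det * A.det = 1 := by
      have : K.det * (A.det * A.det) = K.det * 1 := by
        rw [mul_one]
        linear_combination h
      exact mul_left_cancel₀ hK0 this
    exact IsUnit.of_mul_eq_one _ h1
  have hAi : A * A⁻¹ = 1 := Matrix.mul_nonsing_inv A hdet
  have hiA : A⁻¹ * A = 1 := Matrix.nonsing_inv_mul A hdet
  have h1 : Aᵀ * K = K * A⁻¹ := by
    calc Aᵀ * K = Aᵀ * K * (A * A⁻¹) := by rw [hAi, Matrix.mul_one]
      _ = (Aᵀ * K * A) * A⁻¹ := by rw [Matrix.mul_assoc (Aᵀ * K) A A⁻¹]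
      _ = K * A⁻¹ := by rw [hA]
  have h2 : (A - 1)ᵀ * K = K * ((-A⁻¹) * (A - 1)) := by
    rw [Matrix.transpose_sub, Matrix.transpose_one, Matrix.sub_mul, h1, Matrix.one_mul,
      Matrix.neg_mul, Matrix.mul_sub, hiA, Matrix.mul_one, Matrix.mul_neg, Matrix.mul_sub,
      Matrix.mul_one]
    abel
  refine ⟨hAi, hiA, h1, fun j => ?_⟩
  induction j with
  | zero => simp
  | succ j ih =>
    rw [pow_succ, Matrix.mul_assoc, h2, ← Matrix.mul_assoc, ih, Matrix.mul_assoc, ← pow_succ]

/-- For a unipotent isometry `A` of a non-degenerate symmetric form in odd characteristic, the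
odd powers of `A - 1` have even rank. -/
theorem even_urk_odd {ι : Type*} [Fintype ι] [DecidableEq ι] (h2 : (2 : F) ≠ 0)
    (K A : Matrix ι ι F) (hKt : Kᵀ = K) (hK : IsUnit K.det) (hA : Aᵀ * K * A = K)
    (hnil : IsNilpotent (A - 1)) (l : ℕ) : Even (urk A (2 * l + 1)) := by
  obtain ⟨hAi, hiA, h1, h3⟩ := iso_facts K A hK hA
  have hK't : (K * A - Aᵀ * K)ᵀ = -(K * A - Aᵀ * K) := by
    rw [Matrix.transpose_sub, Matrix.transpose_mul, Matrix.transpose_mul,
      Matrix.transpose_transpose, hKt]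
    abel
  have hK'd : ∀ i, (K * A - Aᵀ * K) i i = 0 := by
    intro i
    have : Aᵀ * K = (K * A)ᵀ := by rw [Matrix.transpose_mul, hKt]
    rw [this, Matrix.sub_apply, Matrix.transpose_apply, sub_self]
  have h5 := even_rank_congr (K * A - Aᵀ * K) ((A - 1) ^ l) hK't hK'd
  have hNB : Commute (A - 1) A⁻¹ := by
    show (A - 1) * A⁻¹ = A⁻¹ * (A - 1)
    rw [Matrix.sub_mul, Matrix.mul_sub, hAi, hiA, Matrix.one_mul, Matrix.mul_one]
  have hNA1 : Commute (A - 1) (A + 1) := by
    show (A - 1) * (A + 1) = (A + 1) * (A - 1)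
    noncomm_ring
  have hNE : Commute (A - 1) (A⁻¹ * (A + 1)) := hNB.mul_right hNA1
  have hAB : A - A⁻¹ = A⁻¹ * (A + 1) * (A - 1) := by
    have : (A + 1) * (A - 1) = A * A - 1 := by noncomm_ring
    rw [Matrix.mul_assoc, this, Matrix.mul_sub, ← Matrix.mul_assoc, hiA, Matrix.one_mul,
      Matrix.mul_one]
  have hcomm : Commute (-A⁻¹) (A - 1) := hNB.symm.neg_left
  have h4 : ((A - 1) ^ l)ᵀ * (K * A - Aᵀ * K) * (A - 1) ^ l =
      (K * (-A⁻¹) ^ l * (A⁻¹ * (A + 1))) * (A - 1) ^ (2 * l + 1) := by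
    have e1 : K * A - Aᵀ * K = K * (A - A⁻¹) := by rw [h1, Matrix.mul_sub]
    have e2 : (A - 1) ^ l * (A⁻¹ * (A + 1)) = (A⁻¹ * (A + 1)) * (A - 1) ^ l :=
      (hNE.pow_left l).eq
    have e3 : (A - 1) ^ (2 * l + 1) = (A - 1) ^ l * (A - 1) * (A - 1) ^ l := by
      rw [← pow_succ, ← pow_add]
      congr 1
      omega
    rw [e1, Matrix.transpose_pow, ← Matrix.mul_assoc, h3, hcomm.mul_pow, hAB, e3]
    calc K * ((-A⁻¹) ^ l * (A - 1) ^ l) * (A⁻¹ * (A + 1) * (A - 1)) * (A - 1) ^ l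
        = K * (-A⁻¹) ^ l * ((A - 1) ^ l * (A⁻¹ * (A + 1))) * (A - 1) * (A - 1) ^ l := by
          simp only [Matrix.mul_assoc]
      _ = K * (-A⁻¹) ^ l * ((A⁻¹ * (A + 1)) * (A - 1) ^ l) * (A - 1) * (A - 1) ^ l := by
          rw [e2]
      _ = K * (-A⁻¹) ^ l * (A⁻¹ * (A + 1)) * ((A - 1) ^ l * (A - 1) * (A - 1) ^ l) := by
          simp only [Matrix.mul_assoc]
  have hu2 : IsUnit ((1 : Matrix ι ι F) + 1) := by
    apply IsUnit.of_mul_eq_one ((2⁻¹ : F) • (1 : Matrix ι ι F))
    rw [Matrix.mul_smul, Matrix.mul_one, smul_add, ← add_smul]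
    have : (2⁻¹ : F) + 2⁻¹ = 1 := by rw [← two_mul, mul_inv_cancel₀ h2]
    rw [this, one_smul]
  have hA1 : IsUnit (A + 1) := by
    have : A + 1 = (A - 1) + (1 + 1) := by abel
    rw [this]
    exact hnil.isUnit_add_right_of_commute hu2
      ((Commute.one_right (A - 1)).add_right (Commute.one_right (A - 1)))
  have hu : IsUnit (K * (-A⁻¹) ^ l * (A⁻¹ * (A + 1))).det := by
    apply (Matrix.isUnit_iff_isUnit_det _).mp
    have hBu : IsUnit A⁻¹ := IsUnit.of_mul_eq_one A hiA
    exact (((Matrix.isUnit_iff_isUnit_det _).mpr hK).mul (hBu.neg.pow l)).mul (hBu.mul hA1)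
  rw [h4, Matrix.rank_mul_eq_right_of_isUnit_det _ _ hu] at h5
  exact h5

section RealO

/-- Realisability of a Jordan type by an isometry of some non-degenerate symmetric form. -/
def RealO (F : Type*) [Field F] (l : Multiset ℕ) : Prop :=
  ∃ (ι : Type) (_ : Fintype ι) (_ : DecidableEq ι) (K A : Matrix ι ι F),
    Kᵀ = K ∧ IsUnit K.det ∧ Aᵀ * K * A = K ∧ ∀ i, urk A i = (l.map (fun x => x - i)).sum

theorem realO_zero : RealO F 0 := by
  refine ⟨Empty, inferInstance, inferInstance, 1, 1, Matrix.transpose_one, by simp, by simp,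
    fun i => ?_⟩
  have h := urk_le (1 : Matrix Empty Empty F) i
  simp at h ⊢
  exact h

theorem realO_add {l₁ l₂ : Multiset ℕ} (h₁ : RealO F l₁) (h₂ : RealO F l₂) :
    RealO F (l₁ + l₂) := by
  obtain ⟨ι₁, _, _, K₁, A₁, hK₁t, hK₁u, hA₁, hr₁⟩ := h₁
  obtain ⟨ι₂, _, _, K₂, A₂, hK₂t, hK₂u, hA₂, hr₂⟩ := h₂
  refine ⟨ι₁ ⊕ ι₂, inferInstance, inferInstance, Matrix.fromBlocks K₁ 0 0 K₂,
    Matrix.fromBlocks A₁ 0 0 A₂, ?_, ?_, ?_, fun i => ?_⟩
  · rw [Matrix.fromBlocks_transpose, hK₁t, hK₂t]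
    simp
  · rw [Matrix.det_fromBlocks_zero₁₂]
    exact hK₁u.mul hK₂u
  · rw [Matrix.fromBlocks_transpose, Matrix.fromBlocks_multiply, Matrix.fromBlocks_multiply]
    simp [hA₁, hA₂]
  · rw [urk_blocks, hr₁, hr₂, Multiset.map_add, Multiset.sum_add]

theorem realO_pair (d : ℕ) : RealO F (d ::ₘ {d}) := by
  obtain ⟨U', h1, h2⟩ := exists_blk_inv (F := F) d
  have h3 : (Cfsg.jordanBlock d F)ᵀ * U'ᵀ = 1 := by
    rw [← Matrix.transpose_mul, h2, Matrix.transpose_one]
  refine ⟨Fin d ⊕ Fin d, inferInstance, inferInstance, Matrix.fromBlocks 0 1 1 0,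
    Matrix.fromBlocks (Cfsg.jordanBlock d F) 0 0 U'ᵀ, ?_, ?_, ?_, fun i => ?_⟩
  · rw [Matrix.fromBlocks_transpose]
    simp
  · apply (Matrix.isUnit_iff_isUnit_det _).mp
    apply IsUnit.of_mul_eq_one (Matrix.fromBlocks 0 1 1 0)
    rw [Matrix.fromBlocks_multiply]
    simp [Matrix.fromBlocks_one]
  · rw [Matrix.fromBlocks_transpose, Matrix.fromBlocks_multiply, Matrix.fromBlocks_multiply]
    simp [h2, h3]
  · rw [urk_blocks, urk_inv_transpose _ _ h1 h2, urk_block]
    simp

theorem neg_one_pow_eq {a b : ℕ} (h : Even (a + b)) : ((-1 : F)) ^ b = (-1) ^ a := by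
  have h1 : ((-1 : F)) ^ a * (-1) ^ b = 1 := by
    rw [← pow_add]
    exact h.neg_one_pow
  have h2 : ((-1 : F)) ^ a * (-1) ^ a = 1 := by
    rw [← pow_add]
    exact Even.neg_one_pow ⟨a, rfl⟩
  have h3 : ((-1 : F)) ^ a ≠ 0 := pow_ne_zero _ (neg_ne_zero.mpr one_ne_zero)
  exact mul_left_cancel₀ h3 (h1.trans h2.symm)

/-- The antidiagonal form with alternating signs. -/
def KO (F : Type*) [Field F] (n : ℕ) : Matrix (Fin n) (Fin n) F :=
  Matrix.of (fun a b => if (a : ℕ) + (b : ℕ) + 1 = n then (-1) ^ (a : ℕ) else 0)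

theorem KO_apply (n : ℕ) (a b : Fin n) :
    KO F n a b = if (a : ℕ) + (b : ℕ) + 1 = n then (-1) ^ (a : ℕ) else 0 := rfl

theorem KO_transpose (k : ℕ) : (KO F (2 * k + 1))ᵀ = KO F (2 * k + 1) := by
  ext a b
  rw [Matrix.transpose_apply, KO_apply, KO_apply]
  by_cases h : (a : ℕ) + (b : ℕ) + 1 = 2 * k + 1
  · rw [if_pos h, if_pos (by omega)]
    exact neg_one_pow_eq ⟨k, by omega⟩
  · rw [if_neg h, if_neg (by omega)]

theorem KO_sq (k : ℕ) : KO F (2 * k + 1) * KO F (2 * k + 1) = 1 := by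
  ext a b
  rw [Matrix.mul_apply, Matrix.one_apply]
  have ha := a.2
  rw [Finset.sum_eq_single (⟨2 * k - (a : ℕ), by omega⟩ : Fin (2 * k + 1))]
  · rw [KO_apply, KO_apply, if_pos (by show (a : ℕ) + (2 * k - (a : ℕ)) + 1 = 2 * k + 1; omega)]
    by_cases hab : a = b
    · subst hab
      rw [if_pos rfl, if_pos (by show 2 * k - (a : ℕ) + (a : ℕ) + 1 = 2 * k + 1; omega),
        ← pow_add]
      exact Even.neg_one_pow ⟨k, by show (a : ℕ) + (2 * k - (a : ℕ)) = k + k; omega⟩
    · rw [if_neg hab, if_neg, mul_zero]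
      intro h
      apply hab
      apply Fin.ext
      have h' : 2 * k - (a : ℕ) + (b : ℕ) + 1 = 2 * k + 1 := h
      omega
  · intro c _ hc
    rw [KO_apply, if_neg, zero_mul]
    intro h
    apply hc
    apply Fin.ext
    show (c : ℕ) = 2 * k - (a : ℕ)
    omega
  · intro h
    exact absurd (Finset.mem_univ _) h

theorem KO_skew (n : ℕ) :
    (Cfsg.jordanBlock n F - 1)ᵀ * KO F n = -(KO F n * (Cfsg.jordanBlock n F - 1)) := by
  ext a b
  have hL : ((Cfsg.jordanBlock n F - 1)ᵀ * KO F n : Matrix (Fin n) (Fin n) F) a b =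
      ((Cfsg.jordanBlock n F - 1)ᵀ *ᵥ (fun c => KO F n c b)) a := rfl
  have hR : (KO F n * (Cfsg.jordanBlock n F - 1) : Matrix (Fin n) (Fin n) F) a b =
      ((Cfsg.jordanBlock n F - 1)ᵀ *ᵥ (fun c => KO F n a c)) b := by
    rw [Matrix.mul_apply]
    unfold Matrix.mulVec dotProduct
    apply Finset.sum_congr rfl
    intro c _
    show KO F n a c * (Cfsg.jordanBlock n F - 1) c b =
      (Cfsg.jordanBlock n F - 1) c b * KO F n a c
    rw [mul_comm]
  rw [Matrix.neg_apply, hL, hR, blk_T_mulVec, blk_T_mulVec]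
  have ha := a.2
  have hb := b.2
  by_cases hc : (a : ℕ) + (b : ℕ) + 2 = n
  · rw [dif_pos (by omega), dif_pos (by omega), KO_apply, KO_apply,
      if_pos (by show (a : ℕ) + 1 + (b : ℕ) + 1 = n; omega),
      if_pos (by show (a : ℕ) + ((b : ℕ) + 1) + 1 = n; omega), pow_succ]
    ring
  · have e1 : (if h : (a : ℕ) + 1 < n then KO F n ⟨(a : ℕ) + 1, h⟩ b else 0) = 0 := by
      by_cases h : (a : ℕ) + 1 < n
      · rw [dif_pos h, KO_apply, if_neg (by show ¬ ((a : ℕ) + 1 + (b : ℕ) + 1 = n); omega)]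
      · rw [dif_neg h]
    have e2 : (if h : (b : ℕ) + 1 < n then KO F n a ⟨(b : ℕ) + 1, h⟩ else 0) = 0 := by
      by_cases h : (b : ℕ) + 1 < n
      · rw [dif_pos h, KO_apply, if_neg (by show ¬ ((a : ℕ) + ((b : ℕ) + 1) + 1 = n); omega)]
      · rw [dif_neg h]
    rw [e1, e2, neg_zero]

/-- A regular unipotent isometry of a symmetric form in odd dimension (Cayley transform). -/
theorem realO_odd (h2 : (2 : F) ≠ 0) (k : ℕ) : RealO F {2 * k + 1} := by
  have hXnil : IsNilpotent (Cfsg.jordanBlock (2 * k + 1) F - 1) :=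
    ⟨2 * k + 1, pow_eq_zero_of_urk _ _ (by rw [urk_block]; omega)⟩
  obtain ⟨w, hw⟩ := hXnil.isUnit_one_sub
  have hMW : (1 - (Cfsg.jordanBlock (2 * k + 1) F - 1)) *
      ((w⁻¹ : (Matrix (Fin (2 * k + 1)) (Fin (2 * k + 1)) F)ˣ) :
        Matrix (Fin (2 * k + 1)) (Fin (2 * k + 1)) F) = 1 := by
    rw [← hw]
    exact w.mul_inv
  have hWM : ((w⁻¹ : (Matrix (Fin (2 * k + 1)) (Fin (2 * k + 1)) F)ˣ) :
        Matrix (Fin (2 * k + 1)) (Fin (2 * k + 1)) F) *
      (1 - (Cfsg.jordanBlock (2 * k + 1) F - 1)) = 1 := by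
    rw [← hw]
    exact w.inv_mul
  generalize ((w⁻¹ : (Matrix (Fin (2 * k + 1)) (Fin (2 * k + 1)) F)ˣ) :
        Matrix (Fin (2 * k + 1)) (Fin (2 * k + 1)) F) = W at hMW hWM
  generalize hX : Cfsg.jordanBlock (2 * k + 1) F - 1 = X at hMW hWM
  have hskew : Xᵀ * KO F (2 * k + 1) = -(KO F (2 * k + 1) * X) := by
    rw [← hX]
    exact KO_skew (2 * k + 1)
  generalize hKdef : KO F (2 * k + 1) = K at hskew
  have hKt : Kᵀ = K := by rw [← hKdef]; exact KO_transpose k
  have hKK : K * K = 1 := by rw [← hKdef]; exact KO_sq k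
  have hPK : (1 + X)ᵀ * K = K * (1 - X) := by
    rw [Matrix.transpose_add, Matrix.transpose_one, Matrix.add_mul, Matrix.one_mul, hskew,
      Matrix.mul_sub, Matrix.mul_one]
    abel
  have hMK : (1 - X)ᵀ * K = K * (1 + X) := by
    rw [Matrix.transpose_sub, Matrix.transpose_one, Matrix.sub_mul, Matrix.one_mul, hskew,
      Matrix.mul_add, Matrix.mul_one]
    abel
  have hPM : (1 + X) * (1 - X) = (1 - X) * (1 + X) := by noncomm_ring
  have hXM : X * (1 - X) = (1 - X) * X := by noncomm_ring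
  have hXW : X * W = W * X := by
    calc X * W = (W * (1 - X)) * X * W := by rw [hWM, Matrix.one_mul]
      _ = W * ((1 - X) * X) * W := by simp only [Matrix.mul_assoc]
      _ = W * (X * (1 - X)) * W := by rw [hXM]
      _ = W * X * ((1 - X) * W) := by simp only [Matrix.mul_assoc]
      _ = W * X := by rw [hMW, Matrix.mul_one]
  have hAK : ((1 + X) * W)ᵀ * K * ((1 + X) * W) = K := by
    calc ((1 + X) * W)ᵀ * K * ((1 + X) * W) = Wᵀ * ((1 + X)ᵀ * K) * (1 + X) * W := by
          rw [Matrix.transpose_mul]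
          simp only [Matrix.mul_assoc]
      _ = Wᵀ * (K * (1 - X)) * (1 + X) * W := by rw [hPK]
      _ = Wᵀ * K * ((1 - X) * (1 + X)) * W := by simp only [Matrix.mul_assoc]
      _ = Wᵀ * K * ((1 + X) * (1 - X)) * W := by rw [hPM]
      _ = Wᵀ * (K * (1 + X)) * ((1 - X) * W) := by simp only [Matrix.mul_assoc]
      _ = Wᵀ * ((1 - X)ᵀ * K) := by rw [hMW, Matrix.mul_one, hMK]
      _ = ((1 - X) * W)ᵀ * K := by rw [Matrix.transpose_mul, Matrix.mul_assoc]
      _ = K := by rw [hMW, Matrix.transpose_one, Matrix.one_mul]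
  have hA1 : (1 + X) * W - 1 = ((2 : F) • W) * X := by
    calc (1 + X) * W - 1 = (1 + X) * W - (1 - X) * W := by rw [hMW]
      _ = ((1 + X) - (1 - X)) * W := (Matrix.sub_mul _ _ _).symm
      _ = (X + X) * W := by
          congr 1
          abel
      _ = X * W + X * W := Matrix.add_mul _ _ _
      _ = W * X + W * X := by rw [hXW]
      _ = ((2 : F) • W) * X := by rw [Matrix.smul_mul, two_smul]
  have hGX : Commute ((2 : F) • W) X := by
    have h0 : Commute W X := hXW.symm
    exact h0.smul_left (2 : F)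
  have hGu : IsUnit ((2 : F) • W) := by
    apply IsUnit.of_mul_eq_one ((2⁻¹ : F) • (1 - X))
    rw [Matrix.smul_mul, Matrix.mul_smul, smul_smul, hWM, mul_inv_cancel₀ h2, one_smul]
  refine ⟨Fin (2 * k + 1), inferInstance, inferInstance, K, (1 + X) * W, hKt, ?_, hAK,
    fun i => ?_⟩
  · apply (Matrix.isUnit_iff_isUnit_det _).mp
    exact IsUnit.of_mul_eq_one K hKK
  · have hu : IsUnit (((2 : F) • W) ^ i).det :=
      (Matrix.isUnit_iff_isUnit_det _).mp (hGu.pow i)
    have h1 : urk ((1 + X) * W) i = (X ^ i).rank := by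
      unfold urk
      rw [hA1, hGX.mul_pow, Matrix.rank_mul_eq_right_of_isUnit_det _ _ hu]
    have h3 : (X ^ i).rank = urk (Cfsg.jordanBlock (2 * k + 1) F) i := by
      unfold urk
      rw [hX]
    rw [h1, h3, urk_block]
    simp

/-- Every Jordan type in which even parts have even multiplicity is realised by an isometry of
a non-degenerate symmetric form (odd characteristic). -/
theorem realO_of_cond (h2 : (2 : F) ≠ 0) : ∀ (n : ℕ) (l : Multiset ℕ), Multiset.card l = n →
    (∀ x ∈ l, 1 ≤ x) → (∀ j, Even j → 0 < j → Even (l.count j)) → RealO F l := by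
  intro n
  induction n using Nat.strong_induction_on with
  | _ n ih =>
    intro l hcard hpos hcond
    rcases Multiset.empty_or_exists_mem l with rfl | ⟨a, ha⟩
    · exact realO_zero
    · obtain ⟨l', rfl⟩ := Multiset.exists_cons_of_mem ha
      rw [Multiset.card_cons] at hcard
      have ha1 : 1 ≤ a := hpos a (Multiset.mem_cons_self a l')
      rcases Nat.even_or_odd a with hev | hod
      · have hc := hcond a hev (by omega)
        rw [Multiset.count_cons_self] at hc
        have ha' : a ∈ l' := by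
          rw [← Multiset.count_pos]
          rcases hc with ⟨r, hr⟩
          omega
        obtain ⟨l'', rfl⟩ := Multiset.exists_cons_of_mem ha'
        rw [Multiset.card_cons] at hcard
        have h1 : RealO F l'' := ih (Multiset.card l'') (by omega) l'' rfl
          (fun x hx => hpos x (Multiset.mem_cons_of_mem (Multiset.mem_cons_of_mem hx)))
          (fun j hj hj0 => by
            have := hcond j hj hj0
            by_cases hja : j = a
            · subst hja
              rw [Multiset.count_cons_self, Multiset.count_cons_self] at this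
              obtain ⟨r, hr⟩ := this
              exact ⟨r - 1, by omega⟩
            · rw [Multiset.count_cons_of_ne hja, Multiset.count_cons_of_ne hja] at this
              exact this)
        have h3 : RealO F (a ::ₘ {a}) := realO_pair a
        have := realO_add h3 h1
        rwa [Multiset.cons_add, Multiset.singleton_add] at this
      · obtain ⟨k, hk⟩ := hod
        have h1 : RealO F l' := ih (Multiset.card l') (by omega) l' rfl
          (fun x hx => hpos x (Multiset.mem_cons_of_mem hx)) (fun j hj hj0 => by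
            have := hcond j hj hj0
            have hja : j ≠ a := by
              rintro rfl
              exact (Nat.not_even_iff_odd.mpr ⟨k, hk⟩) hj
            rw [Multiset.count_cons_of_ne hja] at this
            exact this)
        have h3 : RealO F {a} := by
          rw [hk]
          exact realO_odd h2 k
        have := realO_add h3 h1
        rwa [Multiset.singleton_add] at this

/-- From a symmetric Gram matrix to a quadratic form. -/
theorem realO_form (h2 : (2 : F) ≠ 0) {l : Multiset ℕ} (h : RealO F l) :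
    ∃ (ι : Type) (_ : Fintype ι) (_ : DecidableEq ι) (Q : QuadraticForm F (ι → F))
      (A : Matrix ι ι F), IsUnit A.det ∧ (∀ v, Q (A *ᵥ v) = Q v) ∧
      (∀ x : ι → F, (∀ y, QuadraticMap.polar ⇑Q y x = 0) → x = 0) ∧
      ∀ i, urk A i = (l.map (fun x => x - i)).sum := by
  obtain ⟨ι, _, _, K, A, hKt, hKu, hA, hr⟩ := h
  have hQ : ∀ x : ι → F, K.toQuadraticForm' x = x ⬝ᵥ K *ᵥ x := by
    intro x
    unfold Matrix.toQuadraticForm'
    rw [LinearMap.BilinMap.toQuadraticMap_apply, Matrix.toLinearMap₂'_apply']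
  have hsymm : ∀ x y : ι → F, x ⬝ᵥ K *ᵥ y = y ⬝ᵥ K *ᵥ x := by
    intro x y
    rw [Matrix.dotProduct_mulVec, ← Matrix.mulVec_transpose, hKt, dotProduct_comm]
  refine ⟨ι, inferInstance, inferInstance, K.toQuadraticForm', A, ?_, ?_, ?_, hr⟩
  · have h := congrArg Matrix.det hA
    rw [Matrix.det_mul, Matrix.det_mul, Matrix.det_transpose] at h
    have hK0 : K.det ≠ 0 := hKu.ne_zero
    have h1 : A.det * A.det = 1 := by
      have : K.det * (A.det * A.det) = K.det * 1 := by
        rw [mul_one]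
        linear_combination h
      exact mul_left_cancel₀ hK0 this
    exact IsUnit.of_mul_eq_one _ h1
  · intro v
    rw [hQ, hQ]
    conv_rhs => rw [← hA]
    rw [← Matrix.mulVec_mulVec, ← Matrix.mulVec_mulVec, Matrix.dotProduct_mulVec v Aᵀ,
      Matrix.vecMul_transpose]
  · intro x hx
    apply Matrix.eq_zero_of_mulVec_eq_zero hKu.ne_zero
    funext j
    have h := hx (Pi.single j 1)
    unfold QuadraticMap.polar at h
    rw [hQ, hQ, hQ, Matrix.mulVec_add, add_dotProduct, dotProduct_add, dotProduct_add,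
      hsymm x (Pi.single j 1)] at h
    have h' : 2 * (Pi.single j 1 ⬝ᵥ K *ᵥ x) = 0 := by linear_combination h
    have h'' := (mul_eq_zero.mp h').resolve_left h2
    simpa using h''

end RealO

end Cfsg.Agent.Lib.Helper15.Jordan
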