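import Mathlib

set_option autoImplicit false

namespace Cfsg.Agent.Lib.Helper15.NilCount

open Matrix Polynomial

/-- Fitting decomposition of an endomorphism of a finite-dimensional space, in the form needed
for block matrices. -/
theorem fitting_lin {F V : Type*} [Field F] [AddCommGroup V] [Module F V] [FiniteDimensional F V]
    (f : V →ₗ[F] V) :
    ∃ (K I : Submodule F V) (hc : IsCompl K I) (fK : K →ₗ[F] K) (fI : I →ₗ[F] I),
      IsNilpotent fK ∧ Function.Injective fI ∧
      (∀ x : K × I, f (Submodule.prodEquivOfIsCompl K I hc x) =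
        Submodule.prodEquivOfIsCompl K I hc (fK x.1, fI x.2)) := by
  obtain ⟨a, ha⟩ := Filter.eventually_atTop.mp (LinearMap.eventually_isCompl_ker_pow_range_pow f)
  have hc : IsCompl (LinearMap.ker (f ^ (a + 1))) (LinearMap.range (f ^ (a + 1))) :=
    ha (a + 1) (Nat.le_succ a)
  have hK : ∀ x ∈ LinearMap.ker (f ^ (a + 1)), f x ∈ LinearMap.ker (f ^ (a + 1)) := by
    intro x hx
    rw [LinearMap.mem_ker] at hx ⊢
    have : (f ^ (a + 1)) (f x) = f ((f ^ (a + 1)) x) := by
      rw [← Module.End.mul_apply, ← Module.End.mul_apply, ← pow_succ, ← pow_succ']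
    rw [this, hx, map_zero]
  have hI : ∀ x ∈ LinearMap.range (f ^ (a + 1)), f x ∈ LinearMap.range (f ^ (a + 1)) := by
    intro x hx
    obtain ⟨y, rfl⟩ := hx
    refine ⟨f y, ?_⟩
    rw [← Module.End.mul_apply, ← Module.End.mul_apply, ← pow_succ, ← pow_succ']
  refine ⟨_, _, hc, f.restrict hK, f.restrict hI, ?_, ?_, ?_⟩
  · refine ⟨a + 1, ?_⟩
    ext x
    rw [Module.End.pow_restrict]
    have := x.2
    rw [LinearMap.mem_ker] at this
    simp [this]
  · intro x y hxy
    have h1 : f (x : V) = f (y : V) := by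
      have := congrArg Subtype.val hxy
      simpa using this
    have h2 : (x : V) - y ∈ LinearMap.ker (f ^ (a + 1)) := by
      have h5 : f ((x : V) - y) = 0 := by rw [map_sub, h1, sub_self]
      have h6 : (f ^ (a + 1)) ((x : V) - y) = (f ^ a) (f ((x : V) - y)) := by
        rw [← Module.End.mul_apply, ← pow_succ]
      rw [LinearMap.mem_ker, h6, h5, map_zero]
    have h3 : (x : V) - y ∈ LinearMap.range (f ^ (a + 1)) := Submodule.sub_mem _ x.2 y.2
    have h4 : (x : V) - y = 0 := by
      have := hc.disjoint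
      rw [Submodule.disjoint_def] at this
      exact this _ h2 h3
    exact Subtype.ext (sub_eq_zero.mp h4)
  · intro x
    rw [Submodule.coe_prodEquivOfIsCompl', Submodule.coe_prodEquivOfIsCompl', map_add]
    rfl

/-- The trailing degree of the characteristic polynomial of a product of a nilpotent and an
injective endomorphism. -/
theorem trailing_prodMap {F K I : Type*} [Field F] [AddCommGroup K] [Module F K]
    [FiniteDimensional F K] [AddCommGroup I] [Module F I] [FiniteDimensional F I]
    (fK : K →ₗ[F] K) (fI : I →ₗ[F] I) (hK : IsNilpotent fK) (hI : Function.Injective fI) :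
    (fK.prodMap fI).charpoly.natTrailingDegree = Module.finrank F K := by
  rw [LinearMap.charpoly_prodMap]
  have h1 : fK.charpoly = X ^ Module.finrank F K :=
    ((LinearMap.charpoly_nilpotent_tfae fK).out 0 1).mp hK
  have h2 : fI.charpoly.coeff 0 ≠ 0 := by
    intro h
    have h3 : constantCoeff fI.charpoly = 0 := by
      simpa [Polynomial.constantCoeff_apply] using h
    obtain ⟨m, hm, hm0⟩ := (LinearMap.charpoly_constantCoeff_eq_zero_iff fI).mp h3
    exact hm (hI (by rw [hm0, map_zero]))
  have h4 : fI.charpoly ≠ 0 := (LinearMap.charpoly_monic fI).ne_zero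
  rw [h1, natTrailingDegree_mul (pow_ne_zero _ X_ne_zero) h4, natTrailingDegree_X_pow,
    natTrailingDegree_eq_zero.mpr (Or.inr h2), add_zero]

/-- Trailing degree of the characteristic polynomial of a block-diagonal matrix with a
nilpotent block and an invertible block. -/
theorem trailing_blocks {F : Type*} [Field F] {ι₁ ι₂ : Type*} [Fintype ι₁] [Fintype ι₂]
    [DecidableEq ι₁] [DecidableEq ι₂] (N : Matrix ι₁ ι₁ F) (A : Matrix ι₂ ι₂ F)
    (hN : IsNilpotent N) (hA : IsUnit A) :
    (fromBlocks N 0 0 A).charpoly.natTrailingDegree = Fintype.card ι₁ := by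
  rw [charpoly_fromBlocks_zero₁₂]
  have h1 : N.charpoly = X ^ Fintype.card ι₁ :=
    sub_eq_zero.mp (IsNilpotent.eq_zero (Matrix.isNilpotent_charpoly_sub_pow_of_isNilpotent hN))
  have h2 : A.charpoly.coeff 0 ≠ 0 := by
    intro h
    have h3 := Matrix.det_eq_sign_charpoly_coeff A
    rw [h, mul_zero] at h3
    have h4 := (Matrix.isUnit_iff_isUnit_det A).mp hA
    rw [h3] at h4
    exact not_isUnit_zero h4
  rw [h1, natTrailingDegree_mul (pow_ne_zero _ X_ne_zero) (Matrix.charpoly_monic A).ne_zero,
    natTrailingDegree_X_pow, natTrailingDegree_eq_zero.mpr (Or.inr h2), add_zero]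

/-- Nilpotency of a matrix is detected by the trailing degree of the characteristic polynomial. -/
theorem nilpotent_iff_trailing {F : Type*} [Field F] {ι : Type*} [Fintype ι] [DecidableEq ι]
    (T : Matrix ι ι F) :
    IsNilpotent T ↔ T.charpoly.natTrailingDegree = Fintype.card ι := by
  constructor
  · intro hN
    have h1 : T.charpoly = X ^ Fintype.card ι :=
      sub_eq_zero.mp (IsNilpotent.eq_zero (Matrix.isNilpotent_charpoly_sub_pow_of_isNilpotent hN))
    rw [h1, natTrailingDegree_X_pow]
  · intro h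
    have h1 : T.charpoly.natDegree = Fintype.card ι := Matrix.charpoly_natDegree_eq_dim T
    have h2 : T.charpoly = X ^ T.charpoly.natDegree :=
      ((Matrix.charpoly_monic T).eq_X_pow_iff_natTrailingDegree_eq_natDegree).mpr (by rw [h, h1])
    have h3 := Matrix.aeval_self_charpoly T
    rw [h2] at h3
    exact ⟨T.charpoly.natDegree, by simpa using h3⟩

/-- Fitting decomposition for matrices: a matrix on `ι₁ ⊕ ι₂` whose characteristic polynomial
has trailing degree `card ι₁` is conjugate to a block-diagonal matrix with nilpotent first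
block and invertible second block. -/
theorem fitting_matrix {F : Type*} [Field F] {ι₁ ι₂ : Type*} [Fintype ι₁] [Fintype ι₂]
    [DecidableEq ι₁] [DecidableEq ι₂] (T : Matrix (ι₁ ⊕ ι₂) (ι₁ ⊕ ι₂) F)
    (hT : T.charpoly.natTrailingDegree = Fintype.card ι₁) :
    ∃ (P Q : Matrix (ι₁ ⊕ ι₂) (ι₁ ⊕ ι₂) F) (N : Matrix ι₁ ι₁ F) (A : Matrix ι₂ ι₂ F),
      P * Q = 1 ∧ Q * P = 1 ∧ IsNilpotent N ∧ IsUnit A ∧ T = P * fromBlocks N 0 0 A * Q := by
  obtain ⟨K, I, hc, fK, fI, hfK, hfI, hf⟩ := fitting_lin (Matrix.toLin' T)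
  set e := Submodule.prodEquivOfIsCompl K I hc with he
  have hconj : Matrix.toLin' T = e.conj (fK.prodMap fI) := by
    apply LinearMap.ext
    intro v
    rw [LinearEquiv.conj_apply]
    have := hf (e.symm v)
    simp only [LinearEquiv.apply_symm_apply] at this
    rw [this]
    rfl
  have hdim : Module.finrank F K = Fintype.card ι₁ := by
    rw [← hT, ← Matrix.charpoly_toLin', hconj, LinearEquiv.charpoly_conj, trailing_prodMap fK fI hfK hfI]
  have hdimI : Module.finrank F I = Fintype.card ι₂ := by
    have h1 := Submodule.finrank_add_eq_of_isCompl hc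
    rw [Module.finrank_fintype_fun_eq_card, Fintype.card_sum, hdim] at h1
    omega
  let bK : Module.Basis ι₁ F K := (Module.finBasis F K).reindex
    (Fintype.equivOfCardEq (by rw [Fintype.card_fin, hdim]))
  let bI : Module.Basis ι₂ F I := (Module.finBasis F I).reindex
    (Fintype.equivOfCardEq (by rw [Fintype.card_fin, hdimI]))
  let b : Module.Basis (ι₁ ⊕ ι₂) F (ι₁ ⊕ ι₂ → F) := (bK.prod bI).map e
  let s := Pi.basisFun F (ι₁ ⊕ ι₂)
  have hM : LinearMap.toMatrix b b (Matrix.toLin' T) =
      fromBlocks (LinearMap.toMatrix bK bK fK) 0 0 (LinearMap.toMatrix bI bI fI) := by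
    rw [← LinearMap.toMatrix_prodMap]
    ext i j
    rw [LinearMap.toMatrix_apply, LinearMap.toMatrix_apply]
    simp only [b, Module.Basis.map_apply, Module.Basis.map_repr, LinearEquiv.trans_apply]
    rw [hf]
    simp
  refine ⟨s.toMatrix b, b.toMatrix s, LinearMap.toMatrix bK bK fK, LinearMap.toMatrix bI bI fI,
    Module.Basis.toMatrix_mul_toMatrix_flip s b, Module.Basis.toMatrix_mul_toMatrix_flip b s, ?_, ?_, ?_⟩
  · obtain ⟨k, hk⟩ := hfK
    refine ⟨k, ?_⟩
    rw [LinearMap.toMatrix_pow, hk, map_zero]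
  · have hsurj : Function.Surjective fI := LinearMap.injective_iff_surjective.mp hfI
    let eI := LinearEquiv.ofBijective fI ⟨hfI, hsurj⟩
    have h1 : fI * (eI.symm : I →ₗ[F] I) = 1 := by
      apply LinearMap.ext
      intro x
      have : fI (eI.symm x) = x := eI.apply_symm_apply x
      simp [this]
    have h2 : (eI.symm : I →ₗ[F] I) * fI = 1 := by
      apply LinearMap.ext
      intro x
      have : eI.symm (fI x) = x := eI.symm_apply_apply x
      simp [this]
    refine ⟨⟨LinearMap.toMatrix bI bI fI, LinearMap.toMatrix bI bI (eI.symm : I →ₗ[F] I), ?_, ?_⟩, rfl⟩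
    · rw [← LinearMap.toMatrix_mul, h1, LinearMap.toMatrix_one]
    · rw [← LinearMap.toMatrix_mul, h2, LinearMap.toMatrix_one]
  · rw [← hM, basis_toMatrix_mul_linearMap_toMatrix_mul_basis_toMatrix]
    rw [LinearMap.toMatrix_eq_toMatrix', LinearMap.toMatrix'_toLin']

end Cfsg.Agent.Lib.Helper15.NilCount
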