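import Cfsg.Agent.Lib.Helper15.NilCountB

set_option autoImplicit false

namespace Cfsg.Agent.Lib.Helper15.NilCount

open Matrix Polynomial

theorem range_conjMap {F : Type*} [Field F] {ι₁ ι₂ : Type*} [Fintype ι₁] [Fintype ι₂]
    [DecidableEq ι₁] [DecidableEq ι₂] :
    Set.range (conjMap (F := F) (ι₁ := ι₁) (ι₂ := ι₂)) =
      {T | T.charpoly.natTrailingDegree = Fintype.card ι₁} := by
  ext T
  constructor
  · rintro ⟨⟨g, ⟨N, hN⟩, A⟩, rfl⟩
    unfold conjMap
    show (_ : Polynomial F).natTrailingDegree = _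
    rw [Matrix.coe_units_inv, Matrix.charpoly_units_conj g]
    exact trailing_blocks N _ hN A.isUnit
  · intro hT
    obtain ⟨P, Q, N, A, hPQ, hQP, hN, hA, hT'⟩ := fitting_matrix T hT
    obtain ⟨A', hA'⟩ := hA
    refine ⟨(⟨P, Q, hPQ, hQP⟩, ⟨N, hN⟩, A'), ?_⟩
    unfold conjMap
    simp only
    rw [hT', hA']
    rfl

/-- The key counting relation: matrices on `ι₁ ⊕ ι₂` whose characteristic polynomial has
trailing degree `card ι₁`, counted through the Fitting decomposition. -/
theorem main_relation {F : Type*} [Field F] [Fintype F] {ι₁ ι₂ : Type*} [Fintype ι₁] [Fintype ι₂]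
    [DecidableEq ι₁] [DecidableEq ι₂] :
    Nat.card {T : Matrix (ι₁ ⊕ ι₂) (ι₁ ⊕ ι₂) F // T.charpoly.natTrailingDegree = Fintype.card ι₁} *
        Nat.card (GL ι₁ F) =
      Nat.card (GL (ι₁ ⊕ ι₂) F) * Nat.card {N : Matrix ι₁ ι₁ F // IsNilpotent N} := by
  have h := card_eq_range_mul (conjMap (F := F) (ι₁ := ι₁) (ι₂ := ι₂)) leviAct
    conjMap_leviAct leviAct_trans leviAct_free
  rw [range_conjMap, Nat.card_prod, Nat.card_prod, Nat.card_prod] at h
  have h2 : 0 < Nat.card (GL ι₂ F) := Nat.card_pos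
  have h3 : Nat.card ({T : Matrix (ι₁ ⊕ ι₂) (ι₁ ⊕ ι₂) F | T.charpoly.natTrailingDegree = Fintype.card ι₁} : Set _) =
      Nat.card {T : Matrix (ι₁ ⊕ ι₂) (ι₁ ⊕ ι₂) F // T.charpoly.natTrailingDegree = Fintype.card ι₁} := rfl
  rw [h3] at h
  apply Nat.eq_of_mul_eq_mul_right h2
  rw [mul_assoc, ← h, mul_assoc]

/-- Reindexing invariance of the trailing-degree count. -/
theorem card_trailing_congr {F : Type*} [Field F] {ι ι' : Type*} [Fintype ι] [Fintype ι']
    [DecidableEq ι] [DecidableEq ι'] (e : ι ≃ ι') (k : ℕ) :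
    Nat.card {T : Matrix ι ι F // T.charpoly.natTrailingDegree = k} =
      Nat.card {T : Matrix ι' ι' F // T.charpoly.natTrailingDegree = k} := by
  refine Nat.card_congr (Equiv.subtypeEquiv (Matrix.reindex e e) ?_)
  intro T
  rw [Matrix.charpoly_reindex]

/-- Reindexing invariance of the order of `GL`. -/
theorem card_GL_congr {F : Type*} [Field F] {ι ι' : Type*} [Fintype ι] [Fintype ι']
    [DecidableEq ι] [DecidableEq ι'] (e : ι ≃ ι') :
    Nat.card (GL ι F) = Nat.card (GL ι' F) :=
  Nat.card_congr (Units.mapEquiv (Matrix.reindexAlgEquiv F F e).toMulEquiv).toEquiv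

/-- The counting relation over `Fin`. -/
theorem main_relation_fin {F : Type*} [Field F] [Fintype F] (n k : ℕ) (hk : k ≤ n) :
    Nat.card {T : Matrix (Fin n) (Fin n) F // T.charpoly.natTrailingDegree = k} *
        Nat.card (GL (Fin k) F) =
      Nat.card (GL (Fin n) F) * Nat.card {N : Matrix (Fin k) (Fin k) F // IsNilpotent N} := by
  have e : Fin k ⊕ Fin (n - k) ≃ Fin n :=
    finSumFinEquiv.trans (finCongr (by omega))
  have h := main_relation (F := F) (ι₁ := Fin k) (ι₂ := Fin (n - k))
  rw [Fintype.card_fin, card_trailing_congr e, card_GL_congr e] at h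
  exact h

/-- All matrices, sorted by the trailing degree of the characteristic polynomial. -/
theorem sum_trailing {F : Type*} [Field F] [Fintype F] (n : ℕ) :
    Fintype.card F ^ (n * n) =
      ∑ k ∈ Finset.range (n + 1),
        Nat.card {T : Matrix (Fin n) (Fin n) F // T.charpoly.natTrailingDegree = k} := by
  classical
  have h1 : Fintype.card (Matrix (Fin n) (Fin n) F) = Fintype.card F ^ (n * n) := by
    show Fintype.card (Fin n → Fin n → F) = _
    rw [Fintype.card_fun, Fintype.card_fun, Fintype.card_fin, ← pow_mul]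
  have h2 := Finset.card_eq_sum_card_fiberwise (s := (Finset.univ : Finset (Matrix (Fin n) (Fin n) F)))
    (t := Finset.range (n + 1)) (f := fun T => T.charpoly.natTrailingDegree) (by
      intro T _
      have := Polynomial.natTrailingDegree_le_natDegree T.charpoly
      rw [Matrix.charpoly_natDegree_eq_dim, Fintype.card_fin] at this
      simp only [Finset.coe_range, Set.mem_Iio]
      omega)
  rw [Finset.card_univ, h1] at h2
  rw [h2]
  apply Finset.sum_congr rfl
  intro k _
  rw [Nat.card_eq_fintype_card, Fintype.card_subtype]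

end Cfsg.Agent.Lib.Helper15.NilCount
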