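import Cfsg.Agent.Lib.Helper15.NilCountC
import Cfsg.Agent.Lib.Helper15.Unipotent

set_option autoImplicit false

namespace Cfsg.Agent.Lib.Helper15.NilCount

open Matrix Polynomial

theorem card_GL_succ {F : Type*} [Field F] [Fintype F] (n : ℕ) :
    Nat.card (GL (Fin (n + 1)) F) =
      Nat.card (GL (Fin n) F) * (Fintype.card F ^ n * (Fintype.card F ^ (n + 1) - 1)) := by
  rw [Matrix.card_GL_field, Matrix.card_GL_field, Fin.prod_univ_succ]
  simp only [Fin.val_zero, pow_zero, Fin.val_succ]
  have h : ∀ i : Fin n, Fintype.card F ^ (n + 1) - Fintype.card F ^ (i.val + 1) =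
      Fintype.card F * (Fintype.card F ^ n - Fintype.card F ^ i.val) := by
    intro i
    rw [Nat.mul_sub, ← pow_succ', ← pow_succ']
  rw [Finset.prod_congr rfl (fun i _ => h i), Finset.prod_mul_distrib, Finset.prod_const,
    Finset.card_univ, Fintype.card_fin]
  ring

theorem sum_identity {F : Type*} [Field F] [Fintype F] (n : ℕ) :
    ∑ k ∈ Finset.range (n + 1),
        (Fintype.card F : ℚ) ^ (k * (k - 1)) / (Nat.card (GL (Fin k) F) : ℚ) =
      (Fintype.card F : ℚ) ^ (n * n) / (Nat.card (GL (Fin n) F) : ℚ) := by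
  have hq : 1 < Fintype.card F := Fintype.one_lt_card
  have hq0 : (Fintype.card F : ℚ) ≠ 0 := by
    have : (0 : ℚ) < Fintype.card F := by exact_mod_cast (by omega : 0 < Fintype.card F)
    exact this.ne'
  induction n with
  | zero => simp
  | succ n ih =>
    rw [Finset.sum_range_succ, ih, card_GL_succ n]
    have hG : (Nat.card (GL (Fin n) F) : ℚ) ≠ 0 := by
      have : 0 < Nat.card (GL (Fin n) F) := Nat.card_pos
      exact_mod_cast this.ne'
    have h1 : 1 ≤ Fintype.card F ^ (n + 1) := Nat.one_le_pow _ _ (by omega)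
    have h2 : ((Fintype.card F ^ (n + 1) - 1 : ℕ) : ℚ) = (Fintype.card F : ℚ) ^ (n + 1) - 1 := by
      rw [Nat.cast_sub h1]
      simp
    have h3 : (Fintype.card F : ℚ) ^ (n + 1) - 1 ≠ 0 := by
      have h4 : 1 < Fintype.card F ^ (n + 1) := Nat.one_lt_pow (by omega) hq
      have h5 : (1 : ℚ) < (Fintype.card F : ℚ) ^ (n + 1) := by exact_mod_cast h4
      linarith
    rw [Nat.cast_mul, Nat.cast_mul, h2, Nat.cast_pow]
    have e1 : n + 1 - 1 = n := by omega
    rw [e1]
    field_simp
    ring

/-- Fine–Herstein: the number of nilpotent `n × n` matrices over a field with `q` elements is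
`q ^ (n (n - 1))`. -/
theorem card_nilpotent {F : Type*} [Field F] [Fintype F] (n : ℕ) :
    Nat.card {N : Matrix (Fin n) (Fin n) F // IsNilpotent N} = Fintype.card F ^ (n * (n - 1)) := by
  induction n using Nat.strong_induction_on with
  | _ n ih =>
    have hG : ∀ k : ℕ, (Nat.card (GL (Fin k) F) : ℚ) ≠ 0 := by
      intro k
      have : 0 < Nat.card (GL (Fin k) F) := Nat.card_pos
      exact_mod_cast this.ne'
    have hrel : ∀ k ∈ Finset.range (n + 1),
        (Nat.card {T : Matrix (Fin n) (Fin n) F // T.charpoly.natTrailingDegree = k} : ℚ) =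
          (Nat.card (GL (Fin n) F) : ℚ) *
            ((Nat.card {N : Matrix (Fin k) (Fin k) F // IsNilpotent N} : ℚ) /
              (Nat.card (GL (Fin k) F) : ℚ)) := by
      intro k hk
      have h := main_relation_fin (F := F) n k (by simpa [Nat.lt_succ_iff] using hk)
      have h' : (Nat.card {T : Matrix (Fin n) (Fin n) F // T.charpoly.natTrailingDegree = k} : ℚ) *
          (Nat.card (GL (Fin k) F) : ℚ) = (Nat.card (GL (Fin n) F) : ℚ) *
            (Nat.card {N : Matrix (Fin k) (Fin k) F // IsNilpotent N} : ℚ) := by exact_mod_cast h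
      field_simp [hG k]
      exact h'
    have hsum := sum_trailing (F := F) n
    have hsum' : (Fintype.card F : ℚ) ^ (n * n) =
        ∑ k ∈ Finset.range (n + 1),
          (Nat.card {T : Matrix (Fin n) (Fin n) F // T.charpoly.natTrailingDegree = k} : ℚ) := by
      exact_mod_cast hsum
    rw [Finset.sum_congr rfl hrel, ← Finset.mul_sum, Finset.sum_range_succ] at hsum'
    have hlow : ∑ k ∈ Finset.range n,
        (Nat.card {N : Matrix (Fin k) (Fin k) F // IsNilpotent N} : ℚ) / (Nat.card (GL (Fin k) F) : ℚ) =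
        ∑ k ∈ Finset.range n,
          (Fintype.card F : ℚ) ^ (k * (k - 1)) / (Nat.card (GL (Fin k) F) : ℚ) := by
      apply Finset.sum_congr rfl
      intro k hk
      rw [ih k (Finset.mem_range.mp hk)]
      push_cast
      rfl
    rw [hlow] at hsum'
    have hid := sum_identity (F := F) n
    rw [Finset.sum_range_succ] at hid
    have key : (Nat.card {N : Matrix (Fin n) (Fin n) F // IsNilpotent N} : ℚ) =
        (Fintype.card F : ℚ) ^ (n * (n - 1)) := by
      have hGn := hG n
      have e1 : ∑ k ∈ Finset.range n,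
          (Fintype.card F : ℚ) ^ (k * (k - 1)) / (Nat.card (GL (Fin k) F) : ℚ) =
          (Fintype.card F : ℚ) ^ (n * n) / (Nat.card (GL (Fin n) F) : ℚ) -
            (Fintype.card F : ℚ) ^ (n * (n - 1)) / (Nat.card (GL (Fin n) F) : ℚ) := by
        linarith
      rw [e1] at hsum'
      field_simp at hsum'
      linarith
    exact_mod_cast key

/-- Steinberg's count for `GL_n`: the number of elements of `p`-power order is `q ^ (n (n - 1))`. -/
theorem card_unipotent {F : Type*} [Field F] [Fintype F] (p : ℕ) [Fact p.Prime] [CharP F p] (n : ℕ) :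
    Nat.card {g : Matrix.GeneralLinearGroup (Fin n) F // ∃ k : ℕ, orderOf g = p ^ k} =
      Fintype.card F ^ (n * (n - 1)) := by
  have hp : p.Prime := Fact.out
  rw [← card_nilpotent (F := F) n]
  have hnil : ∀ g : {g : Matrix.GeneralLinearGroup (Fin n) F // ∃ k : ℕ, orderOf g = p ^ k},
      IsNilpotent ((g.1 : Matrix (Fin n) (Fin n) F) - 1) := by
    rintro ⟨g, k, hk⟩
    refine ⟨p ^ k, ?_⟩
    rw [sub_one_pow_char_pow p, sub_eq_zero]
    have h1 : g ^ (p ^ k) = 1 := by rw [← hk]; exact pow_orderOf_eq_one g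
    have := congrArg (fun x : GL (Fin n) F => (x : Matrix (Fin n) (Fin n) F)) h1
    simpa using this
  refine Nat.card_eq_of_bijective (fun g => ⟨(g.1 : Matrix (Fin n) (Fin n) F) - 1, hnil g⟩) ⟨?_, ?_⟩
  · intro g g' h
    have h1 : (g.1 : Matrix (Fin n) (Fin n) F) - 1 = (g'.1 : Matrix (Fin n) (Fin n) F) - 1 :=
      congrArg Subtype.val h
    exact Subtype.ext (Units.ext (sub_left_injective h1))
  · rintro ⟨N, hN⟩
    obtain ⟨u, hu⟩ := hN.isUnit_one_add
    have hu' : IsNilpotent ((u : Matrix (Fin n) (Fin n) F) - 1) := by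
      rw [hu]
      simpa using hN
    have h1 := unipotent_pow_eq_one p n u hu'
    have hdvd : orderOf u ∣ p ^ Nat.clog p n := orderOf_dvd_of_pow_eq_one h1
    obtain ⟨j, _, hj⟩ := (Nat.dvd_prime_pow hp).mp hdvd
    refine ⟨⟨u, j, hj⟩, ?_⟩
    apply Subtype.ext
    simp only
    rw [hu]
    simp

end Cfsg.Agent.Lib.Helper15.NilCount
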