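import Cfsg.Agent.Lib.Helper15.OPlus
import Cfsg.Agent.Lib.Helper15.JordanF
import Cfsg.Agent.S0290

set_option autoImplicit false

namespace Cfsg.Agent.Lib.Helper15.OMinus

open Matrix Cfsg.Agent.Lib.Helper15.SpInvol Cfsg.Agent.Lib.Helper15.OrthInvol
  Cfsg.Agent.Lib.Helper15.OrthForms2 Cfsg.Agent.Lib.Helper15.InvolCls
  Cfsg.Agent.Lib.Helper15.OPlus Cfsg.Agent.Lib.Helper15.Jordan

section Generic

variable {F : Type*} [Field F] {ι : Type} [Fintype ι] [DecidableEq ι]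

theorem gsq_of_order (Q : (ι → F) → F) (t : ↥(Cfsg.isometryGroup F Q)) (ht : orderOf t = 2) :
    ((t : GL ι F) : Matrix ι ι F) * ((t : GL ι F) : Matrix ι ι F) = 1 := by
  have h1 : t ^ 2 = 1 := by rw [← ht]; exact pow_orderOf_eq_one t
  have h2 := congrArg (fun y : ↥(Cfsg.isometryGroup F Q) => ((y : GL ι F) : Matrix ι ι F)) h1
  simpa [pow_two] using h2

theorem gorder_two_of (Q : (ι → F) → F) (t : ↥(Cfsg.isometryGroup F Q))
    (h2 : ((t : GL ι F) : Matrix ι ι F) * ((t : GL ι F) : Matrix ι ι F) = 1)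
    (hr : (((t : GL ι F) : Matrix ι ι F) - 1).rank ≠ 0) : orderOf t = 2 := by
  apply orderOf_eq_prime
  · apply Subtype.ext
    apply Units.ext
    rw [pow_two]
    exact h2
  · intro h
    have h1 : ((t : GL ι F) : Matrix ι ι F) = 1 := by
      rw [h]
      rfl
    rw [h1, sub_self, Matrix.rank_zero] at hr
    exact hr rfl

omit [Fintype ι] [DecidableEq ι] in
theorem gsetup [CharP F 2] (Qf : QuadraticForm F (ι → F))
    (hQ : (QuadraticMap.polarBilin Qf).Nondegenerate) : Setup (QuadraticMap.polarBilin Qf) := by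
  have htwo : (2 : F) = 0 := CharTwo.two_eq_zero
  refine ⟨htwo, fun v => ?_, hQ.1⟩
  rw [QuadraticMap.polarBilin_apply_apply, QuadraticMap.polar_self, two_smul]
  linear_combination Qf v * htwo

theorem ginvIso (Qf : QuadraticForm F (ι → F)) (t : ↥(Cfsg.isometryGroup F ⇑Qf))
    (ht : orderOf t = 2) :
    InvIso (QuadraticMap.polarBilin Qf) (Matrix.toLin' ((t : GL ι F) : Matrix ι ι F)) where
  sq := fun v => by
    rw [Matrix.toLin'_apply, Matrix.toLin'_apply, Matrix.mulVec_mulVec, gsq_of_order _ t ht,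
      Matrix.one_mulVec]
  iso := fun u v => by
    have hQ := (mem_isometryGroup_iff _ _).mp t.2
    rw [Matrix.toLin'_apply, Matrix.toLin'_apply, QuadraticMap.polarBilin_apply_apply,
      QuadraticMap.polarBilin_apply_apply]
    unfold QuadraticMap.polar
    rw [← Matrix.mulVec_add, hQ, hQ, hQ]

theorem grank_eq (A : Matrix ι ι F) :
    Module.finrank F (LinearMap.range (Nm (Matrix.toLin' A))) = (A - 1).rank := by
  have : Nm (Matrix.toLin' A) = (A - 1).mulVecLin := by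
    apply LinearMap.ext
    intro v
    rw [Nm_apply, Matrix.toLin'_apply, Matrix.mulVecLin_apply, Matrix.sub_mulVec,
      Matrix.one_mulVec]
  rw [this]
  rfl

/-- Involutions of an orthogonal group in characteristic two with the same rank and type are
conjugate. -/
theorem gen_conj_of_inv [Fintype F] [CharP F 2] (Qf : QuadraticForm F (ι → F))
    (hQ : (QuadraticMap.polarBilin Qf).Nondegenerate)
    (t s : ↥(Cfsg.isometryGroup F ⇑Qf)) (ht : orderOf t = 2) (hs : orderOf s = 2)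
    (hrank : (((t : GL ι F) : Matrix ι ι F) - 1).rank = (((s : GL ι F) : Matrix ι ι F) - 1).rank)
    (htype : (∀ v, QuadraticMap.polar ⇑Qf v (((t : GL ι F) : Matrix ι ι F) *ᵥ v) = 0) ↔
      (∀ v, QuadraticMap.polar ⇑Qf v (((s : GL ι F) : Matrix ι ι F) *ᵥ v) = 0)) :
    IsConj t s := by
  have hS := gsetup Qf hQ
  have htA := ginvIso Qf t ht
  have htB := ginvIso Qf s hs
  have hsq : ∀ x : F, ∃ c : F, c * c = x := fun x => by
    obtain ⟨c, hc⟩ := FiniteField.isSquare_of_char_two (ringChar.eq F 2) x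
    exact ⟨c, hc.symm⟩
  obtain ⟨g, hg1, hg2⟩ := conj_generic hS hQ hsq htA htB
    (by rw [grank_eq, grank_eq, hrank])
    (by simpa only [QuadraticMap.polarBilin_apply_apply, Matrix.toLin'_apply] using htype)
  apply (orth_matrix_conj Qf hQ t s ht hs).mpr
  refine ⟨equivGL g, ?_, ?_⟩
  · intro u v
    show Qf (((equivGL g : GL ι F) : Matrix ι ι F) *ᵥ u +
        ((equivGL g : GL ι F) : Matrix ι ι F) *ᵥ v) -
      Qf (((equivGL g : GL ι F) : Matrix ι ι F) *ᵥ u) -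
      Qf (((equivGL g : GL ι F) : Matrix ι ι F) *ᵥ v) = Qf (u + v) - Qf u - Qf v
    rw [equivGL_mulVec, equivGL_mulVec]
    have := hg1 u v
    rw [QuadraticMap.polarBilin_apply_apply, QuadraticMap.polarBilin_apply_apply] at this
    exact this
  · rw [mul_inv_eq_iff_eq_mul]
    apply Units.ext
    show ((equivGL g : GL ι F) : Matrix ι ι F) * ((t : GL ι F) : Matrix ι ι F) =
      ((s : GL ι F) : Matrix ι ι F) * ((equivGL g : GL ι F) : Matrix ι ι F)
    apply Matrix.toLin'.injective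
    apply LinearMap.ext
    intro v
    simp only [Matrix.toLin'_mul, LinearMap.comp_apply, Matrix.toLin'_apply, equivGL_mulVec]
    have h9 := hg2 v
    simp only [Matrix.toLin'_apply] at h9
    exact h9

theorem gen_semiconj (Q : (ι → F) → F) {t s c : ↥(Cfsg.isometryGroup F Q)}
    (hc : c * t * c⁻¹ = s) :
    ((c : GL ι F) : Matrix ι ι F) * ((t : GL ι F) : Matrix ι ι F) =
      ((s : GL ι F) : Matrix ι ι F) * ((c : GL ι F) : Matrix ι ι F) := by
  have h1 : c * t = s * c := mul_inv_eq_iff_eq_mul.mp hc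
  have h2 := congrArg (fun y : ↥(Cfsg.isometryGroup F Q) => ((y : GL ι F) : Matrix ι ι F)) h1
  simpa using h2

theorem gen_conj_rank (Q : (ι → F) → F) {t s : ↥(Cfsg.isometryGroup F Q)} (h : IsConj t s) :
    (((t : GL ι F) : Matrix ι ι F) - 1).rank = (((s : GL ι F) : Matrix ι ι F) - 1).rank := by
  obtain ⟨c, hc⟩ := isConj_iff.mp h
  have h1 : IsConj ((t : GL ι F) : Matrix ι ι F) ((s : GL ι F) : Matrix ι ι F) :=
    ⟨(c : GL ι F), gen_semiconj Q hc⟩
  have h2 := urk_of_isConj h1 1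
  unfold urk at h2
  rw [pow_one, pow_one] at h2
  exact h2

theorem gen_conj_alt (Q : (ι → F) → F) {t s : ↥(Cfsg.isometryGroup F Q)} (h : IsConj t s)
    (ht : ∀ v, QuadraticMap.polar Q v (((t : GL ι F) : Matrix ι ι F) *ᵥ v) = 0) :
    ∀ v, QuadraticMap.polar Q v (((s : GL ι F) : Matrix ι ι F) *ᵥ v) = 0 := by
  obtain ⟨c, hc⟩ := isConj_iff.mp h
  have hcQ := (mem_isometryGroup_iff Q (c : GL ι F)).mp c.2
  have hcs := gen_semiconj Q hc
  intro v
  have hv : ((c : GL ι F) : Matrix ι ι F) *ᵥ ((((c : GL ι F)⁻¹ : GL ι F) : Matrix ι ι F) *ᵥ v) = v := by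
    rw [Matrix.mulVec_mulVec, ← Units.val_mul, mul_inv_cancel, Units.val_one, Matrix.one_mulVec]
  obtain ⟨w, rfl⟩ : ∃ w, ((c : GL ι F) : Matrix ι ι F) *ᵥ w = v := ⟨_, hv⟩
  have h1 : ((s : GL ι F) : Matrix ι ι F) *ᵥ (((c : GL ι F) : Matrix ι ι F) *ᵥ w) =
      ((c : GL ι F) : Matrix ι ι F) *ᵥ (((t : GL ι F) : Matrix ι ι F) *ᵥ w) := by
    rw [Matrix.mulVec_mulVec, ← hcs, ← Matrix.mulVec_mulVec]
  rw [h1]
  unfold QuadraticMap.polar
  rw [← Matrix.mulVec_add, hcQ, hcQ, hcQ]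
  exact ht w

theorem sub_one_sq [CharP F 2] {T : Matrix ι ι F} (hT : T * T = 1) : (T - 1) * (T - 1) = 0 := by
  rw [Matrix.sub_mul, Matrix.mul_sub, Matrix.mul_sub, hT, Matrix.mul_one, Matrix.one_mul,
    Matrix.mul_one]
  ext i j
  simp only [Matrix.sub_apply, Matrix.zero_apply]
  linear_combination ((1 : Matrix ι ι F) i j - T i j) * (CharTwo.two_eq_zero (R := F))

theorem gen_constraints [Fintype F] [CharP F 2] (Qf : QuadraticForm F (ι → F))
    (hQ : (QuadraticMap.polarBilin Qf).Nondegenerate) (t : ↥(Cfsg.isometryGroup F ⇑Qf))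
    (ht : orderOf t = 2) :
    1 ≤ (((t : GL ι F) : Matrix ι ι F) - 1).rank ∧
    2 * (((t : GL ι F) : Matrix ι ι F) - 1).rank ≤ Fintype.card ι ∧
    ((∀ v, QuadraticMap.polar ⇑Qf v (((t : GL ι F) : Matrix ι ι F) *ᵥ v) = 0) →
      ∃ j, (((t : GL ι F) : Matrix ι ι F) - 1).rank = 2 * j) := by
  have hA2 := gsq_of_order _ t ht
  refine ⟨?_, ?_, ?_⟩
  · by_contra h
    have h0 : urk ((t : GL ι F) : Matrix ι ι F) 1 = 0 := by
      unfold urk
      rw [pow_one]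
      omega
    have h1 := pow_eq_zero_of_urk _ 1 h0
    rw [pow_one] at h1
    have h2 : ((t : GL ι F) : Matrix ι ι F) = 1 := sub_eq_zero.mp h1
    have h3 : t = 1 := Subtype.ext (Units.ext h2)
    rw [h3, orderOf_one] at ht
    omega
  · have h1 := Matrix.rank_add_rank_le_card_of_mul_eq_zero (sub_one_sq hA2)
    omega
  · intro halt
    have hS := gsetup Qf hQ
    have htA := ginvIso Qf t ht
    obtain ⟨k, hk⟩ := NF_alt hS htA (by
      intro v
      rw [QuadraticMap.polarBilin_apply_apply, Matrix.toLin'_apply]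
      exact halt v)
    have h := NF_rank (Gs_nondeg k) hk
    rw [grank_eq, Fintype.card_sum, Fintype.card_fin] at h
    exact ⟨k, by omega⟩

end Generic

section Count

theorem card_fiber {F V : Type*} [Field F] [Finite F] [AddCommGroup V] [Module F V] [Finite V]
    (φ : V →ₗ[F] F) (hφ : φ ≠ 0) (c : F) :
    Nat.card F * Nat.card {u : V // φ u = c} = Nat.card V := by
  have hex : ∃ u₁, φ u₁ = 1 := by
    by_contra h
    apply hφ
    apply LinearMap.ext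
    intro u
    by_contra hu
    have hu' : φ u ≠ 0 := fun h0 => hu (by rw [h0]; rfl)
    apply h
    refine ⟨(φ u)⁻¹ • u, ?_⟩
    rw [map_smul, smul_eq_mul, inv_mul_cancel₀ hu']
  obtain ⟨u₁, hu₁⟩ := hex
  rw [← Nat.card_prod]
  apply Nat.card_congr
  exact {
    toFun := fun p => p.2.1 + (p.1 - c) • u₁
    invFun := fun v => (φ v, ⟨v - (φ v - c) • u₁, by
      rw [map_sub, map_smul, hu₁, smul_eq_mul, mul_one]
      ring⟩)
    left_inv := by
      rintro ⟨d, u, hu⟩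
      have h1 : φ (u + (d - c) • u₁) = d := by
        rw [map_add, map_smul, hu₁, hu, smul_eq_mul, mul_one]
        ring
      apply Prod.ext
      · exact h1
      · apply Subtype.ext
        show u + (d - c) • u₁ - (φ (u + (d - c) • u₁) - c) • u₁ = u
        rw [h1]
        abel
    right_inv := by
      intro v
      show v - (φ v - c) • u₁ + (φ v - c) • u₁ = v
      abel }

variable {F : Type*} [Field F] {ι : Type} [Fintype ι] [DecidableEq ι]

/-- Counting the zeros of a quadratic form in characteristic two admitting an involution of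
alternating type whose commutator space is half-dimensional. -/
theorem zero_count_of_alt [Fintype F] [CharP F 2] (Qf : QuadraticForm F (ι → F))
    (hQ : (QuadraticMap.polarBilin Qf).Nondegenerate) (T : Matrix ι ι F) (hT2 : T * T = 1)
    (hTQ : ∀ u, Qf (T *ᵥ u) = Qf u)
    (halt : ∀ v, QuadraticMap.polar ⇑Qf v (T *ᵥ v) = 0) (r : ℕ)
    (hcard : Fintype.card ι = 2 * r) (hrank : (T - 1).rank = r) :
    Fintype.card F * Nat.card {x : ι → F // Qf x = 0} + Fintype.card F ^ r =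
      Fintype.card F ^ (r + 1) + Fintype.card F ^ (2 * r) := by
  classical
  have h2 : (2 : F) = 0 := CharTwo.two_eq_zero
  generalize hq : Fintype.card F = q
  have hq1 : 1 ≤ q := by
    rw [← hq]
    exact Fintype.card_pos
  have hV : Nat.card (ι → F) = q ^ (2 * r) := by
    rw [Nat.card_eq_fintype_card, Fintype.card_fun, hcard, hq]
  have hN : ∀ u : ι → F, (T - 1) *ᵥ u = T *ᵥ u + u := by
    intro u
    rw [Matrix.sub_mulVec, Matrix.one_mulVec]
    funext i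
    simp only [Pi.sub_apply, Pi.add_apply]
    exact CharTwo.sub_eq_add _ _
  have hNN : (T - 1) * (T - 1) = 0 := sub_one_sq hT2
  have hTT : ∀ u : ι → F, T *ᵥ (T *ᵥ u) = u := fun u => by
    rw [Matrix.mulVec_mulVec, hT2, Matrix.one_mulVec]
  have hiso : ∀ x y : ι → F,
      QuadraticMap.polar ⇑Qf (T *ᵥ x) (T *ᵥ y) = QuadraticMap.polar ⇑Qf x y := by
    intro x y
    unfold QuadraticMap.polar
    rw [← Matrix.mulVec_add, hTQ, hTQ, hTQ]
  have hQN : ∀ u, Qf ((T - 1) *ᵥ u) = 0 := by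
    intro u
    rw [hN, QuadraticMap.map_add (⇑Qf), hTQ, QuadraticMap.polar_comm, halt]
    linear_combination Qf u * h2
  have hadj : ∀ x u, QuadraticMap.polar ⇑Qf x ((T - 1) *ᵥ u) =
      QuadraticMap.polar ⇑Qf ((T - 1) *ᵥ x) u := by
    intro x u
    rw [hN, hN, QuadraticMap.polar_add_right, QuadraticMap.polar_add_left]
    congr 1
    rw [← hiso x (T *ᵥ u), hTT]
  have key : ∀ x u, Qf (x + (T - 1) *ᵥ u) = Qf x + QuadraticMap.polar ⇑Qf ((T - 1) *ᵥ x) u := by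
    intro x u
    rw [QuadraticMap.map_add (⇑Qf), hQN, add_zero, hadj]
  have hrn := LinearMap.finrank_range_add_finrank_ker (Matrix.toLin' (T - 1))
  rw [Module.finrank_fintype_fun_eq_card, hcard] at hrn
  have hrr : Module.finrank F (LinearMap.range (Matrix.toLin' (T - 1))) = r := hrank
  have hkr : Module.finrank F (LinearMap.ker (Matrix.toLin' (T - 1))) = r := by omega
  have hle : LinearMap.range (Matrix.toLin' (T - 1)) ≤ LinearMap.ker (Matrix.toLin' (T - 1)) := by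
    rintro _ ⟨u, rfl⟩
    rw [LinearMap.mem_ker, Matrix.toLin'_apply, Matrix.toLin'_apply, Matrix.mulVec_mulVec, hNN,
      Matrix.zero_mulVec]
  have heq : LinearMap.range (Matrix.toLin' (T - 1)) = LinearMap.ker (Matrix.toLin' (T - 1)) :=
    Submodule.eq_of_le_of_finrank_eq hle (by rw [hrr, hkr])
  have hker0 : ∀ x : ι → F, (T - 1) *ᵥ x = 0 → Qf x = 0 := by
    intro x hx
    have hmem : x ∈ LinearMap.range (Matrix.toLin' (T - 1)) := by
      rw [heq, LinearMap.mem_ker, Matrix.toLin'_apply]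
      exact hx
    obtain ⟨u, rfl⟩ := hmem
    rw [Matrix.toLin'_apply]
    exact hQN u
  have hn0 : Nat.card {x : ι → F // (T - 1) *ᵥ x = 0} = q ^ r := by
    have e : {x : ι → F // (T - 1) *ᵥ x = 0} ≃ ↥(LinearMap.ker (Matrix.toLin' (T - 1))) :=
      Equiv.subtypeEquivRight (fun x => by rw [LinearMap.mem_ker, Matrix.toLin'_apply])
    rw [Nat.card_congr e, Module.natCard_eq_pow_finrank (K := F), hkr, Nat.card_eq_fintype_card,
      hq]
  have c1 : Nat.card {p : (ι → F) × (ι → F) // Qf (p.1 + (T - 1) *ᵥ p.2) = 0} =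
      Nat.card {x : ι → F // Qf x = 0} * q ^ (2 * r) := by
    rw [← hV, ← Nat.card_prod]
    apply Nat.card_congr
    exact {
      toFun := fun p => (⟨p.1.1 + (T - 1) *ᵥ p.1.2, p.2⟩, p.1.2)
      invFun := fun p => ⟨(p.1.1 - (T - 1) *ᵥ p.2, p.2), by
        show Qf (p.1.1 - (T - 1) *ᵥ p.2 + (T - 1) *ᵥ p.2) = 0
        rw [sub_add_cancel]
        exact p.1.2⟩
      left_inv := by
        rintro ⟨⟨x, u⟩, h⟩
        apply Subtype.ext
        show (x + (T - 1) *ᵥ u - (T - 1) *ᵥ u, u) = (x, u)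
        rw [add_sub_cancel_right]
      right_inv := by
        rintro ⟨⟨x, h⟩, u⟩
        apply Prod.ext
        · apply Subtype.ext
          show x - (T - 1) *ᵥ u + (T - 1) *ᵥ u = x
          rw [sub_add_cancel]
        · rfl }
  have c2 : Nat.card {p : (ι → F) × (ι → F) // Qf (p.1 + (T - 1) *ᵥ p.2) = 0} =
      ∑ x : ι → F, Nat.card {u : ι → F // Qf (x + (T - 1) *ᵥ u) = 0} := by
    rw [Nat.card_congr (Equiv.subtypeProdEquivSigmaSubtype
      (fun (x u : ι → F) => Qf (x + (T - 1) *ᵥ u) = 0)), Nat.card_sigma]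
  have c3 : ∀ x : ι → F, q * Nat.card {u : ι → F // Qf (x + (T - 1) *ᵥ u) = 0} =
      if (T - 1) *ᵥ x = 0 then q * q ^ (2 * r) else q ^ (2 * r) := by
    intro x
    by_cases hx : (T - 1) *ᵥ x = 0
    · rw [if_pos hx]
      congr 1
      rw [← hV]
      apply Nat.card_congr
      apply Equiv.subtypeUnivEquiv
      intro u
      rw [key, hx, hker0 x hx, zero_add]
      simp [QuadraticMap.polar]
    · rw [if_neg hx]
      have hφ : (QuadraticMap.polarBilin Qf) ((T - 1) *ᵥ x) ≠ 0 := by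
        intro h0
        apply hx
        apply hQ.1
        intro y
        rw [h0]
        rfl
      have h1 := card_fiber ((QuadraticMap.polarBilin Qf) ((T - 1) *ᵥ x)) hφ (Qf x)
      rw [hV, Nat.card_eq_fintype_card, hq] at h1
      rw [← h1]
      congr 1
      apply Nat.card_congr
      apply Equiv.subtypeEquivRight
      intro u
      rw [key, QuadraticMap.polarBilin_apply_apply]
      constructor
      · intro h
        linear_combination h - Qf x * h2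
      · intro h
        rw [h]
        linear_combination Qf x * h2
  have c4 : q * ∑ x : ι → F, Nat.card {u : ι → F // Qf (x + (T - 1) *ᵥ u) = 0} =
      q ^ r * (q * q ^ (2 * r)) + (q ^ (2 * r) - q ^ r) * q ^ (2 * r) := by
    have hf1 : (Finset.univ.filter (fun x : ι → F => (T - 1) *ᵥ x = 0)).card = q ^ r := by
      rw [← hn0, Nat.card_eq_fintype_card, Fintype.card_subtype]
    have hf2 : (Finset.univ.filter (fun x : ι → F => ¬ (T - 1) *ᵥ x = 0)).card =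
        q ^ (2 * r) - q ^ r := by
      have := Finset.card_filter_add_card_filter_not
        (s := (Finset.univ : Finset (ι → F))) (fun x : ι → F => (T - 1) *ᵥ x = 0)
      rw [hf1, Finset.card_univ, Fintype.card_fun, hcard, hq] at this
      omega
    rw [Finset.mul_sum, Finset.sum_congr rfl (fun x _ => c3 x), Finset.sum_ite, Finset.sum_const,
      Finset.sum_const, smul_eq_mul, smul_eq_mul, hf1, hf2]
  have hpow : q ^ r ≤ q ^ (2 * r) := Nat.pow_le_pow_right hq1 (by omega)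
  have hVpos : 0 < q ^ (2 * r) := Nat.pow_pos hq1
  have hfin : q ^ (2 * r) * (q * Nat.card {x : ι → F // Qf x = 0}) =
      q ^ (2 * r) * (q ^ r * q + (q ^ (2 * r) - q ^ r)) := by
    have h5 := c4
    rw [← c2, c1] at h5
    calc q ^ (2 * r) * (q * Nat.card {x : ι → F // Qf x = 0})
        = q * (Nat.card {x : ι → F // Qf x = 0} * q ^ (2 * r)) := by ring
      _ = q ^ r * (q * q ^ (2 * r)) + (q ^ (2 * r) - q ^ r) * q ^ (2 * r) := h5
      _ = q ^ (2 * r) * (q ^ r * q + (q ^ (2 * r) - q ^ r)) := by ring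
  have h6 := Nat.eq_of_mul_eq_mul_left hVpos hfin
  rw [pow_succ]
  omega

end Count

section Minus

variable {F : Type*} [Field F] {k : ℕ}

theorem minus_elim (a b : F) (u : Fin k ⊕ Fin k → F) (z : Fin 2 → F) :
    Cfsg.quadFormMinus k F a b (Sum.elim u z) =
      Cfsg.quadFormPlus k F u + (z 0 ^ 2 + a * z 0 * z 1 + b * z 1 ^ 2) := rfl

theorem polar_minus_elim (a b : F) (u u' : Fin k ⊕ Fin k → F) (z z' : Fin 2 → F) :
    QuadraticMap.polar (Cfsg.quadFormMinus k F a b) (Sum.elim u z) (Sum.elim u' z') =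
      QuadraticMap.polar (Cfsg.quadFormPlus k F) u u' +
        (((z + z') 0 ^ 2 + a * (z + z') 0 * (z + z') 1 + b * (z + z') 1 ^ 2) -
          (z 0 ^ 2 + a * z 0 * z 1 + b * z 1 ^ 2) -
          (z' 0 ^ 2 + a * z' 0 * z' 1 + b * z' 1 ^ 2)) := by
  have h : (Sum.elim u z + Sum.elim u' z' : (Fin k ⊕ Fin k) ⊕ Fin 2 → F) =
      Sum.elim (u + u') (z + z') := by
    funext i
    rcases i with i | i <;> rfl
  unfold QuadraticMap.polar
  rw [h, minus_elim, minus_elim, minus_elim]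
  ring

theorem blocks_mulVec (A : Matrix (Fin k ⊕ Fin k) (Fin k ⊕ Fin k) F)
    (R : Matrix (Fin 2) (Fin 2) F) (u : Fin k ⊕ Fin k → F) (z : Fin 2 → F) :
    Matrix.fromBlocks A 0 0 R *ᵥ (Sum.elim u z) = Sum.elim (A *ᵥ u) (R *ᵥ z) := by
  rw [Matrix.fromBlocks_mulVec]
  simp

/-- Block embedding of `O⁺_2k` and the isometries of the anisotropic plane in `O⁻_(2k+2)`. -/
def mkO (a b : F) (A : ↥(Cfsg.isometryGroup F (Cfsg.quadFormPlus k F)))
    (R : Matrix (Fin 2) (Fin 2) F) (hRR : R * R = 1)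
    (hR : ∀ z : Fin 2 → F, (R *ᵥ z) 0 ^ 2 + a * (R *ᵥ z) 0 * (R *ᵥ z) 1 + b * (R *ᵥ z) 1 ^ 2 =
      z 0 ^ 2 + a * z 0 * z 1 + b * z 1 ^ 2) :
    ↥(Cfsg.isometryGroup F (Cfsg.quadFormMinus k F a b)) :=
  ⟨⟨Matrix.fromBlocks ((A : GL (Fin k ⊕ Fin k) F) : Matrix (Fin k ⊕ Fin k) (Fin k ⊕ Fin k) F) 0 0 R,
      Matrix.fromBlocks (((A : GL (Fin k ⊕ Fin k) F)⁻¹ : GL (Fin k ⊕ Fin k) F) :
        Matrix (Fin k ⊕ Fin k) (Fin k ⊕ Fin k) F) 0 0 R,
      by
        rw [Matrix.fromBlocks_multiply, ← Units.val_mul, mul_inv_cancel, hRR]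
        simp [Matrix.fromBlocks_one],
      by
        rw [Matrix.fromBlocks_multiply, ← Units.val_mul, inv_mul_cancel, hRR]
        simp [Matrix.fromBlocks_one]⟩,
    (mem_isometryGroup_iff _ _).mpr (fun v => by
      show Cfsg.quadFormMinus k F a b (Matrix.fromBlocks
        ((A : GL (Fin k ⊕ Fin k) F) : Matrix (Fin k ⊕ Fin k) (Fin k ⊕ Fin k) F) 0 0 R *ᵥ v) = _
      conv_lhs => rw [← Sum.elim_comp_inl_inr v, blocks_mulVec, minus_elim]
      conv_rhs => rw [← Sum.elim_comp_inl_inr v, minus_elim]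
      rw [(mem_isometryGroup_iff _ _).mp A.2, hR])⟩

theorem mkO_coe (a b : F) (A : ↥(Cfsg.isometryGroup F (Cfsg.quadFormPlus k F)))
    (R : Matrix (Fin 2) (Fin 2) F) (hRR : R * R = 1)
    (hR : ∀ z : Fin 2 → F, (R *ᵥ z) 0 ^ 2 + a * (R *ᵥ z) 0 * (R *ᵥ z) 1 + b * (R *ᵥ z) 1 ^ 2 =
      z 0 ^ 2 + a * z 0 * z 1 + b * z 1 ^ 2) :
    ((mkO a b A R hRR hR : GL ((Fin k ⊕ Fin k) ⊕ Fin 2) F) :
      Matrix ((Fin k ⊕ Fin k) ⊕ Fin 2) ((Fin k ⊕ Fin k) ⊕ Fin 2) F) =
    Matrix.fromBlocks ((A : GL (Fin k ⊕ Fin k) F) : Matrix (Fin k ⊕ Fin k) (Fin k ⊕ Fin k) F)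
      0 0 R := rfl

theorem mkO_rank (a b : F) (A : ↥(Cfsg.isometryGroup F (Cfsg.quadFormPlus k F)))
    (R : Matrix (Fin 2) (Fin 2) F) (hRR : R * R = 1)
    (hR : ∀ z : Fin 2 → F, (R *ᵥ z) 0 ^ 2 + a * (R *ᵥ z) 0 * (R *ᵥ z) 1 + b * (R *ᵥ z) 1 ^ 2 =
      z 0 ^ 2 + a * z 0 * z 1 + b * z 1 ^ 2) :
    (((mkO a b A R hRR hR : GL ((Fin k ⊕ Fin k) ⊕ Fin 2) F) :
      Matrix ((Fin k ⊕ Fin k) ⊕ Fin 2) ((Fin k ⊕ Fin k) ⊕ Fin 2) F) - 1).rank =
    (((A : GL (Fin k ⊕ Fin k) F) : Matrix (Fin k ⊕ Fin k) (Fin k ⊕ Fin k) F) - 1).rank +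
      (R - 1).rank := by
  rw [mkO_coe]
  have h : Matrix.fromBlocks
      ((A : GL (Fin k ⊕ Fin k) F) : Matrix (Fin k ⊕ Fin k) (Fin k ⊕ Fin k) F) 0 0 R - 1 =
      Matrix.fromBlocks
        (((A : GL (Fin k ⊕ Fin k) F) : Matrix (Fin k ⊕ Fin k) (Fin k ⊕ Fin k) F) - 1) 0 0
        (R - 1) := by
    ext (i | i) (j | j) <;> simp [Matrix.one_apply]
  rw [h, rank_blocks]

theorem mkO_sq (a b : F) (A : ↥(Cfsg.isometryGroup F (Cfsg.quadFormPlus k F)))
    (R : Matrix (Fin 2) (Fin 2) F) (hRR : R * R = 1)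
    (hR : ∀ z : Fin 2 → F, (R *ᵥ z) 0 ^ 2 + a * (R *ᵥ z) 0 * (R *ᵥ z) 1 + b * (R *ᵥ z) 1 ^ 2 =
      z 0 ^ 2 + a * z 0 * z 1 + b * z 1 ^ 2)
    (hA : ((A : GL (Fin k ⊕ Fin k) F) : Matrix (Fin k ⊕ Fin k) (Fin k ⊕ Fin k) F) *
      ((A : GL (Fin k ⊕ Fin k) F) : Matrix (Fin k ⊕ Fin k) (Fin k ⊕ Fin k) F) = 1) :
    ((mkO a b A R hRR hR : GL ((Fin k ⊕ Fin k) ⊕ Fin 2) F) :
      Matrix ((Fin k ⊕ Fin k) ⊕ Fin 2) ((Fin k ⊕ Fin k) ⊕ Fin 2) F) *
    ((mkO a b A R hRR hR : GL ((Fin k ⊕ Fin k) ⊕ Fin 2) F) :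
      Matrix ((Fin k ⊕ Fin k) ⊕ Fin 2) ((Fin k ⊕ Fin k) ⊕ Fin 2) F) = 1 := by
  rw [mkO_coe, Matrix.fromBlocks_multiply, hA, hRR]
  simp [Matrix.fromBlocks_one]

/-- The involution of the anisotropic plane. -/
def R0 (a : F) : Matrix (Fin 2) (Fin 2) F := !![1, a; 0, 1]

theorem R0_sq [CharP F 2] (a : F) : R0 a * R0 a = 1 := by
  have h : a + a = 0 := CharTwo.add_self_eq_zero a
  ext i j
  fin_cases i <;> fin_cases j <;> simp [R0, Matrix.mul_apply, Fin.sum_univ_two, h]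

theorem R0_mulVec (a : F) (z : Fin 2 → F) :
    (R0 a *ᵥ z) 0 = z 0 + a * z 1 ∧ (R0 a *ᵥ z) 1 = z 1 := by
  constructor <;> simp [R0, Matrix.mulVec, dotProduct, Fin.sum_univ_two]

theorem R0_pres [CharP F 2] (a b : F) (z : Fin 2 → F) :
    (R0 a *ᵥ z) 0 ^ 2 + a * (R0 a *ᵥ z) 0 * (R0 a *ᵥ z) 1 + b * (R0 a *ᵥ z) 1 ^ 2 =
      z 0 ^ 2 + a * z 0 * z 1 + b * z 1 ^ 2 := by
  have h2 : (2 : F) = 0 := CharTwo.two_eq_zero
  rw [(R0_mulVec a z).1, (R0_mulVec a z).2]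
  linear_combination (a * z 0 * z 1 + a ^ 2 * z 1 ^ 2) * h2

theorem R0_rank [CharP F 2] (a : F) (ha : a ≠ 0) : (R0 a - 1).rank = 1 := by
  have h1 := Matrix.rank_add_rank_le_card_of_mul_eq_zero (sub_one_sq (R0_sq a))
  rw [Fintype.card_fin] at h1
  have h3 : (R0 a - 1).rank ≠ 0 := by
    intro h0
    have h4 : urk (R0 a) 1 = 0 := by
      unfold urk
      rw [pow_one]
      exact h0
    have h5 := pow_eq_zero_of_urk _ 1 h4
    rw [pow_one] at h5
    have h6 := congrFun (congrFun h5 0) 1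
    simp [R0] at h6
    exact ha h6
  omega

theorem one_pres (a b : F) (z : Fin 2 → F) :
    ((1 : Matrix (Fin 2) (Fin 2) F) *ᵥ z) 0 ^ 2 +
        a * ((1 : Matrix (Fin 2) (Fin 2) F) *ᵥ z) 0 * ((1 : Matrix (Fin 2) (Fin 2) F) *ᵥ z) 1 +
        b * ((1 : Matrix (Fin 2) (Fin 2) F) *ᵥ z) 1 ^ 2 =
      z 0 ^ 2 + a * z 0 * z 1 + b * z 1 ^ 2 := by
  rw [Matrix.one_mulVec]

theorem mkO_alt [CharP F 2] (a b : F) (A : ↥(Cfsg.isometryGroup F (Cfsg.quadFormPlus k F)))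
    (hA : ∀ u, Cfsg.sympForm k F u
      (((A : GL (Fin k ⊕ Fin k) F) : Matrix (Fin k ⊕ Fin k) (Fin k ⊕ Fin k) F) *ᵥ u) = 0)
    (v : (Fin k ⊕ Fin k) ⊕ Fin 2 → F) :
    QuadraticMap.polar (Cfsg.quadFormMinus k F a b) v
      (((mkO a b A 1 (one_mul 1) (one_pres a b) : GL ((Fin k ⊕ Fin k) ⊕ Fin 2) F) :
        Matrix ((Fin k ⊕ Fin k) ⊕ Fin 2) ((Fin k ⊕ Fin k) ⊕ Fin 2) F) *ᵥ v) = 0 := by
  have h2 : (2 : F) = 0 := CharTwo.two_eq_zero
  rw [mkO_coe]
  conv_lhs => rw [← Sum.elim_comp_inl_inr v, blocks_mulVec, polar_minus_elim, Matrix.one_mulVec]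
  have h1 : QuadraticMap.polar (Cfsg.quadFormPlus k F) (v ∘ Sum.inl)
      (((A : GL (Fin k ⊕ Fin k) F) : Matrix (Fin k ⊕ Fin k) (Fin k ⊕ Fin k) F) *ᵥ
        (v ∘ Sum.inl)) = 0 := by
    unfold QuadraticMap.polar
    rw [polar_eq_symp]
    exact hA _
  rw [h1]
  simp only [Pi.add_apply]
  linear_combination (2 * (v ∘ Sum.inr) 0 ^ 2 + 2 * a * (v ∘ Sum.inr) 0 * (v ∘ Sum.inr) 1 +
    2 * b * (v ∘ Sum.inr) 1 ^ 2 - ((v ∘ Sum.inr) 0 ^ 2 + a * (v ∘ Sum.inr) 0 * (v ∘ Sum.inr) 1 +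
    b * (v ∘ Sum.inr) 1 ^ 2)) * h2

theorem mkO_nonalt [CharP F 2] (a b : F) (ha : a ≠ 0)
    (A : ↥(Cfsg.isometryGroup F (Cfsg.quadFormPlus k F))) :
    ¬ ∀ v, QuadraticMap.polar (Cfsg.quadFormMinus k F a b) v
      (((mkO a b A (R0 a) (R0_sq a) (R0_pres a b) : GL ((Fin k ⊕ Fin k) ⊕ Fin 2) F) :
        Matrix ((Fin k ⊕ Fin k) ⊕ Fin 2) ((Fin k ⊕ Fin k) ⊕ Fin 2) F) *ᵥ v) = 0 := by
  have h2 : (2 : F) = 0 := CharTwo.two_eq_zero
  intro h
  have h1 := h (Sum.elim 0 ![0, 1])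
  rw [mkO_coe, blocks_mulVec, polar_minus_elim, Matrix.mulVec_zero] at h1
  have h3 : QuadraticMap.polar (Cfsg.quadFormPlus k F) 0 0 = 0 := by
    unfold QuadraticMap.polar
    rw [add_zero]
    simp [Cfsg.quadFormPlus]
  rw [h3] at h1
  simp only [Pi.add_apply, (R0_mulVec a ![0, 1]).1, (R0_mulVec a ![0, 1]).2] at h1
  simp at h1
  apply ha
  have h4 : a * a = 0 := by linear_combination h1 - b * h2
  exact mul_self_eq_zero.mp h4

theorem a_ne_zero [Finite F] [CharP F 2] (a b : F)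
    (hab : ∀ z₁ z₂ : F, z₁ ^ 2 + a * z₁ * z₂ + b * z₂ ^ 2 = 0 → z₁ = 0 ∧ z₂ = 0) : a ≠ 0 := by
  have h2 : (2 : F) = 0 := CharTwo.two_eq_zero
  rintro rfl
  obtain ⟨c, hc⟩ := FiniteField.isSquare_of_char_two (ringChar.eq F 2) b
  have := hab c 1 (by rw [hc]; linear_combination (c * c) * h2)
  exact one_ne_zero this.2

/-- An involution of alternating type in `O⁻_2m` has commutator space of dimension less
than `m`. -/
theorem minus_alt_rank_ne [Fintype F] [CharP F 2] {m : ℕ} (hm : 1 ≤ m) (a b : F)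
    (hab : ∀ z₁ z₂ : F, z₁ ^ 2 + a * z₁ * z₂ + b * z₂ ^ 2 = 0 → z₁ = 0 ∧ z₂ = 0)
    (t : ↥(Cfsg.isometryGroup F (Cfsg.quadFormMinus (m - 1) F a b))) (ht : orderOf t = 2)
    (halt : ∀ v, QuadraticMap.polar (Cfsg.quadFormMinus (m - 1) F a b) v
      (((t : GL ((Fin (m - 1) ⊕ Fin (m - 1)) ⊕ Fin 2) F) :
        Matrix ((Fin (m - 1) ⊕ Fin (m - 1)) ⊕ Fin 2) ((Fin (m - 1) ⊕ Fin (m - 1)) ⊕ Fin 2) F) *ᵥ
          v) = 0) :
    (((t : GL ((Fin (m - 1) ⊕ Fin (m - 1)) ⊕ Fin 2) F) :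
        Matrix ((Fin (m - 1) ⊕ Fin (m - 1)) ⊕ Fin 2) ((Fin (m - 1) ⊕ Fin (m - 1)) ⊕ Fin 2) F) -
          1).rank ≠ m := by
  intro hr
  have hZ := Cfsg.Agent.S0290.result (F := F) rfl m hm a b hab
  have hc := zero_count_of_alt (qMinus (m - 1) F a b) (qMinus_nondeg_two (m - 1) F a b hab) _
    (gsq_of_order _ t ht) ((mem_isometryGroup_iff _ _).mp t.2) halt m
    (by simp only [Fintype.card_sum, Fintype.card_fin]; omega) hr
  have hZ' : Nat.card {x : (Fin (m - 1) ⊕ Fin (m - 1)) ⊕ Fin 2 → F // (qMinus (m - 1) F a b) x = 0} =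
      Fintype.card F ^ (2 * m - 1) + Fintype.card F ^ (m - 1) - Fintype.card F ^ m := hZ
  rw [hZ'] at hc
  have hq : 2 ≤ Fintype.card F := Fintype.one_lt_card
  generalize Fintype.card F = q at hc hq
  have hA : 0 < q ^ m := Nat.pow_pos (by omega)
  have hC : q ^ (m + 1) = q * q ^ m := by rw [pow_succ]; ring
  have hB : q ^ (2 * m) = q * q ^ (2 * m - 1) := by
    rw [← pow_succ']
    congr 1
    omega
  have hE : q ^ m = q * q ^ (m - 1) := by
    rw [← pow_succ']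
    congr 1
    omega
  have hD : q ^ m ≤ q ^ (2 * m - 1) := Nat.pow_le_pow_right (by omega) (by omega)
  have h1 : q * (q ^ (2 * m - 1) + q ^ (m - 1) - q ^ m) + q * q ^ m =
      q * q ^ (2 * m - 1) + q * q ^ (m - 1) := by
    rw [← Nat.mul_add, ← Nat.mul_add]
    congr 1
    omega
  have h2 : 2 * q ^ m ≤ q * q ^ m := Nat.mul_le_mul_right _ hq
  rw [← hC, ← hB, ← hE] at h1
  rw [hC] at hc h1
  omega

end Minus

end Cfsg.Agent.Lib.Helper15.OMinus
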