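import Cfsg.Agent.Lib.Helper15.SpInvolD
import Cfsg.Agent.Lib.Helper15.OrthInvol
import Cfsg.Agent.Lib.Helper15.OrthForms2

set_option autoImplicit false

namespace Cfsg.Agent.Lib.Helper15.OPlus

open Matrix Cfsg.Agent.Lib.Helper15.SpInvol Cfsg.Agent.Lib.Helper15.OrthInvol
  Cfsg.Agent.Lib.Helper15.OrthForms2

variable {F : Type*} [Field F] {m : ℕ}

theorem form_elim (x y x' y' : Fin m → F) :
    Cfsg.sympForm m F (Sum.elim x y) (Sum.elim x' y') = y ⬝ᵥ x' - x ⬝ᵥ y' := by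
  unfold Cfsg.sympForm Matrix.J
  rw [Matrix.fromBlocks_mulVec, sumElim_dotProduct_sumElim]
  simp only [Sum.elim_comp_inl, Sum.elim_comp_inr, Matrix.zero_mulVec, Matrix.one_mulVec,
    Matrix.neg_mulVec, zero_add, add_zero, dotProduct_neg]
  ring

theorem plus_elim (x y : Fin m → F) :
    Cfsg.quadFormPlus m F (Sum.elim x y) = ∑ i, x i * y i := rfl

/-- In characteristic two the polar form of the hyperbolic form is the symplectic form. -/
theorem polar_eq_symp [CharP F 2] (u v : Fin m ⊕ Fin m → F) :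
    Cfsg.quadFormPlus m F (u + v) - Cfsg.quadFormPlus m F u - Cfsg.quadFormPlus m F v =
      Cfsg.sympForm m F u v := by
  have h := polar_plus m F u v
  unfold QuadraticMap.polar at h
  rw [h]
  conv_rhs => rw [← Sum.elim_comp_inl_inr u, ← Sum.elim_comp_inl_inr v, form_elim]
  unfold dotProduct
  rw [← Finset.sum_sub_distrib]
  apply Finset.sum_congr rfl
  intro i _
  simp only [Function.comp_apply]
  linear_combination (u (Sum.inl i) * v (Sum.inr i)) * CharTwo.two_eq_zero (R := F)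

/-- An isometry of the hyperbolic form is symplectic (characteristic two). -/
theorem mem_symp_of_mem_O [CharP F 2] (g : GL (Fin m ⊕ Fin m) F)
    (hg : g ∈ Cfsg.isometryGroup F (Cfsg.quadFormPlus m F)) :
    (g : Matrix (Fin m ⊕ Fin m) (Fin m ⊕ Fin m) F) ∈ Matrix.symplecticGroup (Fin m) F := by
  have hQ := (mem_isometryGroup_iff _ g).mp hg
  have h := mem_symp_of_isometry (Matrix.toLin' (g : Matrix (Fin m ⊕ Fin m) (Fin m ⊕ Fin m) F))
    (fun u v => by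
      rw [Matrix.toLin'_apply, Matrix.toLin'_apply, ← polar_eq_symp, ← polar_eq_symp,
        ← Matrix.mulVec_add, hQ, hQ, hQ])
  rwa [LinearMap.toMatrix'_toLin'] at h

/-- The inclusion of the orthogonal group into the symplectic group. -/
def toSp [CharP F 2] : ↥(Cfsg.isometryGroup F (Cfsg.quadFormPlus m F)) →*
    ↥(Matrix.symplecticGroup (Fin m) F) where
  toFun t := ⟨((t : GL (Fin m ⊕ Fin m) F) : Matrix (Fin m ⊕ Fin m) (Fin m ⊕ Fin m) F),
    mem_symp_of_mem_O _ t.2⟩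
  map_one' := rfl
  map_mul' _ _ := rfl

theorem toSp_coe [CharP F 2] (t : ↥(Cfsg.isometryGroup F (Cfsg.quadFormPlus m F))) :
    ((toSp t : ↥(Matrix.symplecticGroup (Fin m) F)) : Matrix (Fin m ⊕ Fin m) (Fin m ⊕ Fin m) F) =
      ((t : GL (Fin m ⊕ Fin m) F) : Matrix (Fin m ⊕ Fin m) (Fin m ⊕ Fin m) F) := rfl

theorem sq_of_order (t : ↥(Cfsg.isometryGroup F (Cfsg.quadFormPlus m F))) (ht : orderOf t = 2) :
    ((t : GL (Fin m ⊕ Fin m) F) : Matrix (Fin m ⊕ Fin m) (Fin m ⊕ Fin m) F) *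
      ((t : GL (Fin m ⊕ Fin m) F) : Matrix (Fin m ⊕ Fin m) (Fin m ⊕ Fin m) F) = 1 := by
  have h1 : t ^ 2 = 1 := by rw [← ht]; exact pow_orderOf_eq_one t
  have h2 := congrArg (fun y : ↥(Cfsg.isometryGroup F (Cfsg.quadFormPlus m F)) =>
    ((y : GL (Fin m ⊕ Fin m) F) : Matrix (Fin m ⊕ Fin m) (Fin m ⊕ Fin m) F)) h1
  simpa [pow_two] using h2

/-- Involutions of `O⁺` in characteristic two with the same rank and type are conjugate. -/
theorem conj_of_inv_O [Fintype F] [CharP F 2]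
    (t s : ↥(Cfsg.isometryGroup F (Cfsg.quadFormPlus m F))) (ht : orderOf t = 2)
    (hs : orderOf s = 2)
    (hrank : (((t : GL (Fin m ⊕ Fin m) F) : Matrix (Fin m ⊕ Fin m) (Fin m ⊕ Fin m) F) - 1).rank =
      (((s : GL (Fin m ⊕ Fin m) F) : Matrix (Fin m ⊕ Fin m) (Fin m ⊕ Fin m) F) - 1).rank)
    (htype : (∀ v, Cfsg.sympForm m F v
        (((t : GL (Fin m ⊕ Fin m) F) : Matrix (Fin m ⊕ Fin m) (Fin m ⊕ Fin m) F) *ᵥ v) = 0) ↔
      (∀ v, Cfsg.sympForm m F v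
        (((s : GL (Fin m ⊕ Fin m) F) : Matrix (Fin m ⊕ Fin m) (Fin m ⊕ Fin m) F) *ᵥ v) = 0)) :
    IsConj t s := by
  have hc : IsConj (toSp t) (toSp s) :=
    conj_of_inv (sq_of_order t ht) (sq_of_order s hs) hrank htype
  obtain ⟨C, C', hC, hCC', hC'C, hB⟩ := conj_data hc
  let g : GL (Fin m ⊕ Fin m) F := ⟨C, C', hCC', hC'C⟩
  apply (orth_matrix_conj (qPlus m F) (qPlus_nondeg m F) t s ht hs).mpr
  refine ⟨g, ?_, ?_⟩
  · intro u v
    show Cfsg.quadFormPlus m F (C *ᵥ u + C *ᵥ v) - Cfsg.quadFormPlus m F (C *ᵥ u) -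
      Cfsg.quadFormPlus m F (C *ᵥ v) =
      Cfsg.quadFormPlus m F (u + v) - Cfsg.quadFormPlus m F u - Cfsg.quadFormPlus m F v
    rw [polar_eq_symp, polar_eq_symp, form_invariant C hC]
  · rw [mul_inv_eq_iff_eq_mul]
    apply Units.ext
    show C * ((t : GL (Fin m ⊕ Fin m) F) : Matrix (Fin m ⊕ Fin m) (Fin m ⊕ Fin m) F) =
      ((s : GL (Fin m ⊕ Fin m) F) : Matrix (Fin m ⊕ Fin m) (Fin m ⊕ Fin m) F) * C
    have hB' : ((s : GL (Fin m ⊕ Fin m) F) : Matrix (Fin m ⊕ Fin m) (Fin m ⊕ Fin m) F) =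
        C * ((t : GL (Fin m ⊕ Fin m) F) : Matrix (Fin m ⊕ Fin m) (Fin m ⊕ Fin m) F) * C' := hB
    rw [hB', Matrix.mul_assoc, Matrix.mul_assoc, hC'C, Matrix.mul_one]

/-- The swap matrix exchanging the coordinates `x_i` and `y_i` for `i < s`. -/
def Wm (F : Type*) [Field F] (m s : ℕ) : Matrix (Fin m ⊕ Fin m) (Fin m ⊕ Fin m) F :=
  Matrix.fromBlocks (Matrix.diagonal (fun i => 1 - dd F m s i)) (Matrix.diagonal (dd F m s))
    (Matrix.diagonal (dd F m s)) (Matrix.diagonal (fun i => 1 - dd F m s i))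

theorem Wm_mulVec (s : ℕ) (x y : Fin m → F) :
    Wm F m s *ᵥ (Sum.elim x y) = Sum.elim (fun i : Fin m => if (i : ℕ) < s then y i else x i)
      (fun i : Fin m => if (i : ℕ) < s then x i else y i) := by
  unfold Wm
  rw [Matrix.fromBlocks_mulVec]
  simp only [Sum.elim_comp_inl, Sum.elim_comp_inr]
  congr 1 <;> funext i <;> simp only [Pi.add_apply, Matrix.mulVec_diagonal, dd] <;>
    split_ifs <;> ring

theorem Wm_sq (s : ℕ) : Wm F m s * Wm F m s = 1 := by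
  apply Matrix.toLin'.injective
  apply LinearMap.ext
  intro v
  rw [Matrix.toLin'_mul, LinearMap.comp_apply, Matrix.toLin'_apply, Matrix.toLin'_apply,
    Matrix.toLin'_one, LinearMap.id_apply]
  conv_lhs => rw [← Sum.elim_comp_inl_inr v, Wm_mulVec, Wm_mulVec]
  conv_rhs => rw [← Sum.elim_comp_inl_inr v]
  congr 1 <;> funext i <;> simp only [Function.comp_apply] <;> split_ifs <;> rfl

theorem Wm_Q (s : ℕ) (v : Fin m ⊕ Fin m → F) :
    Cfsg.quadFormPlus m F (Wm F m s *ᵥ v) = Cfsg.quadFormPlus m F v := by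
  conv_lhs => rw [← Sum.elim_comp_inl_inr v, Wm_mulVec, plus_elim]
  conv_rhs => rw [← Sum.elim_comp_inl_inr v, plus_elim]
  apply Finset.sum_congr rfl
  intro i _
  simp only [Function.comp_apply]
  split_ifs <;> ring

theorem Wm_rank [DecidableEq F] (s : ℕ) (hs : s ≤ m) : (Wm F m s - 1).rank = s := by
  have hD : (Matrix.diagonal (dd F m s)).rank = s := by
    rw [Matrix.rank_diagonal, card_lt s hs (dd F m s) (dd_ne s)]
  apply le_antisymm
  · have h1 : Wm F m s - 1 =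
        (Matrix.fromRows (-1 : Matrix (Fin m) (Fin m) F) (1 : Matrix (Fin m) (Fin m) F) *
          Matrix.diagonal (dd F m s)) *
          Matrix.fromCols (1 : Matrix (Fin m) (Fin m) F) (-1 : Matrix (Fin m) (Fin m) F) := by
      rw [Matrix.fromRows_mul, Matrix.fromRows_mul_fromCols]
      unfold Wm
      ext (i | i) (j | j) <;> simp [Matrix.one_apply, Matrix.diagonal_apply] <;>
        split_ifs <;> simp_all
    have h3 := (Matrix.rank_mul_le_left (Matrix.fromRows (-1 : Matrix (Fin m) (Fin m) F)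
      (1 : Matrix (Fin m) (Fin m) F) * Matrix.diagonal (dd F m s))
      (Matrix.fromCols (1 : Matrix (Fin m) (Fin m) F) (-1 : Matrix (Fin m) (Fin m) F))).trans
      (Matrix.rank_mul_le_right _ _)
    rw [hD, ← h1] at h3
    exact h3
  · have h2 : Matrix.diagonal (dd F m s) = (Wm F m s - 1).submatrix Sum.inr Sum.inl := by
      ext i j
      simp [Wm]
    have h3 := Matrix.rank_submatrix_le (Wm F m s - 1) (Sum.inr : Fin m → Fin m ⊕ Fin m)
      (Sum.inl : Fin m → Fin m ⊕ Fin m)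
    rw [← h2, hD] at h3
    exact h3

theorem Wm_nonalt (s : ℕ) (hs1 : 1 ≤ s) (hs : s ≤ m) :
    ¬ ∀ v, Cfsg.sympForm m F v (Wm F m s *ᵥ v) = 0 := by
  classical
  intro h
  have hm : 0 < m := by omega
  have h1 := h (Sum.elim (Pi.single ⟨0, hm⟩ 1) 0)
  rw [Wm_mulVec, form_elim, zero_dotProduct, zero_sub, single_one_dotProduct] at h1
  simp only [Pi.single_eq_same] at h1
  rw [if_pos (by show 0 < s; omega)] at h1
  simp at h1

/-- The swap as an element of the orthogonal group. -/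
def wO (F : Type*) [Field F] (m s : ℕ) : ↥(Cfsg.isometryGroup F (Cfsg.quadFormPlus m F)) :=
  ⟨⟨Wm F m s, Wm F m s, Wm_sq s, Wm_sq s⟩, (mem_isometryGroup_iff _ _).mpr (fun v => Wm_Q s v)⟩

theorem TS_Q [CharP F 2] (S : Matrix (Fin m) (Fin m) F) (hS : ∀ i j, S i j = S j i)
    (hd : ∀ i, S i i = 0) (v : Fin m ⊕ Fin m → F) :
    Cfsg.quadFormPlus m F (TS S *ᵥ v) = Cfsg.quadFormPlus m F v := by
  have h1 : TS S *ᵥ v = Sum.elim (v ∘ Sum.inl + S *ᵥ (v ∘ Sum.inr)) (v ∘ Sum.inr) := by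
    unfold TS
    rw [Matrix.fromBlocks_mulVec]
    simp
  rw [h1, plus_elim]
  conv_rhs => rw [← Sum.elim_comp_inl_inr v, plus_elim]
  have h2 := dot_alt S hS hd (v ∘ Sum.inr)
  unfold dotProduct at h2
  simp only [Pi.add_apply, add_mul, Finset.sum_add_distrib]
  have h3 : ∑ i, (S *ᵥ (v ∘ Sum.inr)) i * (v ∘ Sum.inr) i = 0 := by
    rw [← h2]
    exact Finset.sum_congr rfl (fun i _ => mul_comm _ _)
  rw [h3, add_zero]

/-- The alternating representative as an element of the orthogonal group. -/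
def aO (F : Type*) [Field F] [CharP F 2] (m k : ℕ) (hk : 2 * k ≤ m) :
    ↥(Cfsg.isometryGroup F (Cfsg.quadFormPlus m F)) :=
  ⟨⟨TS (SMat (pairSwap k hk) (dd F m (2 * k))), TS (SMat (pairSwap k hk) (dd F m (2 * k))),
      TS_sq _, TS_sq _⟩,
    (mem_isometryGroup_iff _ _).mpr (fun v => TS_Q _
      (SMat_symm _ _ (pairSwap_invol k hk) (fun i => by
        unfold dd
        simp only [pairSwap_lt]))
      (fun i => by
        unfold SMat
        by_cases h : pairSwap k hk i = i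
        · rw [if_pos h]
          unfold dd
          rw [if_neg]
          intro hi
          exact pairSwap_ne k hk i hi h
        · rw [if_neg h]) v)⟩

theorem aO_coe [CharP F 2] (k : ℕ) (hk : 2 * k ≤ m) :
    ((aO F m k hk : GL (Fin m ⊕ Fin m) F) : Matrix (Fin m ⊕ Fin m) (Fin m ⊕ Fin m) F) =
      ((tA F m k hk : ↥(Matrix.symplecticGroup (Fin m) F)) :
        Matrix (Fin m ⊕ Fin m) (Fin m ⊕ Fin m) F) := rfl

theorem wO_coe (s : ℕ) :
    ((wO F m s : GL (Fin m ⊕ Fin m) F) : Matrix (Fin m ⊕ Fin m) (Fin m ⊕ Fin m) F) = Wm F m s := rfl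

theorem order_two_of (t : ↥(Cfsg.isometryGroup F (Cfsg.quadFormPlus m F)))
    (h2 : ((t : GL (Fin m ⊕ Fin m) F) : Matrix (Fin m ⊕ Fin m) (Fin m ⊕ Fin m) F) *
      ((t : GL (Fin m ⊕ Fin m) F) : Matrix (Fin m ⊕ Fin m) (Fin m ⊕ Fin m) F) = 1)
    (hr : (((t : GL (Fin m ⊕ Fin m) F) : Matrix (Fin m ⊕ Fin m) (Fin m ⊕ Fin m) F) - 1).rank ≠ 0) :
    orderOf t = 2 := by
  apply orderOf_eq_prime
  · apply Subtype.ext
    apply Units.ext
    rw [pow_two]
    exact h2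
  · intro h
    have h1 : ((t : GL (Fin m ⊕ Fin m) F) : Matrix (Fin m ⊕ Fin m) (Fin m ⊕ Fin m) F) = 1 := by
      rw [h]
      rfl
    rw [h1, sub_self, Matrix.rank_zero] at hr
    exact hr rfl

theorem wO_rank [DecidableEq F] (s : ℕ) (hs : s ≤ m) :
    (((wO F m s : GL (Fin m ⊕ Fin m) F) : Matrix (Fin m ⊕ Fin m) (Fin m ⊕ Fin m) F) - 1).rank = s :=
  Wm_rank s hs

theorem wO_nonalt (s : ℕ) (hs1 : 1 ≤ s) (hs : s ≤ m) :
    ¬ ∀ v, Cfsg.sympForm m F v
      (((wO F m s : GL (Fin m ⊕ Fin m) F) : Matrix (Fin m ⊕ Fin m) (Fin m ⊕ Fin m) F) *ᵥ v) = 0 :=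
  Wm_nonalt s hs1 hs

theorem aO_rank [CharP F 2] (k : ℕ) (hk : 2 * k ≤ m) :
    (((aO F m k hk : GL (Fin m ⊕ Fin m) F) : Matrix (Fin m ⊕ Fin m) (Fin m ⊕ Fin m) F) - 1).rank
      = 2 * k :=
  tA_rank k hk

theorem aO_alt [CharP F 2] (k : ℕ) (hk : 2 * k ≤ m) (v : Fin m ⊕ Fin m → F) :
    Cfsg.sympForm m F v
      (((aO F m k hk : GL (Fin m ⊕ Fin m) F) : Matrix (Fin m ⊕ Fin m) (Fin m ⊕ Fin m) F) *ᵥ v) = 0 :=
  tA_alt k hk v

theorem wO_order (s : ℕ) (hs1 : 1 ≤ s) (hs : s ≤ m) : orderOf (wO F m s) = 2 := by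
  classical
  refine order_two_of (wO F m s) (Wm_sq s) ?_
  rw [wO_rank s hs]
  omega

theorem aO_order [CharP F 2] (k : ℕ) (hk1 : 1 ≤ k) (hk : 2 * k ≤ m) :
    orderOf (aO F m k hk) = 2 := by
  refine order_two_of (aO F m k hk) (TS_sq _) ?_
  rw [aO_rank k hk]
  omega

theorem O_conj_rank [CharP F 2] {t s : ↥(Cfsg.isometryGroup F (Cfsg.quadFormPlus m F))}
    (h : IsConj t s) :
    (((t : GL (Fin m ⊕ Fin m) F) : Matrix (Fin m ⊕ Fin m) (Fin m ⊕ Fin m) F) - 1).rank =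
      (((s : GL (Fin m ⊕ Fin m) F) : Matrix (Fin m ⊕ Fin m) (Fin m ⊕ Fin m) F) - 1).rank := by
  have h1 : IsConj (toSp t) (toSp s) := (toSp (F := F) (m := m)).map_isConj h
  have h2 := conj_rank h1
  rw [toSp_coe, toSp_coe] at h2
  exact h2

theorem O_conj_alt [CharP F 2] {t s : ↥(Cfsg.isometryGroup F (Cfsg.quadFormPlus m F))}
    (h : IsConj t s)
    (ht : ∀ v, Cfsg.sympForm m F v
      (((t : GL (Fin m ⊕ Fin m) F) : Matrix (Fin m ⊕ Fin m) (Fin m ⊕ Fin m) F) *ᵥ v) = 0) :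
    ∀ v, Cfsg.sympForm m F v
      (((s : GL (Fin m ⊕ Fin m) F) : Matrix (Fin m ⊕ Fin m) (Fin m ⊕ Fin m) F) *ᵥ v) = 0 := by
  have h1 : IsConj (toSp t) (toSp s) := (toSp (F := F) (m := m)).map_isConj h
  have h2 := conj_alt h1 (by
    intro v
    rw [toSp_coe]
    exact ht v)
  intro v
  have h3 := h2 v
  rw [toSp_coe] at h3
  exact h3

theorem O_constraints [CharP F 2] (a : ↥(Cfsg.isometryGroup F (Cfsg.quadFormPlus m F)))
    (ha : orderOf a = 2) :
    1 ≤ (((a : GL (Fin m ⊕ Fin m) F) : Matrix (Fin m ⊕ Fin m) (Fin m ⊕ Fin m) F) - 1).rank ∧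
    (((a : GL (Fin m ⊕ Fin m) F) : Matrix (Fin m ⊕ Fin m) (Fin m ⊕ Fin m) F) - 1).rank ≤ m ∧
    ((∀ v, Cfsg.sympForm m F v
      (((a : GL (Fin m ⊕ Fin m) F) : Matrix (Fin m ⊕ Fin m) (Fin m ⊕ Fin m) F) *ᵥ v) = 0) →
      ∃ k, (((a : GL (Fin m ⊕ Fin m) F) : Matrix (Fin m ⊕ Fin m) (Fin m ⊕ Fin m) F) - 1).rank
        = 2 * k) := by
  have hA2 := sq_of_order a ha
  have hAmem := mem_symp_of_mem_O _ a.2
  have hne : ((a : GL (Fin m ⊕ Fin m) F) : Matrix (Fin m ⊕ Fin m) (Fin m ⊕ Fin m) F) ≠ 1 := by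
    intro h
    have ha1 : a = 1 := Subtype.ext (Units.ext h)
    rw [ha1, orderOf_one] at ha
    omega
  exact ⟨rank_pos_of_ne hne, rank_le_of_sq hA2, fun halt => alt_rank_even hAmem hA2 halt⟩

end Cfsg.Agent.Lib.Helper15.OPlus
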