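import Mathlib

set_option autoImplicit false

namespace Cfsg.Agent.Lib.Helper15.ParabCount

open Matrix

variable {F : Type*} [Field F] {ι : Type*} [Fintype ι] [DecidableEq ι] {N : ℕ}

/-- The block-triangular matrix with prescribed diagonal blocks and prescribed entries above
the blocks. -/
def assemble (b : ι → Fin N) (D : ∀ a : Fin N, GL {i // b i = a} F)
    (u : {p : ι × ι // b p.1 < b p.2} → F) : Matrix ι ι F :=
  Matrix.of fun i j =>
    if h : b i = b j then (Units.val (D (b i)) : Matrix {i' // b i' = b i} {i' // b i' = b i} F) ⟨i, rfl⟩ ⟨j, h.symm⟩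
    else if h' : b i < b j then u ⟨(i, j), h'⟩ else 0

theorem assemble_blockTriangular (b : ι → Fin N) (D : ∀ a : Fin N, GL {i // b i = a} F)
    (u : {p : ι × ι // b p.1 < b p.2} → F) : (assemble b D u).BlockTriangular b := by
  intro i j hij
  unfold assemble
  simp only [Matrix.of_apply]
  rw [dif_neg (ne_of_gt hij), dif_neg (not_lt.mpr hij.le)]

theorem assemble_block (b : ι → Fin N) (D : ∀ a : Fin N, GL {i // b i = a} F)
    (u : {p : ι × ι // b p.1 < b p.2} → F) (a : Fin N) :
    (assemble b D u).toSquareBlock b a = (Units.val (D a) : Matrix {i // b i = a} {i // b i = a} F) := by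
  ext ⟨i, hi⟩ ⟨j, hj⟩
  subst hi
  rw [Matrix.toSquareBlock_def]
  simp only [Matrix.of_apply, assemble]
  rw [dif_pos hj.symm]

theorem assemble_det (b : ι → Fin N) (D : ∀ a : Fin N, GL {i // b i = a} F)
    (u : {p : ι × ι // b p.1 < b p.2} → F) : IsUnit (assemble b D u).det := by
  rw [(assemble_blockTriangular b D u).det_fintype]
  simp only [assemble_block]
  rw [IsUnit.prod_iff]
  intro a _
  exact (Matrix.isUnit_iff_isUnit_det _).mp (D a).isUnit

/-- Counting invertible block-triangular matrices. -/
theorem card_blockTriangular [Fintype F] (b : ι → Fin N) :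
    Nat.card {M : Matrix ι ι F // M.BlockTriangular b ∧ IsUnit M.det} =
      (∏ a : Fin N, Nat.card (GL {i // b i = a} F)) *
        Fintype.card F ^ Fintype.card {p : ι × ι // b p.1 < b p.2} := by
  classical
  have h1 : Nat.card ((∀ a : Fin N, GL {i // b i = a} F) × ({p : ι × ι // b p.1 < b p.2} → F)) =
      (∏ a : Fin N, Nat.card (GL {i // b i = a} F)) *
        Fintype.card F ^ Fintype.card {p : ι × ι // b p.1 < b p.2} := by
    rw [Nat.card_prod, Nat.card_pi, Nat.card_eq_fintype_card (α := _ → F), Fintype.card_fun]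
  rw [← h1]
  symm
  refine Nat.card_eq_of_bijective
    (fun x : (∀ a : Fin N, GL {i // b i = a} F) × ({p : ι × ι // b p.1 < b p.2} → F) =>
      (⟨assemble b x.1 x.2, assemble_blockTriangular b x.1 x.2, assemble_det b x.1 x.2⟩ :
        {M : Matrix ι ι F // M.BlockTriangular b ∧ IsUnit M.det})) ⟨?_, ?_⟩
  · rintro ⟨D, u⟩ ⟨D', u'⟩ h
    have hM : assemble b D u = assemble b D' u' := congrArg Subtype.val h
    refine Prod.ext ?_ ?_
    · funext a
      apply Units.ext
      rw [← assemble_block b D u a, ← assemble_block b D' u' a, hM]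
    · funext ⟨⟨i, j⟩, hp⟩
      have := congrFun (congrFun hM i) j
      simp only [assemble, Matrix.of_apply] at this
      have hne : ¬ b i = b j := ne_of_lt hp
      rw [dif_neg hne, dif_neg hne, dif_pos hp, dif_pos hp] at this
      exact this
  · rintro ⟨M, hM, hdet⟩
    rw [hM.det_fintype, IsUnit.prod_iff] at hdet
    refine ⟨(fun a => ((Matrix.isUnit_iff_isUnit_det _).mpr (hdet a (Finset.mem_univ a))).unit,
      fun p => M p.1.1 p.1.2), ?_⟩
    apply Subtype.ext
    ext i j
    simp only [assemble, Matrix.of_apply]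
    by_cases h : b i = b j
    · rw [dif_pos h]
      rfl
    · rw [dif_neg h]
      by_cases h' : b i < b j
      · rw [dif_pos h']
      · rw [dif_neg h']
        exact (hM (lt_of_le_of_ne (not_lt.mp h') (Ne.symm h))).symm

end Cfsg.Agent.Lib.Helper15.ParabCount
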