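import Cfsg.Agent.Lib.Helper15.ParabCountA
import Cfsg.Agent.Lib.Helper15.NilCountD

set_option autoImplicit false

namespace Cfsg.Agent.Lib.Helper15.ParabCount

open Matrix

/-- The `q`-factorial `[1][2]⋯[k]`. -/
def qf (q k : ℕ) : ℕ := ∏ j ∈ Finset.range k, ∑ l ∈ Finset.range (j + 1), q ^ l

/-- Triangular numbers. -/
def tri (k : ℕ) : ℕ := ∑ i ∈ Finset.range k, i

theorem tri_succ (k : ℕ) : tri (k + 1) = tri k + k := by
  unfold tri
  rw [Finset.sum_range_succ]

theorem two_tri (k : ℕ) : 2 * tri k + k = k * k := by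
  induction k with
  | zero => simp [tri]
  | succ k ih => rw [tri_succ]; nlinarith

theorem qf_succ (q k : ℕ) : qf q (k + 1) = qf q k * ∑ l ∈ Finset.range (k + 1), q ^ l := by
  unfold qf
  rw [Finset.prod_range_succ]

theorem geom_nat (q : ℕ) (hq : 1 ≤ q) (n : ℕ) :
    (q - 1) * ∑ l ∈ Finset.range n, q ^ l + 1 = q ^ n := by
  induction n with
  | zero => simp
  | succ n ih =>
    rw [Finset.sum_range_succ, mul_add, pow_succ]
    obtain ⟨r, rfl⟩ : ∃ r, q = r + 1 := ⟨q - 1, by omega⟩
    simp only [Nat.add_sub_cancel] at ih ⊢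
    nlinarith

theorem card_GL_formula {F : Type*} [Field F] [Fintype F] (k : ℕ) :
    Nat.card (GL (Fin k) F) =
      Fintype.card F ^ tri k * (Fintype.card F - 1) ^ k * qf (Fintype.card F) k := by
  have hq : 1 < Fintype.card F := Fintype.one_lt_card
  induction k with
  | zero => simp [tri, qf, Nat.card_eq_fintype_card]
  | succ k ih =>
    rw [NilCount.card_GL_succ, ih, tri_succ, qf_succ]
    have h1 := geom_nat (Fintype.card F) hq.le (k + 1)
    have h2 : Fintype.card F ^ (k + 1) - 1 =
        (Fintype.card F - 1) * ∑ l ∈ Finset.range (k + 1), Fintype.card F ^ l := by omega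
    rw [h2, pow_add, pow_succ]
    ring

theorem card_GL_formula' {F : Type*} [Field F] [Fintype F] {ι : Type*} [Fintype ι] [DecidableEq ι] :
    Nat.card (GL ι F) =
      Fintype.card F ^ tri (Fintype.card ι) * (Fintype.card F - 1) ^ (Fintype.card ι) *
        qf (Fintype.card F) (Fintype.card ι) := by
  rw [NilCount.card_GL_congr (Fintype.equivFin ι), card_GL_formula]

variable {ι : Type*} [Fintype ι] {N : ℕ}

theorem sum_block_card (b : ι → Fin N) :
    ∑ a : Fin N, Fintype.card {i // b i = a} = Fintype.card ι := by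
  classical
  have h := Finset.card_eq_sum_card_fiberwise (s := (Finset.univ : Finset ι))
    (t := (Finset.univ : Finset (Fin N))) (f := b) (fun _ _ => Finset.mem_coe.mpr (Finset.mem_univ _))
  rw [Finset.card_univ] at h
  rw [h]
  apply Finset.sum_congr rfl
  intro a _
  rw [Fintype.card_subtype]

theorem sum_block_sq (b : ι → Fin N) :
    ∑ a : Fin N, Fintype.card {i // b i = a} * Fintype.card {i // b i = a} =
      Fintype.card {p : ι × ι // b p.1 = b p.2} := by
  classical
  rw [Fintype.card_subtype]
  have h := Finset.card_eq_sum_card_fiberwise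
    (s := (Finset.univ.filter (fun p : ι × ι => b p.1 = b p.2)))
    (t := (Finset.univ : Finset (Fin N))) (f := fun p => b p.1)
    (fun _ _ => Finset.mem_coe.mpr (Finset.mem_univ _))
  rw [h]
  apply Finset.sum_congr rfl
  intro a _
  rw [Fintype.card_subtype, ← Finset.card_product]
  congr 1
  ext ⟨i, j⟩
  simp only [Finset.mem_product, Finset.mem_filter, Finset.mem_univ, true_and]
  constructor
  · rintro ⟨h1, h2⟩
    exact ⟨h1.trans h2.symm, h1⟩
  · rintro ⟨h1, h2⟩
    exact ⟨h2, h1 ▸ h2⟩

theorem pairs_count (b : ι → Fin N) :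
    ∑ a : Fin N, tri (Fintype.card {i // b i = a}) + Fintype.card {p : ι × ι // b p.1 < b p.2} =
      tri (Fintype.card ι) := by
  classical
  have h1 : ∑ a : Fin N, (2 * tri (Fintype.card {i // b i = a}) + Fintype.card {i // b i = a}) =
      ∑ a : Fin N, Fintype.card {i // b i = a} * Fintype.card {i // b i = a} :=
    Finset.sum_congr rfl (fun a _ => two_tri _)
  rw [Finset.sum_add_distrib, ← Finset.mul_sum, sum_block_card, sum_block_sq] at h1
  have h2 := two_tri (Fintype.card ι)
  -- trichotomy on pairs
  have h3 : Fintype.card {p : ι × ι // b p.1 = b p.2} + Fintype.card {p : ι × ι // b p.1 < b p.2} +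
      Fintype.card {p : ι × ι // b p.2 < b p.1} = Fintype.card ι * Fintype.card ι := by
    rw [← Fintype.card_prod, Fintype.card_subtype, Fintype.card_subtype, Fintype.card_subtype,
      ← Finset.card_univ (α := ι × ι)]
    have e1 := Finset.card_filter_add_card_filter_not (s := (Finset.univ : Finset (ι × ι)))
      (p := fun p : ι × ι => b p.1 = b p.2)
    have e2 := Finset.card_filter_add_card_filter_not
      (s := (Finset.univ.filter (fun p : ι × ι => ¬ b p.1 = b p.2)))
      (p := fun p : ι × ι => b p.1 < b p.2)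
    rw [Finset.filter_filter, Finset.filter_filter] at e2
    have e3 : (Finset.univ.filter (fun p : ι × ι => ¬ b p.1 = b p.2 ∧ b p.1 < b p.2)) =
        Finset.univ.filter (fun p : ι × ι => b p.1 < b p.2) := by
      ext p
      simp only [Finset.mem_filter, Finset.mem_univ, true_and]
      exact ⟨fun h => h.2, fun h => ⟨ne_of_lt h, h⟩⟩
    have e4 : (Finset.univ.filter (fun p : ι × ι => ¬ b p.1 = b p.2 ∧ ¬ b p.1 < b p.2)) =
        Finset.univ.filter (fun p : ι × ι => b p.2 < b p.1) := by
      ext p
      simp only [Finset.mem_filter, Finset.mem_univ, true_and]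
      constructor
      · rintro ⟨h, h'⟩
        exact lt_of_le_of_ne (not_lt.mp h') (Ne.symm h)
      · intro h
        exact ⟨ne_of_gt h, not_lt.mpr h.le⟩
    rw [e3, e4] at e2
    omega
  have h4 : Fintype.card {p : ι × ι // b p.2 < b p.1} = Fintype.card {p : ι × ι // b p.1 < b p.2} := by
    apply Fintype.card_congr
    exact (Equiv.prodComm ι ι).subtypeEquiv (fun p => Iff.rfl)
  rw [h4] at h3
  omega

end Cfsg.Agent.Lib.Helper15.ParabCount
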