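import Cfsg.Agent.Lib.Helper15.ParabCountB

set_option autoImplicit false

namespace Cfsg.Agent.Lib.Helper15.ParabCount

open Matrix

/-- The index of a block-triangular subgroup of `GL`, in terms of `q`-factorials. -/
theorem index_blockTriangular {F : Type*} [Field F] [Fintype F] {ι : Type*} [Fintype ι]
    [DecidableEq ι] {N : ℕ} (b : ι → Fin N) (P : Subgroup (GL ι F))
    (hP : ∀ g : GL ι F, g ∈ P ↔ (g : Matrix ι ι F).BlockTriangular b) :
    P.index * ∏ a : Fin N, qf (Fintype.card F) (Fintype.card {i // b i = a}) =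
      qf (Fintype.card F) (Fintype.card ι) := by
  classical
  have hq : 1 < Fintype.card F := Fintype.one_lt_card
  have hcardP : Nat.card P = Nat.card {M : Matrix ι ι F // M.BlockTriangular b ∧ IsUnit M.det} := by
    refine Nat.card_eq_of_bijective
      (fun g : P => (⟨(g.1 : Matrix ι ι F), (hP g.1).mp g.2,
        (Matrix.isUnit_iff_isUnit_det _).mp g.1.isUnit⟩ :
          {M : Matrix ι ι F // M.BlockTriangular b ∧ IsUnit M.det})) ⟨?_, ?_⟩
    · intro g g' h
      have h1 : (g.1 : Matrix ι ι F) = (g'.1 : Matrix ι ι F) := congrArg Subtype.val h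
      exact Subtype.ext (Units.ext h1)
    · rintro ⟨M, hM, hdet⟩
      obtain ⟨u, hu⟩ := (Matrix.isUnit_iff_isUnit_det M).mpr hdet
      have hu' : (u : Matrix ι ι F) = M := hu
      refine ⟨⟨u, (hP u).mpr (by rw [hu']; exact hM)⟩, ?_⟩
      apply Subtype.ext
      exact hu'
  have h1 := Subgroup.index_mul_card P
  rw [hcardP, card_blockTriangular, card_GL_formula'] at h1
  have h2 : ∏ a : Fin N, Nat.card (GL {i // b i = a} F) =
      Fintype.card F ^ (∑ a : Fin N, tri (Fintype.card {i // b i = a})) *
        (Fintype.card F - 1) ^ (Fintype.card ι) *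
        ∏ a : Fin N, qf (Fintype.card F) (Fintype.card {i // b i = a}) := by
    rw [← sum_block_card b, ← Finset.prod_pow_eq_pow_sum, ← Finset.prod_pow_eq_pow_sum,
      ← Finset.prod_mul_distrib, ← Finset.prod_mul_distrib]
    apply Finset.prod_congr rfl
    intro a _
    exact card_GL_formula'
  rw [h2, ← pairs_count b, pow_add] at h1
  have hpos : 0 < Fintype.card F ^ (∑ a : Fin N, tri (Fintype.card {i // b i = a})) *
      Fintype.card F ^ Fintype.card {p : ι × ι // b p.1 < b p.2} *
      (Fintype.card F - 1) ^ (Fintype.card ι) := by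
    have : 0 < Fintype.card F - 1 := by omega
    positivity
  apply Nat.eq_of_mul_eq_mul_right hpos
  linear_combination h1

end Cfsg.Agent.Lib.Helper15.ParabCount
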