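import Cfsg.Agent.Lib.Helper15.ParabCountC
import Cfsg.Prelude

set_option autoImplicit false

namespace Cfsg.Agent.Lib.Helper15.ParabCount

open Matrix

/-- Partial sums of a composition. -/
def psum {n : ℕ} (μ : Fin n → ℕ) (j : ℕ) : ℕ :=
  ∑ k ∈ Finset.univ.filter (fun k : Fin n => k.val < j), μ k

theorem psum_zero {n : ℕ} (μ : Fin n → ℕ) : psum μ 0 = 0 := by
  unfold psum
  simp

theorem psum_succ {n : ℕ} (μ : Fin n → ℕ) (j : Fin n) :
    psum μ (j.val + 1) = psum μ j.val + μ j := by
  unfold psum
  have h : (Finset.univ.filter (fun k : Fin n => k.val < j.val + 1)) =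
      insert j (Finset.univ.filter (fun k : Fin n => k.val < j.val)) := by
    ext k
    simp only [Finset.mem_filter, Finset.mem_univ, true_and, Finset.mem_insert, Fin.ext_iff]
    omega
  rw [h, Finset.sum_insert (by simp), add_comm]

theorem psum_mono {n : ℕ} (μ : Fin n → ℕ) : Monotone (psum μ) := by
  intro j j' hjj'
  unfold psum
  apply Finset.sum_le_sum_of_subset
  intro k hk
  simp only [Finset.mem_filter, Finset.mem_univ, true_and] at hk ⊢
  omega

theorem psum_top {n : ℕ} (μ : Fin n → ℕ) : psum μ n = ∑ i, μ i := by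
  unfold psum
  congr 1
  ext k
  simp

theorem compLabel_eq {n : ℕ} (μ : Fin n → ℕ) (i : Fin n) :
    Cfsg.compLabel μ i =
      (Finset.univ.filter fun j : Fin n => psum μ (j.val + 1) ≤ i.val).card := by
  unfold Cfsg.compLabel psum
  congr 1
  ext j
  simp only [Finset.mem_filter, Finset.mem_univ, true_and]
  have : (Finset.univ.filter (fun k : Fin n => k ≤ j)) =
      (Finset.univ.filter (fun k : Fin n => k.val < j.val + 1)) := by
    ext k
    simp only [Finset.mem_filter, Finset.mem_univ, true_and, Fin.le_def]
    omega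
  rw [this]

/-- A down-closed set of `Fin n` is an initial segment. -/
theorem mem_downClosed {n : ℕ} (T : Finset (Fin n)) (hT : ∀ j ∈ T, ∀ j' : Fin n, j' ≤ j → j' ∈ T)
    (j : Fin n) : j ∈ T ↔ j.val < T.card := by
  constructor
  · intro hj
    have h1 : Finset.Iic j ⊆ T := by
      intro j' hj'
      exact hT j hj j' (Finset.mem_Iic.mp hj')
    have h2 := Finset.card_le_card h1
    rw [Fin.card_Iic] at h2
    omega
  · intro hj
    by_contra hn
    have h1 : T ⊆ Finset.Iio j := by
      intro j' hj'
      rw [Finset.mem_Iio]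
      by_contra hle
      exact hn (hT j' hj' j (not_lt.mp hle))
    have h2 := Finset.card_le_card h1
    rw [Fin.card_Iio] at h2
    omega

theorem compLabel_iff {n : ℕ} (μ : Fin n → ℕ) (i : Fin n) (a : Fin n) :
    Cfsg.compLabel μ i = a.val ↔ psum μ a.val ≤ i.val ∧ i.val < psum μ (a.val + 1) := by
  rw [compLabel_eq]
  set T := Finset.univ.filter fun j : Fin n => psum μ (j.val + 1) ≤ i.val with hTdef
  have hT : ∀ j ∈ T, ∀ j' : Fin n, j' ≤ j → j' ∈ T := by
    intro j hj j' hj'
    rw [hTdef, Finset.mem_filter] at hj ⊢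
    refine ⟨Finset.mem_univ _, le_trans (psum_mono μ ?_) hj.2⟩
    have : j'.val ≤ j.val := hj'
    omega
  have hmem : ∀ j : Fin n, psum μ (j.val + 1) ≤ i.val ↔ j.val < T.card := by
    intro j
    rw [← mem_downClosed T hT j, hTdef, Finset.mem_filter]
    simp
  constructor
  · intro hc
    constructor
    · rcases Nat.eq_zero_or_pos a.val with h0 | hpos
      · rw [h0, psum_zero]
        exact Nat.zero_le _
      · have hj := (hmem ⟨a.val - 1, by omega⟩).mpr (by simp only; omega)
        simp only at hj
        have e : a.val - 1 + 1 = a.val := by omega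
        rwa [e] at hj
    · by_contra hle
      have := (hmem a).mp (not_lt.mp hle)
      omega
  · rintro ⟨h1, h2⟩
    have hle : T.card ≤ a.val := by
      by_contra hlt
      have := (hmem a).mpr (not_le.mp hlt)
      omega
    rcases hle.lt_or_eq with hlt | heq
    · exfalso
      have hn : ¬ psum μ (T.card + 1) ≤ i.val := by
        intro h
        have := (hmem ⟨T.card, by omega⟩).mp h
        simp at this
      have : psum μ (T.card + 1) ≤ psum μ a.val := psum_mono μ (by omega)
      omega
    · exact heq

theorem compLabel_lt {n : ℕ} (μ : Fin n → ℕ) (hμ : ∑ i, μ i = n) (i : Fin n) :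
    Cfsg.compLabel μ i < n := by
  rw [compLabel_eq]
  set T := Finset.univ.filter fun j : Fin n => psum μ (j.val + 1) ≤ i.val with hTdef
  have hT : ∀ j ∈ T, ∀ j' : Fin n, j' ≤ j → j' ∈ T := by
    intro j hj j' hj'
    rw [hTdef, Finset.mem_filter] at hj ⊢
    refine ⟨Finset.mem_univ _, le_trans (psum_mono μ ?_) hj.2⟩
    have : j'.val ≤ j.val := hj'
    omega
  have hn : 0 < n := by
    have := i.2
    omega
  have hlast : (⟨n - 1, by omega⟩ : Fin n) ∉ T := by
    rw [hTdef, Finset.mem_filter]
    simp only [Finset.mem_univ, true_and, not_le]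
    have e : n - 1 + 1 = n := by omega
    rw [e, psum_top, hμ]
    exact i.2
  have := (mem_downClosed T hT ⟨n - 1, by omega⟩).not.mp hlast
  simp only at this
  omega

/-- The block sizes of the labelling are the parts of the composition. -/
theorem card_block {n : ℕ} (μ : Fin n → ℕ) (hμ : ∑ i, μ i = n) (a : Fin n) :
    Fintype.card {i : Fin n // Cfsg.compLabel μ i = a.val} = μ a := by
  classical
  rw [Fintype.card_subtype]
  have h1 : (Finset.univ.filter fun i : Fin n => Cfsg.compLabel μ i = a.val) =
      Finset.univ.filter fun i : Fin n => psum μ a.val ≤ i.val ∧ i.val < psum μ (a.val + 1) := by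
    ext i
    simp only [Finset.mem_filter, Finset.mem_univ, true_and]
    exact compLabel_iff μ i a
  rw [h1]
  have h2 : psum μ (a.val + 1) ≤ n := by
    have := psum_mono μ (show a.val + 1 ≤ n by have := a.2; omega)
    rw [psum_top, hμ] at this
    exact this
  have h3 : ((Finset.univ.filter fun i : Fin n =>
      psum μ a.val ≤ i.val ∧ i.val < psum μ (a.val + 1)).map Fin.valEmbedding) =
      Finset.Ico (psum μ a.val) (psum μ (a.val + 1)) := by
    ext x
    simp only [Finset.mem_map, Finset.mem_filter, Finset.mem_univ, true_and, Fin.valEmbedding_apply,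
      Finset.mem_Ico]
    constructor
    · rintro ⟨i, hi, rfl⟩
      exact hi
    · intro hx
      exact ⟨⟨x, by omega⟩, hx, rfl⟩
  have h4 := congrArg Finset.card h3
  rw [Finset.card_map, Nat.card_Ico] at h4
  have h5 := psum_succ μ a
  omega

end Cfsg.Agent.Lib.Helper15.ParabCount
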