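import Mathlib

set_option autoImplicit false

namespace Cfsg.Agent.Lib.Helper15

/-- The exponent of `p` in a list of (prime, exponent) pairs. -/
def expOf (L : List (ℕ × ℕ)) (p : ℕ) : ℕ := (L.map (fun x : ℕ × ℕ => if x.1 = p then x.2 else 0)).sum

theorem factorization_prod (L : List (ℕ × ℕ)) (hprime : ∀ x ∈ L, x.1.Prime) (p : ℕ) :
    ((L.map fun x : ℕ × ℕ => x.1 ^ x.2).prod).factorization p = expOf L p := by
  induction L with
  | nil => simp [expOf]
  | cons x L ih =>
    have hx : x.1.Prime := hprime x List.mem_cons_self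
    have hL : ∀ y ∈ L, y.1.Prime := fun y hy => hprime y (List.mem_cons_of_mem _ hy)
    have h1 : x.1 ^ x.2 ≠ 0 := pow_ne_zero _ hx.ne_zero
    have h2 : (L.map fun x : ℕ × ℕ => x.1 ^ x.2).prod ≠ 0 := by
      apply List.prod_ne_zero
      intro h0
      obtain ⟨y, hy, hy0⟩ := List.mem_map.mp h0
      exact pow_ne_zero _ (hL y hy).ne_zero hy0
    rw [List.map_cons, List.prod_cons, Nat.factorization_mul h1 h2, Finsupp.add_apply, ih hL,
      Nat.Prime.factorization_pow hx, Finsupp.single_apply]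
    simp [expOf]

theorem expOf_eq_zero (L : List (ℕ × ℕ)) (p : ℕ) (h : ∀ x ∈ L, x.1 ≠ p) : expOf L p = 0 := by
  induction L with
  | nil => simp [expOf]
  | cons x L ih =>
    have hx : x.1 ≠ p := h x List.mem_cons_self
    have hL : ∀ y ∈ L, y.1 ≠ p := fun y hy => h y (List.mem_cons_of_mem _ hy)
    have := ih hL
    simp only [expOf] at this ⊢
    simp [hx, this]

end Cfsg.Agent.Lib.Helper15
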