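import Mathlib

set_option autoImplicit false

namespace Cfsg.Agent.Lib.Helper15
namespace RepProj

open Module Matrix

variable {F : Type*} [Field F] [Fintype F] {ι : Type*} [Fintype ι] [DecidableEq ι]
  {K : Type*} [Field K] {V : Type*} [AddCommGroup V] [Module K V]

/-- The isotypic projection of a representation of the additive group of `ι → F`, for the
character `a ↦ ψ (a ⬝ᵥ w)`. -/
noncomputable def proj (ψ : AddChar F K) (T : (ι → F) → Module.End K V) (w : ι → F) :
    Module.End K V :=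
  ((Fintype.card (ι → F) : K)⁻¹) • ∑ a, ψ (-(a ⬝ᵥ w)) • T a

variable (ψ : AddChar F K) (T : (ι → F) → Module.End K V)

theorem sum_dot (hψ : ψ.IsPrimitive) (u : ι → F) [Decidable (u = 0)] :
    ∑ x : ι → F, ψ (x ⬝ᵥ u) = if u = 0 then (Fintype.card (ι → F) : K) else 0 := by
  by_cases hu : u = 0
  · subst hu
    simp
  · rw [if_neg hu]
    let φ : AddChar (ι → F) K :=
      { toFun := fun x => ψ (x ⬝ᵥ u)
        map_zero_eq_one' := by simp
        map_add_eq_mul' := by
          intro x y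
          rw [add_dotProduct, AddChar.map_add_eq_mul] }
    have hφ : φ ≠ 1 := by
      obtain ⟨j, hj⟩ : ∃ j, u j ≠ 0 := by
        by_contra hcon
        push Not at hcon
        exact hu (funext hcon)
      obtain ⟨c, hc⟩ := AddChar.ne_one_iff.1 (hψ hj)
      rw [AddChar.mulShift_apply] at hc
      rw [AddChar.ne_one_iff]
      refine ⟨Pi.single j c, ?_⟩
      show ψ (Pi.single j c ⬝ᵥ u) ≠ 1
      rw [single_dotProduct, mul_comm]
      exact hc
    exact AddChar.sum_eq_zero_of_ne_one hφ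

theorem T_mul_proj (hTadd : ∀ a a', T (a + a') = T a * T a') (a' w : ι → F) :
    T a' * proj ψ T w = ψ (a' ⬝ᵥ w) • proj ψ T w := by
  unfold proj
  rw [mul_smul_comm, Finset.mul_sum, smul_comm]
  congr 1
  rw [Finset.smul_sum]
  apply Fintype.sum_equiv (Equiv.addLeft a')
  intro a
  rw [mul_smul_comm, ← hTadd, Equiv.coe_addLeft, smul_smul]
  congr 1
  rw [← AddChar.map_add_eq_mul]
  congr 1
  rw [add_dotProduct]
  ring

theorem sum_proj (hN : (Fintype.card (ι → F) : K) ≠ 0) (hT0 : T 0 = 1) (hψ : ψ.IsPrimitive) :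
    ∑ w, proj ψ T w = 1 := by
  classical
  unfold proj
  rw [← Finset.smul_sum, Finset.sum_comm]
  have h1 : ∀ a : ι → F, ∑ w : ι → F, ψ (-(a ⬝ᵥ w)) • T a =
      (if a = 0 then (Fintype.card (ι → F) : K) else 0) • T a := by
    intro a
    rw [← Finset.sum_smul]
    have h2 : ∀ w : ι → F, ψ (-(a ⬝ᵥ w)) = ψ (w ⬝ᵥ (-a)) := by
      intro w
      rw [dotProduct_neg, dotProduct_comm]
    rw [Finset.sum_congr rfl (fun w _ => h2 w), sum_dot ψ hψ]
    simp only [neg_eq_zero]
  rw [Finset.sum_congr rfl (fun a _ => h1 a)]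
  simp only [ite_smul, zero_smul, Finset.sum_ite_eq', Finset.mem_univ, if_true]
  rw [hT0, smul_smul, inv_mul_cancel₀ hN, one_smul]

theorem proj_mul_proj (hN : (Fintype.card (ι → F) : K) ≠ 0)
    (hTadd : ∀ a a', T (a + a') = T a * T a') (hψ : ψ.IsPrimitive) (w w' : ι → F)
    [Decidable (w = w')] :
    proj ψ T w * proj ψ T w' = if w = w' then proj ψ T w' else 0 := by
  classical
  have h1 : proj ψ T w * proj ψ T w' =
      ((Fintype.card (ι → F) : K)⁻¹) • ∑ a, ψ (-(a ⬝ᵥ w)) • (T a * proj ψ T w') := by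
    conv_lhs => rw [proj]
    rw [smul_mul_assoc, Finset.sum_mul]
    simp only [smul_mul_assoc]
  rw [h1]
  have h3 : ∀ a : ι → F, ψ (-(a ⬝ᵥ w)) • (T a * proj ψ T w') =
      ψ (a ⬝ᵥ (w' - w)) • proj ψ T w' := by
    intro a
    rw [T_mul_proj ψ T hTadd, smul_smul, ← AddChar.map_add_eq_mul]
    congr 2
    rw [dotProduct_sub]
    ring
  rw [Finset.sum_congr rfl (fun a _ => h3 a), ← Finset.sum_smul, sum_dot ψ hψ]
  by_cases hww : w = w'
  · rw [if_pos (by rw [hww, sub_self]), if_pos hww, smul_smul, inv_mul_cancel₀ hN, one_smul]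
  · rw [if_neg (fun h => hww (sub_eq_zero.1 h).symm), if_neg hww, zero_smul, smul_zero]

theorem T_apply_of_mem (hTadd : ∀ a a', T (a + a') = T a * T a') (w a : ι → F) {v : V}
    (hv : v ∈ LinearMap.range (proj ψ T w)) : T a v = ψ (a ⬝ᵥ w) • v := by
  obtain ⟨u, rfl⟩ := hv
  exact congrArg (fun f : Module.End K V => f u) (T_mul_proj ψ T hTadd a w)

theorem conj_proj (g : Module.End K V) (π : (ι → F) ≃ (ι → F)) (π' : (ι → F) → (ι → F))
    (hπ : ∀ a w, π a ⬝ᵥ π' w = a ⬝ᵥ w) (hg : ∀ a, g * T a = T (π a) * g) (w : ι → F) :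
    g * proj ψ T w = proj ψ T (π' w) * g := by
  unfold proj
  rw [mul_smul_comm, smul_mul_assoc, Finset.mul_sum, Finset.sum_mul]
  congr 1
  apply Fintype.sum_equiv π
  intro a
  rw [mul_smul_comm, hg, smul_mul_assoc, hπ]

theorem proj_ne_zero_of_conj (g : Module.End K V) (hginj : Function.Injective g)
    (π : (ι → F) ≃ (ι → F)) (π' : (ι → F) → (ι → F))
    (hπ : ∀ a w, π a ⬝ᵥ π' w = a ⬝ᵥ w) (hg : ∀ a, g * T a = T (π a) * g) (w : ι → F)
    (hw : proj ψ T w ≠ 0) : proj ψ T (π' w) ≠ 0 := by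
  intro h
  have h1 := conj_proj ψ T g π π' hπ hg w
  rw [h, zero_mul] at h1
  apply hw
  ext v
  have h2 := congrArg (fun f : Module.End K V => f v) h1
  exact hginj (by simpa using h2)

theorem finrank_ge [FiniteDimensional K V] (hN : (Fintype.card (ι → F) : K) ≠ 0)
    (hTadd : ∀ a a', T (a + a') = T a * T a') (hψ : ψ.IsPrimitive) :
    ∑ w : ι → F, finrank K (LinearMap.range (proj ψ T w)) ≤ finrank K V := by
  classical
  let Φ : (∀ w : ι → F, LinearMap.range (proj ψ T w)) →ₗ[K] V :=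
    ∑ w : ι → F, (Submodule.subtype _).comp (LinearMap.proj w)
  have hΦ : ∀ x, Φ x = ∑ w : ι → F, ((x w : LinearMap.range (proj ψ T w)) : V) := by
    intro x
    simp [Φ, LinearMap.sum_apply]
  have hinj : Function.Injective Φ := by
    rw [injective_iff_map_eq_zero]
    intro x hx
    funext w
    apply Subtype.ext
    have h1 : proj ψ T w (Φ x) = (x w : V) := by
      rw [hΦ, map_sum]
      rw [Finset.sum_eq_single w]
      · obtain ⟨y, hy⟩ := (x w).2
        rw [← hy]
        have := congrArg (fun f : Module.End K V => f y)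
          (proj_mul_proj ψ T hN hTadd hψ w w)
        simpa using this
      · intro w' _ hw'
        obtain ⟨y, hy⟩ := (x w').2
        rw [← hy]
        have := congrArg (fun f : Module.End K V => f y)
          (proj_mul_proj ψ T hN hTadd hψ w w')
        simpa [hw'.symm] using this
      · intro h
        exact absurd (Finset.mem_univ w) h
    rw [hx, map_zero] at h1
    exact h1.symm
  have h3 := LinearMap.finrank_le_finrank_of_injective hinj
  rw [Module.finrank_pi_fintype] at h3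
  exact h3

/-- The number of characters occurring is at most the dimension. -/
theorem card_le [FiniteDimensional K V] (hN : (Fintype.card (ι → F) : K) ≠ 0)
    (hTadd : ∀ a a', T (a + a') = T a * T a') (hψ : ψ.IsPrimitive) (Λ : Finset (ι → F))
    (hΛ : ∀ w ∈ Λ, proj ψ T w ≠ 0) : Λ.card ≤ finrank K V := by
  classical
  have h1 : ∀ w ∈ Λ, 1 ≤ finrank K (LinearMap.range (proj ψ T w)) := by
    intro w hw
    have hne : LinearMap.range (proj ψ T w) ≠ ⊥ := by
      rw [Ne, LinearMap.range_eq_bot]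
      exact hΛ w hw
    have : Nontrivial (LinearMap.range (proj ψ T w)) := (Submodule.nontrivial_iff_ne_bot).2 hne
    exact Module.finrank_pos
  calc Λ.card = ∑ _w ∈ Λ, 1 := by simp
    _ ≤ ∑ w ∈ Λ, finrank K (LinearMap.range (proj ψ T w)) := Finset.sum_le_sum h1
    _ ≤ ∑ w : ι → F, finrank K (LinearMap.range (proj ψ T w)) :=
        Finset.sum_le_sum_of_subset (Finset.subset_univ Λ)
    _ ≤ finrank K V := finrank_ge ψ T hN hTadd hψ

theorem exists_proj_ne_zero (hN : (Fintype.card (ι → F) : K) ≠ 0) (hT0 : T 0 = 1)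
    (hTadd : ∀ a a', T (a + a') = T a * T a') (hψ : ψ.IsPrimitive) (a₀ : ι → F)
    (hne : T a₀ ≠ 1) : ∃ w : ι → F, ψ (a₀ ⬝ᵥ w) ≠ 1 ∧ proj ψ T w ≠ 0 := by
  by_contra hcon
  push Not at hcon
  apply hne
  have h1 := sum_proj ψ T hN hT0 hψ
  have h2 : T a₀ = T a₀ * ∑ w, proj ψ T w := by rw [h1, mul_one]
  rw [h2, Finset.mul_sum, ← h1]
  apply Finset.sum_congr rfl
  intro w _
  rw [T_mul_proj ψ T hTadd]
  by_cases hw : ψ (a₀ ⬝ᵥ w) = 1
  · rw [hw, one_smul]
  · rw [hcon w hw, smul_zero]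

end RepProj
end Cfsg.Agent.Lib.Helper15
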