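import Cfsg.Agent.Lib.Helper15.RepProj

set_option autoImplicit false

namespace Cfsg.Agent.Lib.Helper15
namespace RepProj

open Module Matrix

/-- Weights of an abelian unipotent family in a cross-characteristic representation: a set of
at most `d` vectors, containing a vector not orthogonal to `a₀` when `X a₀` acts nontrivially,
and stable under the dual action of every element normalising the family. -/
theorem exists_weights {F : Type*} [Field F] [Fintype F] {ι : Type*} [Fintype ι] [DecidableEq ι]
    {K : Type*} [Field K] {G : Type*} [Group G] (hK : ringChar K ≠ ringChar F) {d : ℕ}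
    (ρ : G →* GL (Fin d) K) (X : (ι → F) → G) (hX0 : X 0 = 1)
    (hXadd : ∀ a a', X (a + a') = X a * X a') (a₀ : ι → F) (ha₀ : ρ (X a₀) ≠ 1) :
    ∃ Ω : Finset (ι → F), Ω.card ≤ d ∧ (∃ w ∈ Ω, a₀ ⬝ᵥ w ≠ 0) ∧
      ∀ (g : G) (π : (ι → F) ≃ (ι → F)) (π' : (ι → F) → (ι → F)),
        (∀ a w, π a ⬝ᵥ π' w = a ⬝ᵥ w) → (∀ a, g * X a = X (π a) * g) →
        ∀ w ∈ Ω, π' w ∈ Ω := by
  classical
  let P := AddChar.FiniteField.primitiveChar F K hK
  let K' := CyclotomicField P.n K
  let ψ : AddChar F K' := P.char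
  have hψ : ψ.IsPrimitive := P.prim
  let ρ' : G →* Module.End K' (Fin d → K') :=
    { toFun := fun g => Matrix.toLin' ((ρ g).1.map (algebraMap K K'))
      map_one' := by
        rw [map_one, Units.val_one, Matrix.map_one _ (map_zero _) (map_one _), Matrix.toLin'_one]
        rfl
      map_mul' := by
        intro g h
        rw [map_mul, Units.val_mul, Matrix.map_mul, Matrix.toLin'_mul]
        rfl }
  have hρ' : ∀ g, ρ' g = Matrix.toLin' ((ρ g).1.map (algebraMap K K')) := fun g => rfl
  have hρ'one : ∀ g, ρ' g = 1 → ρ g = 1 := by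
    intro g hg
    rw [hρ'] at hg
    have h1 : (ρ g).1.map (algebraMap K K') = 1 := by
      apply Matrix.toLin'.injective
      rw [hg, Matrix.toLin'_one]
      rfl
    have h2 : (ρ g).1.map (algebraMap K K') = (1 : Matrix (Fin d) (Fin d) K).map (algebraMap K K') := by
      rw [h1, Matrix.map_one _ (map_zero _) (map_one _)]
    apply Units.ext
    exact Matrix.map_injective (algebraMap K K').injective h2
  set T : (ι → F) → Module.End K' (Fin d → K') := fun a => ρ' (X a) with hTdef
  have hT0 : T 0 = 1 := by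
    simp only [hTdef]
    rw [hX0, map_one]
  have hTadd : ∀ a a', T (a + a') = T a * T a' := by
    intro a a'
    simp only [hTdef]
    rw [hXadd, map_mul]
  have hN : (Fintype.card (ι → F) : K') ≠ 0 := by
    rw [Fintype.card_fun]
    obtain ⟨f, hp, hf⟩ := FiniteField.card F (ringChar F)
    rw [hf]
    push_cast
    apply pow_ne_zero
    apply pow_ne_zero
    intro h0
    have h1 : ((ringChar F : ℕ) : K) = 0 := by
      apply (algebraMap K K').injective
      rw [map_natCast, map_zero]
      exact h0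
    have h2 := ringChar.dvd h1
    rcases (Nat.dvd_prime hp).1 h2 with h3 | h3
    · exact CharP.ringChar_ne_one h3
    · exact hK h3
  have hTa₀ : T a₀ ≠ 1 := fun h => ha₀ (hρ'one _ h)
  obtain ⟨w₁, hw₁, hP₁⟩ := exists_proj_ne_zero ψ T hN hT0 hTadd hψ a₀ hTa₀
  refine ⟨Finset.univ.filter (fun w => proj ψ T w ≠ 0), ?_, ⟨w₁, ?_, ?_⟩, ?_⟩
  · have h1 := card_le ψ T hN hTadd hψ (Finset.univ.filter (fun w => proj ψ T w ≠ 0))
      (fun w hw => (Finset.mem_filter.1 hw).2)
    rw [Module.finrank_fin_fun] at h1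
    exact h1
  · exact Finset.mem_filter.2 ⟨Finset.mem_univ _, hP₁⟩
  · intro h0
    apply hw₁
    rw [h0, AddChar.map_zero_eq_one]
  · intro g π π' hπ hg w hw
    rw [Finset.mem_filter] at hw ⊢
    refine ⟨Finset.mem_univ _, ?_⟩
    apply proj_ne_zero_of_conj ψ T (ρ' g) ?_ π π' hπ ?_ w hw.2
    · apply Function.LeftInverse.injective (g := ρ' g⁻¹)
      intro v
      have h1 : ρ' g⁻¹ * ρ' g = 1 := by rw [← map_mul, inv_mul_cancel, map_one]
      exact congrArg (fun f : Module.End K' (Fin d → K') => f v) h1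
    · intro a
      simp only [hTdef]
      rw [← map_mul, ← map_mul, hg]

end RepProj
end Cfsg.Agent.Lib.Helper15
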