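import Mathlib
import Cfsg.Agent.Lib.Helper15.SL2Count
import Cfsg.Agent.Lib.Helper25.Central

set_option autoImplicit false

namespace Cfsg.Agent.Lib.Helper15

open Cfsg.Agent.Lib.Helper2
open Matrix
open scoped ComplexConjugate

section Delta

variable {F : Type*} [Field F] [Fintype F] [DecidableEq F]

/-- The permutation character on the projective line takes the value one on the non-scalar
elements of trace `±2`. -/
theorem piS_one_parabolic (h2 : (2 : F) ≠ 0) (g : Matrix.SpecialLinearGroup (Fin 2) F)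
    (hg : ¬ IsScalar2 (g : Matrix (Fin 2) (Fin 2) F))
    (ht : (g : Matrix (Fin 2) (Fin 2) F).trace ^ 2 = 4) : piS (1 : MulChar F ℂ) g = 1 := by
  rw [piS_apply, indVal_congr_det _ (fun _ _ => (1 : ℂ)) _ g.det_coe
    (fun a d had => MulChar.one_apply (IsUnit.of_mul_eq_one _ had)), indVal_eq]
  have hdisc := SL2_disc g
  rw [ht, sub_self] at hdisc
  by_cases h01 : (g : Matrix (Fin 2) (Fin 2) F) 0 1 = 0
  · rw [if_pos h01]
    have hD : (g : Matrix (Fin 2) (Fin 2) F) 1 1 - (g : Matrix (Fin 2) (Fin 2) F) 0 0 = 0 := by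
      rw [h01, mul_zero, zero_mul, add_zero] at hdisc
      exact pow_eq_zero_iff (two_ne_zero) |>.mp hdisc
    have h10 : (g : Matrix (Fin 2) (Fin 2) F) 1 0 ≠ 0 := by
      intro h; exact hg ⟨h01, h, (sub_eq_zero.mp hD).symm⟩
    have : ∀ t : F, (if (g : Matrix (Fin 2) (Fin 2) F) 1 0 +
        ((g : Matrix (Fin 2) (Fin 2) F) 1 1 - (g : Matrix (Fin 2) (Fin 2) F) 0 0) * t -
        (g : Matrix (Fin 2) (Fin 2) F) 0 1 * t ^ 2 = 0 then (1 : ℂ) else 0) = 0 := by
      intro t
      rw [if_neg]
      rw [hD, h01]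
      simpa using h10
    simp only [this]
    simp
  · rw [if_neg h01, zero_add]
    have : ∀ t : F, (if (g : Matrix (Fin 2) (Fin 2) F) 1 0 +
        ((g : Matrix (Fin 2) (Fin 2) F) 1 1 - (g : Matrix (Fin 2) (Fin 2) F) 0 0) * t -
        (g : Matrix (Fin 2) (Fin 2) F) 0 1 * t ^ 2 = 0 then (1 : ℂ) else 0) =
        if t = ((g : Matrix (Fin 2) (Fin 2) F) 1 1 - (g : Matrix (Fin 2) (Fin 2) F) 0 0) /
          (2 * (g : Matrix (Fin 2) (Fin 2) F) 0 1) then 1 else 0 := by
      intro t
      have hne : 2 * (g : Matrix (Fin 2) (Fin 2) F) 0 1 ≠ 0 := mul_ne_zero h2 h01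
      have hiff : ((g : Matrix (Fin 2) (Fin 2) F) 1 0 +
          ((g : Matrix (Fin 2) (Fin 2) F) 1 1 - (g : Matrix (Fin 2) (Fin 2) F) 0 0) * t -
          (g : Matrix (Fin 2) (Fin 2) F) 0 1 * t ^ 2 = 0) ↔
          t = ((g : Matrix (Fin 2) (Fin 2) F) 1 1 - (g : Matrix (Fin 2) (Fin 2) F) 0 0) /
            (2 * (g : Matrix (Fin 2) (Fin 2) F) 0 1) := by
        rw [eq_div_iff hne]
        constructor
        · intro h
          have h3 : (2 * (g : Matrix (Fin 2) (Fin 2) F) 0 1 * t -
              ((g : Matrix (Fin 2) (Fin 2) F) 1 1 - (g : Matrix (Fin 2) (Fin 2) F) 0 0)) ^ 2 = 0 := by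
            linear_combination (-4 * (g : Matrix (Fin 2) (Fin 2) F) 0 1) * h + hdisc
          have h4 := pow_eq_zero_iff (two_ne_zero) |>.mp h3
          linear_combination h4
        · intro h
          have e : 2 * (g : Matrix (Fin 2) (Fin 2) F) 0 1 * t -
              ((g : Matrix (Fin 2) (Fin 2) F) 1 1 - (g : Matrix (Fin 2) (Fin 2) F) 0 0) = 0 := by
            linear_combination h
          have h5 : (4 * (g : Matrix (Fin 2) (Fin 2) F) 0 1) *
              ((g : Matrix (Fin 2) (Fin 2) F) 1 0 +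
              ((g : Matrix (Fin 2) (Fin 2) F) 1 1 - (g : Matrix (Fin 2) (Fin 2) F) 0 0) * t -
              (g : Matrix (Fin 2) (Fin 2) F) 0 1 * t ^ 2) = 0 := by
            linear_combination hdisc - (2 * (g : Matrix (Fin 2) (Fin 2) F) 0 1 * t -
              ((g : Matrix (Fin 2) (Fin 2) F) 1 1 - (g : Matrix (Fin 2) (Fin 2) F) 0 0)) * e
          have h4 : (4 : F) ≠ 0 := by
            have : (4 : F) = 2 * 2 := by norm_num
            rw [this]; exact mul_ne_zero h2 h2
          exact (mul_eq_zero.mp h5).resolve_left (mul_ne_zero h4 h01)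
      simp only [hiff]
    simp only [this]
    simp

omit [DecidableEq F] in
/-- Class functions are fixed by the twist on scalar elements and on elements whose trace
squared is not four. -/
theorem classFun_twist_fix (ψ : Matrix.SpecialLinearGroup (Fin 2) F → ℂ)
    (hψ : Cfsg.IsClassFunction (Matrix.SpecialLinearGroup (Fin 2) F) ψ) (t : Fˣ)
    (g : Matrix.SpecialLinearGroup (Fin 2) F)
    (h : IsScalar2 (g : Matrix (Fin 2) (Fin 2) F) ∨
      (g : Matrix (Fin 2) (Fin 2) F).trace ^ 2 ≠ 4) : ψ (twistS t g) = ψ g := by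
  by_cases hg : IsScalar2 (g : Matrix (Fin 2) (Fin 2) F)
  · have : twistS t g = g := by
      apply Subtype.ext
      rw [twistS_val]
      ext i j
      fin_cases i <;> fin_cases j <;> simp [hg.1, hg.2.1]
    rw [this]
  · have htr := h.resolve_left hg
    have hg' : ¬ IsScalar2 (twistS t g : Matrix (Fin 2) (Fin 2) F) := by
      rw [twistS_val]
      intro hs
      apply hg
      obtain ⟨h1, h2, h3⟩ := hs
      simp at h1 h2 h3
      exact ⟨h1, h2, h3⟩
    have htr' : (g : Matrix (Fin 2) (Fin 2) F).trace =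
        (twistS t g : Matrix (Fin 2) (Fin 2) F).trace := by
      rw [twistS_val, Matrix.trace_fin_two, Matrix.trace_fin_two]; simp
    exact (IsClassFunction.of_isConj hψ
      (SL2_isConj_of_trace g (twistS t g) (Or.inr htr) hg hg' htr')).symm

/-- Frobenius reciprocity for the permutation character on the projective line. -/
theorem frob_one_sum (D : Matrix.SpecialLinearGroup (Fin 2) F → ℂ)
    (hD : Cfsg.IsClassFunction (Matrix.SpecialLinearGroup (Fin 2) F) D) :
    ∑ g, piS (1 : MulChar F ℂ) g * conj (D g) =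
      ((Fintype.card F : ℂ) + 1) * ∑ a : Fˣ, conj (∑ x : F, D (borelS a x)) := by
  have h1 := frob_diag_SL (fun a _ => (1 : MulChar F ℂ) a) D hD
  have h2 : Cfsg.classInner (piS (1 : MulChar F ℂ)) D =
      ((((Fintype.card F : ℂ) - 1) * (Fintype.card F : ℂ)))⁻¹ *
        ∑ a : Fˣ, conj (∑ x : F, D (borelS a x)) := by
    unfold piS
    rw [h1]
    congr 1
    apply Finset.sum_congr rfl; intro a _
    rw [MulChar.one_apply_coe, one_mul]
  rw [classInner_def, card_SL2] at h2
  have hq2 : 2 ≤ Fintype.card F := Fintype.one_lt_card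
  have hq0 : (Fintype.card F : ℂ) ≠ 0 := card_ne_zero'
  have hq1 : (Fintype.card F : ℂ) - 1 ≠ 0 := card_sub_one_ne_zero
  have hq3 : (Fintype.card F : ℂ) + 1 ≠ 0 := by
    have : ((Fintype.card F + 1 : ℕ) : ℂ) ≠ 0 := Nat.cast_ne_zero.mpr (by omega)
    push_cast at this; exact this
  have hc : ((Fintype.card F * (Fintype.card F ^ 2 - 1) : ℕ) : ℂ) =
      (Fintype.card F : ℂ) * (((Fintype.card F : ℂ) - 1) * ((Fintype.card F : ℂ) + 1)) := by
    rw [Nat.cast_mul, Nat.cast_sub (Nat.one_le_pow _ _ Fintype.card_pos)]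
    push_cast; ring
  rw [hc] at h2
  field_simp at h2
  linear_combination h2

omit [Fintype F] [DecidableEq F] in
/-- A scalar element acts on an irreducible character by a scalar of norm one. -/
theorem central_char [Finite F] (ψ : Matrix.SpecialLinearGroup (Fin 2) F → ℂ)
    (hψ : Cfsg.IsIrrCharacter (Matrix.SpecialLinearGroup (Fin 2) F) ψ)
    (z : Matrix.SpecialLinearGroup (Fin 2) F)
    (hz : IsScalar2 (z : Matrix (Fin 2) (Fin 2) F)) :
    ∃ ω : ℂ, ‖ω‖ = 1 ∧ ∀ m, ψ (z * m) = ω * ψ m := by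
  have : Fintype F := Fintype.ofFinite F
  obtain ⟨n, ρ, hirr, rfl⟩ := hψ
  have hzc : z ∈ Subgroup.center (Matrix.SpecialLinearGroup (Fin 2) F) := by
    rw [Subgroup.mem_center_iff]
    intro c
    have := SL2_conj_of_isScalar2 z c hz
    rw [mul_inv_eq_iff_eq_mul] at this
    exact this
  obtain ⟨ω, hω⟩ := Cfsg.Agent.Lib.Helper25.central_scalar ρ hirr z hzc
  have : Nontrivial (Fin n → ℂ) := irr_nontrivial ρ
  exact ⟨ω, Cfsg.Agent.Lib.Helper25.scalar_norm ρ hω,
    fun m => Cfsg.Agent.Lib.Helper25.char_scalar_mul ρ hω m⟩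

omit [Field F] [Fintype F] [DecidableEq F] in
theorem char_inv' {G : Type*} [Group G] [Finite G] {χ : G → ℂ} (h : Cfsg.IsCharacter G χ)
    (g : G) : χ g⁻¹ = conj (χ g) := by
  obtain ⟨n, ρ, rfl⟩ := h
  exact char_inv ρ g

omit [DecidableEq F] in
/-- The values of a class function on the unipotent elements depend only on the square
class. -/
theorem unipS_sq_val (hF : ringChar F ≠ 2) (ψ : Matrix.SpecialLinearGroup (Fin 2) F → ℂ)
    (hcl : Cfsg.IsClassFunction (Matrix.SpecialLinearGroup (Fin 2) F) ψ) (t : F)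
    (htns : ¬ IsSquare t) (x : F) (hx : x ≠ 0) :
    (IsSquare x → ψ (unipS x) = ψ (unipS 1) ∧ ψ (unipS (t * x)) = ψ (unipS t)) ∧
    (¬ IsSquare x → ψ (unipS x) = ψ (unipS t) ∧ ψ (unipS (t * x)) = ψ (unipS 1)) := by
  have ht0 : t ≠ 0 := fun h => htns (by rw [h]; exact IsSquare.zero)
  constructor
  · rintro ⟨s, rfl⟩
    have hs0 : s ≠ 0 := by rintro rfl; simp at hx
    constructor
    · have := classFun_unipS_sq ψ hcl 1 s hs0
      rw [mul_one] at this; exact this
    · have := classFun_unipS_sq ψ hcl t s hs0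
      rw [mul_comm t]; exact this
  · intro hns
    have hinv : ¬ IsSquare t⁻¹ := by
      intro h; apply htns
      obtain ⟨r, hr⟩ := h
      exact ⟨r⁻¹, by rw [← mul_inv, ← hr, inv_inv]⟩
    obtain ⟨s, hs⟩ := isSquare_mul_of_not_isSquare hF hns hinv
    have hs0 : s ≠ 0 := by
      rintro rfl
      simp at hs
      rcases hs with h | h
      · exact hx h
      · exact ht0 h
    have hx' : x = s * s * t := by
      rw [← hs, inv_mul_cancel_right₀ ht0]
    constructor
    · rw [hx']; exact classFun_unipS_sq ψ hcl t s hs0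
    · have := classFun_unipS_sq ψ hcl 1 (t * s) (mul_ne_zero ht0 hs0)
      rw [mul_one] at this
      rw [hx', ← this]
      congr 2; ring

/-- The central element `-1` of SL₂. -/
def negS (F : Type*) [Field F] : Matrix.SpecialLinearGroup (Fin 2) F :=
  ((borelS (-1 : Fˣ) 0 : borelSL F) : Matrix.SpecialLinearGroup (Fin 2) F)

omit [Fintype F] [DecidableEq F] in
theorem negS_scalar : IsScalar2 ((negS F : Matrix.SpecialLinearGroup (Fin 2) F) :
    Matrix (Fin 2) (Fin 2) F) := by
  unfold negS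
  rw [borelS_val]
  refine ⟨by simp, by simp, by simp⟩

omit [Fintype F] [DecidableEq F] in
theorem borelS_neg_one (x : F) :
    ((borelS (-1 : Fˣ) x : borelSL F) : Matrix.SpecialLinearGroup (Fin 2) F) =
      negS F * unipS (-x) := by
  apply Subtype.ext
  unfold negS
  rw [Matrix.SpecialLinearGroup.coe_mul, borelS_val, borelS_val, unipS_val]
  ext i j
  fin_cases i <;> fin_cases j <;> simp

omit [Fintype F] [DecidableEq F] in
theorem unipS_inv (x : F) : (unipS x)⁻¹ = unipS (-x) := by
  apply inv_eq_of_mul_eq_one_right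
  apply Subtype.ext
  rw [Matrix.SpecialLinearGroup.coe_mul, unipS_val, unipS_val, Matrix.SpecialLinearGroup.coe_one]
  ext i j
  fin_cases i <;> fin_cases j <;> simp

/-- The key norm computation: the difference of an irreducible character and its twist has
square `± q` at the unipotent element. -/
theorem delta_sq (hF : ringChar F ≠ 2) (ψ : Matrix.SpecialLinearGroup (Fin 2) F → ℂ)
    (hψ : Cfsg.IsIrrCharacter (Matrix.SpecialLinearGroup (Fin 2) F) ψ) (t : Fˣ)
    (hne : (fun m => ψ (twistS t m)) ≠ ψ) :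
    (ψ (unipS 1) - ψ (unipS (t : F))) ^ 2 =
      (-1 : ℂ) ^ ((Fintype.card F - 1) / 2) * (Fintype.card F : ℂ) := by
  have h2 : (2 : F) ≠ 0 := Ring.two_ne_zero hF
  have hcl := isClassFunction_of_isIrrCharacter hψ
  have hψ'irr : Cfsg.IsIrrCharacter (Matrix.SpecialLinearGroup (Fin 2) F)
      (fun m => ψ (twistS t m)) := twist_irr ψ hψ t
  have hcl' := isClassFunction_of_isIrrCharacter hψ'irr
  have htns : ¬ IsSquare (t : F) := by
    rintro ⟨s, hs⟩
    have hs0 : s ≠ 0 := by
      rintro rfl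
      simp at hs
    apply hne
    funext m
    have : t = (Units.mk0 s hs0) ^ 2 := by
      ext; simp [hs, pow_two]
    rw [this]
    exact classFun_twist_sq ψ hcl _ m
  obtain ⟨Δ, hΔ⟩ : ∃ Δ : Matrix.SpecialLinearGroup (Fin 2) F → ℂ,
      Δ = ψ - (fun m => ψ (twistS t m)) := ⟨_, rfl⟩
  have hΔa : ∀ g, Δ g = ψ g - ψ (twistS t g) := fun g => by rw [hΔ]; rfl
  have hΔcl : Cfsg.IsClassFunction (Matrix.SpecialLinearGroup (Fin 2) F) Δ := by
    rw [hΔ]; exact IsClassFunction.sub hcl hcl'
  obtain ⟨D2, hD2⟩ : ∃ D2 : Matrix.SpecialLinearGroup (Fin 2) F → ℂ,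
      D2 = fun g => Δ g * conj (Δ g) := ⟨_, rfl⟩
  have hD2a : ∀ g, D2 g = Δ g * conj (Δ g) := fun g => by rw [hD2]
  have hD2cl : Cfsg.IsClassFunction (Matrix.SpecialLinearGroup (Fin 2) F) D2 := by
    intro g h; rw [hD2a, hD2a, hΔcl g h]
  have hD2conj : ∀ g, conj (D2 g) = D2 g := by
    intro g; rw [hD2a, map_mul, Complex.conj_conj]; ring
  have hΔ0 : ∀ g : Matrix.SpecialLinearGroup (Fin 2) F,
      (IsScalar2 (g : Matrix (Fin 2) (Fin 2) F) ∨
        (g : Matrix (Fin 2) (Fin 2) F).trace ^ 2 ≠ 4) → Δ g = 0 := by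
    intro g hg
    rw [hΔa, classFun_twist_fix ψ hcl t g hg, sub_self]
  have hN : (Nat.card (Matrix.SpecialLinearGroup (Fin 2) F) : ℂ) ≠ 0 := card_ne_zero_complex _
  have hnorm : ∑ g, D2 g = 2 * (Nat.card (Matrix.SpecialLinearGroup (Fin 2) F) : ℂ) := by
    have h1 : Cfsg.classInner Δ Δ = 2 := by
      rw [hΔ, classInner_sub_left, classInner_sub_right', classInner_sub_right',
        classInner_irr_self hψ, classInner_irr_self hψ'irr,
        classInner_irr_ne hψ hψ'irr (Ne.symm hne), classInner_irr_ne hψ'irr hψ hne]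
      norm_num
    rw [classInner_def] at h1
    have h3 : ∑ g, D2 g = ∑ g, Δ g * conj (Δ g) :=
      Finset.sum_congr rfl (fun g _ => hD2a g)
    rw [h3]
    field_simp at h1
    linear_combination h1
  have hfrob := frob_one_sum D2 hD2cl
  have hL : ∑ g, piS (1 : MulChar F ℂ) g * conj (D2 g) = ∑ g, D2 g := by
    apply Finset.sum_congr rfl
    intro g _
    rw [hD2conj]
    by_cases hg : IsScalar2 (g : Matrix (Fin 2) (Fin 2) F) ∨
        (g : Matrix (Fin 2) (Fin 2) F).trace ^ 2 ≠ 4
    · rw [hD2a, hΔ0 g hg]; simp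
    · push Not at hg
      rw [piS_one_parabolic h2 g hg.1 hg.2, one_mul]
  -- values on unipotent elements
  have hΔu : ∀ x : F, Δ (unipS x) = ψ (unipS x) - ψ (unipS ((t : F) * x)) := by
    intro x; rw [hΔa, twistS_unipS]
  have hΔsq : ∀ x : F, x ≠ 0 → (IsSquare x → Δ (unipS x) = Δ (unipS 1)) ∧
      (¬ IsSquare x → Δ (unipS x) = - Δ (unipS 1)) := by
    intro x hx
    obtain ⟨hs, hn⟩ := unipS_sq_val hF ψ hcl (t : F) htns x hx
    constructor
    · intro h
      rw [hΔu, hΔu, (hs h).1, (hs h).2, mul_one]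
    · intro h
      rw [hΔu, hΔu, (hn h).1, (hn h).2, mul_one]; ring
  have hU : ∀ x : F, D2 (unipS x) = if x = 0 then 0 else D2 (unipS 1) := by
    intro x
    by_cases hx : x = 0
    · rw [if_pos hx, hx, unipS_zero, hD2a, hΔ0 1 (Or.inl ⟨by simp, by simp, by simp⟩)]; simp
    · rw [if_neg hx, hD2a, hD2a]
      by_cases hsq : IsSquare x
      · rw [((hΔsq x hx).1 hsq)]
      · rw [((hΔsq x hx).2 hsq), map_neg]; ring
  have hsumU : ∑ x : F, (if x = 0 then (0 : ℂ) else D2 (unipS 1)) =
      ((Fintype.card F : ℂ) - 1) * D2 (unipS 1) := by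
    rw [← Finset.add_sum_erase Finset.univ _ (Finset.mem_univ (0 : F)), if_pos rfl, zero_add,
      Finset.sum_congr rfl (fun x hx => if_neg (Finset.ne_of_mem_erase hx)), Finset.sum_const,
      Finset.card_erase_of_mem (Finset.mem_univ _), Finset.card_univ, nsmul_eq_mul,
      Nat.cast_sub Fintype.card_pos, Nat.cast_one]
  -- the central element
  obtain ⟨ω, hω1, hω⟩ := central_char ψ hψ (negS F) negS_scalar
  have hωc : ω * conj ω = 1 := by
    rw [Complex.mul_conj', hω1]; norm_num
  have htwneg : twistS t (negS F) = negS F := by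
    unfold negS; rw [twistS_borelS, mul_zero]
  have hD2neg : ∀ m, D2 (negS F * m) = D2 m := by
    intro m
    have e : Δ (negS F * m) = ω * Δ m := by
      rw [hΔa, hΔa, twistS_mul, htwneg, hω, hω]; ring
    rw [hD2a, hD2a, e, map_mul]
    linear_combination (Δ m * conj (Δ m)) * hωc
  have hB : ∀ a : Fˣ, ∑ x : F, D2 (borelS a x) =
      if a = 1 ∨ a = -1 then ((Fintype.card F : ℂ) - 1) * D2 (unipS 1) else 0 := by
    intro a
    by_cases ha1 : a = 1
    · subst ha1
      rw [if_pos (Or.inl rfl), ← hsumU]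
      exact Finset.sum_congr rfl (fun x _ => hU x)
    · by_cases ha2 : a = -1
      · subst ha2
        rw [if_pos (Or.inr rfl), ← hsumU]
        apply Finset.sum_congr rfl
        intro x _
        rw [borelS_neg_one, hD2neg, hU]
        simp
      · rw [if_neg (by tauto)]
        apply Finset.sum_eq_zero
        intro x _
        rw [hD2a, hΔ0 _ (Or.inr ?_)]
        · simp
        · rw [borelS_val, Matrix.trace_fin_two]
          simp only [Matrix.of_apply, Matrix.cons_val', Matrix.cons_val_zero,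
            Matrix.cons_val_one, Matrix.cons_val_fin_one]
          intro h4
          have ha0 : (a : F) ≠ 0 := a.ne_zero
          have h5 : ((a : F) - 1) * ((a : F) + 1) = 0 := by
            have h6 : ((a : F) * (a : F) - 1) ^ 2 = 0 := by
              rw [Units.val_inv_eq_inv_val] at h4
              field_simp at h4
              linear_combination h4
            have h7 := pow_eq_zero_iff (two_ne_zero) |>.mp h6
            linear_combination h7
          rcases mul_eq_zero.mp h5 with h8 | h8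
          · apply ha1; ext; rw [Units.val_one]; linear_combination h8
          · apply ha2; ext; rw [Units.val_neg, Units.val_one]; linear_combination h8
  have hne1 : (1 : Fˣ) ≠ -1 := by
    intro h
    have h3 := congrArg (fun u : Fˣ => (u : F)) h
    simp only [Units.val_one, Units.val_neg] at h3
    apply h2
    linear_combination h3
  have hT : ∑ a : Fˣ, conj (∑ x : F, D2 (borelS a x)) =
      2 * (((Fintype.card F : ℂ) - 1) * D2 (unipS 1)) := by
    simp only [hB]
    rw [Finset.sum_eq_add_of_mem (1 : Fˣ) (-1) (Finset.mem_univ _) (Finset.mem_univ _) hne1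
      (fun c _ hc => by rw [if_neg (by tauto)]; simp)]
    rw [if_pos (Or.inl rfl), if_pos (Or.inr rfl), map_mul, hD2conj, map_sub, Complex.conj_natCast,
      map_one]
    ring
  rw [hL, hnorm, hT, card_SL2] at hfrob
  have hq2 : 2 ≤ Fintype.card F := Fintype.one_lt_card
  have hq0 : (Fintype.card F : ℂ) ≠ 0 := card_ne_zero'
  have hq1 : (Fintype.card F : ℂ) - 1 ≠ 0 := card_sub_one_ne_zero
  have hq3 : (Fintype.card F : ℂ) + 1 ≠ 0 := by
    have : ((Fintype.card F + 1 : ℕ) : ℂ) ≠ 0 := Nat.cast_ne_zero.mpr (by omega)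
    push_cast at this; exact this
  have hc : ((Fintype.card F * (Fintype.card F ^ 2 - 1) : ℕ) : ℂ) =
      (Fintype.card F : ℂ) * (((Fintype.card F : ℂ) - 1) * ((Fintype.card F : ℂ) + 1)) := by
    rw [Nat.cast_mul, Nat.cast_sub (Nat.one_le_pow _ _ Fintype.card_pos)]
    push_cast; ring
  rw [hc] at hfrob
  have hval : D2 (unipS 1) = (Fintype.card F : ℂ) := by
    have h5 : (2 * (((Fintype.card F : ℂ) - 1) * ((Fintype.card F : ℂ) + 1))) *
        (D2 (unipS 1) - (Fintype.card F : ℂ)) = 0 := by linear_combination -hfrob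
    have h6 := (mul_eq_zero.mp h5).resolve_left
      (mul_ne_zero two_ne_zero (mul_ne_zero hq1 hq3))
    linear_combination h6
  -- the conjugate
  have hconj : conj (Δ (unipS 1)) = Δ (unipS (-1)) := by
    rw [hΔu, hΔu, map_sub, ← char_inv' (isCharacter_of_isIrrCharacter hψ),
      ← char_inv' (isCharacter_of_isIrrCharacter hψ), unipS_inv, unipS_inv]
    congr 3; ring
  have hm1 : (-1 : F) ≠ 0 := neg_ne_zero.mpr one_ne_zero
  have hodd : Fintype.card F % 2 = 1 := FiniteField.odd_card_of_char_ne_two hF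
  have hΔ1 : Δ (unipS 1) = ψ (unipS 1) - ψ (unipS (t : F)) := by rw [hΔu, mul_one]
  rw [← hΔ1]
  rw [hD2a, hconj] at hval
  by_cases hsq : IsSquare (-1 : F)
  · have h4 : Fintype.card F % 4 ≠ 3 := FiniteField.isSquare_neg_one_iff.mp hsq
    have heven : Even ((Fintype.card F - 1) / 2) := by
      rw [Nat.even_iff]; omega
    rw [heven.neg_one_pow, one_mul, ← hval, ((hΔsq (-1) hm1).1 hsq)]; ring
  · have h4 : ¬ Fintype.card F % 4 ≠ 3 := fun h => hsq (FiniteField.isSquare_neg_one_iff.mpr h)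
    have hodd' : Odd ((Fintype.card F - 1) / 2) := by
      rw [Nat.odd_iff]; omega
    rw [hodd'.neg_one_pow, ← hval, ((hΔsq (-1) hm1).2 hsq)]; ring

end Delta

end Cfsg.Agent.Lib.Helper15
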