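import Mathlib
import Cfsg.Agent.Lib.Helper15.SL2Delta

set_option autoImplicit false

namespace Cfsg.Agent.Lib.Helper15

open Cfsg.Agent.Lib.Helper2
open Matrix
open scoped ComplexConjugate

section Half

variable {F : Type*} [Field F] [Fintype F] [DecidableEq F]

/-- The two characters of degree `(q + 1) / 2` and their values at the unipotent element. -/
theorem typeD_unip (hF : ringChar F ≠ 2) :
    ∃ χa χb : Matrix.SpecialLinearGroup (Fin 2) F → ℂ,
      Cfsg.IsIrrCharacter (Matrix.SpecialLinearGroup (Fin 2) F) χa ∧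
      Cfsg.IsIrrCharacter (Matrix.SpecialLinearGroup (Fin 2) F) χb ∧ χa ≠ χb ∧
      piS (quadS F) = χa + χb ∧
      (∃ t : Fˣ, ∀ m, χb (twistS t m) = χa m) ∧
      (∀ χ : Matrix.SpecialLinearGroup (Fin 2) F → ℂ,
        Cfsg.IsIrrCharacter (Matrix.SpecialLinearGroup (Fin 2) F) χ →
          (Cfsg.classInner (piS (quadS F)) χ ≠ 0 ↔ χ = χa ∨ χ = χb)) ∧
      χa (unipS 1) + χb (unipS 1) = 1 ∧
      (χa (unipS 1) - χb (unipS 1)) ^ 2 =
        (-1 : ℂ) ^ ((Fintype.card F - 1) / 2) * (Fintype.card F : ℂ) := by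
  obtain ⟨χ₁, χ₂, h1, h2, hne, hsum, hd1, hd2, ⟨t, ht⟩, hiff⟩ :=
    typeD_cases (quadS F) quadS_sq (quadS_ne_one hF)
  refine ⟨χ₁, χ₂, h1, h2, hne, hsum, ⟨t, ht⟩, hiff, ?_, ?_⟩
  · have := congrFun hsum (unipS 1)
    rw [Pi.add_apply] at this
    rw [← this, piS_apply, unipS_val, indVal_unip _ _ _ one_ne_zero, map_one]
  · have e : (fun m => χ₂ (twistS t m)) = χ₁ := funext ht
    have hne' : (fun m => χ₂ (twistS t m)) ≠ χ₂ := by rw [e]; exact hne
    have h := delta_sq hF χ₂ h2 t hne'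
    have e2 : χ₂ (unipS (t : F)) = χ₁ (unipS 1) := by rw [← ht, twistS_unipS, mul_one]
    rw [e2] at h
    rw [← h]; ring

/-- The cuspidal characters of degree `(q - 1) / 2` at the unipotent elements. -/
theorem cuspS_half_unip (hF : ringChar F ≠ 2) (ψ : Matrix.SpecialLinearGroup (Fin 2) F → ℂ)
    (hψ : Cfsg.IsIrrCharacter (Matrix.SpecialLinearGroup (Fin 2) F) ψ)
    (hc : ∀ α : MulChar F ℂ, Cfsg.classInner (piS α) ψ = 0)
    (hdeg : ψ 1 = (((Fintype.card F - 1) / 2 : ℕ) : ℂ)) (t : Fˣ) (ht : ¬ IsSquare (t : F)) :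
    ψ (unipS 1) + ψ (unipS (t : F)) = -1 ∧ (fun m => ψ (twistS t m)) ≠ ψ ∧
      (2 * ψ (unipS 1) + 1) ^ 2 =
        (-1 : ℂ) ^ ((Fintype.card F - 1) / 2) * (Fintype.card F : ℂ) := by
  have hodd : Fintype.card F % 2 = 1 := FiniteField.odd_card_of_char_ne_two hF
  have hq2 : 2 ≤ Fintype.card F := Fintype.one_lt_card
  obtain ⟨hdvd, hrel⟩ := cuspS_dvd_odd hF ψ hψ hc ((Fintype.card F - 1) / 2) hdeg (t : F) ht
  have hn0 : (((Fintype.card F - 1) / 2 : ℕ) : ℂ) ≠ 0 := Nat.cast_ne_zero.mpr (by omega)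
  have hsum : ψ (unipS 1) + ψ (unipS (t : F)) = -1 := by
    have h1 : (((Fintype.card F - 1) / 2 : ℕ) : ℂ) *
        (1 + (ψ (unipS 1) + ψ (unipS (t : F)))) = 0 := by linear_combination hrel
    have h2 := (mul_eq_zero.mp h1).resolve_left hn0
    linear_combination h2
  have hne : (fun m => ψ (twistS t m)) ≠ ψ := by
    intro h
    have e := congrFun h (unipS 1)
    simp only [twistS_unipS, mul_one] at e
    rw [e] at hsum
    obtain ⟨n, ρ, hirr, rfl⟩ := hψ
    have hint : IsIntegral ℤ (ρ.character (unipS 1)) := char_isIntegral ρ _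
    have := dvd_of_isIntegral 1 2 (by norm_num) _ hint (by push_cast; linear_combination hsum)
    omega
  refine ⟨hsum, hne, ?_⟩
  have h := delta_sq hF ψ hψ t hne
  rw [← h]
  congr 1
  linear_combination hsum

end Half

end Cfsg.Agent.Lib.Helper15
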