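import Mathlib
import Cfsg.Agent.Lib.Helper15.SL2Half

set_option autoImplicit false

namespace Cfsg.Agent.Lib.Helper15

open Cfsg.Agent.Lib.Helper2
open Matrix
open scoped ComplexConjugate

section Ell

variable {F : Type*} [Field F]

/-- An element without eigenvectors is not scalar and its trace squared is not four. -/
theorem elliptic_facts [DecidableEq F] (h2 : (2 : F) ≠ 0)
    (g : Matrix.SpecialLinearGroup (Fin 2) F)
    (hell : ∀ (c : F) (v : Fin 2 → F), v ≠ 0 →
      (g : Matrix (Fin 2) (Fin 2) F).mulVec v ≠ c • v) :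
    ¬ IsScalar2 (g : Matrix (Fin 2) (Fin 2) F) ∧
      (g : Matrix (Fin 2) (Fin 2) F).trace ^ 2 ≠ 4 := by
  have hd := g.det_coe
  rw [Matrix.det_fin_two] at hd
  constructor
  · intro hs
    apply hell ((g : Matrix (Fin 2) (Fin 2) F) 0 0) ![1, 0]
      (by intro h; have := congrFun h 0; simp at this)
    ext i
    fin_cases i <;> simp [Matrix.mulVec, dotProduct, Fin.sum_univ_two, hs.2.1]
  · intro ht
    rw [Matrix.trace_fin_two] at ht
    have hdet : ((g : Matrix (Fin 2) (Fin 2) F) -
        (((g : Matrix (Fin 2) (Fin 2) F) 0 0 + (g : Matrix (Fin 2) (Fin 2) F) 1 1) / 2) •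
          (1 : Matrix (Fin 2) (Fin 2) F)).det = 0 := by
      rw [Matrix.det_fin_two]
      simp only [Matrix.sub_apply, Matrix.smul_apply, Matrix.one_apply_eq, Matrix.one_apply_ne,
        ne_eq, zero_ne_one, one_ne_zero, not_false_eq_true, smul_eq_mul, mul_one, mul_zero,
        sub_zero]
      field_simp
      linear_combination 4 * hd - ht
    obtain ⟨v, hv, hAv⟩ := Matrix.exists_mulVec_eq_zero_iff.mpr hdet
    apply hell _ v hv
    rw [Matrix.sub_mulVec, Matrix.smul_mulVec, Matrix.one_mulVec, sub_eq_zero] at hAv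
    exact hAv

variable [Fintype F] [DecidableEq F]

/-- Cuspidal class functions vanish on the upper triangular elements with distinct
eigenvalues. -/
theorem cuspS_diag (χ : Matrix.SpecialLinearGroup (Fin 2) F → ℂ)
    (hχ : Cfsg.IsClassFunction (Matrix.SpecialLinearGroup (Fin 2) F) χ)
    (hc : ∀ α : MulChar F ℂ, Cfsg.classInner (piS α) χ = 0) (a : Fˣ) (ha : (a : F) ^ 2 ≠ 1)
    (x : F) : χ (borelS a x) = 0 := by
  have hsum := cuspS_sum_borel χ hχ hc a
  have ha0 : (a : F) ≠ 0 := a.ne_zero
  have hns : ∀ y : F, ¬ IsScalar2 (((borelS a y : borelSL F) :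
      Matrix.SpecialLinearGroup (Fin 2) F) : Matrix (Fin 2) (Fin 2) F) := by
    intro y hs
    apply ha
    have h3 := hs.2.2
    rw [borelS_val] at h3
    simp only [Matrix.of_apply, Matrix.cons_val', Matrix.cons_val_zero,
      Matrix.cons_val_one, Matrix.cons_val_fin_one, Units.val_inv_eq_inv_val] at h3
    field_simp at h3
    exact h3
  have hconj : ∀ y : F, χ (borelS a y) = χ (borelS a 0) := by
    intro y
    apply IsClassFunction.of_isConj hχ
    apply SL2_isConj_of_trace _ _ _ (hns y) (hns 0)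
    · rw [borelS_val, borelS_val, Matrix.trace_fin_two, Matrix.trace_fin_two]; simp
    · by_cases hF : ringChar F = 2
      · left; exact hF
      · right
        rw [borelS_val, Matrix.trace_fin_two]
        simp only [Matrix.of_apply, Matrix.cons_val', Matrix.cons_val_zero,
          Matrix.cons_val_one, Matrix.cons_val_fin_one, Units.val_inv_eq_inv_val]
        intro h4
        apply ha
        have h6 : ((a : F) * (a : F) - 1) ^ 2 = 0 := by
          field_simp at h4
          linear_combination h4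
        have h7 := pow_eq_zero_iff (two_ne_zero) |>.mp h6
        linear_combination h7
  rw [Finset.sum_congr rfl (fun y _ => hconj y), Finset.sum_const, Finset.card_univ,
    nsmul_eq_mul] at hsum
  rw [hconj x]
  exact (mul_eq_zero.mp hsum).resolve_left card_ne_zero'

/-- The characters of degree `(q + 1) / 2` vanish on the elements without eigenvectors. -/
theorem typeD_elliptic (hF : ringChar F ≠ 2) (χ : Matrix.SpecialLinearGroup (Fin 2) F → ℂ)
    (hχ : Cfsg.IsIrrCharacter (Matrix.SpecialLinearGroup (Fin 2) F) χ)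
    (hD : Cfsg.classInner (piS (quadS F)) χ ≠ 0) (g : Matrix.SpecialLinearGroup (Fin 2) F)
    (hell : ∀ (c : F) (v : Fin 2 → F), v ≠ 0 →
      (g : Matrix (Fin 2) (Fin 2) F).mulVec v ≠ c • v) : χ g = 0 := by
  have h2 : (2 : F) ≠ 0 := Ring.two_ne_zero hF
  obtain ⟨χa, χb, hia, hib, hab, hsum, ⟨t, ht⟩, hiff, _, _⟩ := typeD_unip hF
  have h0 : χa g + χb g = 0 := by
    have := congrFun hsum g
    rw [Pi.add_apply, piS_apply, indVal_elliptic _ _ hell] at this
    exact this.symm
  have hfix : χb (twistS t g) = χb g :=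
    classFun_twist_fix χb (isClassFunction_of_isIrrCharacter hib) t g
      (Or.inr (elliptic_facts h2 g hell).2)
  have hab' : χa g = χb g := by rw [← ht g, hfix]
  rcases (hiff χ hχ).mp hD with rfl | rfl
  · linear_combination (1 / 2 : ℂ) * h0 + (1 / 2 : ℂ) * hab'
  · linear_combination (1 / 2 : ℂ) * h0 - (1 / 2 : ℂ) * hab'

omit [Fintype F] [DecidableEq F] in
theorem toGL_unipS' (x : F) :
    Matrix.SpecialLinearGroup.toGL (unipS x) =
      ((borelG (1 : Fˣ) (1 : Fˣ) x : borelGL F) : GL (Fin 2) F) := by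
  apply Units.ext
  rw [borelG_val]
  have h1 : (Matrix.SpecialLinearGroup.toGL (unipS x)).val =
      (unipS x : Matrix (Fin 2) (Fin 2) F) := rfl
  rw [h1, unipS_val]; simp

/-- The cuspidal characters of degree `q - 1` take the value `-1` on all nontrivial
unipotent elements. -/
theorem cuspS_unip_all (χ : Matrix.SpecialLinearGroup (Fin 2) F → ℂ)
    (hχ : Cfsg.IsIrrCharacter (Matrix.SpecialLinearGroup (Fin 2) F) χ)
    (hc : ∀ α : MulChar F ℂ, Cfsg.classInner (piS α) χ = 0)
    (hdeg : χ 1 = (Fintype.card F : ℂ) - 1) (x : F) (hx : x ≠ 0) : χ (unipS x) = -1 := by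
  have h1 := cuspS_unip χ hχ hc hdeg
  obtain ⟨χ', hχ', hc', hd, hres⟩ := cuspS_eq_res χ hχ hc hdeg
  rw [hres, toGL_unipS] at h1
  rw [hres, toGL_unipS', classFun_borel_unip χ' (isClassFunction_of_isIrrCharacter hχ') x hx]
  exact h1

omit [DecidableEq F] in
theorem three_cases (h3 : Fintype.card F = 3) (x : F) : x = 0 ∨ x = 1 ∨ x = -1 := by
  classical
  have hF : ringChar F ≠ 2 := ringChar_ne_two_of_odd (by rw [h3]; decide)
  have h2 : (2 : F) ≠ 0 := Ring.two_ne_zero hF
  have hS : ({0, 1, -1} : Finset F).card = 3 := by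
    rw [Finset.card_insert_of_notMem, Finset.card_pair]
    · intro h; apply h2; linear_combination h
    · simp
  have := Finset.eq_univ_of_card _ (hS.trans h3.symm)
  have hx : x ∈ ({0, 1, -1} : Finset F) := by rw [this]; exact Finset.mem_univ x
  simpa using hx

omit [DecidableEq F] in
theorem three_eq_zero (h3 : Fintype.card F = 3) : (3 : F) = 0 := by
  have := Nat.cast_card_eq_zero F
  rw [h3] at this
  exact_mod_cast this

theorem piS_one_scalar (g : Matrix.SpecialLinearGroup (Fin 2) F)
    (hs : IsScalar2 (g : Matrix (Fin 2) (Fin 2) F)) :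
    piS (1 : MulChar F ℂ) g = (Fintype.card F : ℂ) + 1 := by
  rw [piS_apply, indVal_congr_det _ (fun _ _ => (1 : ℂ)) _ g.det_coe
    (fun a d had => MulChar.one_apply (IsUnit.of_mul_eq_one _ had)), indVal_eq]
  obtain ⟨h01, h10, h00⟩ := hs
  rw [if_pos h01]
  have : ∀ t : F, (if (g : Matrix (Fin 2) (Fin 2) F) 1 0 +
      ((g : Matrix (Fin 2) (Fin 2) F) 1 1 - (g : Matrix (Fin 2) (Fin 2) F) 0 0) * t -
      (g : Matrix (Fin 2) (Fin 2) F) 0 1 * t ^ 2 = 0 then (1 : ℂ) else 0) = 1 := by
    intro t
    rw [if_pos]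
    rw [h10, h01, h00]; ring
  simp only [this]
  simp; ring

omit [Fintype F] [DecidableEq F] in
theorem scalar_cases (g : Matrix.SpecialLinearGroup (Fin 2) F)
    (hs : IsScalar2 (g : Matrix (Fin 2) (Fin 2) F)) : g = 1 ∨ g = negS F := by
  obtain ⟨h01, h10, h00⟩ := hs
  have hd := g.det_coe
  rw [Matrix.det_fin_two, h01, zero_mul, sub_zero, ← h00] at hd
  have h5 : ((g : Matrix (Fin 2) (Fin 2) F) 0 0 - 1) * ((g : Matrix (Fin 2) (Fin 2) F) 0 0 + 1) = 0 := by
    linear_combination hd
  rcases mul_eq_zero.mp h5 with h | h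
  · left
    have e : (g : Matrix (Fin 2) (Fin 2) F) 0 0 = 1 := by linear_combination h
    apply Subtype.ext
    rw [Matrix.SpecialLinearGroup.coe_one]
    ext i j
    fin_cases i <;> fin_cases j <;> simp [h01, h10, e, ← h00]
  · right
    have e : (g : Matrix (Fin 2) (Fin 2) F) 0 0 = -1 := by linear_combination h
    apply Subtype.ext
    unfold negS
    rw [borelS_val]
    ext i j
    fin_cases i <;> fin_cases j <;> simp [h01, h10, e, ← h00]

/-- For `q = 3` the cuspidal character of degree two vanishes on the elements without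
eigenvectors. -/
theorem cuspS_three_elliptic (h3 : Fintype.card F = 3)
    (χ : Matrix.SpecialLinearGroup (Fin 2) F → ℂ)
    (hχ : Cfsg.IsIrrCharacter (Matrix.SpecialLinearGroup (Fin 2) F) χ)
    (hc : ∀ α : MulChar F ℂ, Cfsg.classInner (piS α) χ = 0)
    (hdeg : χ 1 = (Fintype.card F : ℂ) - 1) (g : Matrix.SpecialLinearGroup (Fin 2) F)
    (hell : ∀ (c : F) (v : Fin 2 → F), v ≠ 0 →
      (g : Matrix (Fin 2) (Fin 2) F).mulVec v ≠ c • v) : χ g = 0 := by
  classical
  have hF : ringChar F ≠ 2 := ringChar_ne_two_of_odd (by rw [h3]; decide)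
  have h2 : (2 : F) ≠ 0 := Ring.two_ne_zero hF
  have hcl := isClassFunction_of_isIrrCharacter hχ
  have hqc : (Fintype.card F : ℂ) = 3 := by rw [h3]; norm_num
  have hdeg2 : χ 1 = 2 := by rw [hdeg, hqc]; norm_num
  have h30 : (3 : F) = 0 := three_eq_zero h3
  have h41 : (4 : F) = 1 := by linear_combination h30
  obtain ⟨D2, hD2⟩ : ∃ D2 : Matrix.SpecialLinearGroup (Fin 2) F → ℂ,
      D2 = fun m => χ m * conj (χ m) := ⟨_, rfl⟩
  have hD2a : ∀ m, D2 m = χ m * conj (χ m) := fun m => by rw [hD2]
  have hD2cl : Cfsg.IsClassFunction (Matrix.SpecialLinearGroup (Fin 2) F) D2 := by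
    intro m h; rw [hD2a, hD2a, hcl m h]
  have hD2conj : ∀ m, conj (D2 m) = D2 m := by
    intro m; rw [hD2a, map_mul, Complex.conj_conj]; ring
  have hN : (Nat.card (Matrix.SpecialLinearGroup (Fin 2) F) : ℂ) = 24 := by
    rw [card_SL2, h3]; norm_num
  have hnorm : ∑ m, D2 m = 24 := by
    have h1 := classInner_irr_self hχ
    rw [classInner_def, hN] at h1
    have h3' : ∑ m, D2 m = ∑ m, χ m * conj (χ m) := Finset.sum_congr rfl (fun m _ => hD2a m)
    rw [h3']
    linear_combination 24 * h1
  have hD21 : D2 1 = 4 := by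
    rw [hD2a, hdeg2, Complex.conj_ofNat]
    norm_num
  have hU : ∀ x : F, D2 (unipS x) = if x = 0 then 4 else 1 := by
    intro x
    by_cases hx : x = 0
    · rw [if_pos hx, hx, unipS_zero, hD21]
    · rw [if_neg hx, hD2a, cuspS_unip_all χ hχ hc hdeg x hx]; simp
  obtain ⟨ω, hω1, hω⟩ := central_char χ hχ (negS F) negS_scalar
  have hωc : ω * conj ω = 1 := by
    rw [Complex.mul_conj', hω1]; norm_num
  have hD2neg : ∀ m, D2 (negS F * m) = D2 m := by
    intro m
    rw [hD2a, hD2a, hω, map_mul]
    linear_combination (χ m * conj (χ m)) * hωc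
  have hsumU : ∑ x : F, (if x = 0 then (4 : ℂ) else 1) = 6 := by
    rw [← Finset.add_sum_erase Finset.univ _ (Finset.mem_univ (0 : F)), if_pos rfl,
      Finset.sum_congr rfl (fun x hx => if_neg (Finset.ne_of_mem_erase hx)), Finset.sum_const,
      Finset.card_erase_of_mem (Finset.mem_univ _), Finset.card_univ, h3]
    norm_num
  have hunits : ∀ a : Fˣ, a = 1 ∨ a = -1 := by
    intro a
    rcases three_cases h3 (a : F) with h | h | h
    · exact absurd h a.ne_zero
    · left; ext; rw [h, Units.val_one]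
    · right; ext; rw [h, Units.val_neg, Units.val_one]
  have hB : ∀ a : Fˣ, ∑ x : F, D2 (borelS a x) = 6 := by
    intro a
    rcases hunits a with rfl | rfl
    · rw [← hsumU]; exact Finset.sum_congr rfl (fun x _ => hU x)
    · rw [← hsumU]
      apply Finset.sum_congr rfl
      intro x _
      rw [borelS_neg_one, hD2neg, hU]
      simp
  have hfrob := frob_one_sum D2 hD2cl
  simp only [hB, hD2conj] at hfrob
  have hcardU : Fintype.card Fˣ = 2 := by rw [Fintype.card_units, h3]
  rw [Finset.sum_const, Finset.card_univ, hcardU, hqc] at hfrob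
  have hfrob' : ∑ m, piS (1 : MulChar F ℂ) m * D2 m = 48 := by
    rw [hfrob, Complex.conj_ofNat]; norm_num
  -- facts on the given element
  obtain ⟨hgns, hgtr⟩ := elliptic_facts h2 g hell
  have htr0 : ∀ m : Matrix.SpecialLinearGroup (Fin 2) F,
      (m : Matrix (Fin 2) (Fin 2) F).trace ^ 2 ≠ 4 → (m : Matrix (Fin 2) (Fin 2) F).trace = 0 := by
    intro m hm
    rcases three_cases h3 (m : Matrix (Fin 2) (Fin 2) F).trace with h | h | h
    · exact h
    · exfalso; apply hm; rw [h, h41]; ring
    · exfalso; apply hm; rw [h, h41]; ring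
  have hne1 : negS F ≠ (1 : Matrix.SpecialLinearGroup (Fin 2) F) := by
    intro h
    have h5 := congrArg (fun m : Matrix.SpecialLinearGroup (Fin 2) F =>
      (m : Matrix (Fin 2) (Fin 2) F) 0 0) h
    unfold negS at h5
    simp only [borelS_val, Matrix.SpecialLinearGroup.coe_one] at h5
    simp at h5
    apply h2
    linear_combination -h5
  have hD2negS : D2 (negS F) = 4 := by
    have := hD2neg 1
    rw [mul_one] at this
    rw [this, hD21]
  have hP : ∀ m : Matrix.SpecialLinearGroup (Fin 2) F,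
      piS (1 : MulChar F ℂ) m * D2 m - D2 m =
        (if m = 1 then (12 : ℂ) else 0) + (if m = negS F then (12 : ℂ) else 0) -
          (if (¬ IsScalar2 (m : Matrix (Fin 2) (Fin 2) F) ∧
            (m : Matrix (Fin 2) (Fin 2) F).trace ^ 2 ≠ 4) then D2 g else 0) := by
    intro m
    by_cases hs : IsScalar2 (m : Matrix (Fin 2) (Fin 2) F)
    · have e3 : ¬ (¬ IsScalar2 (m : Matrix (Fin 2) (Fin 2) F) ∧
          (m : Matrix (Fin 2) (Fin 2) F).trace ^ 2 ≠ 4) := fun h => h.1 hs
      rw [if_neg e3, piS_one_scalar m hs, hqc]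
      rcases scalar_cases m hs with rfl | rfl
      · rw [if_pos rfl, if_neg (Ne.symm hne1), hD21]; norm_num
      · rw [if_neg hne1, if_pos rfl, hD2negS]; norm_num
    · have hm1 : m ≠ 1 := by
        rintro rfl
        exact hs ⟨by simp, by simp, by simp⟩
      have hm2 : m ≠ negS F := by
        rintro rfl
        exact hs negS_scalar
      rw [if_neg hm1, if_neg hm2]
      by_cases ht : (m : Matrix (Fin 2) (Fin 2) F).trace ^ 2 = 4
      · have e3 : ¬ (¬ IsScalar2 (m : Matrix (Fin 2) (Fin 2) F) ∧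
            (m : Matrix (Fin 2) (Fin 2) F).trace ^ 2 ≠ 4) := fun h => h.2 ht
        rw [if_neg e3, piS_one_parabolic h2 m hs ht]; ring
      · rw [if_pos ⟨hs, ht⟩]
        have hmell : ∀ (c : F) (v : Fin 2 → F), v ≠ 0 →
            (m : Matrix (Fin 2) (Fin 2) F).mulVec v ≠ c • v := by
          intro c v hv hmv
          have hdet : ((m : Matrix (Fin 2) (Fin 2) F) - c • (1 : Matrix (Fin 2) (Fin 2) F)).det = 0 := by
            apply Matrix.exists_mulVec_eq_zero_iff.mp
            refine ⟨v, hv, ?_⟩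
            rw [Matrix.sub_mulVec, Matrix.smul_mulVec, Matrix.one_mulVec, hmv, sub_self]
          have hd := m.det_coe
          rw [Matrix.det_fin_two] at hd hdet
          simp only [Matrix.sub_apply, Matrix.smul_apply, Matrix.one_apply_eq, Matrix.one_apply_ne,
            ne_eq, zero_ne_one, one_ne_zero, not_false_eq_true, smul_eq_mul, mul_one, mul_zero,
            sub_zero] at hdet
          have hchar : c ^ 2 - (m : Matrix (Fin 2) (Fin 2) F).trace * c + 1 = 0 := by
            rw [Matrix.trace_fin_two]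
            linear_combination hdet - hd
          have hc2 : c ^ 2 = 1 := by
            rcases three_cases h3 c with rfl | rfl | rfl
            · exfalso; simp at hchar
            · simp
            · simp
          apply ht
          have htr : (m : Matrix (Fin 2) (Fin 2) F).trace = 2 * c := by
            linear_combination (-c) * hchar + (c - (m : Matrix (Fin 2) (Fin 2) F).trace) * hc2
          rw [htr]
          linear_combination 4 * hc2
        have hconj : D2 m = D2 g := by
          apply IsClassFunction.of_isConj hD2cl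
          apply SL2_isConj_of_trace m g (Or.inr ht) hs hgns
          rw [htr0 m ht, htr0 g hgtr]
        rw [piS_apply, indVal_elliptic _ _ hmell, hconj]; ring
  have hsumP : ∑ m, (piS (1 : MulChar F ℂ) m * D2 m - D2 m) = 24 := by
    rw [Finset.sum_sub_distrib, hfrob', hnorm]; norm_num
  simp only [hP] at hsumP
  rw [Finset.sum_sub_distrib, Finset.sum_add_distrib, Finset.sum_ite_eq', Finset.sum_ite_eq',
    if_pos (Finset.mem_univ _), if_pos (Finset.mem_univ _), ← Finset.sum_filter,
    Finset.sum_const, nsmul_eq_mul] at hsumP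
  have hmem : g ∈ Finset.univ.filter (fun m : Matrix.SpecialLinearGroup (Fin 2) F =>
      ¬ IsScalar2 (m : Matrix (Fin 2) (Fin 2) F) ∧
        (m : Matrix (Fin 2) (Fin 2) F).trace ^ 2 ≠ 4) :=
    Finset.mem_filter.mpr ⟨Finset.mem_univ _, hgns, hgtr⟩
  have hcard : ((Finset.univ.filter (fun m : Matrix.SpecialLinearGroup (Fin 2) F =>
      ¬ IsScalar2 (m : Matrix (Fin 2) (Fin 2) F) ∧
        (m : Matrix (Fin 2) (Fin 2) F).trace ^ 2 ≠ 4)).card : ℂ) ≠ 0 :=
    Nat.cast_ne_zero.mpr (Finset.card_ne_zero_of_mem hmem)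
  have hzero : D2 g = 0 := by
    have h5 : ((Finset.univ.filter (fun m : Matrix.SpecialLinearGroup (Fin 2) F =>
      ¬ IsScalar2 (m : Matrix (Fin 2) (Fin 2) F) ∧
        (m : Matrix (Fin 2) (Fin 2) F).trace ^ 2 ≠ 4)).card : ℂ) * D2 g = 0 := by
      linear_combination -hsumP
    exact (mul_eq_zero.mp h5).resolve_left hcard
  rw [hD2a, Complex.mul_conj] at hzero
  have : Complex.normSq (χ g) = 0 := by exact_mod_cast hzero
  exact Complex.normSq_eq_zero.mp this

end Ell

end Cfsg.Agent.Lib.Helper15
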