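import Cfsg.Agent.Lib.Helper3.SLn

set_option autoImplicit false

namespace Cfsg.Agent.Lib.Helper15
namespace SLCyc

open Fin.NatCast in
/-- A subset of `Fin (n + 1)` closed under the successor is everything. -/
theorem fin_orbit {n : ℕ} (S : Fin (n + 1) → Prop) (j₀ : Fin (n + 1)) (h0 : S j₀)
    (hstep : ∀ j, S j → S (j + 1)) (j : Fin (n + 1)) : S j := by
  have h1 : ∀ m : ℕ, S (j₀ + (m : Fin (n + 1))) := by
    intro m
    induction m with
    | zero => simpa using h0
    | succ m ih =>
      have := hstep _ ih
      rwa [add_assoc, ← Nat.cast_succ] at this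
  have h2 := h1 (j - j₀).val
  rwa [Fin.cast_val_eq_self, add_sub_cancel] at h2

/-- The sign function of the cyclic monomial matrix. -/
def eps (K : Type*) [Field K] (n : ℕ) (v : Fin (n + 1)) : K := if v = 0 then (-1) ^ n else 1

theorem eps_mul_self (K : Type*) [Field K] (n : ℕ) (v : Fin (n + 1)) :
    eps K n v * eps K n v = 1 := by
  unfold eps
  by_cases hv : v = 0
  · simp only [if_pos hv]
    rw [← mul_pow]
    simp
  · simp only [if_neg hv, mul_one]

/-- Entries of the cyclic monomial matrix. -/
theorem cyc_apply {K : Type*} [Field K] (n : ℕ) (W : Matrix (Fin (n + 1)) (Fin (n + 1)) K)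
    (hw : W = Matrix.of (fun i j => if j.val = i.val + 1 then 1
      else if i.val = n ∧ j.val = 0 then (-1) ^ n else 0)) (u v : Fin (n + 1)) :
    W u v = if v = u + 1 then eps K n v else 0 := by
  rw [hw, Matrix.of_apply]
  unfold eps
  by_cases hu : u = Fin.last n
  · subst hu
    have h1 : (Fin.last n + 1 : Fin (n + 1)) = 0 := Fin.last_add_one n
    rw [h1]
    have h2 : ¬ (v.val = (Fin.last n).val + 1) := by
      have := v.2
      rw [Fin.val_last]
      omega
    rw [if_neg h2]
    by_cases hv : v = 0
    · subst hv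
      simp
    · have h3 : ¬ ((Fin.last n).val = n ∧ v.val = 0) := by
        rintro ⟨-, h⟩
        exact hv (Fin.ext h)
      rw [if_neg h3, if_neg hv]
  · have hlt : u < Fin.last n := lt_of_le_of_ne (Fin.le_last u) hu
    have h1 : (u + 1).val = u.val + 1 := Fin.val_add_one_of_lt hlt
    by_cases hv : v = u + 1
    · have h2 : v.val = u.val + 1 := by rw [hv, h1]
      have h3 : v ≠ 0 := by
        intro h0
        rw [h0] at h2
        simp at h2
      rw [if_pos h2, if_pos hv]
      simp only [if_neg h3]
    · have h2 : ¬ v.val = u.val + 1 := by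
        intro h
        apply hv
        apply Fin.ext
        rw [h1, h]
      have h3 : ¬ (u.val = n ∧ v.val = 0) := by
        rintro ⟨h, -⟩
        apply hu
        apply Fin.ext
        rw [Fin.val_last]
        exact h
      rw [if_neg h2, if_neg h3, if_neg hv]

/-- A subgroup of `SL_{n+1}(K)` containing the cyclic monomial matrix and a full root subgroup
is everything. -/
theorem sl_gen_of_root_cyclic {K : Type*} [Field K] (n : ℕ) (hn : 1 ≤ n)
    (w : Matrix.SpecialLinearGroup (Fin (n + 1)) K)
    (hw : (w : Matrix (Fin (n + 1)) (Fin (n + 1)) K) =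
      Matrix.of (fun i j => if j.val = i.val + 1 then 1
        else if i.val = n ∧ j.val = 0 then (-1) ^ n else 0))
    (H : Subgroup (Matrix.SpecialLinearGroup (Fin (n + 1)) K)) (hwH : w ∈ H)
    (h01 : ∀ (hij : (0 : Fin (n + 1)) ≠ 1) (a : K),
      Matrix.SpecialLinearGroup.transvection hij a ∈ H) : H = ⊤ := by
  classical
  have : Nontrivial (Fin (n + 1)) := Fin.nontrivial_iff_two_le.2 (by omega)
  have hW := cyc_apply n (w : Matrix (Fin (n + 1)) (Fin (n + 1)) K) hw
  have hε2 := eps_mul_self K n
  have hshift : ∀ (r s : Fin (n + 1)) (hrs : r ≠ s) (hrs' : r + 1 ≠ s + 1) (a : K),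
      w * Matrix.SpecialLinearGroup.transvection hrs' a =
        Matrix.SpecialLinearGroup.transvection hrs (eps K n (r + 1) * a * eps K n (s + 1)) * w := by
    intro r s hrs hrs' a
    apply Subtype.ext
    show (w : Matrix (Fin (n + 1)) (Fin (n + 1)) K) *
        (Matrix.SpecialLinearGroup.transvection hrs' a : Matrix (Fin (n + 1)) (Fin (n + 1)) K) =
      (Matrix.SpecialLinearGroup.transvection hrs (eps K n (r + 1) * a * eps K n (s + 1)) :
        Matrix (Fin (n + 1)) (Fin (n + 1)) K) * (w : Matrix (Fin (n + 1)) (Fin (n + 1)) K)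
    rw [Matrix.SpecialLinearGroup.transvection_coe, Matrix.SpecialLinearGroup.transvection_coe,
      mul_add, add_mul, mul_one, one_mul]
    congr 1
    ext u v
    by_cases hv : v = s + 1
    · subst hv
      rw [Matrix.mul_single_apply_same]
      by_cases hu : u = r
      · subst hu
        rw [Matrix.single_mul_apply_same, hW, hW, if_pos rfl, if_pos rfl, mul_assoc, mul_assoc,
          hε2, mul_one]
      · rw [Matrix.single_mul_apply_of_ne (h := hu), hW,
          if_neg (fun h => hu (add_right_cancel h).symm), zero_mul]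
    · rw [Matrix.mul_single_apply_of_ne (hbj := hv)]
      by_cases hu : u = r
      · subst hu
        rw [Matrix.single_mul_apply_same, hW, if_neg hv, mul_zero]
      · rw [Matrix.single_mul_apply_of_ne (h := hu)]
  obtain ⟨P, hPdef⟩ : ∃ P : Fin (n + 1) → Fin (n + 1) → Prop, P = fun i j =>
      ∀ (hij : i ≠ j) (a : K), Matrix.SpecialLinearGroup.transvection hij a ∈ H := ⟨_, rfl⟩
  have hP01 : P 0 1 := by
    rw [hPdef]
    exact h01
  have hPshift : ∀ r s, P r s → P (r + 1) (s + 1) := by
    intro r s h
    rw [hPdef] at h ⊢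
    intro hij' a
    have hrs : r ≠ s := fun e => hij' (by rw [e])
    have h1 := hshift r s hrs hij' a
    have h2 : Matrix.SpecialLinearGroup.transvection hij' a =
        w⁻¹ * (Matrix.SpecialLinearGroup.transvection hrs
          (eps K n (r + 1) * a * eps K n (s + 1)) * w) :=
      eq_inv_mul_iff_mul_eq.2 h1
    rw [h2]
    exact H.mul_mem (H.inv_mem hwH) (H.mul_mem (h hrs _) hwH)
  have hPtrans : ∀ i k j, P i k → P k j → P i j := by
    intro i k j h1 h2
    by_cases hik : i = k
    · subst hik
      exact h2
    by_cases hkj : k = j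
    · subst hkj
      exact h1
    rw [hPdef] at h1 h2 ⊢
    intro hij a
    have h3 := Cfsg.Agent.Lib.Helper3.transvection_commutator hij hik hkj a 1
    rw [mul_one] at h3
    rw [← h3, commutatorElement_def]
    exact H.mul_mem (H.mul_mem (H.mul_mem (h1 hik a) (h2 hkj 1)) (H.inv_mem (h1 hik a)))
      (H.inv_mem (h2 hkj 1))
  have hC1 : ∀ i : Fin (n + 1), P i (i + 1) := by
    intro i
    induction i using Fin.induction with
    | zero =>
      rw [zero_add]
      exact hP01
    | succ i ih =>
      have h1 := hPshift _ _ ih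
      rw [Fin.coeSucc_eq_succ] at h1
      exact h1
  have hC3 : ∀ (i j : Fin (n + 1)) (hij : i ≠ j) (a : K),
      Matrix.SpecialLinearGroup.transvection hij a ∈ H := by
    intro i j hij a
    have h1 : P i j := fin_orbit (fun j => P i j) (i + 1) (hC1 i)
      (fun j hj => hPtrans _ _ _ hj (hC1 j)) j
    rw [hPdef] at h1
    exact h1 hij a
  exact eq_top_iff.2 (fun g _ => Cfsg.Agent.Lib.Helper3.sl_transvection_induction (fun g => g ∈ H)
    (fun i j hij a => hC3 i j hij a) (fun A B hA hB => H.mul_mem hA hB) g)

/-- A diagonal matrix conjugates a root element to a root element. -/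
theorem diag_transv {K : Type*} [Field K] {m : Type*} [Fintype m] [DecidableEq m] {i j : m}
    (hij : i ≠ j) (δ : Matrix.SpecialLinearGroup m K) (e : m → K)
    (hδ : (δ : Matrix m m K) = Matrix.diagonal e) (a : K) :
    δ * Matrix.SpecialLinearGroup.transvection hij (a * e j) =
      Matrix.SpecialLinearGroup.transvection hij (e i * a) * δ := by
  apply Subtype.ext
  show (δ : Matrix m m K) * (Matrix.SpecialLinearGroup.transvection hij (a * e j) : Matrix m m K) =
    (Matrix.SpecialLinearGroup.transvection hij (e i * a) : Matrix m m K) * (δ : Matrix m m K)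
  rw [Matrix.SpecialLinearGroup.transvection_coe, Matrix.SpecialLinearGroup.transvection_coe,
    mul_add, add_mul, mul_one, one_mul, hδ]
  congr 1
  ext u v
  rw [Matrix.diagonal_mul, Matrix.mul_diagonal]
  by_cases huv : i = u ∧ j = v
  · obtain ⟨rfl, rfl⟩ := huv
    rw [Matrix.single_apply_same, Matrix.single_apply_same]
    ring
  · rw [Matrix.single_apply_of_ne (h := huv), Matrix.single_apply_of_ne (h := huv), mul_zero,
      zero_mul]

end SLCyc
end Cfsg.Agent.Lib.Helper15
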