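import Cfsg.Agent.Lib.Helper15.RepWeights
import Cfsg.Agent.Lib.Helper15.PermSLCount

set_option autoImplicit false

namespace Cfsg.Agent.Lib.Helper15
namespace SLMinDeg

open Module Matrix

variable {F : Type*} [Field F] {m : ℕ}

/-- The matrix with first row `(1, v)` and identity elsewhere. -/
def uMat (v : Fin m → F) : Matrix (Fin 1 ⊕ Fin m) (Fin 1 ⊕ Fin m) F :=
  Matrix.fromBlocks 1 (Matrix.replicateRow (Fin 1) v) 0 1

/-- The elements of the abelian unipotent radical. -/
def uu (v : Fin m → F) : Matrix.SpecialLinearGroup (Fin 1 ⊕ Fin m) F :=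
  ⟨uMat v, by rw [uMat, Matrix.det_fromBlocks_zero₂₁, det_one, det_one, one_mul]⟩

/-- The Levi elements. -/
def gg (A : Matrix.SpecialLinearGroup (Fin m) F) : Matrix.SpecialLinearGroup (Fin 1 ⊕ Fin m) F :=
  ⟨Matrix.fromBlocks 1 0 0 A.1, by
    rw [Matrix.det_fromBlocks_zero₂₁, det_one, one_mul]
    exact A.2⟩

theorem uu_zero : uu (0 : Fin m → F) = 1 := by
  apply Subtype.ext
  show uMat 0 = 1
  rw [uMat, Matrix.replicateRow_zero, Matrix.fromBlocks_one]

theorem uu_add (v v' : Fin m → F) : uu (v + v') = uu v * uu v' := by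
  apply Subtype.ext
  show uMat (v + v') = uMat v * uMat v'
  rw [uMat, uMat, uMat, Matrix.fromBlocks_multiply]
  simp [Matrix.replicateRow_add, add_comm]

theorem gg_uu (A : Matrix.SpecialLinearGroup (Fin m) F) (v : Fin m → F) :
    gg A * uu v = uu (Matrix.vecMul v (A⁻¹ : Matrix.SpecialLinearGroup (Fin m) F).1) * gg A := by
  apply Subtype.ext
  show Matrix.fromBlocks 1 0 0 A.1 * uMat v = uMat _ * Matrix.fromBlocks 1 0 0 A.1
  rw [uMat, uMat, Matrix.fromBlocks_multiply, Matrix.fromBlocks_multiply]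
  have h1 : (A⁻¹ : Matrix.SpecialLinearGroup (Fin m) F).1 * A.1 = 1 :=
    congrArg Subtype.val (inv_mul_cancel A)
  have h2 : Matrix.replicateRow (Fin 1) (Matrix.vecMul v (A⁻¹ : Matrix.SpecialLinearGroup (Fin m) F).1)
      * A.1 = Matrix.replicateRow (Fin 1) v := by
    rw [← Matrix.replicateRow_vecMul, Matrix.vecMul_vecMul, h1, Matrix.vecMul_one]
  simp only [Matrix.one_mul, Matrix.mul_one, Matrix.zero_mul, Matrix.mul_zero, add_zero,
    zero_add, h2]

theorem uu_not_center {v : Fin m → F}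
    (h : uu v ∈ Subgroup.center (Matrix.SpecialLinearGroup (Fin 1 ⊕ Fin m) F)) : v = 0 := by
  rw [Matrix.SpecialLinearGroup.mem_center_iff] at h
  obtain ⟨r, -, hr⟩ := h
  funext j
  have h1 := congrFun (congrFun hr (Sum.inl 0)) (Sum.inr j)
  have h2 : (uu v).1 (Sum.inl 0) (Sum.inr j) = v j := by
    show uMat v (Sum.inl 0) (Sum.inr j) = v j
    simp [uMat]
  rw [h2] at h1
  rw [← h1]
  simp

/-- Reindexing the special linear group along an equivalence of index types. -/
def reindexSL {κ κ' : Type*} [Fintype κ] [DecidableEq κ] [Fintype κ'] [DecidableEq κ']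
    (e : κ ≃ κ') : Matrix.SpecialLinearGroup κ F →* Matrix.SpecialLinearGroup κ' F where
  toFun M := ⟨Matrix.reindex e e M.1, by
    rw [Matrix.det_reindex_self]
    exact M.2⟩
  map_one' := Subtype.ext (by simp)
  map_mul' M N := Subtype.ext (by
    show Matrix.reindex e e (M.1 * N.1) = Matrix.reindex e e M.1 * Matrix.reindex e e N.1
    simp [Matrix.reindex_apply, Matrix.submatrix_mul_equiv])

theorem reindexSL_injective {κ κ' : Type*} [Fintype κ] [DecidableEq κ] [Fintype κ']
    [DecidableEq κ'] (e : κ ≃ κ') : Function.Injective (reindexSL (F := F) e) := by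
  intro M N h
  apply Subtype.ext
  have h1 : Matrix.reindex e e M.1 = Matrix.reindex e e N.1 := congrArg Subtype.val h
  exact (Matrix.reindex e e).injective h1

/-- A cross-characteristic representation of `SL_{m+1}(F)` with central kernel has degree at
least `q ^ m - 1`. -/
theorem sl_min_degree [Fintype F] (hm : 2 ≤ m) {K : Type*} [Field K]
    (hK : ringChar K ≠ ringChar F) {d : ℕ}
    (ρ : Matrix.SpecialLinearGroup (Fin 1 ⊕ Fin m) F →* GL (Fin d) K)
    (hker : ρ.ker ≤ Subgroup.center (Matrix.SpecialLinearGroup (Fin 1 ⊕ Fin m) F)) :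
    Fintype.card F ^ m - 1 ≤ d := by
  classical
  have hm0 : 0 < m := by omega
  let a₀ : Fin m → F := Pi.single ⟨0, hm0⟩ 1
  have ha₀ : ρ (uu a₀) ≠ 1 := by
    intro h
    have h1 := uu_not_center (hker (MonoidHom.mem_ker.2 h))
    have h2 := congrFun h1 ⟨0, hm0⟩
    simp [a₀] at h2
  obtain ⟨Ω, hcard, ⟨w₁, hw₁, hw₁0⟩, hcl⟩ :=
    RepProj.exists_weights hK ρ uu uu_zero uu_add a₀ ha₀
  have hw₁ne : w₁ ≠ 0 := by
    rintro rfl
    simp at hw₁0
  have hall : ∀ w : Fin m → F, w ≠ 0 → w ∈ Ω := by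
    intro w hw
    obtain ⟨A, hA⟩ := SL_transitive_families (k := 1) (n := m) (by omega) (fun _ => w₁)
      (fun _ => w) ((linearIndependent_unique_iff (v := fun _ : Fin 1 => w₁)).2 hw₁ne)
      ((linearIndependent_unique_iff (v := fun _ : Fin 1 => w)).2 hw)
    have hA' : A.1 *ᵥ w₁ = w := hA 0
    have h1 : (A⁻¹ : Matrix.SpecialLinearGroup (Fin m) F).1 * A.1 = 1 :=
      congrArg Subtype.val (inv_mul_cancel A)
    have h2 : A.1 * (A⁻¹ : Matrix.SpecialLinearGroup (Fin m) F).1 = 1 :=
      congrArg Subtype.val (mul_inv_cancel A)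
    let π : (Fin m → F) ≃ (Fin m → F) :=
      { toFun := fun a => Matrix.vecMul a (A⁻¹ : Matrix.SpecialLinearGroup (Fin m) F).1
        invFun := fun a => Matrix.vecMul a A.1
        left_inv := fun a => by
          show Matrix.vecMul (Matrix.vecMul a _) A.1 = a
          rw [Matrix.vecMul_vecMul, h1, Matrix.vecMul_one]
        right_inv := fun a => by
          show Matrix.vecMul (Matrix.vecMul a A.1) _ = a
          rw [Matrix.vecMul_vecMul, h2, Matrix.vecMul_one] }
    have h3 := hcl (gg A) π (fun w => A.1 *ᵥ w) (fun a w => by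
      show Matrix.vecMul a (A⁻¹ : Matrix.SpecialLinearGroup (Fin m) F).1 ⬝ᵥ (A.1 *ᵥ w) = a ⬝ᵥ w
      rw [Matrix.dotProduct_mulVec, Matrix.vecMul_vecMul, h1, Matrix.vecMul_one])
      (fun a => gg_uu A a) w₁ hw₁
    rw [← hA']
    exact h3
  have hsub : Finset.univ.filter (fun w : Fin m → F => w ≠ 0) ⊆ Ω := by
    intro w hw
    exact hall w (Finset.mem_filter.1 hw).2
  have hc : (Finset.univ.filter (fun w : Fin m → F => w ≠ 0)).card = Fintype.card F ^ m - 1 := by
    rw [Finset.filter_ne', Finset.card_erase_of_mem (Finset.mem_univ _), Finset.card_univ,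
      Fintype.card_fun, Fintype.card_fin]
  rw [← hc]
  exact (Finset.card_le_card hsub).trans hcard

end SLMinDeg
end Cfsg.Agent.Lib.Helper15
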