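import Mathlib

set_option autoImplicit false

namespace Cfsg.Agent.Lib.Helper15.SpD

universe u v

variable {K : Type u} [Field K] {V : Type v} [AddCommGroup V] [Module K V]

theorem skew (B : LinearMap.BilinForm K V) (halt : ∀ x, B x x = 0) (x y : V) :
    B x y = - B y x := by
  have h := halt (x + y)
  simp only [map_add, LinearMap.add_apply, halt, zero_add, add_zero] at h
  linear_combination h

theorem hyp_formula (B : LinearMap.BilinForm K V) (halt : ∀ x, B x x = 0) (e f : V)
    (hef : B e f = 1) (t t' : V) (a b a' b' : K)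
    (ht1 : B t f = 0) (ht2 : B e t = 0) (ht1' : B t' f = 0) (ht2' : B e t' = 0) :
    B (a • e + b • f + t) (a' • e + b' • f + t') = a * b' - b * a' + B t t' := by
  have h1 : B f e = -1 := by rw [skew B halt, hef]
  have h2 : B f t' = 0 := by rw [skew B halt, ht1', neg_zero]
  have h3 : B t e = 0 := by rw [skew B halt, ht2, neg_zero]
  simp only [map_add, map_smul, LinearMap.add_apply, LinearMap.smul_apply, smul_eq_mul, halt,
    hef, h1, h2, h3, ht1, ht2, ht1', ht2']
  ring

theorem exists_pair [Nontrivial V] (B : LinearMap.BilinForm K V)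
    (hnd : ∀ x, (∀ y, B x y = 0) → x = 0) : ∃ e f, B e f = 1 := by
  obtain ⟨e, he⟩ := exists_ne (0 : V)
  have : ∃ y, B e y ≠ 0 := by
    by_contra h
    push_neg at h
    exact he (hnd e h)
  obtain ⟨y, hy⟩ := this
  refine ⟨e, (B e y)⁻¹ • y, ?_⟩
  rw [map_smul, smul_eq_mul, inv_mul_cancel₀ hy]

/-- The map `x ↦ (B x f, B e x)`. -/
def psi (B : LinearMap.BilinForm K V) (e f : V) : V →ₗ[K] K × K := (B.flip f).prod (B e)

/-- The orthogonal complement of the hyperbolic pair. -/
def Wc (B : LinearMap.BilinForm K V) (e f : V) : Submodule K V := LinearMap.ker (psi B e f)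

theorem psi_apply (B : LinearMap.BilinForm K V) (e f x : V) : psi B e f x = (B x f, B e x) := rfl

theorem mem_Wc (B : LinearMap.BilinForm K V) (e f x : V) :
    x ∈ Wc B e f ↔ B x f = 0 ∧ B e x = 0 := by
  unfold Wc
  rw [LinearMap.mem_ker, psi_apply, Prod.mk_eq_zero]

theorem finrank_Wc [FiniteDimensional K V] (B : LinearMap.BilinForm K V)
    (halt : ∀ x, B x x = 0) (e f : V) (hef : B e f = 1) :
    Module.finrank K (Wc B e f) + 2 = Module.finrank K V := by
  have hsurj : Function.Surjective (psi B e f) := by
    rintro ⟨a, b⟩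
    refine ⟨a • e + b • f, ?_⟩
    rw [psi_apply]
    simp only [map_add, map_smul, LinearMap.add_apply, LinearMap.smul_apply, smul_eq_mul, halt,
      hef]
    simp
  have h := LinearMap.finrank_range_add_finrank_ker (psi B e f)
  rw [LinearMap.range_eq_top.mpr hsurj, finrank_top, Module.finrank_prod, Module.finrank_self]
    at h
  unfold Wc
  omega

/-- The projection onto the complement. -/
def piL (B : LinearMap.BilinForm K V) (e f : V) : V →ₗ[K] V :=
  LinearMap.id - (B.flip f).smulRight e - (B e).smulRight f

theorem piL_apply (B : LinearMap.BilinForm K V) (e f x : V) :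
    piL B e f x = x - B x f • e - B e x • f := by
  simp [piL]

theorem piL_mem (B : LinearMap.BilinForm K V) (halt : ∀ x, B x x = 0) (e f : V)
    (hef : B e f = 1) (x : V) : piL B e f x ∈ Wc B e f := by
  rw [mem_Wc, piL_apply]
  constructor
  · simp only [map_sub, map_smul, LinearMap.sub_apply, LinearMap.smul_apply, smul_eq_mul, hef,
      halt]
    ring
  · simp only [map_sub, map_smul, smul_eq_mul, hef, halt]
    ring

theorem decomp (B : LinearMap.BilinForm K V) (e f x : V) :
    x = B x f • e + B e x • f + piL B e f x := by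
  rw [piL_apply]; abel

/-- Darboux: two nondegenerate alternating forms on spaces of the same dimension are
isometric. -/
theorem darboux : ∀ (n : ℕ) (V V' : Type v) [AddCommGroup V] [Module K V]
    [AddCommGroup V'] [Module K V'] [FiniteDimensional K V] [FiniteDimensional K V']
    (B : LinearMap.BilinForm K V) (B' : LinearMap.BilinForm K V'),
    Module.finrank K V = n → Module.finrank K V' = n → (∀ x, B x x = 0) → (∀ x, B' x x = 0) →
    (∀ x, (∀ y, B x y = 0) → x = 0) → (∀ x, (∀ y, B' x y = 0) → x = 0) →
    ∃ T : V →ₗ[K] V', ∀ x y, B' (T x) (T y) = B x y := by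
  intro n
  induction n using Nat.strong_induction_on with
  | _ n ih =>
  intro V V' _ _ _ _ _ _ B B' hV hV' halt halt' hnd hnd'
  by_cases hn : n = 0
  · subst hn
    have : Subsingleton V := Module.finrank_zero_iff.mp hV
    refine ⟨0, fun x y => ?_⟩
    rw [Subsingleton.elim x 0]
    simp
  · have hnt : Nontrivial V := Module.nontrivial_of_finrank_pos (R := K) (by omega)
    have hnt' : Nontrivial V' := Module.nontrivial_of_finrank_pos (R := K) (by omega)
    obtain ⟨e, f, hef⟩ := exists_pair B hnd
    obtain ⟨e', f', hef'⟩ := exists_pair B' hnd'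
    have hfr := finrank_Wc B halt e f hef
    have hfr' := finrank_Wc B' halt' e' f' hef'
    have hndW : ∀ x : Wc B e f, (∀ y : Wc B e f, B x.1 y.1 = 0) → x = 0 := by
      intro x hx
      apply Subtype.ext
      apply hnd
      intro z
      have h1 : B x.1 f = 0 := ((mem_Wc B e f x.1).mp x.2).1
      have h2 : B x.1 e = 0 := by rw [skew B halt, ((mem_Wc B e f x.1).mp x.2).2, neg_zero]
      have h3 : B x.1 (piL B e f z) = 0 := hx ⟨_, piL_mem B halt e f hef z⟩
      rw [decomp B e f z, map_add, map_add, map_smul, map_smul, h1, h2, h3]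
      simp
    have hndW' : ∀ x : Wc B' e' f', (∀ y : Wc B' e' f', B' x.1 y.1 = 0) → x = 0 := by
      intro x hx
      apply Subtype.ext
      apply hnd'
      intro z
      have h1 : B' x.1 f' = 0 := ((mem_Wc B' e' f' x.1).mp x.2).1
      have h2 : B' x.1 e' = 0 := by
        rw [skew B' halt', ((mem_Wc B' e' f' x.1).mp x.2).2, neg_zero]
      have h3 : B' x.1 (piL B' e' f' z) = 0 := hx ⟨_, piL_mem B' halt' e' f' hef' z⟩
      rw [decomp B' e' f' z, map_add, map_add, map_smul, map_smul, h1, h2, h3]
      simp
    obtain ⟨TW, hTW⟩ := ih (Module.finrank K (Wc B e f)) (by omega) (Wc B e f) (Wc B' e' f')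
      (B.compl₁₂ (Wc B e f).subtype (Wc B e f).subtype)
      (B'.compl₁₂ (Wc B' e' f').subtype (Wc B' e' f').subtype) rfl (by omega)
      (fun x => by rw [LinearMap.compl₁₂_apply]; exact halt _)
      (fun x => by rw [LinearMap.compl₁₂_apply]; exact halt' _)
      (fun x hx => hndW x (fun y => by
        have := hx y
        rw [LinearMap.compl₁₂_apply] at this
        exact this))
      (fun x hx => hndW' x (fun y => by
        have := hx y
        rw [LinearMap.compl₁₂_apply] at this
        exact this))
    have hTW' : ∀ x y : Wc B e f, B' (TW x).1 (TW y).1 = B x.1 y.1 := by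
      intro x y
      have := hTW x y
      rw [LinearMap.compl₁₂_apply, LinearMap.compl₁₂_apply] at this
      exact this
    let π : V →ₗ[K] Wc B e f := (piL B e f).codRestrict (Wc B e f) (piL_mem B halt e f hef)
    let T : V →ₗ[K] V' := (B.flip f).smulRight e' + (B e).smulRight f' +
      (Wc B' e' f').subtype ∘ₗ TW ∘ₗ π
    have hT : ∀ x, T x = B x f • e' + B e x • f' + (TW (π x)).1 := fun x => rfl
    refine ⟨T, fun x y => ?_⟩
    rw [hT, hT, hyp_formula B' halt' e' f' hef' _ _ _ _ _ _
      ((mem_Wc B' e' f' _).mp (TW (π x)).2).1 ((mem_Wc B' e' f' _).mp (TW (π x)).2).2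
      ((mem_Wc B' e' f' _).mp (TW (π y)).2).1 ((mem_Wc B' e' f' _).mp (TW (π y)).2).2, hTW']
    calc B x f * B e y - B e x * B y f + B (π x).1 (π y).1
        = B (B x f • e + B e x • f + piL B e f x) (B y f • e + B e y • f + piL B e f y) :=
          (hyp_formula B halt e f hef _ _ _ _ _ _
            ((mem_Wc B e f _).mp (piL_mem B halt e f hef x)).1
            ((mem_Wc B e f _).mp (piL_mem B halt e f hef x)).2
            ((mem_Wc B e f _).mp (piL_mem B halt e f hef y)).1
            ((mem_Wc B e f _).mp (piL_mem B halt e f hef y)).2).symm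
      _ = B x y := by rw [← decomp B e f x, ← decomp B e f y]

end Cfsg.Agent.Lib.Helper15.SpD
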