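import Mathlib

set_option autoImplicit false

namespace Cfsg.Agent.Lib.Helper15.Wall

open Polynomial

variable {K : Type*} [Field K]

/-- Coefficientwise conjugation of polynomials. -/
noncomputable def cj (σ : K →+* K) : K[X] →+* K[X] := Polynomial.mapRingHom σ

theorem cj_apply (σ : K →+* K) (f : K[X]) : cj σ f = f.map σ := rfl

theorem cj_X (σ : K →+* K) : cj σ X = X := Polynomial.map_X σ

theorem cj_C (σ : K →+* K) (a : K) : cj σ (C a) = C (σ a) := Polynomial.map_C σ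

theorem cj_cj (σ : K →+* K) (hσ : ∀ x, σ (σ x) = x) (f : K[X]) : cj σ (cj σ f) = f := by
  rw [cj_apply, cj_apply, Polynomial.map_map]
  have h : σ.comp σ = RingHom.id K := RingHom.ext hσ
  rw [h, Polynomial.map_id]

theorem cj_dvd (σ : K →+* K) {f g : K[X]} (h : f ∣ g) : cj σ f ∣ cj σ g := map_dvd (cj σ) h

theorem cj_irreducible (σ : K →+* K) (hσ : ∀ x, σ (σ x) = x) {f : K[X]} (hf : Irreducible f) :
    Irreducible (cj σ f) := by
  constructor
  · intro hu
    have h1 := hu.map (cj σ)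
    rw [cj_cj σ hσ] at h1
    exact hf.not_isUnit h1
  · intro a b hab
    have h1 : f = cj σ a * cj σ b := by
      rw [← map_mul, ← hab, cj_cj σ hσ]
    rcases hf.isUnit_or_isUnit h1 with h | h
    · left
      have h2 := h.map (cj σ)
      rwa [cj_cj σ hσ] at h2
    · right
      have h2 := h.map (cj σ)
      rwa [cj_cj σ hσ] at h2

theorem cong_dvd (σ : K →+* K) (D g g' : K[X]) (hD : D ∣ cj σ D) (h1 : D ∣ g - g')
    (h2 : D ∣ cj σ g' * g' - X) : D ∣ cj σ g * g - X := by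
  have h3 : D ∣ cj σ g - cj σ g' := by
    have h := cj_dvd σ h1
    rw [map_sub] at h
    exact hD.trans h
  have h4 : cj σ g * g - X =
      (cj σ g - cj σ g') * g + cj σ g' * (g - g') + (cj σ g' * g' - X) := by ring
  rw [h4]
  exact dvd_add (dvd_add (Dvd.dvd.mul_right h3 _) (Dvd.dvd.mul_left h1 _)) h2

/-- Lifting a norm solution from a real modulus to its square. -/
theorem lift_sq (σ : K →+* K) (hσ : ∀ x, σ (σ x) = x) (lam : K) (hlam : lam + σ lam = 1)
    (M g : K[X]) (hM : M ∣ cj σ M) (hcop : IsCoprime M X) (hg : M ∣ cj σ g * g - X) :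
    ∃ g' : K[X], M ^ 2 ∣ cj σ g' * g' - X := by
  obtain ⟨k, hk⟩ := hg
  have h1 : cj σ g * g = X + M * k := by linear_combination hk
  have hc1 : IsCoprime M (cj σ g * g) := by
    rw [h1]
    exact hcop.add_mul_left_right k
  have hc2 : IsCoprime M (cj σ g) := hc1.of_mul_right_left
  obtain ⟨a, b, hab⟩ := hc2
  obtain ⟨E, hE⟩ : ∃ E : K[X], E = X - cj σ g * g := ⟨_, rfl⟩
  have hME : M ∣ E := ⟨-k, by linear_combination hE - hk⟩
  have hcjE : cj σ E = E := by
    rw [hE, map_sub, map_mul, cj_X, cj_cj σ hσ, mul_comm g (cj σ g)]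
  have h2 : M ∣ b * cj σ g - 1 := ⟨-a, by linear_combination hab⟩
  have h3 : M ∣ cj σ b * g - 1 := by
    have h4 : cj σ M ∣ cj σ (b * cj σ g - 1) := cj_dvd σ h2
    rw [map_sub, map_mul, cj_cj σ hσ, map_one] at h4
    exact hM.trans h4
  refine ⟨g + C lam * E * b, ?_⟩
  have hcl : (C lam : K[X]) + C (σ lam) = 1 := by rw [← C_add, hlam, C_1]
  have h5 : cj σ (g + C lam * E * b) = cj σ g + C (σ lam) * E * cj σ b := by
    rw [map_add, map_mul, map_mul, cj_C, hcjE]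
  rw [h5]
  have h6 : (cj σ g + C (σ lam) * E * cj σ b) * (g + C lam * E * b) - X =
      E * (C lam * (b * cj σ g - 1) + C (σ lam) * (cj σ b * g - 1)) +
        C (σ lam) * C lam * (b * cj σ b) * E ^ 2 := by
    linear_combination hE + E * hcl
  rw [h6]
  apply dvd_add
  · rw [sq]
    exact mul_dvd_mul hME (dvd_add (Dvd.dvd.mul_left h2 _) (Dvd.dvd.mul_left h3 _))
  · exact Dvd.dvd.mul_left (pow_dvd_pow_of_dvd hME 2) _

theorem lift_pow (σ : K →+* K) (hσ : ∀ x, σ (σ x) = x) (lam : K) (hlam : lam + σ lam = 1)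
    (π : K[X]) (hπ : cj σ π = π) (hcop : IsCoprime π X)
    (g₀ : K[X]) (hg₀ : π ∣ cj σ g₀ * g₀ - X) :
    ∀ j : ℕ, ∃ g : K[X], π ^ (2 ^ j) ∣ cj σ g * g - X := by
  intro j
  induction j with
  | zero => exact ⟨g₀, by simpa using hg₀⟩
  | succ j ih =>
    obtain ⟨g, hg⟩ := ih
    have hM : π ^ (2 ^ j) ∣ cj σ (π ^ (2 ^ j)) := by rw [map_pow, hπ]
    obtain ⟨g', hg'⟩ := lift_sq σ hσ lam hlam (π ^ (2 ^ j)) g hM hcop.pow_left hg
    refine ⟨g', ?_⟩
    rwa [pow_succ, pow_mul]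

/-- Norm solution modulo a product of two conjugate coprime factors. -/
theorem base_split (σ : K →+* K) (hσ : ∀ x, σ (σ x) = x) (ρ : K[X])
    (hcop : IsCoprime ρ (cj σ ρ)) : ∃ g : K[X], ρ * cj σ ρ ∣ cj σ g * g - X := by
  obtain ⟨u, v, huv⟩ := hcop
  have huv' : cj σ u * cj σ ρ + cj σ v * ρ = 1 := by
    have h := congrArg (cj σ) huv
    rwa [map_add, map_mul, map_mul, cj_cj σ hσ, map_one] at h
  refine ⟨X * v * cj σ ρ + u * ρ, ?_⟩
  have hcg : cj σ (X * v * cj σ ρ + u * ρ) = X * cj σ v * ρ + cj σ u * cj σ ρ := by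
    rw [map_add, map_mul, map_mul, map_mul, cj_X, cj_cj σ hσ]
  have e1 : X * cj σ v * ρ + cj σ u * cj σ ρ = 1 + ρ * (cj σ v * (X - 1)) := by
    linear_combination huv'
  have e2 : X * v * cj σ ρ + u * ρ = X + ρ * (u * (1 - X)) := by
    linear_combination X * huv
  have d1 : ρ ∣ cj σ (X * v * cj σ ρ + u * ρ) * (X * v * cj σ ρ + u * ρ) - X := by
    rw [hcg, e1, e2]
    exact ⟨u * (1 - X) + cj σ v * (X - 1) * (X + ρ * (u * (1 - X))), by ring⟩
  have d2 : cj σ ρ ∣ cj σ (X * v * cj σ ρ + u * ρ) * (X * v * cj σ ρ + u * ρ) - X := by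
    have h := cj_dvd σ d1
    rw [map_sub, map_mul, cj_cj σ hσ, cj_X] at h
    rw [mul_comm]
    exact h
  exact IsCoprime.mul_dvd ⟨u, v, huv⟩ d1 d2

/-- Surjectivity of the norm of a finite field with an involution. -/
theorem norm_surj {L : Type*} [Field L] [Finite L] (τ : L →+* L) (hτ : ∀ x, τ (τ x) = x)
    (hne : ∃ x, τ x ≠ x) (θ : L) (hθ : τ θ = θ) (hθ0 : θ ≠ 0) : ∃ γ : L, τ γ * γ = θ := by
  classical
  letI : Fintype L := Fintype.ofFinite L
  let Fx : Subfield L := RingHom.eqLocusField τ (RingHom.id L)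
  have hmem : ∀ x : L, x ∈ Fx ↔ τ x = x := fun x => Iff.rfl
  obtain ⟨Q, hQ⟩ : ∃ Q : ℕ, Q = Fintype.card Fx := ⟨_, rfl⟩
  have hQ2 : 2 ≤ Q := by
    rw [hQ]
    exact Fintype.one_lt_card
  have hfix : ∀ x : L, τ x = x → x ^ Q = x := by
    intro x hx
    have h1 := FiniteField.pow_card (⟨x, (hmem x).mpr hx⟩ : Fx)
    have h2 := congrArg (Subtype.val) h1
    rw [hQ]
    simpa using h2
  have hpoly : ∀ (N : ℕ), 2 ≤ N → ∀ S : Finset L, (∀ x ∈ S, x ^ N = x) → S.card ≤ N := by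
    intro N hN S hS
    have h2 : (X ^ N - X : L[X]) ≠ 0 := FiniteField.X_pow_card_sub_X_ne_zero L (by omega)
    have h3 : S ⊆ (X ^ N - X : L[X]).roots.toFinset := by
      intro x hx
      rw [Multiset.mem_toFinset, Polynomial.mem_roots h2]
      simp [hS x hx]
    calc S.card ≤ (X ^ N - X : L[X]).roots.toFinset.card := Finset.card_le_card h3
      _ ≤ Multiset.card (X ^ N - X : L[X]).roots := Multiset.toFinset_card_le _
      _ ≤ (X ^ N - X : L[X]).natDegree := Polynomial.card_roots' _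
      _ = N := FiniteField.X_pow_card_sub_X_natDegree_eq L (by omega)
  have hfix' : ∀ x : L, x ^ Q = x → τ x = x := by
    intro x hx
    have h1 : (Finset.univ.filter (fun y : L => τ y = y)).card = Q := by
      rw [hQ]
      exact (Fintype.card_of_subtype (Finset.univ.filter (fun y : L => τ y = y))
        (fun y => by rw [Finset.mem_filter, hmem]; simp)).symm
    have h2 : Finset.univ.filter (fun y : L => τ y = y) ⊆
        Finset.univ.filter (fun y : L => y ^ Q = y) := by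
      intro y hy
      rw [Finset.mem_filter] at hy ⊢
      exact ⟨hy.1, hfix y hy.2⟩
    have h3 : (Finset.univ.filter (fun y : L => y ^ Q = y)).card ≤ Q :=
      hpoly Q hQ2 _ (fun y hy => (Finset.mem_filter.mp hy).2)
    have h4 := Finset.eq_of_subset_of_card_le h2 (by rw [h1]; exact h3)
    have h5 : x ∈ Finset.univ.filter (fun y : L => τ y = y) := by
      rw [h4, Finset.mem_filter]
      exact ⟨Finset.mem_univ x, hx⟩
    exact (Finset.mem_filter.mp h5).2
  obtain ⟨p, hp⟩ := CharP.exists L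
  have hprime : p.Prime := CharP.char_is_prime L p
  haveI : Fact p.Prime := ⟨hprime⟩
  haveI : CharP Fx p := RingHom.charP Fx.subtype (fun a b h => Subtype.ext h) p
  obtain ⟨k, -, hk⟩ := FiniteField.card Fx p
  have hQk : Q = p ^ (k : ℕ) := by rw [hQ, hk]
  have hadd : ∀ x y : L, (x + y) ^ Q = x ^ Q + y ^ Q := by
    intro x y
    rw [hQk]
    exact add_pow_char_pow x y p k
  have hsub : ∀ x y : L, (x - y) ^ Q = x ^ Q - y ^ Q := by
    intro x y
    rw [hQk]
    exact sub_pow_char_pow x y k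
  have hτQ : ∀ x : L, τ x = x ^ Q := by
    intro x
    have hs : τ (x + τ x) = x + τ x := by rw [map_add, hτ, add_comm]
    have hn : τ (x * τ x) = x * τ x := by rw [map_mul, hτ, mul_comm]
    have h1 : x * x - (x + τ x) * x + x * τ x = 0 := by ring
    have h2 : (x * x - (x + τ x) * x + x * τ x) ^ Q = 0 := by rw [h1, zero_pow (by omega)]
    rw [hadd, hsub, hfix _ hn, mul_pow (x + τ x) x, hfix _ hs, mul_pow x x] at h2
    have h3 : (x ^ Q - x) * (x ^ Q - τ x) = 0 := by linear_combination h2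
    rcases mul_eq_zero.mp h3 with h | h
    · have h4 : x ^ Q = x := sub_eq_zero.mp h
      rw [hfix' x h4, h4]
    · exact (sub_eq_zero.mp h).symm
  have hcardle : Fintype.card L ≤ Q * Q := by
    have h := hpoly (Q * Q) (by nlinarith) Finset.univ (fun x _ => by
      rw [pow_mul, ← hτQ, ← hτQ, hτ])
    rwa [Finset.card_univ] at h
  have hcardge : Q * Q ≤ Fintype.card L := by
    obtain ⟨ω, hω⟩ := hne
    have hinj : Function.Injective (fun ab : Fx × Fx => (ab.1 : L) + (ab.2 : L) * ω) := by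
      rintro ⟨a, b⟩ ⟨a', b'⟩ h
      have h' : (a : L) + (b : L) * ω = (a' : L) + (b' : L) * ω := h
      by_cases hb : b = b'
      · subst hb
        have h1 : (a : L) = a' := by linear_combination h'
        exact Prod.ext (Subtype.ext h1) rfl
      · exfalso
        apply hω
        have hbb : ((b : L) - b') ≠ 0 := fun h0 => hb (Subtype.ext (sub_eq_zero.mp h0))
        have hω' : ω = ((a' : L) - a) / ((b : L) - b') :=
          eq_div_of_mul_eq hbb (by linear_combination h')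
        have h2 : ((a' : L) - a) / ((b : L) - b') ∈ Fx :=
          Fx.div_mem (Fx.sub_mem a'.2 a.2) (Fx.sub_mem b.2 b'.2)
        rw [hω']
        exact (hmem _).mp h2
    have h := Fintype.card_le_of_injective _ hinj
    rwa [Fintype.card_prod, ← hQ] at h
  have hcard : Fintype.card L = Q * Q := le_antisymm hcardle hcardge
  obtain ⟨ζ, hζ⟩ := IsCyclic.exists_generator (α := Lˣ)
  have hord : orderOf ζ = Q * Q - 1 := by
    rw [orderOf_eq_card_of_forall_mem_zpowers hζ, Nat.card_eq_fintype_card, Fintype.card_units,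
      hcard]
  obtain ⟨j, hj⟩ : ∃ j : ℕ, ζ ^ j = Units.mk0 θ hθ0 := by
    have h := hζ (Units.mk0 θ hθ0)
    rw [← mem_powers_iff_mem_zpowers] at h
    exact h
  have hθQ : (Units.mk0 θ hθ0) ^ (Q - 1) = 1 := by
    apply Units.ext
    rw [Units.val_pow_eq_pow_val, Units.val_one]
    show θ ^ (Q - 1) = 1
    have h1 : θ ^ Q = θ := hfix θ hθ
    have h2 : θ ^ (Q - 1) * θ = θ := by
      rw [← pow_succ, Nat.sub_add_cancel (by omega), h1]
    exact mul_right_cancel₀ hθ0 (by rw [h2, one_mul])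
  have hdvd : Q * Q - 1 ∣ j * (Q - 1) := by
    rw [← hord]
    apply orderOf_dvd_of_pow_eq_one
    rw [pow_mul, hj, hθQ]
  have hfac : Q * Q - 1 = (Q - 1) * (Q + 1) := by
    obtain ⟨Q', rfl⟩ : ∃ Q', Q = Q' + 1 := ⟨Q - 1, by omega⟩
    rw [Nat.add_sub_cancel]
    have h : (Q' + 1) * (Q' + 1) = Q' * (Q' + 1 + 1) + 1 := by ring
    rw [h, Nat.add_sub_cancel]
  have hdvd2 : Q + 1 ∣ j := by
    rw [hfac, mul_comm j] at hdvd
    exact Nat.dvd_of_mul_dvd_mul_left (by omega) hdvd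
  obtain ⟨j', rfl⟩ := hdvd2
  refine ⟨((ζ ^ j' : Lˣ) : L), ?_⟩
  rw [hτQ, ← pow_succ]
  have h : ((ζ ^ j' : Lˣ) : L) ^ (Q + 1) = ((ζ ^ ((Q + 1) * j') : Lˣ) : L) := by
    rw [← Units.val_pow_eq_pow_val, ← pow_mul, mul_comm]
  rw [h, hj]
  rfl

/-- Norm solution modulo a real irreducible polynomial. -/
theorem base_real [Finite K] (σ : K →+* K) (hσ : ∀ x, σ (σ x) = x) (hne : ∃ a, σ a ≠ a)
    (ρ : K[X]) (hρ : Irreducible ρ) (hreal : ρ ∣ cj σ ρ) (hcop : IsCoprime ρ X) :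
    ∃ g : K[X], ρ ∣ cj σ g * g - X := by
  haveI : Fact (Irreducible ρ) := ⟨hρ⟩
  have hρ0 : ρ ≠ 0 := hρ.ne_zero
  haveI : Module.Finite K (AdjoinRoot ρ) := (AdjoinRoot.powerBasis hρ0).finite
  haveI : Finite (AdjoinRoot ρ) := Module.finite_of_finite K
  have hlift : ρ.eval₂ ((AdjoinRoot.of ρ).comp σ) (AdjoinRoot.root ρ) = 0 := by
    rw [← Polynomial.eval₂_map, ← AdjoinRoot.algebraMap_eq, ← Polynomial.aeval_def,
      AdjoinRoot.aeval_eq, AdjoinRoot.mk_eq_zero]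
    exact hreal
  let τ : AdjoinRoot ρ →+* AdjoinRoot ρ :=
    AdjoinRoot.lift ((AdjoinRoot.of ρ).comp σ) (AdjoinRoot.root ρ) hlift
  have hτmk : ∀ g : K[X], τ (AdjoinRoot.mk ρ g) = AdjoinRoot.mk ρ (cj σ g) := by
    intro g
    show AdjoinRoot.lift _ _ hlift (AdjoinRoot.mk ρ g) = _
    rw [AdjoinRoot.lift_mk, ← Polynomial.eval₂_map, ← AdjoinRoot.algebraMap_eq,
      ← Polynomial.aeval_def, AdjoinRoot.aeval_eq]
    rfl
  have hτ2 : ∀ x, τ (τ x) = x := by
    intro x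
    obtain ⟨g, rfl⟩ := AdjoinRoot.mk_surjective x
    rw [hτmk, hτmk, cj_cj σ hσ]
  have hτne : ∃ x, τ x ≠ x := by
    obtain ⟨a, ha⟩ := hne
    refine ⟨AdjoinRoot.mk ρ (C a), ?_⟩
    rw [hτmk, cj_C]
    intro h
    apply ha
    exact (AdjoinRoot.of ρ).injective h
  have hθ : τ (AdjoinRoot.mk ρ X) = AdjoinRoot.mk ρ X := by rw [hτmk, cj_X]
  have hθ0 : AdjoinRoot.mk ρ X ≠ 0 := by
    intro h
    rw [AdjoinRoot.mk_eq_zero] at h
    exact hρ.not_isUnit (hcop.isUnit_of_dvd' dvd_rfl h)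
  obtain ⟨γ, hγ⟩ := norm_surj τ hτ2 hτne (AdjoinRoot.mk ρ X) hθ hθ0
  obtain ⟨g, rfl⟩ := AdjoinRoot.mk_surjective γ
  refine ⟨g, ?_⟩
  rw [← AdjoinRoot.mk_eq_zero, map_sub, sub_eq_zero, map_mul, ← hτmk]
  exact hγ

/-- The indeterminate is a norm modulo every real polynomial prime to it. -/
theorem exists_norm_X [Finite K] (σ : K →+* K) (hσ : ∀ x, σ (σ x) = x) (hne : ∃ a, σ a ≠ a)
    (lam : K) (hlam : lam + σ lam = 1) :
    ∀ (n : ℕ) (m : K[X]), m.natDegree = n → m ≠ 0 → m ∣ cj σ m → IsCoprime m X →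
      ∃ g : K[X], m ∣ cj σ g * g - X := by
  intro n
  induction n using Nat.strong_induction_on with
  | _ n ih =>
    intro m hdeg hm0 hreal hcop
    by_cases hu : IsUnit m
    · exact ⟨0, hu.dvd⟩
    obtain ⟨ρ, hρ, hρm⟩ := WfDvdMonoid.exists_irreducible_factor hu hm0
    obtain ⟨k, m₁, hm₁, hmk⟩ := WfDvdMonoid.max_power_factor hm0 hρ
    have hm₁0 : m₁ ≠ 0 := by
      rintro rfl
      exact hm0 (by rw [hmk, mul_zero])
    have hcρ : Irreducible (cj σ ρ) := cj_irreducible σ hσ hρ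
    obtain ⟨l, m₂, hm₂, hml⟩ := WfDvdMonoid.max_power_factor hm₁0 hcρ
    have hm₂0 : m₂ ≠ 0 := by
      rintro rfl
      exact hm₁0 (by rw [hml, mul_zero])
    have hρm₂ : ¬ ρ ∣ m₂ := fun h => hm₁ (by rw [hml]; exact Dvd.dvd.mul_left h _)
    have cop1 : IsCoprime ρ m₂ := hρ.coprime_iff_not_dvd.mpr hρm₂
    have cop2 : IsCoprime (cj σ ρ) m₂ := hcρ.coprime_iff_not_dvd.mpr hm₂
    have hmeq : m = ρ ^ k * (cj σ ρ ^ l * m₂) := by rw [hmk, hml]
    have hk1 : 1 ≤ k := by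
      by_contra hk0
      have hk0' : k = 0 := by omega
      rw [hk0', pow_zero, one_mul] at hmk
      exact hm₁ (hmk ▸ hρm)
    have hρdeg : 0 < ρ.natDegree := Irreducible.natDegree_pos hρ
    have hdeg2 : m₂.natDegree < n := by
      rw [← hdeg, hmeq, Polynomial.natDegree_mul (pow_ne_zero _ hρ.ne_zero)
        (mul_ne_zero (pow_ne_zero _ hcρ.ne_zero) hm₂0),
        Polynomial.natDegree_mul (pow_ne_zero _ hcρ.ne_zero) hm₂0, Polynomial.natDegree_pow]
      have h1 : 0 < k * ρ.natDegree := Nat.mul_pos hk1 hρdeg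
      omega
    have hm₂m : m₂ ∣ m := ⟨ρ ^ k * cj σ ρ ^ l, by rw [hmeq]; ring⟩
    have hreal2 : m₂ ∣ cj σ m₂ := by
      have h1 : m₂ ∣ cj σ m := hm₂m.trans hreal
      rw [hmeq, map_mul, map_mul, map_pow, map_pow, cj_cj σ hσ] at h1
      have h2 : IsCoprime m₂ (cj σ ρ ^ k * ρ ^ l) :=
        (cop2.symm.pow_right).mul_right (cop1.symm.pow_right)
      apply h2.dvd_of_dvd_mul_left
      rw [mul_assoc]
      exact h1
    have hcop2 : IsCoprime m₂ X := IsCoprime.of_isCoprime_of_dvd_left hcop hm₂m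
    obtain ⟨g₂, hg₂⟩ := ih m₂.natDegree hdeg2 m₂ rfl hm₂0 hreal2 hcop2
    have hcopρ : IsCoprime ρ X := IsCoprime.of_isCoprime_of_dvd_left hcop hρm
    have hcopcρ : IsCoprime (cj σ ρ) X := by
      have h := hcopρ.map (cj σ)
      rwa [cj_X] at h
    have hπreal : cj σ (ρ * cj σ ρ) = ρ * cj σ ρ := by
      rw [map_mul, cj_cj σ hσ, mul_comm]
    have hπcop : IsCoprime (ρ * cj σ ρ) X := hcopρ.mul_left hcopcρ
    have hbase : ∃ g₀ : K[X], ρ * cj σ ρ ∣ cj σ g₀ * g₀ - X := by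
      by_cases hr : ρ ∣ cj σ ρ
      · obtain ⟨g, hg⟩ := base_real σ hσ hne ρ hρ hr hcopρ
        obtain ⟨g', hg'⟩ := lift_sq σ hσ lam hlam ρ g hr hcopρ hg
        refine ⟨g', dvd_trans ?_ hg'⟩
        have h1 : cj σ ρ ∣ ρ := by
          have h := cj_dvd σ hr
          rwa [cj_cj σ hσ] at h
        rw [sq]
        exact mul_dvd_mul_left ρ h1
      · exact base_split σ hσ ρ (hρ.coprime_iff_not_dvd.mpr hr)
    obtain ⟨g₀, hg₀⟩ := hbase
    obtain ⟨g₁, hg₁⟩ := lift_pow σ hσ lam hlam (ρ * cj σ ρ) hπreal hπcop g₀ hg₀ (k + l)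
    obtain ⟨P, hP⟩ : ∃ P : K[X], P = (ρ * cj σ ρ) ^ (2 ^ (k + l)) := ⟨_, rfl⟩
    rw [← hP] at hg₁
    have hPreal : cj σ P = P := by rw [hP, map_pow, hπreal]
    have hkl : k + l < 2 ^ (k + l) := Nat.lt_two_pow_self
    have hmP : m ∣ P * m₂ := by
      rw [hmeq, hP, mul_pow, ← mul_assoc]
      apply mul_dvd_mul_right
      exact mul_dvd_mul (pow_dvd_pow _ (by omega)) (pow_dvd_pow _ (by omega))
    have hPm₂ : IsCoprime P m₂ := by
      rw [hP]
      exact (cop1.mul_left cop2).pow_left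
    obtain ⟨a, b, hab⟩ := hPm₂
    refine ⟨g₁ * (b * m₂) + g₂ * (a * P), dvd_trans hmP (IsCoprime.mul_dvd ⟨a, b, hab⟩ ?_ ?_)⟩
    · exact cong_dvd σ P _ g₁ (by rw [hPreal]) ⟨a * (g₂ - g₁), by linear_combination g₁ * hab⟩ hg₁
    · exact cong_dvd σ m₂ _ g₂ hreal2 ⟨b * (g₁ - g₂), by linear_combination g₂ * hab⟩ hg₂

end Cfsg.Agent.Lib.Helper15.Wall
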