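import Mathlib
import Cfsg.Agent.Lib.Helper15.WallA

set_option autoImplicit false

namespace Cfsg.Agent.Lib.Helper15.SpN

universe u

/-- Lifting a norm equation modulo a nilpotent error, given an element of trace one. -/
theorem hensel {R : Type*} [CommRing R] (σ : R →+* R) (hσ : ∀ x, σ (σ x) = x) (lam : R)
    (hlam : lam + σ lam = 1) (u v : R) (huv : u * v = 1) (hu : σ u = u) (w₀ : R) (N : ℕ)
    (hN : (u - σ w₀ * w₀) ^ N = 0) : ∃ w : R, σ w * w = u := by
  have hv : σ v = v := by
    have h1 : σ u * σ v = 1 := by rw [← map_mul, huv, map_one]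
    rw [hu] at h1
    calc σ v = σ v * (u * v) := by rw [huv, mul_one]
      _ = (u * σ v) * v := by ring
      _ = v := by rw [h1, one_mul]
  obtain ⟨E, hE⟩ : ∃ E : R, E = u - σ w₀ * w₀ := ⟨_, rfl⟩
  rw [← hE] at hN
  have key : ∀ k : ℕ, ∃ w r : R, u - σ w * w = E ^ (2 ^ k) * r := by
    intro k
    induction k with
    | zero => exact ⟨w₀, 1, by rw [pow_zero, pow_one, mul_one, hE]⟩
    | succ k ih =>
      obtain ⟨w, r, hwr⟩ := ih
      obtain ⟨ε, hε⟩ : ∃ ε : R, ε = u - σ w * w := ⟨_, rfl⟩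
      have hσε : σ ε = ε := by
        rw [hε, map_sub, map_mul, hσ, hu, mul_comm]
      have hσw' : σ (w * (1 + lam * ε * v)) = σ w * (1 + σ lam * ε * v) := by
        rw [map_mul, map_add, map_one, map_mul, map_mul, hσε, hv]
      refine ⟨w * (1 + lam * ε * v),
        r ^ 2 * (v - (u - ε) * lam * σ lam * v ^ 2), ?_⟩
      rw [hσw']
      have h1 : u - σ w * (1 + σ lam * ε * v) * (w * (1 + lam * ε * v)) =
          ε ^ 2 * (v - (u - ε) * lam * σ lam * v ^ 2) := by
        have h2 : σ w * w = u - ε := by rw [hε]; ring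
        linear_combination (-(1 + σ lam * ε * v) * (1 + lam * ε * v)) * h2 + (-ε) * huv -
          (u - ε) * ε * v * hlam
      have hεE : ε = E ^ (2 ^ k) * r := by rw [hε, hwr]
      rw [h1, hεE, pow_succ 2 k, pow_mul]
      ring
  obtain ⟨w, r, hwr⟩ := key N
  refine ⟨w, ?_⟩
  have h2 : E ^ (2 ^ N) = 0 := by
    have h3 : N ≤ 2 ^ N := Nat.lt_two_pow_self.le
    obtain ⟨c, hc⟩ := Nat.exists_eq_add_of_le h3
    rw [hc, pow_add, hN, zero_mul]
  rw [h2, zero_mul] at hwr
  exact (sub_eq_zero.mp hwr).symm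

/-- In a finite monoid every element has an idempotent power. -/
theorem idem_pow {M : Type*} [Monoid M] [Finite M] (x : M) :
    ∃ m : ℕ, 0 < m ∧ x ^ m * x ^ m = x ^ m := by
  obtain ⟨i, j, hij, hxij⟩ := Finite.exists_ne_map_eq_of_infinite (fun k : ℕ => x ^ k)
  have hxij' : x ^ i = x ^ j := hxij
  wlog hlt : i < j generalizing i j
  · exact this j i hij.symm hxij.symm hxij'.symm (lt_of_le_of_ne (not_lt.mp hlt) hij.symm)
  obtain ⟨l, hl⟩ : ∃ l, j = i + l := Nat.exists_eq_add_of_le hlt.le
  have hl0 : 0 < l := by omega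
  have hk : ∀ k : ℕ, x ^ (i + k * l) = x ^ i := by
    intro k
    induction k with
    | zero => rw [zero_mul, add_zero]
    | succ k ih =>
      have e1 : i + (k + 1) * l = (i + k * l) + l := by ring
      rw [e1, pow_add, ih, ← pow_add, ← hl, ← hxij']
  have h1 : i + 1 ≤ (i + 1) * l := Nat.le_mul_of_pos_right _ hl0
  obtain ⟨c, hc⟩ : ∃ c, (i + 1) * l = c + i := ⟨(i + 1) * l - i, by omega⟩
  refine ⟨(i + 1) * l, by omega, ?_⟩
  calc x ^ ((i + 1) * l) * x ^ ((i + 1) * l) = x ^ c * x ^ (i + (i + 1) * l) := by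
        rw [← pow_add, ← pow_add]
        congr 1
        omega
    _ = x ^ c * x ^ i := by rw [hk]
    _ = x ^ ((i + 1) * l) := by rw [← pow_add, hc]

/-- Surjectivity of the norm onto fixed units in a finite commutative ring with an involution
inverting a unit `a` with `a ^ 2 - 1` a unit. -/
theorem normN : ∀ (n : ℕ) (R : Type u) [CommRing R] [Finite R], Nat.card R ≤ n →
    ∀ (σ : R →+* R), (∀ x, σ (σ x) = x) → ∀ (a b c : R), a * b = 1 → σ a = b →
    (a * a - 1) * c = 1 → ∀ (u v : R), u * v = 1 → σ u = u → ∃ w : R, σ w * w = u := by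
  intro n
  induction n using Nat.strong_induction_on with
  | _ n ih =>
  intro R _ _ hcard σ hσ a b c hab hσa hc u v huv hu
  classical
  have quot : ∀ (I : Ideal R), I ≠ ⊥ → (∀ x ∈ I, σ x ∈ I) → ∃ w : R, σ w * w - u ∈ I := by
    intro I hI hIσ
    have : Finite (R ⧸ I) := Quotient.finite _
    have hlt : Nat.card (R ⧸ I) < Nat.card R := by
      letI := Fintype.ofFinite R
      letI := Fintype.ofFinite (R ⧸ I)
      rw [Nat.card_eq_fintype_card, Nat.card_eq_fintype_card]
      apply Fintype.card_lt_of_surjective_not_injective (Ideal.Quotient.mk I)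
        Ideal.Quotient.mk_surjective
      intro hinj
      obtain ⟨x, hx, hx0⟩ := Submodule.exists_mem_ne_zero_of_ne_bot hI
      exact hx0 (hinj (by rw [Ideal.Quotient.eq_zero_iff_mem.mpr hx, map_zero]))
    obtain ⟨σ', hσ'⟩ : ∃ σ' : R ⧸ I →+* R ⧸ I,
        ∀ x, σ' (Ideal.Quotient.mk I x) = Ideal.Quotient.mk I (σ x) :=
      ⟨Ideal.quotientMap I σ (fun x hx => hIσ x hx), fun x => Ideal.quotientMap_mk⟩
    obtain ⟨w', hw'⟩ := ih (Nat.card (R ⧸ I)) (lt_of_lt_of_le hlt hcard) (R ⧸ I) le_rfl σ'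
      (by
        intro x
        obtain ⟨y, rfl⟩ := Ideal.Quotient.mk_surjective x
        rw [hσ', hσ', hσ])
      (Ideal.Quotient.mk I a) (Ideal.Quotient.mk I b) (Ideal.Quotient.mk I c)
      (by rw [← map_mul, hab, map_one])
      (by rw [hσ', hσa])
      (by rw [← map_mul, ← map_one (Ideal.Quotient.mk I), ← map_sub, ← map_mul, hc])
      (Ideal.Quotient.mk I u) (Ideal.Quotient.mk I v)
      (by rw [← map_mul, huv, map_one])
      (by rw [hσ', hu])
    obtain ⟨w, rfl⟩ := Ideal.Quotient.mk_surjective w'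
    refine ⟨w, ?_⟩
    rw [← Ideal.Quotient.eq, map_mul, ← hσ', hw']
  have split : ∀ ε : R, ε * ε = ε → ε ≠ 0 → ε ≠ 1 → σ ε = ε → ∃ w : R, σ w * w = u := by
    intro ε hεε hε0 hε1 hσε
    have h1 : ∃ w : R, σ w * w - u ∈ Ideal.span ({ε} : Set R) := by
      apply quot
      · intro hbot
        apply hε0
        have h2 : ε ∈ Ideal.span ({ε} : Set R) := Ideal.subset_span (Set.mem_singleton ε)
        rw [hbot] at h2
        exact h2
      · intro x hx
        obtain ⟨y, rfl⟩ := Ideal.mem_span_singleton'.mp hx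
        rw [map_mul, hσε]
        exact Ideal.mem_span_singleton'.mpr ⟨σ y, rfl⟩
    have h2 : ∃ w : R, σ w * w - u ∈ Ideal.span ({1 - ε} : Set R) := by
      apply quot
      · intro hbot
        apply hε1
        have h2 : 1 - ε ∈ Ideal.span ({1 - ε} : Set R) :=
          Ideal.subset_span (Set.mem_singleton _)
        rw [hbot] at h2
        exact (sub_eq_zero.mp h2).symm
      · intro x hx
        obtain ⟨y, rfl⟩ := Ideal.mem_span_singleton'.mp hx
        rw [map_mul, map_sub, map_one, hσε]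
        exact Ideal.mem_span_singleton'.mpr ⟨σ y, rfl⟩
    obtain ⟨w₁, hw₁⟩ := h1
    obtain ⟨w₂, hw₂⟩ := h2
    obtain ⟨y₁, hy₁⟩ := Ideal.mem_span_singleton'.mp hw₁
    obtain ⟨y₂, hy₂⟩ := Ideal.mem_span_singleton'.mp hw₂
    refine ⟨(1 - ε) * w₁ + ε * w₂, ?_⟩
    rw [map_add, map_mul, map_mul, map_sub, map_one, hσε]
    linear_combination (1 - ε) ^ 2 * hy₁.symm + ε ^ 2 * hy₂.symm +
      (2 * u - (σ w₁ * w₂ + σ w₂ * w₁) - y₁ * (1 - ε) - y₂ * ε) * hεε
  by_cases hnil : ∃ x : R, x ≠ 0 ∧ IsNilpotent x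
  · obtain ⟨x, hx0, hxn⟩ := hnil
    have h1 : ∃ w : R, σ w * w - u ∈ nilradical R := by
      apply quot
      · intro hbot
        apply hx0
        have h2 : x ∈ nilradical R := mem_nilradical.mpr hxn
        rw [hbot] at h2
        exact h2
      · intro y hy
        rw [mem_nilradical] at hy ⊢
        exact hy.map σ
    obtain ⟨w₀, hw₀⟩ := h1
    obtain ⟨N, hN⟩ := mem_nilradical.mp hw₀
    obtain ⟨d, hd⟩ : ∃ d : R, d = (a - 1) * c := ⟨_, rfl⟩
    have hd1 : (a + 1) * d = 1 := by
      rw [hd]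
      linear_combination hc
    have hσb : σ b = a := by rw [← hσa, hσ]
    have h1 : (b + 1) * σ d = 1 := by
      have h2 := congrArg σ hd1
      rwa [map_mul, map_add, hσa, map_one] at h2
    have h2 : (b + 1) * (a * d) = 1 := by linear_combination d * hab + hd1
    have hσd : σ d = a * d := by linear_combination (a * d) * h1 - (σ d) * h2
    have hlam : a * d + σ (a * d) = 1 := by
      rw [map_mul, hσa, hσd]
      linear_combination hd1 + d * hab
    apply hensel σ hσ (a * d) hlam u v huv hu w₀ N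
    have h3 : u - σ w₀ * w₀ = -(σ w₀ * w₀ - u) := by ring
    rw [h3, neg_pow, hN, mul_zero]
  · have hred : ∀ x : R, IsNilpotent x → x = 0 := by
      intro x hx
      by_contra hx0
      exact hnil ⟨x, hx0, hx⟩
    by_cases htriv : Subsingleton R
    · exact ⟨0, Subsingleton.elim _ _⟩
    · have hnt : Nontrivial R := not_subsingleton_iff_nontrivial.mp htriv
      obtain ⟨M, hM⟩ := Ideal.exists_maximal R
      by_cases hMbot : M = ⊥
      · letI := Ideal.Quotient.field M
        have : Finite (R ⧸ M) := Quotient.finite _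
        obtain ⟨σ', hσ'⟩ : ∃ σ' : R ⧸ M →+* R ⧸ M,
            ∀ x, σ' (Ideal.Quotient.mk M x) = Ideal.Quotient.mk M (σ x) :=
          ⟨Ideal.quotientMap M σ (fun x hx => by
            rw [hMbot] at hx ⊢
            rw [Ideal.mem_comap, Ideal.mem_bot] at *
            rw [hx, map_zero]), fun x => Ideal.quotientMap_mk⟩
        have hinj : ∀ x y : R, Ideal.Quotient.mk M x = Ideal.Quotient.mk M y → x = y := by
          intro x y hxy
          rw [Ideal.Quotient.eq, hMbot, Ideal.mem_bot] at hxy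
          exact sub_eq_zero.mp hxy
        obtain ⟨γ, hγ⟩ := Wall.norm_surj σ'
          (by
            intro x
            obtain ⟨y, rfl⟩ := Ideal.Quotient.mk_surjective x
            rw [hσ', hσ', hσ])
          ⟨Ideal.Quotient.mk M a, by
            rw [hσ', hσa]
            intro hba
            have h1 : b = a := hinj _ _ hba
            rw [h1] at hab
            rw [hab, sub_self, zero_mul] at hc
            exact zero_ne_one hc⟩
          (Ideal.Quotient.mk M u) (by rw [hσ', hu])
          (by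
            intro h0
            have h1 : u = 0 := hinj _ _ (by rw [h0, map_zero])
            rw [h1, zero_mul] at huv
            exact zero_ne_one huv)
        obtain ⟨w, rfl⟩ := Ideal.Quotient.mk_surjective γ
        refine ⟨w, ?_⟩
        apply hinj
        rw [map_mul, ← hσ', hγ]
      · obtain ⟨x, hxM, hx0⟩ := Submodule.exists_mem_ne_zero_of_ne_bot hMbot
        obtain ⟨m, hm0, hm⟩ := idem_pow x
        obtain ⟨ε, hε⟩ : ∃ ε : R, ε = x ^ m := ⟨_, rfl⟩
        rw [← hε] at hm
        have hε0 : ε ≠ 0 := by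
          intro h0
          exact hx0 (hred x ⟨m, by rw [← hε, h0]⟩)
        have hεM : ε ∈ M := by
          rw [hε]
          exact Ideal.pow_mem_of_mem M hxM m hm0
        have hε1 : ε ≠ 1 := by
          intro h1
          rw [h1] at hεM
          exact hM.ne_top ((Ideal.eq_top_iff_one M).mpr hεM)
        obtain ⟨ε', hε'⟩ : ∃ ε' : R, ε' = ε * σ ε := ⟨_, rfl⟩
        have hσσε : σ ε * σ ε = σ ε := by rw [← map_mul, hm]
        have hε'ε' : ε' * ε' = ε' := by
          rw [hε']
          linear_combination (σ ε * σ ε) * hm + ε * hσσε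
        have hσε' : σ ε' = ε' := by
          rw [hε', map_mul, hσ, mul_comm]
        have hε'1 : ε' ≠ 1 := by
          intro h1
          apply hε1
          rw [hε'] at h1
          linear_combination (σ ε) * hm + (1 - ε) * h1
        by_cases hε'0 : ε' = 0
        · obtain ⟨ε'', hε''⟩ : ∃ ε'' : R, ε'' = ε + σ ε := ⟨_, rfl⟩
          have hz : ε * σ ε = 0 := by rw [← hε', hε'0]
          have hε''ε'' : ε'' * ε'' = ε'' := by
            rw [hε'']
            linear_combination hm + hσσε + 2 * hz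
          have hσε'' : σ ε'' = ε'' := by
            rw [hε'', map_add, hσ, add_comm]
          have hε''0 : ε'' ≠ 0 := by
            intro h0
            apply hε0
            rw [hε''] at h0
            linear_combination (-1 : R) * hm + ε * h0 - hz
          by_cases hε''1 : ε'' = 1
          · have hsum : ε + σ ε = 1 := by rw [← hε'', hε''1]
            refine ⟨ε * u + σ ε, ?_⟩
            rw [map_add, map_mul, hσ, hu]
            linear_combination (u ^ 2 + 1) * hz + u * hσσε + u * hm + u * hsum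
          · exact split ε'' hε''ε'' hε''0 hε''1 hσε''
        · exact split ε' hε'ε' hε'0 hε'1 hσε'

/-- The norm equation away from an idempotent. -/
theorem normN' (R : Type u) [CommRing R] [Finite R] (σ : R →+* R) (hσ : ∀ x, σ (σ x) = x)
    (a b : R) (hab : a * b = 1) (hσa : σ a = b) (e d : R) (hee : e * e = e) (hσe : σ e = e)
    (hd : (a * a - 1) * d = 1 - e) (u v : R) (huv : u * v = 1) (hu : σ u = u) :
    ∃ w : R, σ w * w * (1 - e) = u * (1 - e) := by
  obtain ⟨I, hI⟩ : ∃ I : Ideal R, I = Ideal.span ({e} : Set R) := ⟨_, rfl⟩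
  have : Finite (R ⧸ I) := Quotient.finite _
  have hIσ : ∀ x ∈ I, σ x ∈ I := by
    intro x hx
    rw [hI] at hx ⊢
    obtain ⟨y, rfl⟩ := Ideal.mem_span_singleton'.mp hx
    rw [map_mul, hσe]
    exact Ideal.mem_span_singleton'.mpr ⟨σ y, rfl⟩
  obtain ⟨σ', hσ'⟩ : ∃ σ' : R ⧸ I →+* R ⧸ I,
      ∀ x, σ' (Ideal.Quotient.mk I x) = Ideal.Quotient.mk I (σ x) :=
    ⟨Ideal.quotientMap I σ (fun x hx => hIσ x hx), fun x => Ideal.quotientMap_mk⟩
  have he0 : Ideal.Quotient.mk I e = 0 := by
    rw [Ideal.Quotient.eq_zero_iff_mem, hI]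
    exact Ideal.subset_span (Set.mem_singleton e)
  obtain ⟨w', hw'⟩ := normN (Nat.card (R ⧸ I)) (R ⧸ I) le_rfl σ'
    (by
      intro x
      obtain ⟨y, rfl⟩ := Ideal.Quotient.mk_surjective x
      rw [hσ', hσ', hσ])
    (Ideal.Quotient.mk I a) (Ideal.Quotient.mk I b) (Ideal.Quotient.mk I d)
    (by rw [← map_mul, hab, map_one])
    (by rw [hσ', hσa])
    (by rw [← map_mul, ← map_one (Ideal.Quotient.mk I), ← map_sub, ← map_mul, hd, map_sub, he0,
      sub_zero])
    (Ideal.Quotient.mk I u) (Ideal.Quotient.mk I v)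
    (by rw [← map_mul, huv, map_one])
    (by rw [hσ', hu])
  obtain ⟨w, rfl⟩ := Ideal.Quotient.mk_surjective w'
  refine ⟨w, ?_⟩
  have h1 : σ w * w - u ∈ I := by
    rw [← Ideal.Quotient.eq, map_mul, ← hσ', hw']
  rw [hI] at h1
  obtain ⟨y, hy⟩ := Ideal.mem_span_singleton'.mp h1
  linear_combination (1 - e) * hy.symm - y * hee
end Cfsg.Agent.Lib.Helper15.SpN
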