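import Mathlib
import Cfsg.Agent.Lib.Helper15.SpN

set_option autoImplicit false

namespace Cfsg.Agent.Lib.Helper15.SpM

universe u

/-- The double centralizer of a set. -/
def SS {R : Type u} [Ring R] (S : Set R) : Subring R :=
  Subring.centralizer (Subring.centralizer S : Set R)

theorem mem_SS {R : Type u} [Ring R] {S : Set R} {z : R} :
    z ∈ SS S ↔ ∀ g : R, (∀ s ∈ S, s * g = g * s) → g * z = z * g := by
  unfold SS
  rw [Subring.mem_centralizer_iff]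
  constructor
  · intro h g hg
    exact h g (Subring.mem_centralizer_iff.mpr hg)
  · intro h g hg
    exact h g (Subring.mem_centralizer_iff.mp hg)

theorem subset_SS {R : Type u} [Ring R] {S : Set R} {s : R} (hs : s ∈ S) : s ∈ SS S :=
  mem_SS.mpr (fun _ hg => (hg s hs).symm)

theorem SS_comm {R : Type u} [Ring R] {S : Set R} (hS : ∀ x ∈ S, ∀ y ∈ S, x * y = y * x) :
    ∀ x ∈ SS S, ∀ y ∈ SS S, x * y = y * x := by
  intro x hx y hy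
  have hy' : ∀ s ∈ S, s * y = y * s := fun s hs =>
    (mem_SS.mp hy) s (fun s' hs' => hS s' hs' s hs)
  exact ((mem_SS.mp hx) y hy').symm

theorem SS_sigma {R : Type u} [Ring R] (σ : R → R) (hσm : ∀ x y, σ (x * y) = σ y * σ x)
    (hσσ : ∀ x, σ (σ x) = x) {S : Set R} (hSσ : ∀ x ∈ S, σ x ∈ S) {x : R} (hx : x ∈ SS S) :
    σ x ∈ SS S := by
  rw [mem_SS]
  intro g hg
  have h1 : ∀ s ∈ S, s * σ g = σ g * s := by
    intro s hs
    have h2 := hg (σ s) (hSσ s hs)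
    have h3 := congrArg σ h2
    rw [hσm, hσm, hσσ] at h3
    exact h3.symm
  have h4 := (mem_SS.mp hx) (σ g) h1
  have h5 := congrArg σ h4
  rw [hσm, hσm, hσσ] at h5
  exact h5.symm

theorem inv_mem_SS {R : Type u} [Ring R] {S : Set R} {x y : R} (hx : x ∈ SS S)
    (hxy : x * y = 1) (hyx : y * x = 1) : y ∈ SS S := by
  rw [mem_SS]
  intro g hg
  have h := (mem_SS.mp hx) g hg
  calc g * y = (y * x) * g * y := by rw [hyx, one_mul]
    _ = y * (g * x) * y := by rw [h]; simp only [mul_assoc]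
    _ = y * g := by rw [mul_assoc, mul_assoc, hxy, mul_one]

set_option maxHeartbeats 1000000 in
/-- The norm package: inside the commutative double centralizer, the idempotents of the
`1` and `-1` eigenspaces are fixed by the involution and the norm is onto on the rest. -/
theorem norm_pkg {R : Type u} [Ring R] [Finite R] (σ : R → R)
    (hσm : ∀ x y, σ (x * y) = σ y * σ x) (hσa : ∀ x y, σ (x + y) = σ x + σ y)
    (hσ1 : σ 1 = 1) (hσσ : ∀ x, σ (σ x) = x)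
    (S : Set R) (hS : ∀ x ∈ S, ∀ y ∈ S, x * y = y * x) (hSσ : ∀ x ∈ S, σ x ∈ S)
    (a b : R) (ha : a ∈ S) (hb : b ∈ S) (hab : a * b = 1) (hσab : σ a = b)
    (e₁ b₁ e₂ b₂ u v : R) (he₁ : e₁ ∈ SS S) (hb₁ : b₁ ∈ SS S) (he₂ : e₂ ∈ SS S)
    (hb₂ : b₂ ∈ SS S) (hu : u ∈ SS S) (hv : v ∈ SS S)
    (hee₁ : e₁ * e₁ = e₁) (h1 : (a - 1) * e₁ = 0) (h2 : (a - 1) * b₁ = 1 - e₁)
    (hee₂ : e₂ * e₂ = e₂) (h1' : (a + 1) * e₂ = 0) (h2' : (a + 1) * b₂ = 1 - e₂)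
    (huv : u * v = 1) (hσu : σ u = u) :
    ∃ P₂ P₃ w : R, P₂ ∈ SS S ∧ P₃ ∈ SS S ∧ w ∈ SS S ∧
      e₁ + P₂ + P₃ = 1 ∧ e₁ * P₂ = 0 ∧ P₂ * e₁ = 0 ∧ e₁ * P₃ = 0 ∧ P₃ * e₁ = 0 ∧
      P₂ * P₃ = 0 ∧ P₃ * P₂ = 0 ∧ P₂ * P₂ = P₂ ∧
      σ e₁ = e₁ ∧ σ P₂ = P₂ ∧ σ P₃ = P₃ ∧ (a + 1) * P₂ = 0 ∧
      P₃ * w = w ∧ σ w * w = u * P₃ := by
  classical
  have hcomm := SS_comm hS
  let _ : CommRing ↥(SS S) :=
    { (inferInstance : Ring ↥(SS S)) with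
      mul_comm := fun x y => Subtype.ext (hcomm x.1 x.2 y.1 y.2) }
  have hσ0 : σ 0 = 0 := by
    have h := hσa 0 0
    rw [add_zero] at h
    exact left_eq_add.mp h
  let τ : ↥(SS S) →+* ↥(SS S) :=
    { toFun := fun x => ⟨σ x.1, SS_sigma σ hσm hσσ hSσ x.2⟩
      map_one' := Subtype.ext hσ1
      map_mul' := fun x y => Subtype.ext (by
        show σ (x.1 * y.1) = σ x.1 * σ y.1
        rw [hσm]
        exact hcomm _ (SS_sigma σ hσm hσσ hSσ y.2) _ (SS_sigma σ hσm hσσ hSσ x.2))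
      map_zero' := Subtype.ext hσ0
      map_add' := fun x y => Subtype.ext (hσa x.1 y.1) }
  have hττ : ∀ x, τ (τ x) = x := fun x => Subtype.ext (hσσ x.1)
  obtain ⟨a', ha'⟩ : ∃ a' : ↥(SS S), a' = ⟨a, subset_SS ha⟩ := ⟨_, rfl⟩
  obtain ⟨b', hb'⟩ : ∃ b' : ↥(SS S), b' = ⟨b, subset_SS hb⟩ := ⟨_, rfl⟩
  obtain ⟨E₁, hE₁⟩ : ∃ E₁ : ↥(SS S), E₁ = ⟨e₁, he₁⟩ := ⟨_, rfl⟩
  obtain ⟨B₁, hB₁⟩ : ∃ B₁ : ↥(SS S), B₁ = ⟨b₁, hb₁⟩ := ⟨_, rfl⟩
  obtain ⟨E₂, hE₂⟩ : ∃ E₂ : ↥(SS S), E₂ = ⟨e₂, he₂⟩ := ⟨_, rfl⟩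
  obtain ⟨B₂, hB₂⟩ : ∃ B₂ : ↥(SS S), B₂ = ⟨b₂, hb₂⟩ := ⟨_, rfl⟩
  obtain ⟨u', hu'⟩ : ∃ u' : ↥(SS S), u' = ⟨u, hu⟩ := ⟨_, rfl⟩
  obtain ⟨v', hv'⟩ : ∃ v' : ↥(SS S), v' = ⟨v, hv⟩ := ⟨_, rfl⟩
  have Hab : a' * b' = 1 := by rw [ha', hb']; exact Subtype.ext hab
  have hτa : τ a' = b' := by rw [ha', hb']; exact Subtype.ext hσab
  have Hee₁ : E₁ * E₁ = E₁ := by rw [hE₁]; exact Subtype.ext hee₁
  have H1 : (a' - 1) * E₁ = 0 := by rw [ha', hE₁]; exact Subtype.ext h1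
  have H2 : (a' - 1) * B₁ = 1 - E₁ := by rw [ha', hE₁, hB₁]; exact Subtype.ext h2
  have Hee₂ : E₂ * E₂ = E₂ := by rw [hE₂]; exact Subtype.ext hee₂
  have H1' : (a' + 1) * E₂ = 0 := by rw [ha', hE₂]; exact Subtype.ext h1'
  have H2' : (a' + 1) * B₂ = 1 - E₂ := by rw [ha', hE₂, hB₂]; exact Subtype.ext h2'
  have Huv : u' * v' = 1 := by rw [hu', hv']; exact Subtype.ext huv
  have hτu : τ u' = u' := by rw [hu']; exact Subtype.ext hσu
  have H3 : (b' - 1) * τ E₁ = 0 := by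
    have h := congrArg τ H1
    rw [map_mul, map_sub, map_one, map_zero, hτa] at h
    exact h
  have H4 : (b' - 1) * τ B₁ = 1 - τ E₁ := by
    have h := congrArg τ H2
    rw [map_mul, map_sub, map_sub, map_one, hτa] at h
    exact h
  have H3' : (b' + 1) * τ E₂ = 0 := by
    have h := congrArg τ H1'
    rw [map_mul, map_add, map_one, map_zero, hτa] at h
    exact h
  have H4' : (b' + 1) * τ B₂ = 1 - τ E₂ := by
    have h := congrArg τ H2'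
    rw [map_mul, map_add, map_sub, map_one, hτa] at h
    exact h
  have hτE₁ : τ E₁ = E₁ := by
    have : E₁ - τ E₁ = 0 := by
      linear_combination (-(τ B₁ * b')) * H1 + (τ B₁ * E₁ - B₁ * τ E₁) * Hab - E₁ * H4
        + (B₁ * a') * H3 + τ E₁ * H2
    exact (sub_eq_zero.mp this).symm
  have hτE₂ : τ E₂ = E₂ := by
    have : E₂ - τ E₂ = 0 := by
      linear_combination (τ B₂ * b') * H1' + (B₂ * τ E₂ - τ B₂ * E₂) * Hab - E₂ * H4'
        - (B₂ * a') * H3' + τ E₂ * H2'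
    exact (sub_eq_zero.mp this).symm
  have hee : (E₁ + E₂ * (1 - E₁)) * (E₁ + E₂ * (1 - E₁)) = E₁ + E₂ * (1 - E₁) := by
    linear_combination (1 - 2 * E₂ + E₂ * E₂) * Hee₁ + (1 - E₁) * Hee₂
  have hτe : τ (E₁ + E₂ * (1 - E₁)) = E₁ + E₂ * (1 - E₁) := by
    rw [map_add, map_mul, map_sub, map_one, hτE₁, hτE₂]
  have hd : (a' * a' - 1) * (B₁ * B₂) = 1 - (E₁ + E₂ * (1 - E₁)) := by
    linear_combination ((a' + 1) * B₂) * H2 + (1 - E₁) * H2'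
  obtain ⟨w₀, hw₀⟩ := SpN.normN' ↥(SS S) τ hττ a' b' Hab hτa (E₁ + E₂ * (1 - E₁)) (B₁ * B₂)
    hee hτe hd u' v' Huv hτu
  have hP₃ : ((1 - E₁) * (1 - E₂)) * ((1 - E₁) * (1 - E₂)) = (1 - E₁) * (1 - E₂) := by
    linear_combination ((1 - E₂) * (1 - E₂)) * Hee₁ + (1 - E₁) * Hee₂
  have hw₀' : τ w₀ * w₀ * ((1 - E₁) * (1 - E₂)) = u' * ((1 - E₁) * (1 - E₂)) := by
    linear_combination hw₀
  have c1 : E₁ + E₂ * (1 - E₁) + (1 - E₁) * (1 - E₂) = 1 := by ring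
  have c2 : E₁ * (E₂ * (1 - E₁)) = 0 := by linear_combination (-E₂) * Hee₁
  have c3 : (E₂ * (1 - E₁)) * E₁ = 0 := by linear_combination (-E₂) * Hee₁
  have c4 : E₁ * ((1 - E₁) * (1 - E₂)) = 0 := by linear_combination (-(1 - E₂)) * Hee₁
  have c5 : ((1 - E₁) * (1 - E₂)) * E₁ = 0 := by linear_combination (-(1 - E₂)) * Hee₁
  have c6 : (E₂ * (1 - E₁)) * ((1 - E₁) * (1 - E₂)) = 0 := by
    linear_combination (-((1 - E₁) * (1 - E₁))) * Hee₂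
  have c7 : ((1 - E₁) * (1 - E₂)) * (E₂ * (1 - E₁)) = 0 := by
    linear_combination (-((1 - E₁) * (1 - E₁))) * Hee₂
  have c8 : (E₂ * (1 - E₁)) * (E₂ * (1 - E₁)) = E₂ * (1 - E₁) := by
    linear_combination (E₂ * E₂) * Hee₁ + (1 - E₁) * Hee₂
  have c9 : τ (E₂ * (1 - E₁)) = E₂ * (1 - E₁) := by
    rw [map_mul, map_sub, map_one, hτE₁, hτE₂]
  have c10 : τ ((1 - E₁) * (1 - E₂)) = (1 - E₁) * (1 - E₂) := by
    rw [map_mul, map_sub, map_sub, map_one, hτE₁, hτE₂]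
  have c11 : (a' + 1) * (E₂ * (1 - E₁)) = 0 := by linear_combination (1 - E₁) * H1'
  have c12 : ((1 - E₁) * (1 - E₂)) * (w₀ * ((1 - E₁) * (1 - E₂))) =
      w₀ * ((1 - E₁) * (1 - E₂)) := by
    linear_combination w₀ * hP₃
  have c13 : τ (w₀ * ((1 - E₁) * (1 - E₂))) * (w₀ * ((1 - E₁) * (1 - E₂))) =
      u' * ((1 - E₁) * (1 - E₂)) := by
    rw [map_mul, c10]
    linear_combination (τ w₀ * w₀) * hP₃ + hw₀'
  subst ha' hb' hE₁ hB₁ hE₂ hB₂ hu' hv'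
  exact ⟨_, _, _, Subtype.property _, Subtype.property _, Subtype.property _,
    congrArg Subtype.val c1, congrArg Subtype.val c2, congrArg Subtype.val c3,
    congrArg Subtype.val c4, congrArg Subtype.val c5, congrArg Subtype.val c6,
    congrArg Subtype.val c7, congrArg Subtype.val c8, congrArg Subtype.val hτE₁,
    congrArg Subtype.val c9, congrArg Subtype.val c10, congrArg Subtype.val c11,
    congrArg Subtype.val c12, congrArg Subtype.val c13⟩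

end Cfsg.Agent.Lib.Helper15.SpM
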