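import Mathlib
import Cfsg.Agent.Lib.Helper15.WallB
import Cfsg.Agent.Lib.Helper15.SpM
import Cfsg.Agent.Lib.Helper15.SpD

set_option autoImplicit false

namespace Cfsg.Agent.Lib.Helper15.SpT

open Polynomial Matrix
open Cfsg.Agent.Lib.Helper15.SpM

universe u v

theorem idem_of_squarefree {F : Type*} [Field F] {R : Type*} [Ring R] [Algebra F R] (a : R)
    (μ : F[X]) (hμ : Squarefree μ) (hμa : aeval a μ = 0) (c : F) :
    ∃ pe pb : F[X], aeval a pe * aeval a pe = aeval a pe ∧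
      (a - algebraMap F R c) * aeval a pe = 0 ∧
      (a - algebraMap F R c) * aeval a pb = 1 - aeval a pe := by
  classical
  have hg : aeval a (X - C c) = a - algebraMap F R c := by simp
  have key : ∃ ν : F[X], μ ∣ (X - C c) * ν ∧ IsCoprime (X - C c) ν := by
    by_cases hd : (X - C c) ∣ μ
    · obtain ⟨ν, hν⟩ := hd
      refine ⟨ν, hν ▸ dvd_rfl, ?_⟩
      have hirr : Irreducible (X - C c) := Polynomial.irreducible_X_sub_C c
      rw [hirr.coprime_iff_not_dvd]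
      intro hdν
      obtain ⟨ν', hν'⟩ := hdν
      have : (X - C c) * (X - C c) ∣ μ := ⟨ν', by rw [hν, hν']; ring⟩
      exact hirr.not_isUnit (hμ _ this)
    · refine ⟨μ, dvd_mul_left _ _, ?_⟩
      exact ((Polynomial.irreducible_X_sub_C c).coprime_iff_not_dvd).mpr hd
  obtain ⟨ν, hμν, s, t, hst⟩ := key
  obtain ⟨k, hk⟩ := hμν
  have h0 : aeval a ((X - C c) * ν) = 0 := by rw [hk, map_mul, hμa, zero_mul]
  have h1 : (X - C c) * s = 1 - t * ν := by linear_combination hst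
  refine ⟨t * ν, s, ?_, ?_, ?_⟩
  · have : aeval a (t * ν) * aeval a (t * ν) - aeval a (t * ν) = 0 := by
      have h2 : (t * ν) * (t * ν) - t * ν = - (t * s) * ((X - C c) * ν) := by
        linear_combination (t * ν) * hst
      rw [← map_mul, ← map_sub, h2, map_mul, h0, mul_zero]
    exact sub_eq_zero.mp this
  · rw [← hg, ← map_mul]
    have : (X - C c) * (t * ν) = t * ((X - C c) * ν) := by ring
    rw [this, map_mul, h0, mul_zero]
  · rw [← hg, ← map_mul, h1, map_sub, map_one]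

theorem comm_inv {M : Type*} [Monoid M] {x xi y : M} (h : x * y = y * x) (h1 : x * xi = 1)
    (h2 : xi * x = 1) : xi * y = y * xi := by
  calc xi * y = xi * y * (x * xi) := by rw [h1, mul_one]
    _ = xi * (x * y) * xi := by rw [h]; simp only [mul_assoc]
    _ = y * xi := by rw [← mul_assoc xi x y, h2, one_mul]

/-- A four element set. -/
def quad {R : Type*} (a b c d : R) : Set R := {x | x = a ∨ x = b ∨ x = c ∨ x = d}

theorem quad_comm {R : Type*} [Monoid R] (a b c d : R) (hab : a * b = b * a)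
    (hac : a * c = c * a) (had : a * d = d * a) (hbc : b * c = c * b) (hbd : b * d = d * b)
    (hcd : c * d = d * c) : ∀ x ∈ quad a b c d, ∀ y ∈ quad a b c d, x * y = y * x := by
  intro x hx y hy
  rcases hx with h | h | h | h <;> rcases hy with h' | h' | h' | h' <;> rw [h, h'] <;>
    first
      | exact hab | exact hab.symm | exact hac | exact hac.symm | exact had | exact had.symm
      | exact hbc | exact hbc.symm | exact hbd | exact hbd.symm | exact hcd | exact hcd.symm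

theorem assemble {R : Type*} [Ring R] (σ : R → R) (hσm : ∀ x y, σ (x * y) = σ y * σ x)
    (hσa : ∀ x y, σ (x + y) = σ x + σ y) (P₁ P₂ P₃ w₁ w₂ w₃ u : R)
    (hP : P₁ + P₂ + P₃ = 1) (h12 : P₁ * P₂ = 0) (h21 : P₂ * P₁ = 0) (h13 : P₁ * P₃ = 0)
    (h31 : P₃ * P₁ = 0) (h23 : P₂ * P₃ = 0) (h32 : P₃ * P₂ = 0)
    (hσ1 : σ P₁ = P₁) (hσ2 : σ P₂ = P₂) (hσ3 : σ P₃ = P₃)
    (hw₁ : P₁ * w₁ = w₁) (hw₂ : P₂ * w₂ = w₂) (hw₃ : P₃ * w₃ = w₃)
    (h1 : σ w₁ * w₁ = u * P₁) (h2 : σ w₂ * w₂ = u * P₂) (h3 : σ w₃ * w₃ = u * P₃) :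
    σ (w₁ + w₂ + w₃) * (w₁ + w₂ + w₃) = u := by
  have c1 : σ w₁ = σ w₁ * P₁ := by conv_lhs => rw [← hw₁, hσm, hσ1]
  have c2 : σ w₂ = σ w₂ * P₂ := by conv_lhs => rw [← hw₂, hσm, hσ2]
  have c3 : σ w₃ = σ w₃ * P₃ := by conv_lhs => rw [← hw₃, hσm, hσ3]
  have x12 : σ w₁ * w₂ = 0 := by
    rw [c1, ← hw₂, mul_assoc, ← mul_assoc P₁, h12, zero_mul, mul_zero]
  have x13 : σ w₁ * w₃ = 0 := by
    rw [c1, ← hw₃, mul_assoc, ← mul_assoc P₁, h13, zero_mul, mul_zero]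
  have x21 : σ w₂ * w₁ = 0 := by
    rw [c2, ← hw₁, mul_assoc, ← mul_assoc P₂, h21, zero_mul, mul_zero]
  have x23 : σ w₂ * w₃ = 0 := by
    rw [c2, ← hw₃, mul_assoc, ← mul_assoc P₂, h23, zero_mul, mul_zero]
  have x31 : σ w₃ * w₁ = 0 := by
    rw [c3, ← hw₁, mul_assoc, ← mul_assoc P₃, h31, zero_mul, mul_zero]
  have x32 : σ w₃ * w₂ = 0 := by
    rw [c3, ← hw₂, mul_assoc, ← mul_assoc P₃, h32, zero_mul, mul_zero]
  rw [hσa, hσa, add_mul, add_mul, mul_add, mul_add, mul_add, mul_add, mul_add, mul_add,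
    x12, x13, x21, x23, x31, x32, h1, h2, h3]
  simp only [add_zero, zero_add]
  rw [← mul_add, ← mul_add, hP, mul_one]

section Mat

variable {F : Type u} [Field F] {ι : Type v} [Fintype ι] [DecidableEq ι]

theorem mat_ext_bil {M N : Matrix ι ι F} (h : ∀ x y, x ⬝ᵥ M *ᵥ y = x ⬝ᵥ N *ᵥ y) : M = N := by
  apply Matrix.toBilin'.injective
  refine LinearMap.ext fun x => LinearMap.ext fun y => ?_
  rw [Matrix.toBilin'_apply', Matrix.toBilin'_apply']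
  exact h x y

omit [DecidableEq ι] in
theorem bil_congr (w J : Matrix ι ι F) (x y : ι → F) :
    x ⬝ᵥ (wᵀ * J * w) *ᵥ y = (w *ᵥ x) ⬝ᵥ J *ᵥ (w *ᵥ y) := by
  rw [← Matrix.mulVec_mulVec, ← Matrix.mulVec_mulVec, Matrix.dotProduct_mulVec,
    Matrix.vecMul_transpose]

/-- Darboux relative to an idempotent which is self-adjoint for both forms. -/
theorem darboux_rel (J Ω ε Ωi : Matrix ι ι F) (hJalt : ∀ x, x ⬝ᵥ J *ᵥ x = 0)
    (hΩalt : ∀ x, x ⬝ᵥ Ω *ᵥ x = 0) (Ji : Matrix ι ι F) (hJJi : J * Ji = 1)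
    (hΩΩi : Ω * Ωi = 1)
    (hεε : ε * ε = ε) (hεJ : εᵀ * J = J * ε) (hεΩ : εᵀ * Ω = Ω * ε) :
    ∃ w : Matrix ι ι F, ε * w = w ∧ w * ε = w ∧ wᵀ * J * w = Ω * ε := by
  classical
  obtain ⟨W, hW⟩ : ∃ W : Submodule F (ι → F), W = LinearMap.range (Matrix.toLin' ε) :=
    ⟨_, rfl⟩
  have hfix : ∀ t : W, ε *ᵥ t.1 = t.1 := by
    rintro ⟨t, ht⟩
    rw [hW, LinearMap.mem_range] at ht
    obtain ⟨z, hz⟩ := ht
    show ε *ᵥ t = t
    rw [← hz, Matrix.toLin'_apply, Matrix.mulVec_mulVec, hεε]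
  have hmemW : ∀ z, ε *ᵥ z ∈ W := by
    intro z
    rw [hW, LinearMap.mem_range]
    exact ⟨z, Matrix.toLin'_apply _ _⟩
  -- nondegeneracy on W
  have hnd : ∀ (M Mi : Matrix ι ι F), M * Mi = 1 → εᵀ * M = M * ε →
      ∀ x : W, (∀ y : W, x.1 ⬝ᵥ M *ᵥ y.1 = 0) → x = 0 := by
    intro M Mi hMMi hεM x hx
    apply Subtype.ext
    show x.1 = 0
    apply dotProduct_eq_zero
    intro z'
    have h1 := hx ⟨ε *ᵥ (Mi *ᵥ z'), hmemW _⟩
    have h2 : M *ᵥ (ε *ᵥ (Mi *ᵥ z')) = εᵀ *ᵥ z' := by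
      rw [Matrix.mulVec_mulVec, ← hεM, ← Matrix.mulVec_mulVec, Matrix.mulVec_mulVec z' M Mi, hMMi,
        Matrix.one_mulVec]
    have h3 : x.1 ⬝ᵥ M *ᵥ (ε *ᵥ (Mi *ᵥ z')) = x.1 ⬝ᵥ z' := by
      rw [h2, Matrix.dotProduct_mulVec, Matrix.vecMul_transpose, hfix]
    show x.1 ⬝ᵥ z' = 0
    rw [← h3]
    exact h1
  obtain ⟨T, hT⟩ := SpD.darboux (K := F) (Module.finrank F W) W W
    ((Matrix.toBilin' Ω).compl₁₂ W.subtype W.subtype)
    ((Matrix.toBilin' J).compl₁₂ W.subtype W.subtype) rfl rfl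
    (fun x => by
      rw [LinearMap.compl₁₂_apply, Matrix.toBilin'_apply']
      exact hΩalt _)
    (fun x => by
      rw [LinearMap.compl₁₂_apply, Matrix.toBilin'_apply']
      exact hJalt _)
    (fun x hx => hnd Ω Ωi hΩΩi hεΩ x (fun y => by
      have := hx y
      rw [LinearMap.compl₁₂_apply, Matrix.toBilin'_apply'] at this
      exact this))
    (fun x hx => hnd J Ji hJJi hεJ x (fun y => by
      have := hx y
      rw [LinearMap.compl₁₂_apply, Matrix.toBilin'_apply'] at this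
      exact this))
  have hT' : ∀ x y : W, (T x).1 ⬝ᵥ J *ᵥ (T y).1 = x.1 ⬝ᵥ Ω *ᵥ y.1 := by
    intro x y
    have := hT x y
    rw [LinearMap.compl₁₂_apply, LinearMap.compl₁₂_apply, Matrix.toBilin'_apply',
      Matrix.toBilin'_apply'] at this
    exact this
  let ρ : (ι → F) →ₗ[F] W := (Matrix.toLin' ε).codRestrict W (fun z => by
    rw [Matrix.toLin'_apply]; exact hmemW z)
  have hρ : ∀ z, (ρ z).1 = ε *ᵥ z := fun z => Matrix.toLin'_apply _ _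
  obtain ⟨w, hwdef⟩ : ∃ w : Matrix ι ι F, w = LinearMap.toMatrix' (W.subtype ∘ₗ T ∘ₗ ρ) :=
    ⟨_, rfl⟩
  have hw : ∀ x, w *ᵥ x = (T (ρ x)).1 := by
    intro x
    rw [← Matrix.toLin'_apply, hwdef, Matrix.toLin'_toMatrix']
    rfl
  have hρε : ∀ x, ρ (ε *ᵥ x) = ρ x := by
    intro x
    apply Subtype.ext
    rw [hρ, hρ, Matrix.mulVec_mulVec, hεε]
  refine ⟨w, ?_, ?_, ?_⟩
  · apply Matrix.toLin'.injective
    refine LinearMap.ext fun x => ?_
    rw [Matrix.toLin'_apply, Matrix.toLin'_apply, ← Matrix.mulVec_mulVec, hw, hfix]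
  · apply Matrix.toLin'.injective
    refine LinearMap.ext fun x => ?_
    rw [Matrix.toLin'_apply, Matrix.toLin'_apply, ← Matrix.mulVec_mulVec, hw, hw, hρε]
  · apply mat_ext_bil
    intro x y
    rw [bil_congr, hw, hw, hT', hρ, hρ, ← bil_congr, hεΩ, mul_assoc, hεε]

set_option maxHeartbeats 1000000 in
/-- Two invariant nondegenerate alternating forms of a semisimple isometry are related by an
element of its centralizer. -/
theorem thmT [Finite F] (J Ω A Ai Ji Ωi : Matrix ι ι F)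
    (hJ : Jᵀ = -J) (hJalt : ∀ x, x ⬝ᵥ J *ᵥ x = 0) (hΩ : Ωᵀ = -Ω)
    (hΩalt : ∀ x, x ⬝ᵥ Ω *ᵥ x = 0)
    (hJJi : J * Ji = 1) (hΩΩi : Ω * Ωi = 1) (hAAi : A * Ai = 1)
    (hAJ : Aᵀ * J * A = J) (hAΩ : Aᵀ * Ω * A = Ω)
    (μ : F[X]) (hμ : Squarefree μ) (hμA : aeval A μ = 0) :
    ∃ w : Matrix ι ι F, w * A = A * w ∧ wᵀ * J * w = Ω := by
  classical
  have hJiJ : Ji * J = 1 := mul_eq_one_comm.mp hJJi
  have hΩiΩ : Ωi * Ω = 1 := mul_eq_one_comm.mp hΩΩi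
  have hAiA : Ai * A = 1 := mul_eq_one_comm.mp hAAi
  have hJJi' : ∀ z : Matrix ι ι F, J * (Ji * z) = z := fun z => by
    rw [← mul_assoc, hJJi, one_mul]
  have hJiJ' : ∀ z : Matrix ι ι F, Ji * (J * z) = z := fun z => by
    rw [← mul_assoc, hJiJ, one_mul]
  have hΩΩi' : ∀ z : Matrix ι ι F, Ω * (Ωi * z) = z := fun z => by
    rw [← mul_assoc, hΩΩi, one_mul]
  have hJiT : Jiᵀ = -Ji := by
    have h : Jiᵀ * Jᵀ = 1 := by rw [← Matrix.transpose_mul, hJJi, Matrix.transpose_one]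
    rw [hJ] at h
    calc Jiᵀ = Jiᵀ * (J * Ji) := by rw [hJJi, mul_one]
      _ = -(Jiᵀ * -J) * Ji := by rw [mul_neg, neg_neg, mul_assoc]
      _ = -Ji := by rw [h, neg_mul, one_mul]
  obtain ⟨σ, hσdef⟩ : ∃ σ : Matrix ι ι F → Matrix ι ι F, ∀ y, σ y = Ji * yᵀ * J :=
    ⟨_, fun _ => rfl⟩
  have hσm : ∀ x y, σ (x * y) = σ y * σ x := by
    intro x y
    rw [hσdef, hσdef, hσdef, Matrix.transpose_mul]
    simp only [mul_assoc, hJJi']
  have hσa : ∀ x y, σ (x + y) = σ x + σ y := by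
    intro x y
    rw [hσdef, hσdef, hσdef, Matrix.transpose_add, mul_add, add_mul]
  have hσ1 : σ 1 = 1 := by rw [hσdef, Matrix.transpose_one, mul_one, hJiJ]
  have hσσ : ∀ x, σ (σ x) = x := by
    intro x
    rw [hσdef, hσdef]
    simp only [Matrix.transpose_mul, Matrix.transpose_transpose, hJ, hJiT, neg_mul, mul_neg,
      neg_neg, mul_assoc, hJiJ, mul_one, hJiJ']
  obtain ⟨u, hudef⟩ : ∃ u : Matrix ι ι F, u = Ji * Ω := ⟨_, rfl⟩
  obtain ⟨v, hvdef⟩ : ∃ v : Matrix ι ι F, v = Ωi * J := ⟨_, rfl⟩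
  have hJu : J * u = Ω := by rw [hudef, hJJi']
  have huv : u * v = 1 := by
    rw [hudef, hvdef]
    simp only [mul_assoc, hΩΩi', hJiJ]
  have hvu : v * u = 1 := mul_eq_one_comm.mp huv
  have hATJ : Aᵀ * J = J * Ai := by
    calc Aᵀ * J = Aᵀ * J * (A * Ai) := by rw [hAAi, mul_one]
      _ = (Aᵀ * J * A) * Ai := by simp only [mul_assoc]
      _ = J * Ai := by rw [hAJ]
  have hσA : σ A = Ai := by rw [hσdef, mul_assoc, hATJ, hJiJ']
  have hσAi : σ Ai = A := by rw [← hσA, hσσ]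
  have hσu : σ u = u := by
    rw [hσdef, hudef]
    simp only [Matrix.transpose_mul, hΩ, hJiT, neg_mul, mul_neg, neg_neg, mul_assoc, hJiJ,
      mul_one]
  have hσv : σ v = v := by
    calc σ v = σ v * (u * v) := by rw [huv, mul_one]
      _ = σ (u * v) * v := by rw [hσm, hσu, mul_assoc]
      _ = v := by rw [huv, hσ1, one_mul]
  have hAu : A * u = u * A := by
    have h1 : J * (Ai * u * A) = J * u := by
      calc J * (Ai * u * A) = (Aᵀ * J) * u * A := by rw [hATJ]; simp only [mul_assoc]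
        _ = Aᵀ * Ω * A := by rw [← hJu]; simp only [mul_assoc]
        _ = Ω := hAΩ
        _ = J * u := hJu.symm
    have h2 : Ai * u * A = u := by
      have h := congrArg (fun z => Ji * z) h1
      simpa only [hJiJ'] using h
    calc A * u = A * (Ai * u * A) := by rw [h2]
      _ = u * A := by simp only [← mul_assoc, hAAi, one_mul]
  have hAv : A * v = v * A := (comm_inv hAu.symm huv hvu).symm
  have hAiu : Ai * u = u * Ai := comm_inv hAu hAAi hAiA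
  have hAiv : Ai * v = v * Ai := comm_inv hAv hAAi hAiA
  have hS : ∀ x ∈ quad A Ai u v, ∀ y ∈ quad A Ai u v, x * y = y * x :=
    quad_comm A Ai u v (by rw [hAAi, hAiA]) hAu hAv hAiu hAiv (by rw [huv, hvu])
  have hSσ : ∀ x ∈ quad A Ai u v, σ x ∈ quad A Ai u v := by
    intro x hx
    rcases hx with h | h | h | h
    · rw [h, hσA]; exact Or.inr (Or.inl rfl)
    · rw [h, hσAi]; exact Or.inl rfl
    · rw [h, hσu]; exact Or.inr (Or.inr (Or.inl rfl))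
    · rw [h, hσv]; exact Or.inr (Or.inr (Or.inr rfl))
  have hAS : A ∈ quad A Ai u v := Or.inl rfl
  have hAiS : Ai ∈ quad A Ai u v := Or.inr (Or.inl rfl)
  have huS : u ∈ quad A Ai u v := Or.inr (Or.inr (Or.inl rfl))
  have hvS : v ∈ quad A Ai u v := Or.inr (Or.inr (Or.inr rfl))
  obtain ⟨pe₁, pb₁, hee₁, h1, h2⟩ := idem_of_squarefree A μ hμ hμA 1
  obtain ⟨pe₂, pb₂, hee₂, h1', h2'⟩ := idem_of_squarefree A μ hμ hμA (-1)
  rw [map_one] at h1 h2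
  rw [map_neg, map_one, sub_neg_eq_add] at h1' h2'
  have hmem : ∀ f : F[X], aeval A f ∈ SS (quad A Ai u v) := fun f =>
    mem_SS.mpr (fun g hg => Wall.commute_aeval g A (hg A hAS).symm f)
  obtain ⟨E₁, hE₁⟩ : ∃ E₁ : Matrix ι ι F, E₁ = aeval A pe₁ := ⟨_, rfl⟩
  rw [← hE₁] at hee₁ h1 h2
  have hE₁S : E₁ ∈ SS (quad A Ai u v) := hE₁ ▸ hmem pe₁
  obtain ⟨P₂, P₃, w₃, hP₂S, hP₃S, hw₃S, hsum, h12, h21, h13, h31, h23, h32, hP₂P₂, hσe₁, hσP₂,
      hσP₃, hAP₂, hPw₃, hw₃⟩ :=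
    norm_pkg σ hσm hσa hσ1 hσσ (quad A Ai u v) hS hSσ A Ai hAS hAiS hAAi hσA
      E₁ (aeval A pb₁) (aeval A pe₂) (aeval A pb₂) u v hE₁S (hmem _) (hmem _) (hmem _)
      (subset_SS huS) (subset_SS hvS) hee₁ h1 h2 hee₂ h1' h2' huv hσu
  have hcomm := SS_comm hS
  have fixJ : ∀ ε, σ ε = ε → εᵀ * J = J * ε := by
    intro ε h
    calc εᵀ * J = J * (Ji * εᵀ * J) := by simp only [mul_assoc, hJJi']
      _ = J * ε := by rw [← hσdef, h]
  have fixΩ : ∀ ε, σ ε = ε → ε * u = u * ε → εᵀ * Ω = Ω * ε := by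
    intro ε h hc
    calc εᵀ * Ω = (εᵀ * J) * u := by rw [← hJu]; simp only [mul_assoc]
      _ = J * (ε * u) := by rw [fixJ ε h, mul_assoc]
      _ = Ω * ε := by rw [hc, ← mul_assoc, hJu]
  obtain ⟨w₁, hw₁a, hw₁b, hw₁c⟩ := darboux_rel J Ω E₁ Ωi hJalt hΩalt Ji hJJi hΩΩi hee₁
    (fixJ E₁ hσe₁) (fixΩ E₁ hσe₁ (hcomm _ hE₁S _ (subset_SS huS)))
  obtain ⟨w₂, hw₂a, hw₂b, hw₂c⟩ := darboux_rel J Ω P₂ Ωi hJalt hΩalt Ji hJJi hΩΩi hP₂P₂
    (fixJ P₂ hσP₂) (fixΩ P₂ hσP₂ (hcomm _ hP₂S _ (subset_SS huS)))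
  have hn1 : σ w₁ * w₁ = u * E₁ := by
    rw [hσdef, hudef]
    calc Ji * w₁ᵀ * J * w₁ = Ji * (w₁ᵀ * J * w₁) := by simp only [mul_assoc]
      _ = Ji * Ω * E₁ := by rw [hw₁c, mul_assoc]
  have hn2 : σ w₂ * w₂ = u * P₂ := by
    rw [hσdef, hudef]
    calc Ji * w₂ᵀ * J * w₂ = Ji * (w₂ᵀ * J * w₂) := by simp only [mul_assoc]
      _ = Ji * Ω * P₂ := by rw [hw₂c, mul_assoc]
  have hfin : σ (w₁ + w₂ + w₃) * (w₁ + w₂ + w₃) = u :=
    assemble σ hσm hσa E₁ P₂ P₃ w₁ w₂ w₃ u hsum h12 h21 h13 h31 h23 h32 hσe₁ hσP₂ hσP₃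
      hw₁a hw₂a hPw₃ hn1 hn2 hw₃
  refine ⟨w₁ + w₂ + w₃, ?_, ?_⟩
  · have hAE : A * E₁ = E₁ := by
      have h := h1
      rw [sub_mul, one_mul] at h
      exact sub_eq_zero.mp h
    have hEA : E₁ * A = E₁ := by
      rw [hcomm _ hE₁S _ (subset_SS hAS), hAE]
    have hAP : A * P₂ = -P₂ := by
      have h := hAP₂
      rw [add_mul, one_mul] at h
      exact eq_neg_of_add_eq_zero_left h
    have hPA : P₂ * A = -P₂ := by
      rw [hcomm _ hP₂S _ (subset_SS hAS), hAP]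
    have c1 : w₁ * A = A * w₁ := by
      calc w₁ * A = w₁ * E₁ * A := by rw [hw₁b]
        _ = w₁ := by rw [mul_assoc, hEA, hw₁b]
        _ = A * E₁ * w₁ := by rw [hAE, hw₁a]
        _ = A * w₁ := by rw [mul_assoc, hw₁a]
    have c2 : w₂ * A = A * w₂ := by
      calc w₂ * A = w₂ * P₂ * A := by rw [hw₂b]
        _ = -w₂ := by rw [mul_assoc, hPA, mul_neg, hw₂b]
        _ = A * P₂ * w₂ := by rw [hAP, neg_mul, hw₂a]
        _ = A * w₂ := by rw [mul_assoc, hw₂a]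
    have c3 : w₃ * A = A * w₃ := hcomm _ hw₃S _ (subset_SS hAS)
    rw [add_mul, add_mul, mul_add, mul_add, c1, c2, c3]
  · have h := congrArg (fun z => J * z) hfin
    simp only [hσdef, hudef, mul_assoc, hJJi'] at h
    rw [mul_assoc]
    exact h

end Mat

end Cfsg.Agent.Lib.Helper15.SpT
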