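import Mathlib
import Cfsg.Agent.Lib.Helper15.SemiA
import Cfsg.Agent.Lib.Helper15.SpT

set_option autoImplicit false

namespace Cfsg.Agent.Lib.Helper15.SpU

open Polynomial Matrix

universe u v

theorem J_alt {F : Type u} [Field F] (n : ℕ) (x : Fin n ⊕ Fin n → F) :
    x ⬝ᵥ Matrix.J (Fin n) F *ᵥ x = 0 := by
  simp only [Matrix.J, dotProduct, Matrix.mulVec, Fintype.sum_sum_type, Matrix.fromBlocks_apply₁₁,
    Matrix.fromBlocks_apply₁₂, Matrix.fromBlocks_apply₂₁, Matrix.fromBlocks_apply₂₂,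
    Matrix.zero_apply, zero_mul, Finset.sum_const_zero, zero_add, add_zero, Matrix.neg_apply,
    Matrix.one_apply, neg_mul, ite_mul, one_mul, Finset.sum_neg_distrib, Finset.sum_ite_eq,
    Finset.mem_univ, if_true, mul_neg]
  rw [neg_add_eq_zero]
  exact Finset.sum_congr rfl (fun i _ => mul_comm _ _)

/-- A squarefree polynomial annihilating an element of order prime to the characteristic. -/
theorem sq_of_pow {F : Type u} [Field F] (p : ℕ) [Fact p.Prime] [CharP F p] {ι : Type v}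
    [Fintype ι] [DecidableEq ι] (A : Matrix ι ι F) (N : ℕ) (hN : N.Coprime p) (hA : A ^ N = 1) :
    ∃ μ : F[X], Squarefree μ ∧ aeval A μ = 0 := by
  have hp : p.Prime := Fact.out
  have hN0 : (N : F) ≠ 0 := by
    intro h
    have h1 : p ∣ N := (CharP.cast_eq_zero_iff F p N).mp h
    have h2 : p ∣ Nat.gcd N p := Nat.dvd_gcd h1 dvd_rfl
    have h3 : Nat.gcd N p = 1 := hN
    rw [h3] at h2
    exact hp.one_lt.ne' (Nat.dvd_one.mp h2)
  have hsep : (X ^ N - C (1 : F)).Separable :=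
    Polynomial.separable_X_pow_sub_C (1 : F) hN0 one_ne_zero
  refine ⟨_, hsep.squarefree, ?_⟩
  rw [map_sub, map_pow, Polynomial.aeval_X, Polynomial.aeval_C, hA, map_one, sub_self]

theorem ss_of_sq {F : Type u} [Field F] {ι : Type v} [Fintype ι] [DecidableEq ι]
    (A : Matrix ι ι F) (μ : F[X]) (hμ : Squarefree μ) (hμA : aeval A μ = 0) :
    Module.End.IsSemisimple (Matrix.toLin' A) := by
  apply Module.End.isSemisimple_of_squarefree_aeval_eq_zero hμ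
  have h : aeval (Matrix.toLin' A) μ = Matrix.toLin' (aeval A μ) :=
    Polynomial.aeval_algHom_apply (Matrix.toLinAlgEquiv' (R := F) (n := ι)) A μ
  rw [h, hμA, map_zero]

theorem sp_pow {F : Type u} [Field F] (n : ℕ) (g : ↥(Matrix.symplecticGroup (Fin n) F)) :
    g.1 ^ orderOf g = 1 := by
  have h := congrArg Subtype.val (pow_orderOf_eq_one g)
  rw [SubmonoidClass.coe_pow] at h
  exact h

/-- Elements of the symplectic group of order prime to the characteristic which are conjugate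
by an invertible matrix are conjugate in the symplectic group. -/
theorem sp_isConj {F : Type u} [Field F] [Finite F] (p : ℕ) [Fact p.Prime] [CharP F p] (n : ℕ)
    (g h : ↥(Matrix.symplecticGroup (Fin n) F)) (hg : (orderOf g).Coprime p)
    (P P' : Matrix (Fin n ⊕ Fin n) (Fin n ⊕ Fin n) F) (hPP' : P * P' = 1)
    (hPG : P * g.1 = h.1 * P) : IsConj g h := by
  classical
  have hP'P : P' * P = 1 := mul_eq_one_comm.mp hPP'
  obtain ⟨J, hJdef⟩ : ∃ J : Matrix (Fin n ⊕ Fin n) (Fin n ⊕ Fin n) F, J = Matrix.J (Fin n) F :=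
    ⟨_, rfl⟩
  have hJT : Jᵀ = -J := by rw [hJdef]; exact Matrix.J_transpose (Fin n) F
  have hJalt : ∀ x, x ⬝ᵥ J *ᵥ x = 0 := by rw [hJdef]; exact J_alt n
  have hJJi : J * -J = 1 := by rw [hJdef, mul_neg, Matrix.J_squared, neg_neg]
  have hJJi' : ∀ z : Matrix (Fin n ⊕ Fin n) (Fin n ⊕ Fin n) F, J * (-J * z) = z := fun z => by
    rw [← mul_assoc, hJJi, one_mul]
  have hPP'' : ∀ z : Matrix (Fin n ⊕ Fin n) (Fin n ⊕ Fin n) F, P * (P' * z) = z := fun z => by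
    rw [← mul_assoc, hPP', one_mul]
  obtain ⟨Gm, hGm⟩ : ∃ Gm : Matrix (Fin n ⊕ Fin n) (Fin n ⊕ Fin n) F, Gm = g.1 := ⟨_, rfl⟩
  obtain ⟨Hm, hHm⟩ : ∃ Hm : Matrix (Fin n ⊕ Fin n) (Fin n ⊕ Fin n) F, Hm = h.1 := ⟨_, rfl⟩
  rw [← hGm, ← hHm] at hPG
  have hGJ : Gmᵀ * J * Gm = J := by
    rw [hGm, hJdef]; exact SymplecticGroup.mem_iff'.mp g.2
  have hHJ : Hmᵀ * J * Hm = J := by
    rw [hHm, hJdef]; exact SymplecticGroup.mem_iff'.mp h.2
  have hGGi : Gm * (g⁻¹).1 = 1 := by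
    rw [hGm]; exact congrArg Subtype.val (mul_inv_cancel g)
  obtain ⟨μ, hμ, hμG⟩ := sq_of_pow p Gm (orderOf g) hg (by rw [hGm]; exact sp_pow n g)
  have hΩT : (Pᵀ * J * P)ᵀ = -(Pᵀ * J * P) := by
    rw [Matrix.transpose_mul, Matrix.transpose_mul, Matrix.transpose_transpose, hJT]
    simp only [neg_mul, mul_neg, mul_assoc]
  have hΩalt : ∀ x, x ⬝ᵥ (Pᵀ * J * P) *ᵥ x = 0 := by
    intro x
    rw [SpT.bil_congr]
    exact hJalt _
  have hΩΩi : (Pᵀ * J * P) * (P' * -J * P'ᵀ) = 1 := by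
    simp only [mul_assoc, hPP'', hJJi']
    rw [← Matrix.transpose_mul, hP'P, Matrix.transpose_one]
  have hAΩ : Gmᵀ * (Pᵀ * J * P) * Gm = Pᵀ * J * P := by
    calc Gmᵀ * (Pᵀ * J * P) * Gm = (P * Gm)ᵀ * J * (P * Gm) := by
          rw [Matrix.transpose_mul]; simp only [mul_assoc]
      _ = (Hm * P)ᵀ * J * (Hm * P) := by rw [hPG]
      _ = Pᵀ * (Hmᵀ * J * Hm) * P := by rw [Matrix.transpose_mul]; simp only [mul_assoc]
      _ = Pᵀ * J * P := by rw [hHJ]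
  obtain ⟨w, hwG, hwJ⟩ := SpT.thmT J (Pᵀ * J * P) Gm (g⁻¹).1 (-J) (P' * -J * P'ᵀ) hJT hJalt hΩT
    hΩalt hJJi hΩΩi hGGi hGJ hAΩ μ hμ hμG
  obtain ⟨w', hw'def⟩ : ∃ w' : Matrix (Fin n ⊕ Fin n) (Fin n ⊕ Fin n) F,
      w' = (P' * -J * P'ᵀ) * wᵀ * J := ⟨_, rfl⟩
  have hw'w : w' * w = 1 := by
    have hΩiΩ : (P' * -J * P'ᵀ) * (Pᵀ * J * P) = 1 := mul_eq_one_comm.mp hΩΩi
    calc w' * w = (P' * -J * P'ᵀ) * (wᵀ * J * w) := by rw [hw'def]; simp only [mul_assoc]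
      _ = 1 := by rw [hwJ, hΩiΩ]
  have hww' : w * w' = 1 := mul_eq_one_comm.mp hw'w
  have hmem : P * w' ∈ Matrix.symplecticGroup (Fin n) F := by
    rw [SymplecticGroup.mem_iff', ← hJdef]
    calc (P * w')ᵀ * J * (P * w') = w'ᵀ * (Pᵀ * J * P) * w' := by
          rw [Matrix.transpose_mul]; simp only [mul_assoc]
      _ = w'ᵀ * (wᵀ * J * w) * w' := by rw [hwJ]
      _ = (w * w')ᵀ * J * (w * w') := by rw [Matrix.transpose_mul]; simp only [mul_assoc]
      _ = J := by rw [hww', Matrix.transpose_one, one_mul, mul_one]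
  have hw'G : w' * Gm = Gm * w' := SpT.comm_inv hwG hww' hw'w
  have hcG : P * w' * Gm = Hm * (P * w') := by
    rw [mul_assoc, hw'G, ← mul_assoc, hPG, mul_assoc]
  rw [isConj_iff]
  refine ⟨⟨P * w', hmem⟩, ?_⟩
  rw [mul_inv_eq_iff_eq_mul]
  apply Subtype.ext
  show P * w' * g.1 = h.1 * (P * w')
  rw [← hGm, ← hHm]
  exact hcG

end Cfsg.Agent.Lib.Helper15.SpU
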