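import Mathlib
import Cfsg.Agent.Lib.Helper15.WallC
import Cfsg.Agent.Lib.Helper15.SemiB
import Cfsg.Agent.Lib.Helper15.UnitA
import Cfsg.Agent.Lib.Helper15.SpU

set_option autoImplicit false

namespace Cfsg.Agent.Lib.Helper15.SpR

open Polynomial Matrix
open Cfsg.Agent.Lib.Helper15.SpM

universe u v

theorem SS_sigma' {R : Type u} [Ring R] (σ : R → R) (hσm : ∀ x y, σ (x * y) = σ y * σ x)
    {S : Set R} (hS : ∀ x ∈ S, ∀ y ∈ S, x * y = y * x)
    (hσσ : ∀ g, (∀ s ∈ S, s * g = g * s) → σ (σ g) = g) (hSσ : ∀ x ∈ S, σ x ∈ S) {x : R}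
    (hx : x ∈ SS S) : σ x ∈ SS S := by
  rw [mem_SS]
  intro g hg
  have h1 : ∀ s ∈ S, s * σ g = σ g * s := by
    intro s hs
    have h2 := hg (σ s) (hSσ s hs)
    have h3 := congrArg σ h2
    rw [hσm, hσm, hσσ s (fun s' hs' => hS s' hs' s hs)] at h3
    exact h3.symm
  have h4 := (mem_SS.mp hx) (σ g) h1
  have h5 := congrArg σ h4
  rw [hσm, hσm, hσσ g hg] at h5
  exact h5.symm

set_option maxHeartbeats 1000000 in
/-- Hilbert 90 inside the commutative double centralizer. -/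
theorem h90_pkg {R : Type u} [Ring R] [Finite R] (σ : R → R)
    (hσm : ∀ x y, σ (x * y) = σ y * σ x) (hσa : ∀ x y, σ (x + y) = σ x + σ y)
    (hσ1 : σ 1 = 1)
    (S : Set R) (hS : ∀ x ∈ S, ∀ y ∈ S, x * y = y * x)
    (hσσ : ∀ g, (∀ s ∈ S, s * g = g * s) → σ (σ g) = g) (hSσ : ∀ x ∈ S, σ x ∈ S)
    (a b : R) (ha : a ∈ S) (hb : b ∈ S) (hab : a * b = 1) (hσab : σ a = b)
    (d c ci : R) (hd : d ∈ SS S) (hc : c ∈ SS S) (hci : ci ∈ SS S)
    (hde : (a * a - 1) * d = 1) (hcci : c * ci = 1) (hσc : σ c = ci) :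
    ∃ y yi : R, y ∈ SS S ∧ yi ∈ SS S ∧ y * yi = 1 ∧ y = σ y * c := by
  classical
  have hcomm := SS_comm hS
  let _ : CommRing ↥(SS S) :=
    { (inferInstance : Ring ↥(SS S)) with
      mul_comm := fun x y => Subtype.ext (hcomm x.1 x.2 y.1 y.2) }
  have hσ0 : σ 0 = 0 := by
    have h := hσa 0 0
    rw [add_zero] at h
    exact left_eq_add.mp h
  have hSSσ : ∀ {x : R}, x ∈ SS S → σ x ∈ SS S := fun hx => SS_sigma' σ hσm hS hσσ hSσ hx
  have hSScomm : ∀ x ∈ SS S, ∀ s ∈ S, s * x = x * s := fun x hx s hs =>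
    hcomm s (subset_SS hs) x hx
  let τ : ↥(SS S) →+* ↥(SS S) :=
    { toFun := fun x => ⟨σ x.1, hSSσ x.2⟩
      map_one' := Subtype.ext hσ1
      map_mul' := fun x y => Subtype.ext (by
        show σ (x.1 * y.1) = σ x.1 * σ y.1
        rw [hσm]
        exact hcomm _ (hSSσ y.2) _ (hSSσ x.2))
      map_zero' := Subtype.ext hσ0
      map_add' := fun x y => Subtype.ext (hσa x.1 y.1) }
  have hττ : ∀ x, τ (τ x) = x := fun x => Subtype.ext (hσσ x.1 (hSScomm x.1 x.2))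
  obtain ⟨a', ha'⟩ : ∃ a' : ↥(SS S), a' = ⟨a, subset_SS ha⟩ := ⟨_, rfl⟩
  obtain ⟨b', hb'⟩ : ∃ b' : ↥(SS S), b' = ⟨b, subset_SS hb⟩ := ⟨_, rfl⟩
  obtain ⟨d', hd'⟩ : ∃ d' : ↥(SS S), d' = ⟨d, hd⟩ := ⟨_, rfl⟩
  obtain ⟨c', hc'⟩ : ∃ c' : ↥(SS S), c' = ⟨c, hc⟩ := ⟨_, rfl⟩
  obtain ⟨ci', hci'⟩ : ∃ ci' : ↥(SS S), ci' = ⟨ci, hci⟩ := ⟨_, rfl⟩
  have Hab : a' * b' = 1 := by rw [ha', hb']; exact Subtype.ext hab
  have hτa : τ a' = b' := by rw [ha', hb']; exact Subtype.ext hσab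
  have Hd : (a' * a' - 1) * d' = 1 := by rw [ha', hd']; exact Subtype.ext hde
  have Hcci : c' * ci' = 1 := by rw [hc', hci']; exact Subtype.ext hcci
  have hτc : τ c' = ci' := by rw [hc', hci']; exact Subtype.ext hσc
  let s : (↥(SS S))ˣ →* (↥(SS S))ˣ := Units.map τ.toMonoidHom
  have hs : ∀ x, s (s x) = x := fun x => Units.ext (hττ x.1)
  have hN : ∀ z, s z = z → ∃ w, w * s w = z := by
    intro z hz
    have hz' : τ (z : ↥(SS S)) = z := congrArg Units.val hz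
    obtain ⟨w₀, hw₀⟩ := SpN.normN (Nat.card ↥(SS S)) ↥(SS S) le_rfl τ hττ a' b' d' Hab hτa Hd
      (z : ↥(SS S)) ((z⁻¹ : (↥(SS S))ˣ) : ↥(SS S)) (Units.mul_inv z) hz'
    have hu : IsUnit w₀ := IsUnit.of_mul_eq_one (τ w₀ * ((z⁻¹ : (↥(SS S))ˣ) : ↥(SS S))) (by
      rw [← mul_assoc, mul_comm w₀, hw₀, Units.mul_inv])
    refine ⟨hu.unit, Units.ext ?_⟩
    show (hu.unit : ↥(SS S)) * τ (hu.unit : ↥(SS S)) = z
    rw [IsUnit.unit_spec, mul_comm, hw₀]
  have hr : (Units.mkOfMulEqOne c' ci' Hcci) * s (Units.mkOfMulEqOne c' ci' Hcci) = 1 := by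
    apply Units.ext
    show c' * τ c' = 1
    rw [hτc, Hcci]
  obtain ⟨x, hx⟩ := Wall.hilbert90 s hs hN (Units.mkOfMulEqOne c' ci' Hcci) hr
  have hx' : (x : ↥(SS S)) = τ (x : ↥(SS S)) * c' := congrArg Units.val hx
  subst ha' hb' hd' hc' hci'
  exact ⟨x.1.1, (x⁻¹).1.1, x.1.2, (x⁻¹).1.2, congrArg Subtype.val (Units.mul_inv x),
    congrArg Subtype.val hx'⟩

section Mat

variable {F : Type u} [Field F] {ι : Type v} [Fintype ι] [DecidableEq ι]

theorem inv_form_comm (J Ji Ω A Ai : Matrix ι ι F)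
    (hJJi : J * Ji = 1) (hAAi : A * Ai = 1) (hAJ : Aᵀ * J * A = J) (hAΩ : Aᵀ * Ω * A = Ω) :
    A * (Ji * Ω) = (Ji * Ω) * A := by
  have hJiJ : Ji * J = 1 := mul_eq_one_comm.mp hJJi
  have hJJi' : ∀ z : Matrix ι ι F, J * (Ji * z) = z := fun z => by
    rw [← mul_assoc, hJJi, one_mul]
  have hJiJ' : ∀ z : Matrix ι ι F, Ji * (J * z) = z := fun z => by
    rw [← mul_assoc, hJiJ, one_mul]
  have hATJ : Aᵀ * J = J * Ai := by
    calc Aᵀ * J = Aᵀ * J * (A * Ai) := by rw [hAAi, mul_one]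
      _ = (Aᵀ * J * A) * Ai := by simp only [mul_assoc]
      _ = J * Ai := by rw [hAJ]
  have h1 : J * (Ai * (Ji * Ω) * A) = J * (Ji * Ω) := by
    calc J * (Ai * (Ji * Ω) * A) = (Aᵀ * J) * (Ji * Ω) * A := by
          rw [hATJ]; simp only [mul_assoc]
      _ = Aᵀ * Ω * A := by simp only [mul_assoc, hJJi']
      _ = Ω := hAΩ
      _ = J * (Ji * Ω) := (hJJi' Ω).symm
  have h2 : Ai * (Ji * Ω) * A = Ji * Ω := by
    have h := congrArg (fun z => Ji * z) h1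
    simpa only [hJiJ'] using h
  calc A * (Ji * Ω) = A * (Ai * (Ji * Ω) * A) := by rw [h2]
    _ = (Ji * Ω) * A := by simp only [← mul_assoc, hAAi, one_mul]

omit [DecidableEq ι] in
theorem nondeg_mat [DecidableEq ι] (N Ni : Matrix ι ι F) (h : N * Ni = 1) (x : ι → F)
    (hx : ∀ y, x ⬝ᵥ N *ᵥ y = 0) : x = 0 := by
  apply dotProduct_eq_zero
  intro z
  have h1 := hx (Ni *ᵥ z)
  rw [Matrix.mulVec_mulVec, h, Matrix.one_mulVec] at h1
  exact h1

set_option maxHeartbeats 1000000 in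
/-- An invertible invariant bilinear form of an isometry `A` with `A ^ 2 - 1` invertible can be
replaced by an invertible invariant alternating form. -/
theorem alt_form [Finite F] (A Ai X Xi : Matrix ι ι F) (hAAi : A * Ai = 1) (hXXi : X * Xi = 1)
    (hAX : Aᵀ * X * A = X) (s : F[X]) (hs : (A * A - 1) * aeval A s = 1) :
    ∃ Ω Ωi : Matrix ι ι F, (∀ x, x ⬝ᵥ Ω *ᵥ x = 0) ∧ Ω * Ωi = 1 ∧ Aᵀ * Ω * A = Ω := by
  classical
  have hAiA : Ai * A = 1 := mul_eq_one_comm.mp hAAi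
  have hXiX : Xi * X = 1 := mul_eq_one_comm.mp hXXi
  have hXXi' : ∀ z : Matrix ι ι F, X * (Xi * z) = z := fun z => by
    rw [← mul_assoc, hXXi, one_mul]
  have hXiX' : ∀ z : Matrix ι ι F, Xi * (X * z) = z := fun z => by
    rw [← mul_assoc, hXiX, one_mul]
  have hXTXiT : Xᵀ * Xiᵀ = 1 := by rw [← Matrix.transpose_mul, hXiX, Matrix.transpose_one]
  have hXTXiT' : ∀ z : Matrix ι ι F, Xᵀ * (Xiᵀ * z) = z := fun z => by
    rw [← mul_assoc, hXTXiT, one_mul]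
  obtain ⟨σ, hσdef⟩ : ∃ σ : Matrix ι ι F → Matrix ι ι F, ∀ y, σ y = Xi * yᵀ * X :=
    ⟨_, fun _ => rfl⟩
  have hσm : ∀ x y, σ (x * y) = σ y * σ x := by
    intro x y
    rw [hσdef, hσdef, hσdef, Matrix.transpose_mul]
    simp only [mul_assoc, hXXi']
  have hσa : ∀ x y, σ (x + y) = σ x + σ y := by
    intro x y
    rw [hσdef, hσdef, hσdef, Matrix.transpose_add, mul_add, add_mul]
  have hσ1 : σ 1 = 1 := by rw [hσdef, Matrix.transpose_one, mul_one, hXiX]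
  obtain ⟨c, hcdef⟩ : ∃ c : Matrix ι ι F, c = Xi * Xᵀ := ⟨_, rfl⟩
  obtain ⟨ci, hcidef⟩ : ∃ ci : Matrix ι ι F, ci = Xiᵀ * X := ⟨_, rfl⟩
  have hcci : c * ci = 1 := by
    rw [hcdef, hcidef]
    simp only [mul_assoc, hXTXiT', hXiX]
  have hcic : ci * c = 1 := mul_eq_one_comm.mp hcci
  have hσσ' : ∀ y, σ (σ y) = c * y * ci := by
    intro y
    rw [hσdef, hσdef, hcdef, hcidef]
    simp only [Matrix.transpose_mul, Matrix.transpose_transpose, mul_assoc]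
  have hATX : Aᵀ * X = X * Ai := by
    calc Aᵀ * X = Aᵀ * X * (A * Ai) := by rw [hAAi, mul_one]
      _ = (Aᵀ * X * A) * Ai := by simp only [mul_assoc]
      _ = X * Ai := by rw [hAX]
  have hσA : σ A = Ai := by rw [hσdef, mul_assoc, hATX, hXiX']
  have hAXT : Aᵀ * Xᵀ * A = Xᵀ := by
    have h := congrArg Matrix.transpose hAX
    rw [Matrix.transpose_mul, Matrix.transpose_mul, Matrix.transpose_transpose] at h
    rw [mul_assoc]
    exact h
  have hAc : A * c = c * A := by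
    rw [hcdef]
    exact inv_form_comm X Xi Xᵀ A Ai hXXi hAAi hAX hAXT
  have hAci : A * ci = ci * A := (SpT.comm_inv hAc.symm hcci hcic).symm
  have hAic : Ai * c = c * Ai := SpT.comm_inv hAc hAAi hAiA
  have hAici : Ai * ci = ci * Ai := SpT.comm_inv hAci hAAi hAiA
  have hσσA : σ (σ A) = A := by rw [hσσ', ← hAc, mul_assoc, hcci, mul_one]
  have hσAi : σ Ai = A := by rw [← hσA, hσσA]
  have hσc : σ c = ci := by
    rw [hσdef, hcdef, hcidef]
    simp only [Matrix.transpose_mul, Matrix.transpose_transpose, hXiX']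
  have hσci : σ ci = c := by
    rw [hσdef, hcdef, hcidef]
    simp only [Matrix.transpose_mul, Matrix.transpose_transpose, mul_assoc, hXiX, mul_one]
  have hS : ∀ x ∈ SpT.quad A Ai c ci, ∀ y ∈ SpT.quad A Ai c ci, x * y = y * x :=
    SpT.quad_comm A Ai c ci (by rw [hAAi, hAiA]) hAc hAci hAic hAici (by rw [hcci, hcic])
  have hSσ : ∀ x ∈ SpT.quad A Ai c ci, σ x ∈ SpT.quad A Ai c ci := by
    intro x hx
    rcases hx with h | h | h | h
    · rw [h, hσA]; exact Or.inr (Or.inl rfl)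
    · rw [h, hσAi]; exact Or.inl rfl
    · rw [h, hσc]; exact Or.inr (Or.inr (Or.inr rfl))
    · rw [h, hσci]; exact Or.inr (Or.inr (Or.inl rfl))
  have hAS : A ∈ SpT.quad A Ai c ci := Or.inl rfl
  have hAiS : Ai ∈ SpT.quad A Ai c ci := Or.inr (Or.inl rfl)
  have hcS : c ∈ SpT.quad A Ai c ci := Or.inr (Or.inr (Or.inl rfl))
  have hciS : ci ∈ SpT.quad A Ai c ci := Or.inr (Or.inr (Or.inr rfl))
  have hσσ : ∀ g, (∀ s ∈ SpT.quad A Ai c ci, s * g = g * s) → σ (σ g) = g := by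
    intro g hg
    rw [hσσ', hg c hcS, mul_assoc, hcci, mul_one]
  have hmem : ∀ f : F[X], aeval A f ∈ SS (SpT.quad A Ai c ci) := fun f =>
    mem_SS.mpr (fun g hg => Wall.commute_aeval g A (hg A hAS).symm f)
  obtain ⟨y, yi, hyS, hyiS, hyyi, hy⟩ := h90_pkg σ hσm hσa hσ1 (SpT.quad A Ai c ci) hS hσσ hSσ
    A Ai hAS hAiS hAAi hσA (aeval A s) c ci (hmem s) (subset_SS hcS) (subset_SS hciS) hs hcci
    hσc
  have hcomm := SS_comm hS
  have hyA : y * A = A * y := hcomm _ hyS _ (subset_SS hAS)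
  obtain ⟨Z, hZdef⟩ : ∃ Z : Matrix ι ι F, Z = X * y := ⟨_, rfl⟩
  have hZT : Zᵀ = Z := by
    rw [hZdef, Matrix.transpose_mul]
    conv_rhs => rw [hy, hσdef, hcdef]
    simp only [mul_assoc, hXXi']
  have hAZ : Aᵀ * Z * A = Z := by
    rw [hZdef]
    calc Aᵀ * (X * y) * A = (Aᵀ * X * A) * y := by
          rw [mul_assoc, mul_assoc, hyA]; simp only [mul_assoc]
      _ = X * y := by rw [hAX]
  have hZAi : Aiᵀ * Z = Z * A := by
    have h1 : Aiᵀ * Aᵀ = 1 := by rw [← Matrix.transpose_mul, hAAi, Matrix.transpose_one]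
    calc Aiᵀ * Z = Aiᵀ * (Aᵀ * Z * A) := by rw [hAZ]
      _ = (Aiᵀ * Aᵀ) * Z * A := by simp only [mul_assoc]
      _ = Z * A := by rw [h1, one_mul]
  have hsym : ∀ (N : Matrix ι ι F) (x : ι → F), x ⬝ᵥ N *ᵥ x = x ⬝ᵥ Nᵀ *ᵥ x := by
    intro N x
    conv_rhs => rw [Matrix.dotProduct_mulVec, Matrix.vecMul_transpose, dotProduct_comm]
  refine ⟨Z * (A - Ai), aeval A s * A * yi * Xi, ?_, ?_, ?_⟩
  · intro x
    rw [mul_sub, Matrix.sub_mulVec, dotProduct_sub, sub_eq_zero]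
    rw [hsym (Z * Ai) x, Matrix.transpose_mul, hZT, hZAi]
  · have h1 : A - Ai = Ai * (A * A - 1) := by
      rw [mul_sub, mul_one, ← mul_assoc, hAiA, one_mul]
    have h2 : (A - Ai) * (aeval A s * A) = 1 := by
      rw [h1, mul_assoc, ← mul_assoc (A * A - 1), hs, one_mul, hAiA]
    rw [hZdef]
    calc X * y * (A - Ai) * (aeval A s * A * yi * Xi)
        = X * y * ((A - Ai) * (aeval A s * A)) * yi * Xi := by simp only [mul_assoc]
      _ = 1 := by rw [h2, mul_one, mul_assoc X, hyyi, mul_one, hXXi]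
  · have h3 : (A - Ai) * A = A * (A - Ai) := by
      rw [sub_mul, mul_sub, hAiA, hAAi]
    calc Aᵀ * (Z * (A - Ai)) * A = Aᵀ * Z * ((A - Ai) * A) := by simp only [mul_assoc]
      _ = (Aᵀ * Z * A) * (A - Ai) := by rw [h3]; simp only [mul_assoc]
      _ = Z * (A - Ai) := by rw [hAZ]

end Mat

end Cfsg.Agent.Lib.Helper15.SpR
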