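import Mathlib
import Cfsg.Agent.Lib.Helper15.SpR

set_option autoImplicit false

namespace Cfsg.Agent.Lib.Helper15.SpR

open Polynomial Matrix
open Cfsg.Agent.Lib.Helper15.SpM

universe u v

theorem cstar_id {F : Type u} [Field F] {n : Type*} [Fintype n] [DecidableEq n]
    (M : Matrix n n F) : Wall.cstar (RingHom.id F) M = Mᵀ := by
  ext i j
  rfl

/-- A semisimple matrix with a self-dual characteristic polynomial prime to `X ^ 2 - 1` carries
an invariant nondegenerate alternating form. -/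
theorem sp_real_core {F : Type u} [Field F] [Fintype F] (p : ℕ) [Fact p.Prime] [CharP F p]
    (d : ℕ) (f : F[X]) (hfm : f.Monic) (hfd : f.natDegree = d) (hf0 : f.coeff 0 ≠ 0)
    (hdual : Semi.dual (RingHom.id F) f = f) (hcop : IsCoprime (X ^ 2 - 1 : F[X]) f) :
    ∃ M Ω Ωi : Matrix (Fin d) (Fin d) F, M.charpoly = f ∧
      (∃ N : ℕ, N.Coprime p ∧ M ^ N = 1) ∧
      (∀ x, x ⬝ᵥ Ω *ᵥ x = 0) ∧ Ω * Ωi = 1 ∧ Mᵀ * Ω * M = Ω := by
  classical
  obtain ⟨g, hg, hgo⟩ := Semi.exists_charpoly p d f hfm hfd hf0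
  have hgN : g ^ orderOf g = 1 := pow_orderOf_eq_one g
  have hcs : ((Semi.starInv (RingHom.id F) g : GL (Fin d) F) : Matrix (Fin d) (Fin d) F).charpoly =
      (g : Matrix (Fin d) (Fin d) F).charpoly := by
    rw [Semi.starInv_charpoly, hg, hdual]
  have hss : Module.End.IsSemisimple (Matrix.toLin' (g : Matrix (Fin d) (Fin d) F)) :=
    Semi.ss_of_order p g hgo
  have hss' : Module.End.IsSemisimple (Matrix.toLin'
      ((Semi.starInv (RingHom.id F) g : GL (Fin d) F) : Matrix (Fin d) (Fin d) F)) := by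
    apply Semi.ss_of_pow p _ (orderOf g) hgo
    rw [← Units.val_pow_eq_pow_val, Semi.starInv_pow (RingHom.id F) g _ hgN]
    rfl
  have hconj : IsConj g (Semi.starInv (RingHom.id F) g) := Semi.ss_isConj g _ hss hss' hcs.symm
  obtain ⟨c, hc⟩ := isConj_iff.mp hconj
  have h1 : c * g = Semi.starInv (RingHom.id F) g * c := mul_inv_eq_iff_eq_mul.mp hc
  obtain ⟨G, hG⟩ : ∃ G : Matrix (Fin d) (Fin d) F, G = (g : Matrix (Fin d) (Fin d) F) :=
    ⟨_, rfl⟩
  obtain ⟨Gi, hGi⟩ : ∃ Gi : Matrix (Fin d) (Fin d) F,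
      Gi = ((g⁻¹ : GL (Fin d) F) : Matrix (Fin d) (Fin d) F) := ⟨_, rfl⟩
  obtain ⟨Cm, hCm⟩ : ∃ Cm : Matrix (Fin d) (Fin d) F, Cm = (c : Matrix (Fin d) (Fin d) F) :=
    ⟨_, rfl⟩
  obtain ⟨Ci, hCi⟩ : ∃ Ci : Matrix (Fin d) (Fin d) F,
      Ci = ((c⁻¹ : GL (Fin d) F) : Matrix (Fin d) (Fin d) F) := ⟨_, rfl⟩
  have hGGi : G * Gi = 1 := by
    rw [hG, hGi, ← Units.val_mul, mul_inv_cancel, Units.val_one]
  have hGiG : Gi * G = 1 := mul_eq_one_comm.mp hGGi
  have hCCi : Cm * Ci = 1 := by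
    rw [hCm, hCi, ← Units.val_mul, mul_inv_cancel, Units.val_one]
  have h2 : Cm * G = Giᵀ * Cm := by
    have h3 := congrArg (fun z : GL (Fin d) F => (z : Matrix (Fin d) (Fin d) F)) h1
    simp only [Units.val_mul, Semi.starInv_val] at h3
    rw [cstar_id] at h3
    rw [hCm, hG, hGi]
    exact h3
  have hX : Gᵀ * Cm * G = Cm := by
    calc Gᵀ * Cm * G = Gᵀ * (Cm * G) := mul_assoc _ _ _
      _ = Gᵀ * (Giᵀ * Cm) := by rw [h2]
      _ = (Gi * G)ᵀ * Cm := by rw [Matrix.transpose_mul, mul_assoc]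
      _ = Cm := by rw [hGiG, Matrix.transpose_one, one_mul]
  obtain ⟨s, t, hst⟩ := hcop
  have hs : (G * G - 1) * aeval G s = 1 := by
    have h4 := congrArg (aeval G) hst
    simp only [map_add, map_mul, map_sub, map_pow, aeval_X, map_one] at h4
    have h5 : aeval G f = 0 := by
      rw [← hg, hG]
      exact Matrix.aeval_self_charpoly _
    rw [h5, mul_zero, add_zero, pow_two] at h4
    exact mul_eq_one_comm.mp h4
  obtain ⟨Ω, Ωi, hΩalt, hΩΩi, hGΩ⟩ := alt_form G Gi Cm Ci hGGi hCCi hX s hs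
  refine ⟨G, Ω, Ωi, by rw [hG]; exact hg, ⟨orderOf g, hgo, ?_⟩, hΩalt, hΩΩi, hGΩ⟩
  rw [hG, ← Units.val_pow_eq_pow_val, hgN]
  rfl

/-- A space with a nondegenerate alternating form has even dimension. -/
theorem alt_even {K : Type u} [Field K] : ∀ (n : ℕ) (V : Type v) [AddCommGroup V] [Module K V]
    [FiniteDimensional K V] (B : LinearMap.BilinForm K V), Module.finrank K V = n →
    (∀ x, B x x = 0) → (∀ x, (∀ y, B x y = 0) → x = 0) → Even n := by
  intro n
  induction n using Nat.strong_induction_on with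
  | _ n ih =>
  intro V _ _ _ B hV halt hnd
  by_cases hn : n = 0
  · subst hn
    exact ⟨0, rfl⟩
  · have hnt : Nontrivial V := Module.nontrivial_of_finrank_pos (R := K) (by omega)
    obtain ⟨e, f, hef⟩ := SpD.exists_pair B hnd
    have hfr := SpD.finrank_Wc B halt e f hef
    have hndW : ∀ x : SpD.Wc B e f, (∀ y : SpD.Wc B e f, B x.1 y.1 = 0) → x = 0 := by
      intro x hx
      apply Subtype.ext
      apply hnd
      intro z
      have h1 : B x.1 f = 0 := ((SpD.mem_Wc B e f x.1).mp x.2).1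
      have h2 : B x.1 e = 0 := by
        rw [SpD.skew B halt, ((SpD.mem_Wc B e f x.1).mp x.2).2, neg_zero]
      have h3 : B x.1 (SpD.piL B e f z) = 0 := hx ⟨_, SpD.piL_mem B halt e f hef z⟩
      rw [SpD.decomp B e f z, map_add, map_add, map_smul, map_smul, h1, h2, h3]
      simp
    have hev := ih (Module.finrank K (SpD.Wc B e f)) (by omega) (SpD.Wc B e f)
      (B.compl₁₂ (SpD.Wc B e f).subtype (SpD.Wc B e f).subtype) rfl
      (fun x => by rw [LinearMap.compl₁₂_apply]; exact halt _)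
      (fun x hx => hndW x (fun y => by
        have := hx y
        rw [LinearMap.compl₁₂_apply] at this
        exact this))
    obtain ⟨k, hk⟩ := hev
    exact ⟨k + 1, by omega⟩

theorem alt_even_mat {F : Type u} [Field F] {ι : Type v} [Fintype ι] [DecidableEq ι]
    (Ω Ωi : Matrix ι ι F) (hΩalt : ∀ x, x ⬝ᵥ Ω *ᵥ x = 0) (hΩΩi : Ω * Ωi = 1) :
    Even (Fintype.card ι) := by
  apply alt_even (K := F) (Fintype.card ι) (ι → F) (Matrix.toBilin' Ω)
    (Module.finrank_fintype_fun_eq_card F)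
  · intro x
    rw [Matrix.toBilin'_apply']
    exact hΩalt x
  · intro x hx
    apply nondeg_mat Ω Ωi hΩΩi x
    intro y
    have := hx y
    rw [Matrix.toBilin'_apply'] at this
    exact this

/-- Transfer of an isometry of a nondegenerate alternating matrix form to the standard
symplectic group. -/
theorem transfer {F : Type u} [Field F] {ι : Type} [Fintype ι] [DecidableEq ι] (m : ℕ)
    (hcard : Fintype.card ι = 2 * m) (M Ω Ωi : Matrix ι ι F) (hΩalt : ∀ x, x ⬝ᵥ Ω *ᵥ x = 0)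
    (hΩΩi : Ω * Ωi = 1) (hMΩ : Mᵀ * Ω * M = Ω) :
    ∃ g : Matrix (Fin m ⊕ Fin m) (Fin m ⊕ Fin m) F, g ∈ Matrix.symplecticGroup (Fin m) F ∧
      g.charpoly = M.charpoly ∧ ∀ μ : F[X], aeval M μ = 0 → aeval g μ = 0 := by
  classical
  obtain ⟨J, hJdef⟩ : ∃ J : Matrix (Fin m ⊕ Fin m) (Fin m ⊕ Fin m) F, J = Matrix.J (Fin m) F :=
    ⟨_, rfl⟩
  have hJalt : ∀ x, x ⬝ᵥ J *ᵥ x = 0 := by rw [hJdef]; exact SpU.J_alt m
  have hJJi : J * -J = 1 := by rw [hJdef, mul_neg, Matrix.J_squared, neg_neg]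
  have hfr1 : Module.finrank F (ι → F) = 2 * m := by
    rw [Module.finrank_fintype_fun_eq_card, hcard]
  have hfr2 : Module.finrank F (Fin m ⊕ Fin m → F) = 2 * m := by
    rw [Module.finrank_fintype_fun_eq_card, Fintype.card_sum, Fintype.card_fin]
    ring
  obtain ⟨T, hT⟩ := SpD.darboux (K := F) (2 * m) (ι → F) (Fin m ⊕ Fin m → F)
    (Matrix.toBilin' Ω) (Matrix.toBilin' J) hfr1 hfr2
    (fun x => by rw [Matrix.toBilin'_apply']; exact hΩalt x)
    (fun x => by rw [Matrix.toBilin'_apply']; exact hJalt x)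
    (fun x hx => nondeg_mat Ω Ωi hΩΩi x (fun y => by
      have := hx y
      rw [Matrix.toBilin'_apply'] at this
      exact this))
    (fun x hx => nondeg_mat J (-J) hJJi x (fun y => by
      have := hx y
      rw [Matrix.toBilin'_apply'] at this
      exact this))
  have hT' : ∀ x y, (T x) ⬝ᵥ J *ᵥ (T y) = x ⬝ᵥ Ω *ᵥ y := by
    intro x y
    have := hT x y
    rw [Matrix.toBilin'_apply', Matrix.toBilin'_apply'] at this
    exact this
  have hTinj : Function.Injective T := by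
    rw [injective_iff_map_eq_zero]
    intro x hx
    apply nondeg_mat Ω Ωi hΩΩi x
    intro y
    rw [← hT', hx, zero_dotProduct]
  obtain ⟨e, he⟩ : ∃ e : (ι → F) ≃ₗ[F] (Fin m ⊕ Fin m → F), ∀ x, e x = T x :=
    ⟨LinearEquiv.ofInjectiveOfFinrankEq T hTinj (by rw [hfr1, hfr2]), fun x => rfl⟩
  obtain ⟨g, hgdef⟩ : ∃ g : Matrix (Fin m ⊕ Fin m) (Fin m ⊕ Fin m) F,
      g = LinearMap.toMatrix' (e.conj (Matrix.toLin' M)) := ⟨_, rfl⟩
  have hg : ∀ x, g *ᵥ x = e (M *ᵥ (e.symm x)) := by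
    intro x
    rw [← Matrix.toLin'_apply, hgdef, Matrix.toLin'_toMatrix', LinearEquiv.conj_apply_apply,
      Matrix.toLin'_apply]
  refine ⟨g, ?_, ?_, ?_⟩
  · rw [SymplecticGroup.mem_iff', ← hJdef]
    apply SpT.mat_ext_bil
    intro x y
    rw [SpT.bil_congr, hg, hg, he, he, hT', ← SpT.bil_congr, hMΩ, ← hT', ← he, ← he,
      LinearEquiv.apply_symm_apply, LinearEquiv.apply_symm_apply]
  · rw [← Matrix.charpoly_toLin' g, hgdef, Matrix.toLin'_toMatrix', LinearEquiv.charpoly_conj,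
      Matrix.charpoly_toLin']
  · intro μ hμ
    have h1 : aeval (Matrix.toLin' g) μ = Matrix.toLin' (aeval g μ) :=
      Polynomial.aeval_algHom_apply (Matrix.toLinAlgEquiv' (R := F) (n := Fin m ⊕ Fin m)) g μ
    have h2 : aeval (Matrix.toLin' M) μ = Matrix.toLin' (aeval M μ) :=
      Polynomial.aeval_algHom_apply (Matrix.toLinAlgEquiv' (R := F) (n := ι)) M μ
    have h3 : Matrix.toLin' g = LinearEquiv.conjAlgEquiv F e (Matrix.toLin' M) := by
      rw [hgdef, Matrix.toLin'_toMatrix']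
      exact LinearMap.ext fun _ => rfl
    have h4 : aeval (LinearEquiv.conjAlgEquiv F e (Matrix.toLin' M)) μ =
        LinearEquiv.conjAlgEquiv F e (aeval (Matrix.toLin' M) μ) :=
      Polynomial.aeval_algHom_apply (LinearEquiv.conjAlgEquiv F e) (Matrix.toLin' M) μ
    have h5 : Matrix.toLin' (aeval g μ) = 0 := by
      rw [← h1, h3, h4, h2, hμ, map_zero, map_zero]
    have h6 : Matrix.toLin' (aeval g μ) =
        Matrix.toLin' (0 : Matrix (Fin m ⊕ Fin m) (Fin m ⊕ Fin m) F) := by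
      rw [h5, map_zero]
    exact Matrix.toLin'.injective h6

theorem alt_blocks {F : Type u} [Field F] {α β : Type*} [Fintype α] [Fintype β]
    [DecidableEq α] [DecidableEq β] (N₁ : Matrix α α F) (N₂ : Matrix β β F)
    (h1 : ∀ x, x ⬝ᵥ N₁ *ᵥ x = 0) (h2 : ∀ x, x ⬝ᵥ N₂ *ᵥ x = 0) :
    ∀ x, x ⬝ᵥ (Matrix.fromBlocks N₁ 0 0 N₂) *ᵥ x = 0 := by
  intro x
  have key : ∀ (u : α → F) (v : β → F),
      x ⬝ᵥ Sum.elim u v = (x ∘ Sum.inl) ⬝ᵥ u + (x ∘ Sum.inr) ⬝ᵥ v := by
    intro u v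
    simp only [dotProduct, Fintype.sum_sum_type, Sum.elim_inl, Sum.elim_inr,
      Function.comp_apply]
  rw [Matrix.fromBlocks_mulVec, key, Matrix.zero_mulVec, Matrix.zero_mulVec, add_zero, zero_add,
    h1, h2, add_zero]

theorem fromBlocks_pow {F : Type u} [Field F] {α β : Type*} [Fintype α] [Fintype β]
    [DecidableEq α] [DecidableEq β] (A : Matrix α α F) (D : Matrix β β F) (n : ℕ) :
    (Matrix.fromBlocks A 0 0 D) ^ n = Matrix.fromBlocks (A ^ n) 0 0 (D ^ n) := by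
  induction n with
  | zero => rw [pow_zero, pow_zero, pow_zero, Matrix.fromBlocks_one]
  | succ n ih =>
    rw [pow_succ, ih, Matrix.fromBlocks_multiply, pow_succ, pow_succ]
    simp only [Matrix.mul_zero, Matrix.zero_mul, add_zero, zero_add]

/-- Existence of symplectic matrices with a given characteristic polynomial. -/
theorem sp_exists {F : Type u} [Field F] [Fintype F] (p : ℕ) [Fact p.Prime] [CharP F p]
    (m a₀ : ℕ) (f : F[X]) (hfm : f.Monic) (hfd : f.natDegree + a₀ = 2 * m)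
    (hf0 : f.coeff 0 ≠ 0) (hdual : Semi.dual (RingHom.id F) f = f)
    (hcop : IsCoprime (X ^ 2 - 1 : F[X]) f) :
    ∃ g : Matrix (Fin m ⊕ Fin m) (Fin m ⊕ Fin m) F, g ∈ Matrix.symplecticGroup (Fin m) F ∧
      g.charpoly = (X - 1) ^ a₀ * f ∧ ∃ μ : F[X], Squarefree μ ∧ aeval g μ = 0 := by
  classical
  obtain ⟨M, Ω, Ωi, hMc, ⟨N, hN, hMN⟩, hΩalt, hΩΩi, hMΩ⟩ :=
    sp_real_core p f.natDegree f hfm rfl hf0 hdual hcop
  have hev : Even f.natDegree := by
    have h := alt_even_mat Ω Ωi hΩalt hΩΩi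
    rwa [Fintype.card_fin] at h
  obtain ⟨k, hk⟩ : ∃ k, a₀ = 2 * k := by
    obtain ⟨c, hc⟩ := hev
    exact ⟨m - c, by omega⟩
  have hJJi : Matrix.J (Fin k) F * -Matrix.J (Fin k) F = 1 := by
    rw [mul_neg, Matrix.J_squared, neg_neg]
  obtain ⟨Mt, hMt⟩ : ∃ Mt : Matrix ((Fin k ⊕ Fin k) ⊕ Fin f.natDegree)
      ((Fin k ⊕ Fin k) ⊕ Fin f.natDegree) F, Mt = Matrix.fromBlocks 1 0 0 M := ⟨_, rfl⟩
  have hMtN : Mt ^ N = 1 := by
    rw [hMt, fromBlocks_pow, one_pow, hMN, Matrix.fromBlocks_one]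
  obtain ⟨μ, hμ, hμM⟩ := SpU.sq_of_pow p Mt N hN hMtN
  have hcard : Fintype.card ((Fin k ⊕ Fin k) ⊕ Fin f.natDegree) = 2 * m := by
    rw [Fintype.card_sum, Fintype.card_sum, Fintype.card_fin, Fintype.card_fin]
    omega
  obtain ⟨g, hgS, hgc, hgμ⟩ := transfer m hcard Mt
    (Matrix.fromBlocks (Matrix.J (Fin k) F) 0 0 Ω) (Matrix.fromBlocks (-Matrix.J (Fin k) F) 0 0 Ωi)
    (alt_blocks _ _ (SpU.J_alt k) hΩalt)
    (by
      rw [Matrix.fromBlocks_multiply]
      simp only [Matrix.mul_zero, Matrix.zero_mul, add_zero, zero_add, hJJi, hΩΩi,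
        Matrix.fromBlocks_one])
    (by
      rw [hMt, Matrix.fromBlocks_transpose, Matrix.fromBlocks_multiply,
        Matrix.fromBlocks_multiply]
      simp only [Matrix.transpose_zero, Matrix.transpose_one, Matrix.mul_zero, Matrix.zero_mul,
        add_zero, zero_add, Matrix.one_mul, Matrix.mul_one, hMΩ])
  refine ⟨g, hgS, ?_, μ, hμ, hgμ μ hμM⟩
  rw [hgc, hMt, Matrix.charpoly_fromBlocks_zero₁₂, Matrix.charpoly_one, hMc, Fintype.card_sum,
    Fintype.card_fin, hk, two_mul]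

end Cfsg.Agent.Lib.Helper15.SpR
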