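import Mathlib
import Cfsg.Agent.Lib.Helper15.CycB
import Cfsg.Agent.Lib.Helper15.CycC
import Cfsg.Agent.Lib.Helper15.SpR2
import Cfsg.Agent.S2389

set_option autoImplicit false

namespace Cfsg.Agent.Lib.Helper15.SpC

open Polynomial Matrix
open Cfsg.Agent.Lib.Helper15

universe u

variable {F : Type u} [Field F]

theorem charpoly_inv_gen {ι : Type*} [Fintype ι] [DecidableEq ι] (A : Matrix ι ι F)
    (hA : A.det ≠ 0) : A⁻¹.charpoly = C (A.charpoly.coeff 0)⁻¹ * A.charpoly.reverse := by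
  have hu : IsUnit A := (Matrix.isUnit_iff_isUnit_det A).mpr (isUnit_iff_ne_zero.mpr hA)
  rw [Matrix.charpoly_inv A hu, Matrix.reverse_charpoly]
  congr 1
  have h1 : A.det = (-1) ^ Fintype.card ι * A.charpoly.coeff 0 :=
    Matrix.det_eq_sign_charpoly_coeff A
  have h2 : ((-1 : F[X]) ^ Fintype.card ι) = C ((-1 : F) ^ Fintype.card ι) := by
    rw [map_pow, map_neg, map_one]
  rw [Ring.inverse_eq_inv, h2, ← map_mul]
  congr 1
  rw [h1, mul_inv, ← mul_assoc, mul_inv_cancel₀ (pow_ne_zero _ (neg_ne_zero.mpr one_ne_zero)),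
    one_mul]

/-- The characteristic polynomial of a symplectic matrix is self-dual. -/
theorem sp_charpoly_selfdual (m : ℕ) (g : Matrix (Fin m ⊕ Fin m) (Fin m ⊕ Fin m) F)
    (hg : g ∈ Matrix.symplecticGroup (Fin m) F) :
    Semi.dual (RingHom.id F) g.charpoly = g.charpoly := by
  have h1 : gᵀ * Matrix.J (Fin m) F * g = Matrix.J (Fin m) F := SymplecticGroup.mem_iff'.mp hg
  have hJJ : Matrix.J (Fin m) F * -Matrix.J (Fin m) F = 1 := by
    rw [mul_neg, Matrix.J_squared, neg_neg]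
  have hJJ' : -Matrix.J (Fin m) F * Matrix.J (Fin m) F = 1 := by
    rw [neg_mul, Matrix.J_squared, neg_neg]
  have h2 : (-Matrix.J (Fin m) F * gᵀ * Matrix.J (Fin m) F) * g = 1 := by
    rw [mul_assoc, mul_assoc, ← mul_assoc gᵀ, h1, hJJ']
  have h3 : g⁻¹ = -Matrix.J (Fin m) F * gᵀ * Matrix.J (Fin m) F := Matrix.inv_eq_left_inv h2
  have hdet : g.det ≠ 0 := by
    intro h0
    have h4 := congrArg Matrix.det h2
    rw [Matrix.det_mul, h0, mul_zero, Matrix.det_one] at h4
    exact zero_ne_one h4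
  have h4 : g⁻¹.charpoly = g.charpoly := by
    rw [h3, mul_assoc, Matrix.charpoly_mul_comm, mul_assoc, hJJ, mul_one,
      Matrix.charpoly_transpose]
  unfold Semi.dual
  rw [← charpoly_inv_gen g hdet, h4, Polynomial.map_id]

theorem irr_dvd_gen {ι : Type*} [Fintype ι] [DecidableEq ι] (M : Matrix ι ι F) (r : ℕ)
    (hM : M ^ r = 1) (g : F[X]) (hg : Irreducible g) (hgd : g ∣ M.charpoly) :
    g ∣ X ^ r - 1 := by
  by_contra hnd
  have hcop : IsCoprime g (X ^ r - 1) := hg.coprime_iff_not_dvd.mpr hnd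
  obtain ⟨u, w, huw⟩ := hcop
  have h1 := congrArg (aeval M) huw
  rw [map_add, map_mul, map_mul, map_sub, map_pow, aeval_X, map_one, hM, sub_self, mul_zero,
    add_zero] at h1
  have h2 := congrArg Matrix.det h1
  rw [Matrix.det_mul, Semi.det_aeval_eq_zero M g hg hgd, mul_zero, Matrix.det_one] at h2
  exact zero_ne_one h2

theorem pow_eq_one_gen {ι : Type*} [Fintype ι] [DecidableEq ι] (M : Matrix ι ι F)
    (hss : Module.End.IsSemisimple (Matrix.toLin' M)) (r k : ℕ)
    (hd : M.charpoly ∣ (X ^ r - 1) ^ k) : M ^ r = 1 := by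
  have hta : ∀ P : F[X], aeval (Matrix.toLin' M) P = Matrix.toLin' (aeval M P) := fun P =>
    Polynomial.aeval_algHom_apply (Matrix.toLinAlgEquiv' (R := F) (n := ι)) M P
  have h1 : aeval M ((X ^ r - 1 : F[X]) ^ k) = 0 := by
    obtain ⟨c, hc⟩ := hd
    rw [hc, map_mul, Matrix.aeval_self_charpoly, zero_mul]
  have h2 : (aeval (Matrix.toLin' M) (X ^ r - 1 : F[X])) ^ k = 0 := by
    rw [← map_pow, hta, h1, map_zero]
  have h3 : aeval (Matrix.toLin' M) (X ^ r - 1 : F[X]) = 0 :=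
    Module.End.eq_zero_of_isNilpotent_isSemisimple ⟨k, h2⟩ (hss.aeval _)
  rw [hta] at h3
  have h4 : aeval M (X ^ r - 1 : F[X]) = 0 := by
    apply (Matrix.toLin' (R := F) (m := ι) (n := ι)).injective
    rw [h3, map_zero]
  rw [map_sub, map_pow, aeval_X, map_one] at h4
  exact sub_eq_zero.mp h4

theorem sp_charpoly_of_isConj {m : ℕ} {g g' : ↥(Matrix.symplecticGroup (Fin m) F)}
    (h : IsConj g g') : g.1.charpoly = g'.1.charpoly := by
  obtain ⟨c, hc⟩ := isConj_iff.mp h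
  have h1 : g'.1 = c.1 * g.1 * (c⁻¹).1 := by rw [← hc]; rfl
  have h2 : (c⁻¹).1 * c.1 = 1 := congrArg Subtype.val (inv_mul_cancel c)
  rw [h1, mul_assoc, Matrix.charpoly_mul_comm, mul_assoc, h2, mul_one]

set_option maxHeartbeats 1000000 in
/-- Conjugacy classes of elements of order dividing an odd prime `r` (not the characteristic)
in the symplectic group correspond to duality-invariant exponent vectors. -/
theorem sp_pow_classes [Fintype F] (p : ℕ) [Fact p.Prime] [CharP F p]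
    (m r : ℕ) (hr : r.Prime) (hr2 : r ≠ 2) (hrp : r ≠ p) {t : ℕ}
    (h : Fin (t + 1) → F[X]) (hinj : Function.Injective h) (hirr : ∀ j, Irreducible (h j))
    (hmon : ∀ j, (h j).Monic) (hdiv : ∀ j, h j ∣ X ^ r - 1)
    (hall : ∀ g : F[X], g.Monic → Irreducible g → g ∣ X ^ r - 1 → ∃ j, h j = g)
    (h0 : h 0 = X - 1)
    (σ : Fin (t + 1) → Fin (t + 1)) (hσ : ∀ j, h (σ j) = Semi.dual (RingHom.id F) (h j)) :
    Nat.card {C : ConjClasses ↥(Matrix.symplecticGroup (Fin m) F) //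
        ∃ g : ↥(Matrix.symplecticGroup (Fin m) F), ConjClasses.mk g = C ∧ g ^ r = 1} =
      Nat.card {a : Fin (t + 1) → ℕ //
        (∑ j, a j * (h j).natDegree = 2 * m) ∧ ∀ j, a (σ j) = a j} := by
  classical
  have hp : p.Prime := Fact.out
  have hcop : r.Coprime p := (Nat.coprime_primes hr hp).mpr hrp
  have hc0 : ∀ j, (h j).coeff 0 ≠ 0 := fun j => Semi.coeff_zero_ne_of_dvd r hr.pos _ (hdiv j)
  have hσσ : ∀ j, σ (σ j) = j := by
    intro j
    apply hinj
    rw [hσ, hσ, Semi.dual_dual (RingHom.id F) (fun _ => rfl) _ (hmon j) (hc0 j)]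
  have hval : ∀ g : ↥(Matrix.symplecticGroup (Fin m) F), g ^ r = 1 → g.1 ^ r = 1 := by
    intro g hg
    have h1 := congrArg Subtype.val hg
    rw [SubmonoidClass.coe_pow] at h1
    exact h1
  have hord : ∀ g : ↥(Matrix.symplecticGroup (Fin m) F), g ^ r = 1 → (orderOf g).Coprime p :=
    fun g hg => Nat.Coprime.coprime_dvd_left (orderOf_dvd_of_pow_eq_one hg) hcop
  have hexp : ∀ g : ↥(Matrix.symplecticGroup (Fin m) F), g ^ r = 1 →
      ∃ a : Fin (t + 1) → ℕ, ((∑ j, a j * (h j).natDegree = 2 * m) ∧ ∀ j, a (σ j) = a j) ∧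
        g.1.charpoly = ∏ j, h j ^ a j := by
    intro g hg
    obtain ⟨a, ha⟩ := Semi.exists_exponents h _ _ (Nat.lt_succ_self _)
      (Matrix.charpoly_monic g.1)
      (fun g' hg'm hg'i hg'd => hall g' hg'm hg'i (irr_dvd_gen g.1 r (hval g hg) g' hg'i hg'd))
    refine ⟨a, ⟨?_, ?_⟩, ha⟩
    · rw [← Semi.natDegree_prod_pow h hmon a, ← ha, Matrix.charpoly_natDegree_eq_dim,
        Fintype.card_sum, Fintype.card_fin, two_mul]
    · have h1 := sp_charpoly_selfdual m g.1 g.2
      rw [ha, Semi.dual_prod_pow (RingHom.id F) h σ hσσ hσ a] at h1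
      have h2 := Semi.prod_pow_injective h hinj hirr hmon h1
      intro j
      exact congrFun h2 j
  have hrep : ∀ c : {C : ConjClasses ↥(Matrix.symplecticGroup (Fin m) F) //
      ∃ g : ↥(Matrix.symplecticGroup (Fin m) F), ConjClasses.mk g = C ∧ g ^ r = 1},
      ∃ g : ↥(Matrix.symplecticGroup (Fin m) F), ConjClasses.mk g = c.1 ∧ g ^ r = 1 :=
    fun c => c.2
  choose rep hrep1 hrep2 using hrep
  have hexp' : ∀ c : {C : ConjClasses ↥(Matrix.symplecticGroup (Fin m) F) //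
      ∃ g : ↥(Matrix.symplecticGroup (Fin m) F), ConjClasses.mk g = C ∧ g ^ r = 1},
      ∃ a : Fin (t + 1) → ℕ, ((∑ j, a j * (h j).natDegree = 2 * m) ∧ ∀ j, a (σ j) = a j) ∧
        (rep c).1.charpoly = ∏ j, h j ^ a j := fun c => hexp (rep c) (hrep2 c)
  choose ex hex1 hex2 using hexp'
  apply Nat.card_eq_of_bijective
    (fun c => (⟨ex c, hex1 c⟩ :
      {a : Fin (t + 1) → ℕ // (∑ j, a j * (h j).natDegree = 2 * m) ∧ ∀ j, a (σ j) = a j}))
  constructor
  · intro c c' hcc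
    have h1 : ex c = ex c' := congrArg Subtype.val hcc
    apply Subtype.ext
    rw [← hrep1 c, ← hrep1 c', ConjClasses.mk_eq_mk_iff_isConj]
    apply Cfsg.Agent.S2389.result p m (rep c) (rep c') (hord _ (hrep2 c)) (hord _ (hrep2 c'))
    rw [hex2 c, hex2 c', h1]
  · rintro ⟨a, ha, haσ⟩
    obtain ⟨f', hf'⟩ : ∃ f' : F[X], f' = ∏ j : Fin t, h j.succ ^ a j.succ := ⟨_, rfl⟩
    have hprod : ∏ j, h j ^ a j = (X - 1) ^ a 0 * f' := by
      rw [Fin.prod_univ_succ, h0, hf']
    have hf'm : f'.Monic := by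
      rw [hf']
      exact Polynomial.monic_prod_of_monic _ _ (fun j _ => (hmon j.succ).pow (a j.succ))
    have e1 : (X - 1 : F[X]) = X - C 1 := by rw [map_one]
    have hXm : ((X - 1 : F[X]) ^ a 0).Monic := by
      rw [e1]
      exact (Polynomial.monic_X_sub_C 1).pow _
    have hXd : ((X - 1 : F[X]) ^ a 0).natDegree = a 0 := by
      rw [e1, (Polynomial.monic_X_sub_C 1).natDegree_pow, Polynomial.natDegree_X_sub_C, mul_one]
    have hfd : f'.natDegree + a 0 = 2 * m := by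
      have h1 := Semi.natDegree_prod_pow h hmon a
      rw [hprod, hXm.natDegree_mul hf'm, hXd, ha] at h1
      omega
    have hf'0 : f'.coeff 0 ≠ 0 := by
      intro h0'
      have hX : (X : F[X]) ∣ f' := Polynomial.X_dvd_iff.mpr h0'
      rw [hf'] at hX
      obtain ⟨j, -, hj⟩ := (Polynomial.prime_X).exists_mem_finset_dvd hX
      have hX3 : (X : F[X]) ∣ h j.succ := Polynomial.prime_X.dvd_of_dvd_pow hj
      exact hc0 j.succ (Polynomial.X_dvd_iff.mp hX3)
    have hfdual : Semi.dual (RingHom.id F) f' = f' := by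
      have h1 : Semi.dual (RingHom.id F) (∏ j, h j ^ a j) = ∏ j, h j ^ a j := by
        rw [Semi.dual_prod_pow (RingHom.id F) h σ hσσ hσ a]
        apply Finset.prod_congr rfl
        intro j _
        rw [haσ j]
      rw [hprod, Semi.dual_mul, Semi.dual_pow, Semi.dual_X_sub_one] at h1
      exact mul_left_cancel₀ hXm.ne_zero h1
    have hcop' : IsCoprime (X ^ 2 - 1 : F[X]) f' := by
      rw [hf']
      apply IsCoprime.prod_right
      intro j _
      apply IsCoprime.pow_right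
      have e2 : (X ^ 2 - 1 : F[X]) = (X - 1) * (X + 1) := by ring
      rw [e2]
      have hne : h 0 ≠ h j.succ := fun hh => (Fin.succ_ne_zero j) (hinj hh).symm
      have hA : IsCoprime (X - 1 : F[X]) (h j.succ) := by
        rw [← h0]
        apply (hirr 0).coprime_iff_not_dvd.mpr
        intro hdvd
        exact hne (Polynomial.eq_of_monic_of_associated (hmon 0) (hmon j.succ)
          ((hirr 0).associated_of_dvd (hirr j.succ) hdvd))
      have hB : IsCoprime (X + 1 : F[X]) (h j.succ) := by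
        have e3 : (X + 1 : F[X]) = X - C (-1) := by rw [map_neg, map_one, sub_neg_eq_add]
        have hirr1 : Irreducible (X + 1 : F[X]) := by
          rw [e3]
          exact Polynomial.irreducible_X_sub_C _
        apply hirr1.coprime_iff_not_dvd.mpr
        intro hdvd
        have h5 : (X + 1 : F[X]) ∣ X ^ r - 1 := hdvd.trans (hdiv j.succ)
        rw [e3, Polynomial.dvd_iff_isRoot] at h5
        have h6 : Polynomial.eval (-1 : F) (X ^ r - 1 : F[X]) = 0 := h5
        rw [Polynomial.eval_sub, Polynomial.eval_pow, Polynomial.eval_X, Polynomial.eval_one,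
          (hr.odd_of_ne_two hr2).neg_one_pow] at h6
        have h7 : (1 : F) = -1 := by linear_combination (-1 : F) * h6
        have h9 : (1 : F[X]) = -1 := by
          have h10 := congrArg (C : F → F[X]) h7
          rwa [map_one, map_neg, map_one] at h10
        have h8 : (X + 1 : F[X]) = X - 1 := by
          rw [sub_eq_add_neg, ← h9]
        rw [h8, ← h0] at hdvd
        exact hne (Polynomial.eq_of_monic_of_associated (hmon 0) (hmon j.succ)
          ((hirr 0).associated_of_dvd (hirr j.succ) hdvd))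
      exact IsCoprime.mul_left hA hB
    obtain ⟨g, hgS, hgc, μ, hμ, hgμ⟩ := SpR.sp_exists p m (a 0) f' hf'm hfd hf'0 hfdual hcop'
    have hgss : Module.End.IsSemisimple (Matrix.toLin' g) := SpU.ss_of_sq g μ hμ hgμ
    have hfdvd : g.charpoly ∣ (X ^ r - 1) ^ (∑ j, a j) := by
      rw [hgc, ← hprod, ← Finset.prod_pow_eq_pow_sum]
      exact Finset.prod_dvd_prod_of_dvd _ _ (fun j _ => pow_dvd_pow_of_dvd (hdiv j) (a j))
    have hgr : g ^ r = 1 := pow_eq_one_gen g hgss r _ hfdvd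
    have hUr : (⟨g, hgS⟩ : ↥(Matrix.symplecticGroup (Fin m) F)) ^ r = 1 := by
      apply Subtype.ext
      rw [SubmonoidClass.coe_pow]
      exact hgr
    refine ⟨⟨ConjClasses.mk ⟨g, hgS⟩, ⟨g, hgS⟩, rfl, hUr⟩, ?_⟩
    apply Subtype.ext
    show ex ⟨ConjClasses.mk ⟨g, hgS⟩, ⟨g, hgS⟩, rfl, hUr⟩ = a
    apply Semi.prod_pow_injective h hinj hirr hmon
    show ∏ j, h j ^ ex ⟨ConjClasses.mk ⟨g, hgS⟩, ⟨g, hgS⟩, rfl, hUr⟩ j = ∏ j, h j ^ a j
    rw [← hex2, hprod, ← hgc]
    have hconj : IsConj (rep ⟨ConjClasses.mk ⟨g, hgS⟩, ⟨g, hgS⟩, rfl, hUr⟩)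
        (⟨g, hgS⟩ : ↥(Matrix.symplecticGroup (Fin m) F)) :=
      ConjClasses.mk_eq_mk_iff_isConj.mp (hrep1 ⟨ConjClasses.mk ⟨g, hgS⟩, ⟨g, hgS⟩, rfl, hUr⟩)
    have h3 := sp_charpoly_of_isConj hconj
    exact h3

end Cfsg.Agent.Lib.Helper15.SpC
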