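import Mathlib
import Cfsg.Agent.Lib.Helper15.CycB
import Cfsg.Agent.Lib.Helper15.CycC

set_option autoImplicit false

namespace Cfsg.Agent.Lib.Helper15.Semi

open Polynomial Cfsg.Agent.Lib.Helper15.Wall

universe w

variable {K : Type w} [Field K]

theorem selfdual_iff_cyc_id [Fintype K] (p : ℕ) [Fact p.Prime] [CharP K p] (r d : ℕ)
    (hr : r.Prime) (hrp : r ≠ p) (g : K[X]) (hgm : g.Monic) (hgi : Irreducible g)
    (hgd : g ∣ cyclotomic r K) (hd : d = orderOf ((Fintype.card K : ℕ) : ZMod r))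
    (hgdeg : g.natDegree = d) :
    dual (RingHom.id K) g = g ↔ ∃ k : ℕ, r ∣ 1 + (Fintype.card K) ^ k := by
  classical
  have hp : p.Prime := Fact.out
  have : Fact r.Prime := ⟨hr⟩
  have : Fact (Irreducible g) := ⟨hgi⟩
  obtain ⟨k0, -, hcard⟩ := FiniteField.card K p
  have : CharP (AdjoinRoot g) p :=
    charP_of_injective_algebraMap (algebraMap K (AdjoinRoot g)).injective p
  obtain ⟨ζ, hζ⟩ : ∃ ζ : AdjoinRoot g, ζ = AdjoinRoot.root g := ⟨_, rfl⟩
  have hroot : ∀ P : K[X], aeval ζ P = 0 ↔ g ∣ P := by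
    intro P
    rw [hζ, AdjoinRoot.aeval_eq, AdjoinRoot.mk_eq_zero]
  have hgX : g ∣ X ^ r - 1 := by
    rw [← Polynomial.cyclotomic_prime_mul_X_sub_one K r]
    exact Dvd.dvd.mul_right hgd _
  have hg0 : g.coeff 0 ≠ 0 := coeff_zero_ne_of_dvd r hr.pos g hgX
  have hζr : ζ ^ r = 1 := by
    have h1 := (hroot (X ^ r - 1)).mpr hgX
    rw [map_sub, map_pow, aeval_X, map_one] at h1
    exact sub_eq_zero.mp h1
  have hζ1 : ζ ≠ 1 := by
    intro h1
    have h2 : g ∣ X - 1 := by
      rw [← hroot, map_sub, aeval_X, map_one, h1, sub_self]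
    have hXC : (X - 1 : K[X]) = X - C 1 := by rw [map_one]
    have h3 : Irreducible (X - 1 : K[X]) := by
      rw [hXC]
      exact Polynomial.irreducible_X_sub_C 1
    have h4 : (X - 1 : K[X]).Monic := by
      rw [hXC]
      exact Polynomial.monic_X_sub_C 1
    have h5 : g = X - 1 :=
      Polynomial.eq_of_monic_of_associated hgm h4 (hgi.associated_of_dvd h3 h2)
    rw [h5] at hgd
    obtain ⟨c, hc⟩ := hgd
    have h6 : (cyclotomic r K).eval 1 = 0 := by
      rw [hc]
      simp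
    rw [Polynomial.eval_one_cyclotomic_prime] at h6
    have h7 : p ∣ r := (CharP.cast_eq_zero_iff K p r).mp h6
    exact hrp ((Nat.prime_dvd_prime_iff_eq hp hr).mp h7).symm
  have hord : orderOf ζ = r := orderOf_eq_prime hζr hζ1
  have hfin : IsOfFinOrder ζ := isOfFinOrder_iff_pow_eq_one.mpr ⟨r, hr.pos, hζr⟩
  have hpow : ∀ a b : ℕ, ζ ^ a = ζ ^ b ↔ a ≡ b [MOD r] := by
    intro a b
    rw [hfin.pow_eq_pow_iff_modEq, hord]
  have hD1 : ∀ (P : K[X]) (y : AdjoinRoot g), aeval y (P.map (RingHom.id K)) = aeval y P := by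
    intro P y
    rw [Polynomial.map_id]
  have hζ0 : ζ ≠ 0 := by
    intro h0
    rw [h0, zero_pow hr.ne_zero] at hζr
    exact zero_ne_one hζr
  have hgζ : aeval ζ g = 0 := (hroot g).mpr dvd_rfl
  have hrev : aeval ζ⁻¹ g.reverse = 0 := by
    haveI : Invertible ζ := invertibleOfNonzero hζ0
    have h1 := (Polynomial.eval₂_reverse_eq_zero_iff (algebraMap K (AdjoinRoot g)) ζ g).mpr
      (by rw [← aeval_def]; exact hgζ)
    rw [invOf_eq_inv] at h1
    rw [aeval_def]
    exact h1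
  have hdualroot : aeval ζ⁻¹ (dual (RingHom.id K) g) = 0 := by
    unfold dual
    rw [hD1, map_mul, hrev, mul_zero]
  have hζinv : ζ⁻¹ = ζ ^ (r - 1) := by
    apply inv_eq_of_mul_eq_one_right
    rw [← pow_succ', Nat.sub_add_cancel hr.one_lt.le, hζr]
  have hconj : ∀ k : ℕ, aeval (ζ ^ (Fintype.card K) ^ k) g = 0 := by
    intro k
    obtain ⟨θ, hθ⟩ := exists_pow_hom (AdjoinRoot g) p ((k0 : ℕ) * k)
    have hθ' : ∀ x, θ x = x ^ (Fintype.card K) ^ k := by
      intro x
      rw [hθ, hcard, ← pow_mul]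
    have hθK : θ.comp (algebraMap K (AdjoinRoot g)) = algebraMap K (AdjoinRoot g) := by
      ext x
      rw [RingHom.comp_apply, hθ', ← map_pow, FiniteField.pow_card_pow]
    have h1 : Polynomial.eval₂ (algebraMap K (AdjoinRoot g)) (θ ζ) g =
        Polynomial.eval₂ (θ.comp (algebraMap K (AdjoinRoot g))) (θ ζ) g := by
      rw [hθK]
    rw [← hθ', aeval_def, h1, ← Polynomial.hom_eval₂, ← aeval_def, hgζ, map_zero]
  have hQinj : ∀ k l : ℕ, k < d → l < d →
      ζ ^ (Fintype.card K) ^ k = ζ ^ (Fintype.card K) ^ l → k = l := by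
    intro k l hk hl hkl
    rw [hpow, ← ZMod.natCast_eq_natCast_iff, Nat.cast_pow, Nat.cast_pow] at hkl
    exact pow_injOn_Iio_orderOf (by rw [← hd]; exact hk) (by rw [← hd]; exact hl) hkl
  have hC2 : ∀ z : AdjoinRoot g, aeval z g = 0 → ∃ k : ℕ, z = ζ ^ (Fintype.card K) ^ k := by
    intro z hz
    by_contra hcon
    push Not at hcon
    obtain ⟨gL, hgL⟩ : ∃ gL : (AdjoinRoot g)[X], gL = g.map (algebraMap K (AdjoinRoot g)) :=
      ⟨_, rfl⟩
    have hgL0 : gL ≠ 0 := by
      rw [hgL]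
      exact (hgm.map _).ne_zero
    have hgLd : gL.natDegree = d := by
      rw [hgL, hgm.natDegree_map, hgdeg]
    have hrootL : ∀ w : AdjoinRoot g, aeval w g = 0 → w ∈ gL.roots := by
      intro w hw
      rw [Polynomial.mem_roots hgL0, Polynomial.IsRoot.def, hgL, Polynomial.eval_map_algebraMap]
      exact hw
    obtain ⟨S, hS⟩ : ∃ S : Finset (AdjoinRoot g),
        S = (Finset.range d).image (fun k => ζ ^ (Fintype.card K) ^ k) := ⟨_, rfl⟩
    have hScard : S.card = d := by
      rw [hS, Finset.card_image_of_injOn, Finset.card_range]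
      intro k hk l hl hkl
      exact hQinj k l (Finset.mem_range.mp (Finset.mem_coe.mp hk))
        (Finset.mem_range.mp (Finset.mem_coe.mp hl)) hkl
    have hzS : z ∉ S := by
      rw [hS]
      intro hmem
      obtain ⟨k, -, hk⟩ := Finset.mem_image.mp hmem
      exact hcon k hk.symm
    have hsub : insert z S ⊆ gL.roots.toFinset := by
      intro w hw
      rw [Multiset.mem_toFinset]
      rcases Finset.mem_insert.mp hw with rfl | hw
      · exact hrootL _ hz
      · rw [hS] at hw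
        obtain ⟨k, -, hk⟩ := Finset.mem_image.mp hw
        rw [← hk]
        exact hrootL _ (hconj k)
    have h1 := Finset.card_le_card hsub
    rw [Finset.card_insert_of_notMem hzS, hScard] at h1
    have h2 := Multiset.toFinset_card_le gL.roots
    have h3 := Polynomial.card_roots' gL
    omega
  have hmod1 : ∀ k : ℕ, (r - 1 ≡ (Fintype.card K) ^ k [MOD r]) ↔
      r ∣ 1 + (Fintype.card K) ^ k := by
    intro k
    have e1 : (r - 1) + 1 = r := Nat.sub_add_cancel hr.one_lt.le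
    have h2 : (r - 1) + 1 ≡ 0 [MOD r] := by
      rw [e1]
      exact (Nat.modEq_zero_iff_dvd).mpr dvd_rfl
    constructor
    · intro h
      have h1 := Nat.ModEq.add_right 1 h
      have h3 := h1.symm.trans h2
      rw [add_comm]
      exact (Nat.modEq_zero_iff_dvd).mp h3
    · intro h
      have h3 : (Fintype.card K) ^ k + 1 ≡ 0 [MOD r] := by
        rw [add_comm]
        exact (Nat.modEq_zero_iff_dvd).mpr h
      exact Nat.ModEq.add_right_cancel' 1 (h2.trans h3.symm)
  constructor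
  · intro hdual
    have h1 : aeval ζ⁻¹ g = 0 := by
      have h0 := hdualroot
      rw [hdual] at h0
      exact h0
    obtain ⟨k, hk⟩ := hC2 _ h1
    rw [hζinv, hpow] at hk
    exact ⟨k, (hmod1 k).mp hk⟩
  · rintro ⟨k, hk⟩
    have h1 : ζ ^ (Fintype.card K) ^ k = ζ⁻¹ := by
      rw [hζinv, hpow]
      exact ((hmod1 k).mpr hk).symm
    have h2 : aeval ζ⁻¹ g = 0 := by
      rw [← h1]
      exact hconj k
    have h3 : g ∣ dual (RingHom.id K) g := by
      by_contra hnd
      obtain ⟨u, w, huw⟩ := hgi.coprime_iff_not_dvd.mpr hnd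
      have h4 := congrArg (aeval ζ⁻¹) huw
      rw [map_add, map_mul, map_mul, h2, hdualroot, mul_zero, mul_zero, add_zero, map_one] at h4
      exact zero_ne_one h4
    exact Polynomial.eq_of_monic_of_dvd_of_natDegree_le hgm (dual_monic (RingHom.id K) g hg0) h3
      (le_of_eq (dual_natDegree (RingHom.id K) g hg0))

/-- `-1` is a power of `q` modulo the odd prime `r` exactly when the order of `q` is even. -/
theorem neg_one_mem_iff (r q : ℕ) (hr : r.Prime) (hr2 : r ≠ 2) (hrq : ¬ r ∣ q) :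
    (∃ k : ℕ, r ∣ 1 + q ^ k) ↔ Even (orderOf (q : ZMod r)) := by
  have : Fact r.Prime := ⟨hr⟩
  obtain ⟨x, hx⟩ : ∃ x : ZMod r, x = (q : ZMod r) := ⟨_, rfl⟩
  rw [← hx]
  have hx0 : x ≠ 0 := by
    rw [hx, Ne, ZMod.natCast_eq_zero_iff]
    exact hrq
  have hconv : ∀ k : ℕ, r ∣ 1 + q ^ k ↔ x ^ k = -1 := by
    intro k
    rw [← ZMod.natCast_eq_zero_iff, Nat.cast_add, Nat.cast_pow, Nat.cast_one, ← hx, add_comm,
      add_eq_zero_iff_eq_neg]
  have h11 : (1 : ZMod r) ≠ -1 := by
    intro h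
    have h2 : ((2 : ℕ) : ZMod r) = 0 := by
      have h3 : (1 : ZMod r) + 1 = 0 := by
        nth_rewrite 2 [h]
        exact add_neg_cancel 1
      rw [← h3]
      norm_num
    rw [ZMod.natCast_eq_zero_iff] at h2
    exact hr2 ((Nat.prime_dvd_prime_iff_eq hr Nat.prime_two).mp h2)
  have hi0 : 0 < orderOf x := by
    obtain ⟨u, hu⟩ := isUnit_iff_ne_zero.mpr hx0
    rw [← hu, orderOf_units]
    exact orderOf_pos u
  constructor
  · rintro ⟨k, hk⟩
    rw [hconv] at hk
    by_contra hodd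
    rw [Nat.not_even_iff_odd] at hodd
    have h1 : (x ^ k) ^ orderOf x = 1 := by
      rw [← pow_mul, mul_comm, pow_mul, pow_orderOf_eq_one, one_pow]
    rw [hk, hodd.neg_one_pow] at h1
    exact h11 h1.symm
  · intro heven
    obtain ⟨b, hb⟩ := heven
    have hb0 : 0 < b := by omega
    have h1 : (x ^ b) * (x ^ b) = 1 := by
      rw [← pow_add, ← hb, pow_orderOf_eq_one]
    have h2 : x ^ b ≠ 1 := pow_ne_one_of_lt_orderOf hb0.ne' (by omega)
    have h3 : x ^ b = -1 := (mul_self_eq_one_iff.mp h1).resolve_left h2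
    exact ⟨b, (hconv b).mpr h3⟩

end Cfsg.Agent.Lib.Helper15.Semi
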