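import Cfsg.Agent.Lib.Helper15.SpInvolB

set_option autoImplicit false

namespace Cfsg.Agent.Lib.Helper15.SpInvol

open Matrix Cfsg.Agent.Lib.Helper15.InvolCls

variable {F : Type*} [Field F] {m : ℕ}

/-- The block unipotent matrix `[1 S; 0 1]`. -/
def TS (S : Matrix (Fin m) (Fin m) F) : Matrix (Fin m ⊕ Fin m) (Fin m ⊕ Fin m) F :=
  Matrix.fromBlocks 1 S 0 1

theorem TS_mem (S : Matrix (Fin m) (Fin m) F) (hS : Sᵀ = S) :
    TS S ∈ Matrix.symplecticGroup (Fin m) F := by
  rw [SymplecticGroup.mem_iff]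
  unfold TS Matrix.J
  rw [Matrix.fromBlocks_transpose, Matrix.fromBlocks_multiply, Matrix.fromBlocks_multiply]
  simp [hS]

theorem TS_sq [CharP F 2] (S : Matrix (Fin m) (Fin m) F) : TS S * TS S = 1 := by
  unfold TS
  rw [Matrix.fromBlocks_multiply]
  have h : S + S = 0 := by
    ext i j
    simp [CharTwo.add_self_eq_zero]
  simp [h]

theorem TS_sub_one (S : Matrix (Fin m) (Fin m) F) : TS S - 1 = Matrix.fromBlocks 0 S 0 0 := by
  unfold TS
  ext (i | i) (j | j) <;> simp [Matrix.one_apply]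

theorem rank_TS (S : Matrix (Fin m) (Fin m) F) : (TS S - 1).rank = S.rank := by
  rw [TS_sub_one]
  apply le_antisymm
  · have h1 : (Matrix.fromBlocks 0 S 0 0 : Matrix (Fin m ⊕ Fin m) (Fin m ⊕ Fin m) F) =
        (Matrix.fromRows (1 : Matrix (Fin m) (Fin m) F) (0 : Matrix (Fin m) (Fin m) F) * S) *
          Matrix.fromCols (0 : Matrix (Fin m) (Fin m) F) (1 : Matrix (Fin m) (Fin m) F) := by
      rw [Matrix.fromRows_mul, Matrix.fromRows_mul_fromCols]
      simp
    rw [h1]
    exact (Matrix.rank_mul_le_left _ _).trans (Matrix.rank_mul_le_right _ _)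
  · have h2 : S = (Matrix.fromBlocks 0 S 0 0 :
        Matrix (Fin m ⊕ Fin m) (Fin m ⊕ Fin m) F).submatrix Sum.inl Sum.inr := by
      ext i j
      simp
    conv_lhs => rw [h2]
    exact Matrix.rank_submatrix_le _ _ _

/-- The quadratic invariant of `[1 S; 0 1]`. -/
theorem form_TS (S : Matrix (Fin m) (Fin m) F) (v : Fin m ⊕ Fin m → F) :
    Cfsg.sympForm m F v (TS S *ᵥ v) = (v ∘ Sum.inr) ⬝ᵥ (S *ᵥ (v ∘ Sum.inr)) := by
  obtain ⟨x, y, rfl⟩ : ∃ x y, v = Sum.elim x y :=
    ⟨v ∘ Sum.inl, v ∘ Sum.inr, (Sum.elim_comp_inl_inr v).symm⟩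
  unfold Cfsg.sympForm TS Matrix.J
  rw [Matrix.fromBlocks_mulVec, Matrix.fromBlocks_mulVec, sumElim_dotProduct_sumElim]
  simp only [Sum.elim_comp_inl, Sum.elim_comp_inr, Matrix.zero_mulVec, Matrix.one_mulVec,
    Matrix.neg_mulVec, zero_add, add_zero, dotProduct_neg, dotProduct_add]
  rw [dotProduct_comm x y]
  ring

/-- A symmetric matrix with zero diagonal gives the zero quadratic form in characteristic two. -/
theorem dot_alt [CharP F 2] (S : Matrix (Fin m) (Fin m) F) (hS : ∀ i j, S i j = S j i)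
    (hd : ∀ i, S i i = 0) (y : Fin m → F) : y ⬝ᵥ (S *ᵥ y) = 0 := by
  classical
  unfold dotProduct Matrix.mulVec dotProduct
  simp only [Finset.mul_sum]
  rw [← Finset.sum_product']
  apply Finset.sum_involution (fun (x : Fin m × Fin m) _ => (x.2, x.1))
  · rintro ⟨i, j⟩ _
    simp only
    rw [hS j i]
    have := CharTwo.add_self_eq_zero (y i * (S i j * y j))
    linear_combination this
  · rintro ⟨i, j⟩ _ hne heq
    simp only [Prod.mk.injEq] at heq
    apply hne
    rw [heq.1, hd, zero_mul, mul_zero]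
  · intro x _
    exact Finset.mem_univ _
  · rintro ⟨i, j⟩ _
    rfl

/-- The symmetric matrix attached to an involution of the index set and a weight. -/
def SMat (σ : Fin m → Fin m) (d : Fin m → F) : Matrix (Fin m) (Fin m) F :=
  fun i j => if σ i = j then d j else 0

theorem SMat_symm (σ : Fin m → Fin m) (d : Fin m → F) (hσ : ∀ i, σ (σ i) = i)
    (hd : ∀ i, d (σ i) = d i) (i j : Fin m) : SMat σ d i j = SMat σ d j i := by
  unfold SMat
  by_cases h : σ i = j
  · have h' : σ j = i := by rw [← h, hσ]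
    rw [if_pos h, if_pos h', ← h, hd]
  · have h' : σ j ≠ i := fun h2 => h (by rw [← h2, hσ])
    rw [if_neg h, if_neg h']

theorem SMat_rank [DecidableEq F] (σ : Equiv.Perm (Fin m)) (d : Fin m → F) :
    (SMat σ d).rank = Fintype.card {i : Fin m // d i ≠ 0} := by
  have h : SMat σ d = (Matrix.diagonal d).submatrix σ (Equiv.refl (Fin m)) := by
    ext i j
    unfold SMat
    simp only [Matrix.submatrix_apply, Equiv.refl_apply, Matrix.diagonal_apply]
    by_cases h : σ i = j
    · rw [if_pos h, if_pos h, h]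
    · rw [if_neg h, if_neg h]
  rw [h, Matrix.rank_submatrix, Matrix.rank_diagonal]

theorem card_lt [DecidableEq F] (s : ℕ) (hs : s ≤ m) (d : Fin m → F) (hd : ∀ i : Fin m, d i ≠ 0 ↔ (i : ℕ) < s) :
    Fintype.card {i : Fin m // d i ≠ 0} = s := by
  classical
  have e : {i : Fin m // d i ≠ 0} ≃ Fin s :=
    { toFun := fun i => ⟨i.1, (hd i.1).mp i.2⟩
      invFun := fun j => ⟨⟨j, lt_of_lt_of_le j.2 hs⟩, (hd _).mpr j.2⟩
      left_inv := fun i => rfl
      right_inv := fun j => rfl }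
  rw [Fintype.card_congr e, Fintype.card_fin]

/-- The pair-swapping involution on the first `2k` indices. -/
def pairSwap (k : ℕ) (hk : 2 * k ≤ m) (i : Fin m) : Fin m :=
  if h : (i : ℕ) < 2 * k then
    (if h2 : (i : ℕ) % 2 = 0 then ⟨i + 1, by omega⟩ else ⟨i - 1, by omega⟩)
  else i

theorem pairSwap_val (k : ℕ) (hk : 2 * k ≤ m) (i : Fin m) :
    ((pairSwap k hk i : Fin m) : ℕ) =
      if (i : ℕ) < 2 * k then (if (i : ℕ) % 2 = 0 then (i : ℕ) + 1 else (i : ℕ) - 1) else i := by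
  unfold pairSwap
  split_ifs <;> rfl

theorem pairSwap_invol (k : ℕ) (hk : 2 * k ≤ m) (i : Fin m) :
    pairSwap k hk (pairSwap k hk i) = i := by
  apply Fin.ext
  rw [pairSwap_val, pairSwap_val]
  split_ifs <;> omega

theorem pairSwap_lt (k : ℕ) (hk : 2 * k ≤ m) (i : Fin m) :
    ((pairSwap k hk i : Fin m) : ℕ) < 2 * k ↔ (i : ℕ) < 2 * k := by
  rw [pairSwap_val]
  split_ifs <;> omega

theorem pairSwap_ne (k : ℕ) (hk : 2 * k ≤ m) (i : Fin m) (hi : (i : ℕ) < 2 * k) :
    pairSwap k hk i ≠ i := by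
  intro h
  have h1 := congrArg Fin.val h
  rw [pairSwap_val] at h1
  split_ifs at h1 <;> omega

end Cfsg.Agent.Lib.Helper15.SpInvol
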