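import Cfsg.Agent.Lib.Helper15.SpInvolC

set_option autoImplicit false

namespace Cfsg.Agent.Lib.Helper15.SpInvol

open Matrix Cfsg.Agent.Lib.Helper15.InvolCls

variable {F : Type*} [Field F] {m : ℕ}

theorem conj_data {a b : ↥(Matrix.symplecticGroup (Fin m) F)} (h : IsConj a b) :
    ∃ C C' : Matrix (Fin m ⊕ Fin m) (Fin m ⊕ Fin m) F,
      C ∈ Matrix.symplecticGroup (Fin m) F ∧ C * C' = 1 ∧ C' * C = 1 ∧
      (b : Matrix (Fin m ⊕ Fin m) (Fin m ⊕ Fin m) F) =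
        C * (a : Matrix (Fin m ⊕ Fin m) (Fin m ⊕ Fin m) F) * C' := by
  obtain ⟨c, hc⟩ := isConj_iff.mp h
  refine ⟨c, (c⁻¹ : ↥(Matrix.symplecticGroup (Fin m) F)), c.2, ?_, ?_, ?_⟩
  · have h := congrArg (fun y : ↥(Matrix.symplecticGroup (Fin m) F) =>
      (y : Matrix (Fin m ⊕ Fin m) (Fin m ⊕ Fin m) F)) (mul_inv_cancel c)
    exact h
  · have h := congrArg (fun y : ↥(Matrix.symplecticGroup (Fin m) F) =>
      (y : Matrix (Fin m ⊕ Fin m) (Fin m ⊕ Fin m) F)) (inv_mul_cancel c)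
    exact h
  · have h := congrArg (fun y : ↥(Matrix.symplecticGroup (Fin m) F) =>
      (y : Matrix (Fin m ⊕ Fin m) (Fin m ⊕ Fin m) F)) hc
    exact h.symm

theorem conj_rank {a b : ↥(Matrix.symplecticGroup (Fin m) F)} (h : IsConj a b) :
    ((a : Matrix (Fin m ⊕ Fin m) (Fin m ⊕ Fin m) F) - 1).rank =
      ((b : Matrix (Fin m ⊕ Fin m) (Fin m ⊕ Fin m) F) - 1).rank := by
  obtain ⟨C, C', hC, hCC', hC'C, hB⟩ := conj_data h
  have hsub : (b : Matrix (Fin m ⊕ Fin m) (Fin m ⊕ Fin m) F) - 1 =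
      C * ((a : Matrix (Fin m ⊕ Fin m) (Fin m ⊕ Fin m) F) - 1) * C' := by
    rw [hB, Matrix.mul_sub, Matrix.sub_mul, Matrix.mul_one, hCC']
  have hCu : IsUnit C.det :=
    (Matrix.isUnit_iff_isUnit_det C).mp ⟨⟨C, C', hCC', hC'C⟩, rfl⟩
  have hC'u : IsUnit C'.det :=
    (Matrix.isUnit_iff_isUnit_det C').mp ⟨⟨C', C, hC'C, hCC'⟩, rfl⟩
  rw [hsub, Matrix.rank_mul_eq_left_of_isUnit_det _ _ hC'u,
    Matrix.rank_mul_eq_right_of_isUnit_det _ _ hCu]

theorem conj_alt {a b : ↥(Matrix.symplecticGroup (Fin m) F)} (h : IsConj a b)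
    (ha : ∀ v, Cfsg.sympForm m F v ((a : Matrix (Fin m ⊕ Fin m) (Fin m ⊕ Fin m) F) *ᵥ v) = 0) :
    ∀ v, Cfsg.sympForm m F v ((b : Matrix (Fin m ⊕ Fin m) (Fin m ⊕ Fin m) F) *ᵥ v) = 0 := by
  obtain ⟨C, C', hC, hCC', hC'C, hB⟩ := conj_data h
  intro v
  have hv : C *ᵥ (C' *ᵥ v) = v := by rw [Matrix.mulVec_mulVec, hCC', Matrix.one_mulVec]
  have h1 : (b : Matrix (Fin m ⊕ Fin m) (Fin m ⊕ Fin m) F) *ᵥ v =
      C *ᵥ ((a : Matrix (Fin m ⊕ Fin m) (Fin m ⊕ Fin m) F) *ᵥ (C' *ᵥ v)) := by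
    rw [hB, Matrix.mulVec_mulVec, Matrix.mulVec_mulVec, Matrix.mul_assoc]
  rw [h1]
  calc Cfsg.sympForm m F v (C *ᵥ ((a : Matrix (Fin m ⊕ Fin m) (Fin m ⊕ Fin m) F) *ᵥ (C' *ᵥ v)))
      = Cfsg.sympForm m F (C *ᵥ (C' *ᵥ v))
          (C *ᵥ ((a : Matrix (Fin m ⊕ Fin m) (Fin m ⊕ Fin m) F) *ᵥ (C' *ᵥ v))) := by rw [hv]
    _ = Cfsg.sympForm m F (C' *ᵥ v)
          ((a : Matrix (Fin m ⊕ Fin m) (Fin m ⊕ Fin m) F) *ᵥ (C' *ᵥ v)) := form_invariant C hC _ _
    _ = 0 := ha _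

/-- Involutions of `Sp` in characteristic two with the same rank and type are conjugate. -/
theorem conj_of_inv [Fintype F] [CharP F 2] {a b : ↥(Matrix.symplecticGroup (Fin m) F)}
    (hA2 : (a : Matrix (Fin m ⊕ Fin m) (Fin m ⊕ Fin m) F) *
      (a : Matrix (Fin m ⊕ Fin m) (Fin m ⊕ Fin m) F) = 1)
    (hB2 : (b : Matrix (Fin m ⊕ Fin m) (Fin m ⊕ Fin m) F) *
      (b : Matrix (Fin m ⊕ Fin m) (Fin m ⊕ Fin m) F) = 1)
    (hrank : ((a : Matrix (Fin m ⊕ Fin m) (Fin m ⊕ Fin m) F) - 1).rank =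
      ((b : Matrix (Fin m ⊕ Fin m) (Fin m ⊕ Fin m) F) - 1).rank)
    (htype : (∀ v, Cfsg.sympForm m F v
        ((a : Matrix (Fin m ⊕ Fin m) (Fin m ⊕ Fin m) F) *ᵥ v) = 0) ↔
      (∀ v, Cfsg.sympForm m F v ((b : Matrix (Fin m ⊕ Fin m) (Fin m ⊕ Fin m) F) *ᵥ v) = 0)) :
    IsConj a b := by
  have hS := Bf_setup (F := F) (m := m)
  have htA := invIso_of _ a.2 hA2
  have htB := invIso_of _ b.2 hB2
  have hsq : ∀ x : F, ∃ c : F, c * c = x := fun x => by
    obtain ⟨c, hc⟩ := FiniteField.isSquare_of_char_two (ringChar.eq F 2) x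
    exact ⟨c, hc.symm⟩
  obtain ⟨g, hg1, hg2⟩ := conj_generic hS Bf_nondeg hsq htA htB
    (by rw [rank_eq, rank_eq, hrank]) (by simpa only [Bf_apply, Matrix.toLin'_apply] using htype)
  have hmem := mem_symp_of_isometry g.toLinearMap (fun u v => hg1 u v)
  rw [isConj_iff]
  refine ⟨⟨LinearMap.toMatrix' g.toLinearMap, hmem⟩, ?_⟩
  rw [mul_inv_eq_iff_eq_mul]
  apply Subtype.ext
  show LinearMap.toMatrix' g.toLinearMap * (a : Matrix (Fin m ⊕ Fin m) (Fin m ⊕ Fin m) F) =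
    (b : Matrix (Fin m ⊕ Fin m) (Fin m ⊕ Fin m) F) * LinearMap.toMatrix' g.toLinearMap
  apply Matrix.toLin'.injective
  apply LinearMap.ext
  intro v
  rw [Matrix.toLin'_mul, Matrix.toLin'_mul, LinearMap.comp_apply, LinearMap.comp_apply,
    Matrix.toLin'_toMatrix']
  exact hg2 v

theorem alt_rank_even [CharP F 2] {A : Matrix (Fin m ⊕ Fin m) (Fin m ⊕ Fin m) F}
    (hA : A ∈ Matrix.symplecticGroup (Fin m) F) (hA2 : A * A = 1)
    (halt : ∀ v, Cfsg.sympForm m F v (A *ᵥ v) = 0) : ∃ k, (A - 1).rank = 2 * k := by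
  have hS := Bf_setup (F := F) (m := m)
  have htA := invIso_of A hA hA2
  obtain ⟨k, hk⟩ := NF_alt hS htA (by
    intro v
    rw [Bf_apply, Matrix.toLin'_apply]
    exact halt v)
  have h := NF_rank (Gs_nondeg k) hk
  rw [rank_eq, Fintype.card_sum, Fintype.card_fin] at h
  exact ⟨k, by omega⟩

theorem rank_le_of_sq [CharP F 2] {A : Matrix (Fin m ⊕ Fin m) (Fin m ⊕ Fin m) F}
    (hA2 : A * A = 1) : (A - 1).rank ≤ m := by
  have h : (A - 1) * (A - 1) = 0 := by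
    rw [Matrix.sub_mul, Matrix.mul_sub, Matrix.mul_sub, hA2, Matrix.mul_one, Matrix.one_mul,
      Matrix.mul_one]
    ext i j
    simp only [Matrix.sub_apply, Matrix.zero_apply]
    linear_combination ((1 : Matrix (Fin m ⊕ Fin m) (Fin m ⊕ Fin m) F) i j - A i j) *
      (CharTwo.two_eq_zero (R := F))
  have h1 := Matrix.rank_add_rank_le_card_of_mul_eq_zero h
  rw [Fintype.card_sum, Fintype.card_fin] at h1
  omega

theorem rank_pos_of_ne {A : Matrix (Fin m ⊕ Fin m) (Fin m ⊕ Fin m) F} (hA : A ≠ 1) :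
    1 ≤ (A - 1).rank := by
  by_contra h
  have h0 : (A - 1).rank = 0 := by omega
  apply hA
  have h1 : LinearMap.range (A - 1).mulVecLin = ⊥ := by
    apply Submodule.finrank_eq_zero.mp
    exact h0
  have h2 : (A - 1).mulVecLin = 0 := LinearMap.range_eq_bot.mp h1
  have h3 : A - 1 = 0 := by
    apply Matrix.toLin'.injective
    rw [map_zero]
    exact h2
  exact sub_eq_zero.mp h3

/-- The indicator weight of the first `s` indices. -/
def dd (F : Type*) [Field F] (m s : ℕ) : Fin m → F := fun i => if (i : ℕ) < s then 1 else 0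

theorem dd_ne (s : ℕ) (i : Fin m) : dd F m s i ≠ 0 ↔ (i : ℕ) < s := by
  unfold dd
  split_ifs with h <;> simp [h]

/-- The element `[1 S; 0 1]` of the symplectic group for symmetric `S`. -/
def tS (S : Matrix (Fin m) (Fin m) F) (hS : ∀ i j, S i j = S j i) :
    ↥(Matrix.symplecticGroup (Fin m) F) :=
  ⟨TS S, TS_mem S (by ext i j; exact hS j i)⟩

theorem tS_order [CharP F 2] (S : Matrix (Fin m) (Fin m) F) (hS : ∀ i j, S i j = S j i)
    (hr : S.rank ≠ 0) : orderOf (tS S hS) = 2 := by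
  apply orderOf_eq_prime
  · apply Subtype.ext
    rw [pow_two]
    exact TS_sq S
  · intro h
    have h1 : TS S = 1 := congrArg Subtype.val h
    have h2 := rank_TS S
    rw [h1, sub_self, Matrix.rank_zero] at h2
    exact hr h2.symm

/-- Non-alternating representative of rank `s`. -/
def tNA (F : Type*) [Field F] (m s : ℕ) : ↥(Matrix.symplecticGroup (Fin m) F) :=
  tS (SMat id (dd F m s)) (SMat_symm id _ (fun _ => rfl) (fun _ => rfl))

/-- Alternating representative of rank `2 k`. -/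
def tA (F : Type*) [Field F] (m k : ℕ) (hk : 2 * k ≤ m) : ↥(Matrix.symplecticGroup (Fin m) F) :=
  tS (SMat (pairSwap k hk) (dd F m (2 * k))) (SMat_symm _ _ (pairSwap_invol k hk) (fun i => by
    unfold dd
    simp only [pairSwap_lt]))

theorem tNA_rank (s : ℕ) (hs : s ≤ m) :
    ((tNA F m s : Matrix (Fin m ⊕ Fin m) (Fin m ⊕ Fin m) F) - 1).rank = s := by
  classical
  show (TS (SMat id (dd F m s)) - 1).rank = s
  rw [rank_TS]
  have h := SMat_rank (Equiv.refl (Fin m)) (dd F m s)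
  rw [card_lt s hs (dd F m s) (dd_ne s)] at h
  exact h

theorem tA_rank (k : ℕ) (hk : 2 * k ≤ m) :
    ((tA F m k hk : Matrix (Fin m ⊕ Fin m) (Fin m ⊕ Fin m) F) - 1).rank = 2 * k := by
  classical
  show (TS (SMat (pairSwap k hk) (dd F m (2 * k))) - 1).rank = 2 * k
  rw [rank_TS]
  have h := SMat_rank (Function.Involutive.toPerm (pairSwap k hk) (pairSwap_invol k hk))
    (dd F m (2 * k))
  rw [card_lt (2 * k) hk (dd F m (2 * k)) (dd_ne (2 * k))] at h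
  exact h

theorem tNA_order [CharP F 2] (s : ℕ) (hs1 : 1 ≤ s) (hs : s ≤ m) : orderOf (tNA F m s) = 2 := by
  apply tS_order
  have h := tNA_rank (F := F) s hs
  have h2 : (TS (SMat id (dd F m s)) - 1).rank = s := h
  rw [rank_TS] at h2
  omega

theorem tA_order [CharP F 2] (k : ℕ) (hk1 : 1 ≤ k) (hk : 2 * k ≤ m) :
    orderOf (tA F m k hk) = 2 := by
  apply tS_order
  have h := tA_rank (F := F) k hk
  have h2 : (TS (SMat (pairSwap k hk) (dd F m (2 * k))) - 1).rank = 2 * k := h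
  rw [rank_TS] at h2
  omega

theorem tNA_nonalt (s : ℕ) (hs1 : 1 ≤ s) (hs : s ≤ m) :
    ¬ ∀ v, Cfsg.sympForm m F v
      ((tNA F m s : Matrix (Fin m ⊕ Fin m) (Fin m ⊕ Fin m) F) *ᵥ v) = 0 := by
  classical
  intro h
  have hm : 0 < m := by omega
  have h1 := h (Sum.elim 0 (Pi.single ⟨0, hm⟩ 1))
  have h2 : Cfsg.sympForm m F (Sum.elim 0 (Pi.single ⟨0, hm⟩ 1))
      (TS (SMat id (dd F m s)) *ᵥ (Sum.elim 0 (Pi.single ⟨0, hm⟩ 1))) = 0 := h1
  rw [form_TS, Sum.elim_comp_inr, Matrix.mulVec_single_one, single_one_dotProduct] at h2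
  simp only [Matrix.col_apply, SMat, id, dd] at h2
  rw [if_pos trivial, if_pos (by omega)] at h2
  exact one_ne_zero h2

theorem tA_alt [CharP F 2] (k : ℕ) (hk : 2 * k ≤ m) (v : Fin m ⊕ Fin m → F) :
    Cfsg.sympForm m F v ((tA F m k hk : Matrix (Fin m ⊕ Fin m) (Fin m ⊕ Fin m) F) *ᵥ v) = 0 := by
  show Cfsg.sympForm m F v (TS (SMat (pairSwap k hk) (dd F m (2 * k))) *ᵥ v) = 0
  rw [form_TS]
  apply dot_alt
  · exact SMat_symm _ _ (pairSwap_invol k hk) (fun i => by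
      unfold dd
      simp only [pairSwap_lt])
  · intro i
    unfold SMat
    by_cases h : pairSwap k hk i = i
    · rw [if_pos h]
      unfold dd
      rw [if_neg]
      intro hi
      exact pairSwap_ne k hk i hi h
    · rw [if_neg h]

end Cfsg.Agent.Lib.Helper15.SpInvol
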