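import Mathlib
import Cfsg.Agent.Lib.Helper15.CycB
import Cfsg.Agent.Lib.Helper15.CycC
import Cfsg.Agent.Lib.Helper15.SpR2

set_option autoImplicit false

namespace Cfsg.Agent.Lib.Helper15.SpP

open Polynomial Matrix
open Cfsg.Agent.Lib.Helper15

universe u

variable {F : Type u} [Field F]

/-- Monic self-dual polynomials of degree `2 n` with constant term one. -/
def Pal (n : ℕ) (f : F[X]) : Prop :=
  f.Monic ∧ f.natDegree = 2 * n ∧ Semi.dual (RingHom.id F) f = f ∧ f.coeff 0 = 1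

theorem pow_mod_two (x : F) (hx : x * x = 1) (a : ℕ) : x ^ a = x ^ (a % 2) := by
  conv_lhs => rw [← Nat.div_add_mod a 2]
  rw [pow_add, pow_mul, pow_two, hx, one_pow, one_mul]

theorem eval_pair (g : F[X]) (x c : F) (d : ℕ) (hd : g.natDegree = d) (hodd : Odd d)
    (hx : x * x = 1) (hc : c * x = -1)
    (hg : ∀ k, k ≤ d → g.coeff (d - k) = c * g.coeff k) : g.eval x = 0 := by
  rw [Polynomial.eval_eq_sum_range, hd]
  have hcx : c = -x := by
    calc c = c * (x * x) := by rw [hx, mul_one]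
      _ = (c * x) * x := by rw [mul_assoc]
      _ = -x := by rw [hc, neg_mul, one_mul]
  obtain ⟨m, hm⟩ := hodd
  refine Finset.sum_involution (fun k _ => d - k) ?_ ?_ ?_ ?_
  · intro k hk
    have hk' : k ≤ d := by
      have := Finset.mem_range.mp hk
      omega
    show g.coeff k * x ^ k + g.coeff (d - k) * x ^ (d - k) = 0
    rw [hg k hk', pow_mod_two x hx k, pow_mod_two x hx (d - k)]
    rcases Nat.mod_two_eq_zero_or_one k with h0 | h1
    · have h2 : (d - k) % 2 = 1 := by omega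
      rw [h0, h2, pow_zero, pow_one, mul_one]
      linear_combination g.coeff k * hc
    · have h2 : (d - k) % 2 = 0 := by omega
      rw [h1, h2, pow_zero, pow_one, mul_one]
      linear_combination g.coeff k * hcx
  · intro k hk _
    have hk' := Finset.mem_range.mp hk
    show d - k ≠ k
    omega
  · intro k hk
    show d - k ∈ Finset.range (d + 1)
    exact Finset.mem_range.mpr (by omega)
  · intro k hk
    have hk' := Finset.mem_range.mp hk
    show d - (d - k) = k
    omega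

theorem dual_X_sub_C (x : F) (hx : x * x = 1) :
    Semi.dual (RingHom.id F) (X - C x) = X - C x := by
  have hinv : (-x)⁻¹ = -x := inv_eq_of_mul_eq_one_left (by rw [neg_mul_neg, hx])
  have hc0 : (X - C x : F[X]).coeff 0 = -x := by
    rw [Polynomial.coeff_sub, Polynomial.coeff_X_zero, Polynomial.coeff_C_zero, zero_sub]
  have hc1 : (X - C x : F[X]).coeff 1 = 1 := by
    rw [Polynomial.coeff_sub, Polynomial.coeff_X_one, Polynomial.coeff_C, if_neg one_ne_zero,
      sub_zero]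
  ext i
  rw [Semi.dual_coeff, Polynomial.natDegree_X_sub_C, hc0, hinv, RingHom.id_apply]
  rcases Nat.lt_or_ge i 2 with hi | hi
  · interval_cases i
    · rw [Polynomial.revAt_le (Nat.zero_le 1), Nat.sub_zero, hc1, hc0, mul_one]
    · rw [Polynomial.revAt_le le_rfl, Nat.sub_self, hc0, hc1, neg_mul_neg, hx]
  · rw [Polynomial.revAt_eq_self_of_lt (by omega),
      Polynomial.coeff_eq_zero_of_natDegree_lt (by rw [Polynomial.natDegree_X_sub_C]; omega),
      mul_zero]

/-- A root `±1` of a palindromic polynomial of even degree is a double root, and the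
quotient is palindromic again. -/
theorem split_gen (n : ℕ) (f : F[X]) (hf : Pal n f) (x : F) (hx : x * x = 1)
    (hroot : f.eval x = 0) :
    ∃ (m : ℕ) (g₂ : F[X]), n = m + 1 ∧ Pal m g₂ ∧ f = (X - C x) ^ 2 * g₂ := by
  obtain ⟨hfm, hfd, hfdual, hf0⟩ := hf
  have hL : (X - C x : F[X]).Monic := Polynomial.monic_X_sub_C x
  have hLne : (X - C x : F[X]) ≠ 0 := hL.ne_zero
  have hLd : (X - C x : F[X]).natDegree = 1 := Polynomial.natDegree_X_sub_C x
  have hLc0 : (X - C x : F[X]).coeff 0 = -x := by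
    rw [Polynomial.coeff_sub, Polynomial.coeff_X_zero, Polynomial.coeff_C_zero, zero_sub]
  have hLdual := dual_X_sub_C x hx
  have hinv : (-x)⁻¹ = -x := inv_eq_of_mul_eq_one_left (by rw [neg_mul_neg, hx])
  obtain ⟨g, hg⟩ : (X - C x) ∣ f := Polynomial.dvd_iff_isRoot.mpr hroot
  subst hg
  have hgm : g.Monic := hL.of_mul_monic_left hfm
  have hgd : g.natDegree + 1 = 2 * n := by
    have h1 := hL.natDegree_mul hgm
    rw [hfd, hLd] at h1
    omega
  have hg0 : g.coeff 0 = -x := by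
    rw [Polynomial.mul_coeff_zero, hLc0] at hf0
    linear_combination (-g.coeff 0) * hx - x * hf0
  have hgdual : Semi.dual (RingHom.id F) g = g := by
    rw [Semi.dual_mul, hLdual] at hfdual
    exact mul_left_cancel₀ hLne hfdual
  have hrel : ∀ k, k ≤ g.natDegree → g.coeff (g.natDegree - k) = -x * g.coeff k := by
    intro k hk
    have h := Semi.dual_coeff (RingHom.id F) g (g.natDegree - k)
    rw [hgdual, hg0, hinv, Polynomial.revAt_le (Nat.sub_le _ _), Nat.sub_sub_self hk,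
      RingHom.id_apply] at h
    exact h
  have hgroot : g.eval x = 0 :=
    eval_pair g x (-x) g.natDegree rfl ⟨n - 1, by omega⟩ hx (by rw [neg_mul, hx]) hrel
  obtain ⟨g₂, hg₂⟩ : (X - C x) ∣ g := Polynomial.dvd_iff_isRoot.mpr hgroot
  subst hg₂
  have h2m : g₂.Monic := hL.of_mul_monic_left hgm
  have h2d : g₂.natDegree + 2 = 2 * n := by
    have h1 := hL.natDegree_mul h2m
    rw [hLd] at h1
    omega
  have h20 : g₂.coeff 0 = 1 := by
    rw [Polynomial.mul_coeff_zero, hLc0] at hg0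
    linear_combination (-(g₂.coeff 0 - 1)) * hx - x * hg0
  have h2dual : Semi.dual (RingHom.id F) g₂ = g₂ := by
    rw [Semi.dual_mul, hLdual] at hgdual
    exact mul_left_cancel₀ hLne hgdual
  refine ⟨n - 1, g₂, by omega, ⟨h2m, by omega, h2dual, h20⟩, ?_⟩
  rw [pow_two, mul_assoc]

/-- Realizability of a polynomial as the characteristic polynomial of a symplectic matrix of
order prime to `p`. -/
def Realz (p : ℕ) (n : ℕ) (f : F[X]) : Prop :=
  ∃ g : Matrix (Fin n ⊕ Fin n) (Fin n ⊕ Fin n) F, g ∈ Matrix.symplecticGroup (Fin n) F ∧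
    g.charpoly = f ∧ ∃ N : ℕ, N.Coprime p ∧ g ^ N = 1

theorem real_base [Fintype F] (p : ℕ) [Fact p.Prime] [CharP F p] (n : ℕ) (f : F[X])
    (hf : Pal n f) (hcop : IsCoprime (X ^ 2 - 1 : F[X]) f) : Realz p n f := by
  classical
  obtain ⟨hfm, hfd, hfdual, hf0⟩ := hf
  have hf0' : f.coeff 0 ≠ 0 := by
    rw [hf0]
    exact one_ne_zero
  obtain ⟨M, Ω, Ωi, hMc, ⟨N, hN, hMN⟩, hΩalt, hΩΩi, hMΩ⟩ :=
    SpR.sp_real_core p f.natDegree f hfm rfl hf0' hfdual hcop
  have hcard : Fintype.card (Fin f.natDegree) = 2 * n := by rw [Fintype.card_fin, hfd]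
  obtain ⟨g, hgS, hgc, hgμ⟩ := SpR.transfer n hcard M Ω Ωi hΩalt hΩΩi hMΩ
  refine ⟨g, hgS, by rw [hgc, hMc], N, hN, ?_⟩
  have h1 := hgμ (X ^ N - 1) (by rw [map_sub, map_pow, aeval_X, map_one, hMN, sub_self])
  rw [map_sub, map_pow, aeval_X, map_one] at h1
  exact sub_eq_zero.mp h1

set_option maxHeartbeats 1000000 in
theorem real_step [Fintype F] (p : ℕ) [Fact p.Prime] [CharP F p] (n : ℕ) (f : F[X])
    (h : Realz p n f) (x : F) (hx : x * x = 1) : Realz p (n + 1) ((X - C x) ^ 2 * f) := by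
  classical
  have hp : p.Prime := Fact.out
  obtain ⟨g, hgS, hgc, N, hN, hgN⟩ := h
  have hgJ : gᵀ * Matrix.J (Fin n) F * g = Matrix.J (Fin n) F := SymplecticGroup.mem_iff'.mp hgS
  have hx0 : x ≠ 0 := by
    intro h0
    rw [h0, mul_zero] at hx
    exact zero_ne_one hx
  have hxq : x ^ (Fintype.card F - 1) = 1 := FiniteField.pow_card_sub_one_eq_one x hx0
  have hpq : p ∣ Fintype.card F :=
    (CharP.cast_eq_zero_iff F p (Fintype.card F)).mp (Nat.cast_card_eq_zero F)
  have hq1 : (Fintype.card F - 1).Coprime p := by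
    apply Nat.Coprime.symm
    rw [Nat.Prime.coprime_iff_not_dvd hp]
    intro hd
    have hpos : 0 < Fintype.card F := Fintype.card_pos
    have h2 : Fintype.card F - 1 + 1 = Fintype.card F := by omega
    have h1 : p ∣ Fintype.card F - 1 + 1 := by rw [h2]; exact hpq
    have h3 : p ∣ 1 := (Nat.dvd_add_right hd).mp h1
    exact hp.one_lt.ne' (Nat.dvd_one.mp h3)
  obtain ⟨N', hN'⟩ : ∃ N' : ℕ, N' = N * (Fintype.card F - 1) := ⟨_, rfl⟩
  have hN'c : N'.Coprime p := by
    rw [hN']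
    exact Nat.coprime_mul_iff_left.mpr ⟨hN, hq1⟩
  have hxN : x ^ N' = 1 := by rw [hN', pow_mul', hxq, one_pow]
  have hgN' : g ^ N' = 1 := by rw [hN', pow_mul, hgN, one_pow]
  obtain ⟨D, hD⟩ : ∃ D : Matrix (Fin 1 ⊕ Fin 1) (Fin 1 ⊕ Fin 1) F,
      D = Matrix.diagonal (fun _ => x) := ⟨_, rfl⟩
  have hD' : D = x • (1 : Matrix (Fin 1 ⊕ Fin 1) (Fin 1 ⊕ Fin 1) F) := by
    rw [hD, Matrix.smul_one_eq_diagonal]
  have hDN : D ^ N' = 1 := by rw [hD', _root_.smul_pow, hxN, one_pow, one_smul]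
  have hDJ : Dᵀ * Matrix.J (Fin 1) F * D = Matrix.J (Fin 1) F := by
    rw [hD', Matrix.transpose_smul, Matrix.transpose_one]
    simp only [Matrix.smul_mul, Matrix.mul_smul, Matrix.one_mul, Matrix.mul_one, smul_smul, hx,
      one_smul]
  have hc2 : Fintype.card (Fin 1 ⊕ Fin 1) = 2 := by simp
  have hDc : D.charpoly = (X - C x) ^ 2 := by
    rw [hD, Matrix.charpoly_diagonal, Finset.prod_const, Finset.card_univ, hc2]
  obtain ⟨Mt, hMt⟩ : ∃ Mt : Matrix ((Fin 1 ⊕ Fin 1) ⊕ (Fin n ⊕ Fin n))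
      ((Fin 1 ⊕ Fin 1) ⊕ (Fin n ⊕ Fin n)) F, Mt = Matrix.fromBlocks D 0 0 g := ⟨_, rfl⟩
  have hMtN : Mt ^ N' = 1 := by
    rw [hMt, SpR.fromBlocks_pow, hDN, hgN', Matrix.fromBlocks_one]
  have hJJ1 : Matrix.J (Fin 1) F * -Matrix.J (Fin 1) F = 1 := by
    rw [mul_neg, Matrix.J_squared, neg_neg]
  have hJJn : Matrix.J (Fin n) F * -Matrix.J (Fin n) F = 1 := by
    rw [mul_neg, Matrix.J_squared, neg_neg]
  have hcard : Fintype.card ((Fin 1 ⊕ Fin 1) ⊕ (Fin n ⊕ Fin n)) = 2 * (n + 1) := by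
    rw [Fintype.card_sum, Fintype.card_sum, Fintype.card_sum, Fintype.card_fin, Fintype.card_fin]
    omega
  obtain ⟨g', hg'S, hg'c, hg'μ⟩ := SpR.transfer (n + 1) hcard Mt
    (Matrix.fromBlocks (Matrix.J (Fin 1) F) 0 0 (Matrix.J (Fin n) F))
    (Matrix.fromBlocks (-Matrix.J (Fin 1) F) 0 0 (-Matrix.J (Fin n) F))
    (SpR.alt_blocks _ _ (SpU.J_alt 1) (SpU.J_alt n))
    (by
      rw [Matrix.fromBlocks_multiply]
      simp only [Matrix.mul_zero, Matrix.zero_mul, add_zero, zero_add, hJJ1, hJJn,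
        Matrix.fromBlocks_one])
    (by
      rw [hMt, Matrix.fromBlocks_transpose, Matrix.fromBlocks_multiply,
        Matrix.fromBlocks_multiply]
      simp only [Matrix.transpose_zero, Matrix.mul_zero, Matrix.zero_mul,
        add_zero, zero_add, hDJ, hgJ])
  refine ⟨g', hg'S, ?_, N', hN'c, ?_⟩
  · rw [hg'c, hMt, Matrix.charpoly_fromBlocks_zero₁₂, hDc, hgc]
  · have h1 := hg'μ (X ^ N' - 1) (by rw [map_sub, map_pow, aeval_X, map_one, hMtN, sub_self])
    rw [map_sub, map_pow, aeval_X, map_one] at h1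
    exact sub_eq_zero.mp h1

/-- Every palindromic polynomial is the characteristic polynomial of a symplectic matrix of
order prime to the characteristic. -/
theorem real_pal [Fintype F] (p : ℕ) [Fact p.Prime] [CharP F p] :
    ∀ (n : ℕ) (f : F[X]), Pal n f → Realz p n f := by
  intro n
  induction n using Nat.strong_induction_on with
  | _ n ih =>
  intro f hf
  by_cases h1 : f.eval 1 = 0
  · obtain ⟨m, g₂, hnm, hg₂, hfg⟩ := split_gen n f hf 1 (mul_one 1) h1
    subst hnm
    rw [hfg]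
    exact real_step p m g₂ (ih m (Nat.lt_succ_self m) g₂ hg₂) 1 (mul_one 1)
  · by_cases h2 : f.eval (-1) = 0
    · have hm1 : (-1 : F) * (-1) = 1 := by rw [neg_mul_neg, mul_one]
      obtain ⟨m, g₂, hnm, hg₂, hfg⟩ := split_gen n f hf (-1) hm1 h2
      subst hnm
      rw [hfg]
      exact real_step p m g₂ (ih m (Nat.lt_succ_self m) g₂ hg₂) (-1) hm1
    · apply real_base p n f hf
      have e2 : (X ^ 2 - 1 : F[X]) = (X - C 1) * (X - C (-1)) := by
        rw [map_neg, map_one]
        ring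
      rw [e2]
      have hA : IsCoprime (X - C (1 : F)) f :=
        (Polynomial.irreducible_X_sub_C 1).coprime_iff_not_dvd.mpr
          (fun hd => h1 (Polynomial.dvd_iff_isRoot.mp hd))
      have hB : IsCoprime (X - C (-1 : F)) f :=
        (Polynomial.irreducible_X_sub_C (-1)).coprime_iff_not_dvd.mpr
          (fun hd => h2 (Polynomial.dvd_iff_isRoot.mp hd))
      exact IsCoprime.mul_left hA hB

end Cfsg.Agent.Lib.Helper15.SpP
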