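import Mathlib
import Cfsg.Agent.Lib.Helper15.SpP

set_option autoImplicit false

namespace Cfsg.Agent.Lib.Helper15.SpK

open Polynomial Matrix
open Cfsg.Agent.Lib.Helper15

universe u

theorem pal_sym {F : Type u} [Field F] (n : ℕ) (f : F[X]) (hf : SpP.Pal n f) (k : ℕ)
    (hk : k ≤ 2 * n) : f.coeff (2 * n - k) = f.coeff k := by
  obtain ⟨hfm, hfd, hfdual, hf0⟩ := hf
  have h := Semi.dual_coeff (RingHom.id F) f (2 * n - k)
  rw [hfdual, hf0, hfd, Polynomial.revAt_le (Nat.sub_le _ _), Nat.sub_sub_self hk, inv_one,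
    one_mul, RingHom.id_apply] at h
  exact h

set_option maxHeartbeats 1000000 in
/-- The number of palindromic polynomials of degree `2 n`. -/
theorem pal_card (F : Type u) [Field F] [Fintype F] (n : ℕ) :
    Nat.card {f : F[X] // SpP.Pal n f} = Fintype.card F ^ n := by
  classical
  have hfun : Nat.card (Fin n → F) = Fintype.card F ^ n := by
    rw [Nat.card_eq_fintype_card, Fintype.card_fun, Fintype.card_fin]
  rw [← hfun]
  apply Nat.card_eq_of_bijective
    (fun f : {f : F[X] // SpP.Pal n f} => (fun j : Fin n => f.1.coeff ((j : ℕ) + 1)))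
  constructor
  · rintro ⟨f, hf⟩ ⟨f', hf'⟩ hff
    apply Subtype.ext
    show f = f'
    have hc : ∀ j : Fin n, f.coeff ((j : ℕ) + 1) = f'.coeff ((j : ℕ) + 1) :=
      fun j => congrFun hff j
    have hlow : ∀ i, i ≤ n → f.coeff i = f'.coeff i := by
      intro i hi
      rcases Nat.eq_zero_or_pos i with h0 | hpos
      · rw [h0, hf.2.2.2, hf'.2.2.2]
      · have h1 : f.coeff (i - 1 + 1) = f'.coeff (i - 1 + 1) := hc ⟨i - 1, by omega⟩
        have h2 : i - 1 + 1 = i := by omega
        rw [h2] at h1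
        exact h1
    ext i
    rcases Nat.lt_or_ge (2 * n) i with hbig | hle
    · rw [Polynomial.coeff_eq_zero_of_natDegree_lt (by rw [hf.2.1]; exact hbig),
        Polynomial.coeff_eq_zero_of_natDegree_lt (by rw [hf'.2.1]; exact hbig)]
    · rcases Nat.lt_or_ge n i with hmid | hsmall
      · have e1 := pal_sym n f hf (2 * n - i) (Nat.sub_le _ _)
        have e2 := pal_sym n f' hf' (2 * n - i) (Nat.sub_le _ _)
        rw [Nat.sub_sub_self hle] at e1 e2
        rw [e1, e2]
        exact hlow _ (by omega)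
      · exact hlow i hsmall
  · intro c
    obtain ⟨c', hc'⟩ : ∃ c' : ℕ → F, ∀ j, c' j = if h : j < n then c ⟨j, h⟩ else 0 :=
      ⟨_, fun _ => rfl⟩
    obtain ⟨a, ha⟩ : ∃ a : ℕ → F,
        ∀ k, a k = if k = 0 ∨ k = 2 * n then 1 else c' (min k (2 * n - k) - 1) :=
      ⟨_, fun _ => rfl⟩
    have hasym : ∀ k, k ≤ 2 * n → a (2 * n - k) = a k := by
      intro k hk
      rw [ha (2 * n - k), ha k, Nat.sub_sub_self hk, min_comm]
      by_cases hk0 : k = 0 ∨ k = 2 * n
      · have h1 : 2 * n - k = 0 ∨ 2 * n - k = 2 * n := by omega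
        rw [if_pos h1, if_pos hk0]
      · have h1 : ¬ (2 * n - k = 0 ∨ 2 * n - k = 2 * n) := by omega
        rw [if_neg h1, if_neg hk0]
    obtain ⟨f, hfdef⟩ : ∃ f : F[X],
        f = ∑ k ∈ Finset.range (2 * n + 1), Polynomial.monomial k (a k) := ⟨_, rfl⟩
    have hcoef : ∀ i, f.coeff i = if i ≤ 2 * n then a i else 0 := by
      intro i
      rw [hfdef, Polynomial.finsetSum_coeff]
      by_cases hi : i ≤ 2 * n
      · rw [if_pos hi, Finset.sum_eq_single i]
        · rw [Polynomial.coeff_monomial, if_pos rfl]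
        · intro b _ hb
          rw [Polynomial.coeff_monomial, if_neg hb]
        · intro hni
          exact absurd (Finset.mem_range.mpr (by omega)) hni
      · rw [if_neg hi]
        apply Finset.sum_eq_zero
        intro b hb
        have hb' := Finset.mem_range.mp hb
        rw [Polynomial.coeff_monomial, if_neg (by omega)]
    have hf0 : f.coeff 0 = 1 := by
      rw [hcoef, if_pos (Nat.zero_le _), ha, if_pos (Or.inl rfl)]
    have hftop : f.coeff (2 * n) = 1 := by
      rw [hcoef, if_pos le_rfl, ha, if_pos (Or.inr rfl)]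
    have hdeg_le : f.natDegree ≤ 2 * n := by
      rw [Polynomial.natDegree_le_iff_coeff_eq_zero]
      intro N hN
      rw [hcoef, if_neg (by omega)]
    have hdeg : f.natDegree = 2 * n :=
      Polynomial.natDegree_eq_of_le_of_coeff_ne_zero hdeg_le (by rw [hftop]; exact one_ne_zero)
    have hmonic : f.Monic :=
      Polynomial.monic_of_natDegree_le_of_coeff_eq_one (2 * n) hdeg_le hftop
    have hdual : Semi.dual (RingHom.id F) f = f := by
      ext i
      rw [Semi.dual_coeff, hf0, hdeg, inv_one, one_mul, RingHom.id_apply]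
      rcases Nat.lt_or_ge (2 * n) i with hbig | hle
      · rw [Polynomial.revAt_eq_self_of_lt hbig]
      · rw [Polynomial.revAt_le hle, hcoef, hcoef, if_pos (Nat.sub_le _ _), if_pos hle,
          hasym i hle]
    refine ⟨⟨f, hmonic, hdeg, hdual, hf0⟩, ?_⟩
    funext j
    show f.coeff ((j : ℕ) + 1) = c j
    have hj := j.2
    have e : min ((j : ℕ) + 1) (2 * n - ((j : ℕ) + 1)) - 1 = (j : ℕ) := by
      rw [min_eq_left (by omega)]
      omega
    rw [hcoef, if_pos (by omega), ha, if_neg (by omega), e, hc', dif_pos hj]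

end Cfsg.Agent.Lib.Helper15.SpK
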