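import Cfsg.Agent.Lib.Helper15.RepWeights

set_option autoImplicit false

namespace Cfsg.Agent.Lib.Helper15
namespace SpMinDeg

open Module Matrix

variable {F : Type*} [Field F] {n : ℕ}

/-- The symmetric matrix `e a^T + a e^T` for `e` the basis vector at `i₀`. -/
def sMat (i₀ : Fin n) (a : Fin n → F) : Matrix (Fin n) (Fin n) F :=
  Matrix.vecMulVec (Pi.single i₀ 1) a + Matrix.vecMulVec a (Pi.single i₀ 1)

theorem sMat_transpose (i₀ : Fin n) (a : Fin n → F) : (sMat i₀ a)ᵀ = sMat i₀ a := by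
  rw [sMat, Matrix.transpose_add, Matrix.transpose_vecMulVec, Matrix.transpose_vecMulVec,
    add_comm]

theorem sMat_zero (i₀ : Fin n) : sMat i₀ (0 : Fin n → F) = 0 := by
  ext i j
  simp [sMat]

theorem sMat_add (i₀ : Fin n) (a a' : Fin n → F) :
    sMat i₀ (a + a') = sMat i₀ a + sMat i₀ a' := by
  rw [sMat, sMat, sMat, Matrix.vecMulVec_add, Matrix.add_vecMulVec]
  abel

theorem sMat_eq_zero (h2 : (2 : F) ≠ 0) (i₀ : Fin n) {a : Fin n → F} (h : sMat i₀ a = 0) :
    a = 0 := by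
  have h1 : ∀ j, a j + a i₀ * (Pi.single i₀ 1 : Fin n → F) j = 0 := by
    intro j
    have := congrFun (congrFun h i₀) j
    simpa [sMat, Matrix.vecMulVec_apply] using this
  have h3 : a i₀ = 0 := by
    have := h1 i₀
    rw [Pi.single_eq_same, mul_one] at this
    have h4 : (2 : F) * a i₀ = 0 := by linear_combination this
    exact (mul_eq_zero.1 h4).resolve_left h2
  funext j
  have := h1 j
  rw [h3, zero_mul, add_zero] at this
  exact this

theorem xMat_mem (S : Matrix (Fin n) (Fin n) F) (hS : Sᵀ = S) :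
    Matrix.fromBlocks 1 S 0 1 ∈ Matrix.symplecticGroup (Fin n) F := by
  rw [SymplecticGroup.mem_iff, Matrix.J, Matrix.fromBlocks_transpose,
    Matrix.fromBlocks_multiply, Matrix.fromBlocks_multiply]
  simp [hS]

/-- The abelian family of unipotent elements. -/
def xx (i₀ : Fin n) (a : Fin n → F) : Matrix.symplecticGroup (Fin n) F :=
  ⟨Matrix.fromBlocks 1 (sMat i₀ a) 0 1, xMat_mem _ (sMat_transpose i₀ a)⟩

theorem xx_zero (i₀ : Fin n) : xx i₀ (0 : Fin n → F) = 1 := by
  apply Subtype.ext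
  show Matrix.fromBlocks 1 (sMat i₀ 0) 0 1 = 1
  rw [sMat_zero, Matrix.fromBlocks_one]

theorem xx_add (i₀ : Fin n) (a a' : Fin n → F) : xx i₀ (a + a') = xx i₀ a * xx i₀ a' := by
  apply Subtype.ext
  show Matrix.fromBlocks 1 (sMat i₀ (a + a')) 0 1 =
    Matrix.fromBlocks 1 (sMat i₀ a) 0 1 * Matrix.fromBlocks 1 (sMat i₀ a') 0 1
  rw [Matrix.fromBlocks_multiply, sMat_add]
  simp [add_comm]

theorem xx_not_center (h2 : (2 : F) ≠ 0) (i₀ : Fin n) {a : Fin n → F}
    (h : xx i₀ a ∈ Subgroup.center (Matrix.symplecticGroup (Fin n) F)) : a = 0 := by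
  rw [Subgroup.mem_center_iff] at h
  have h1 := congrArg Subtype.val
    (h ⟨Matrix.J (Fin n) F, SymplecticGroup.J_mem (Fin n) F⟩)
  have h3 : Matrix.J (Fin n) F * Matrix.fromBlocks 1 (sMat i₀ a) 0 1 =
      Matrix.fromBlocks 1 (sMat i₀ a) 0 1 * Matrix.J (Fin n) F := h1
  rw [Matrix.J, Matrix.fromBlocks_multiply, Matrix.fromBlocks_multiply] at h3
  have h4 := (Matrix.fromBlocks_inj.1 h3).1
  simp only [Matrix.zero_mul, Matrix.mul_zero, Matrix.one_mul, Matrix.mul_one, zero_add,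
    add_zero] at h4
  have h5 : sMat i₀ a = 0 := h4.symm
  exact sMat_eq_zero h2 i₀ h5

theorem dd_mem (A B : Matrix (Fin n) (Fin n) F) (h : A * Bᵀ = 1) :
    Matrix.fromBlocks A 0 0 B ∈ Matrix.symplecticGroup (Fin n) F := by
  have h' : B * Aᵀ = 1 := by
    have := congrArg Matrix.transpose h
    rwa [Matrix.transpose_mul, Matrix.transpose_transpose, Matrix.transpose_one] at this
  rw [SymplecticGroup.mem_iff, Matrix.J, Matrix.fromBlocks_transpose,
    Matrix.fromBlocks_multiply, Matrix.fromBlocks_multiply]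
  simp [h, h']

/-- The block-diagonal elements. -/
def dd (A B : Matrix (Fin n) (Fin n) F) (h : A * Bᵀ = 1) : Matrix.symplecticGroup (Fin n) F :=
  ⟨Matrix.fromBlocks A 0 0 B, dd_mem A B h⟩

theorem dd_xx (i₀ : Fin n) (A B : Matrix (Fin n) (Fin n) F) (h : A * Bᵀ = 1) (t : F)
    (ht : t ≠ 0) (hA : A *ᵥ (Pi.single i₀ 1) = t • (Pi.single i₀ 1 : Fin n → F))
    (a : Fin n → F) : dd A B h * xx i₀ a = xx i₀ (t • A *ᵥ a) * dd A B h := by
  have h' : Bᵀ * A = 1 := (mul_eq_one_comm).1 h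
  have h1 : (A *ᵥ a) ᵥ* B = a := by
    rw [← Matrix.mulVec_transpose, Matrix.mulVec_mulVec, h', Matrix.one_mulVec]
  have h2 : (Pi.single i₀ 1 : Fin n → F) ᵥ* B = t⁻¹ • (Pi.single i₀ 1 : Fin n → F) := by
    rw [← Matrix.mulVec_transpose]
    have h3 : Bᵀ *ᵥ (A *ᵥ (Pi.single i₀ 1 : Fin n → F)) = (Pi.single i₀ 1 : Fin n → F) := by
      rw [Matrix.mulVec_mulVec, h', Matrix.one_mulVec]
    rw [hA, Matrix.mulVec_smul] at h3
    rw [← h3, smul_smul, inv_mul_cancel₀ ht, one_smul, h3]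
  have key : A * sMat i₀ a = sMat i₀ (t • A *ᵥ a) * B := by
    rw [sMat, sMat, Matrix.mul_add, Matrix.add_mul, Matrix.mul_vecMulVec, Matrix.mul_vecMulVec,
      Matrix.vecMulVec_mul, Matrix.vecMulVec_mul, hA, Matrix.smul_vecMul, h1, h2,
      Matrix.smul_vecMulVec, Matrix.smul_vecMulVec, Matrix.vecMulVec_smul,
      Matrix.vecMulVec_smul, smul_smul, mul_inv_cancel₀ ht, one_smul]
  apply Subtype.ext
  show Matrix.fromBlocks A 0 0 B * Matrix.fromBlocks 1 (sMat i₀ a) 0 1 =
    Matrix.fromBlocks 1 (sMat i₀ (t • A *ᵥ a)) 0 1 * Matrix.fromBlocks A 0 0 B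
  rw [Matrix.fromBlocks_multiply, Matrix.fromBlocks_multiply, key]
  simp

theorem closure_step (i₀ : Fin n) (A B : Matrix (Fin n) (Fin n) F) (h : A * Bᵀ = 1) (t : F)
    (ht : t ≠ 0) (hA : A *ᵥ (Pi.single i₀ 1) = t • (Pi.single i₀ 1 : Fin n → F)) :
    ∃ π : (Fin n → F) ≃ (Fin n → F), (∀ a w, π a ⬝ᵥ (t⁻¹ • B *ᵥ w) = a ⬝ᵥ w) ∧
      ∀ a, dd A B h * xx i₀ a = xx i₀ (π a) * dd A B h := by
  have h' : Bᵀ * A = 1 := (mul_eq_one_comm).1 h
  let π : (Fin n → F) ≃ (Fin n → F) :=
    { toFun := fun a => t • A *ᵥ a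
      invFun := fun a => t⁻¹ • Bᵀ *ᵥ a
      left_inv := fun a => by
        show t⁻¹ • Bᵀ *ᵥ (t • A *ᵥ a) = a
        rw [Matrix.mulVec_smul, Matrix.mulVec_mulVec, h', Matrix.one_mulVec, smul_smul,
          inv_mul_cancel₀ ht, one_smul]
      right_inv := fun a => by
        show t • A *ᵥ (t⁻¹ • Bᵀ *ᵥ a) = a
        rw [Matrix.mulVec_smul, Matrix.mulVec_mulVec, h, Matrix.one_mulVec, smul_smul,
          mul_inv_cancel₀ ht, one_smul] }
  refine ⟨π, ?_, fun a => dd_xx i₀ A B h t ht hA a⟩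
  intro a w
  show (t • A *ᵥ a) ⬝ᵥ (t⁻¹ • B *ᵥ w) = a ⬝ᵥ w
  have h1 : (A *ᵥ a) ᵥ* B = a := by
    rw [← Matrix.mulVec_transpose, Matrix.mulVec_mulVec, h', Matrix.one_mulVec]
  rw [smul_dotProduct, dotProduct_smul, smul_smul, mul_inv_cancel₀ ht, one_smul,
    Matrix.dotProduct_mulVec, h1]

/-- A cross-characteristic representation of `Sp_{2n}(F)`, `q` odd, with central kernel has
degree at least `q ^ (n - 1) * (q - 1) / 2`. -/
theorem sp_min_degree [Fintype F] (hodd : Odd (Fintype.card F)) (i₀ : Fin n) {K : Type*}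
    [Field K] (hK : ringChar K ≠ ringChar F) {d : ℕ}
    (ρ : Matrix.symplecticGroup (Fin n) F →* GL (Fin d) K)
    (hker : ρ.ker ≤ Subgroup.center (Matrix.symplecticGroup (Fin n) F)) :
    Fintype.card F ^ (n - 1) * (Fintype.card F - 1) / 2 ≤ d := by
  classical
  have h2 : (2 : F) ≠ 0 := by
    intro h
    have h3 : ringChar F ∣ 2 := ringChar.dvd (by exact_mod_cast h)
    have h4 : ringChar F = 2 := by
      rcases (Nat.dvd_prime Nat.prime_two).1 h3 with h5 | h5
      · exact absurd h5 (CharP.ringChar_ne_one)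
      · exact h5
    have h6 := FiniteField.even_card_iff_char_two.1 h4
    rcases hodd with ⟨k, hk⟩
    omega
  let e₀ : Fin n → F := Pi.single i₀ 1
  have ha₀ : ρ (xx i₀ e₀) ≠ 1 := by
    intro h
    have h1 := xx_not_center h2 i₀ (hker (MonoidHom.mem_ker.2 h))
    have h3 := congrFun h1 i₀
    simp [e₀] at h3
  obtain ⟨Ω, hcard, ⟨w₁, hw₁, hw₁0⟩, hcl⟩ :=
    RepProj.exists_weights hK ρ (xx i₀) (xx_zero i₀) (xx_add i₀) e₀ ha₀
  have hc : w₁ i₀ ≠ 0 := by
    intro h
    apply hw₁0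
    simp [e₀, h]
  set c := w₁ i₀ with hcdef
  have hall : ∀ w : Fin n → F, ∀ s : F, s ≠ 0 → w i₀ = s ^ 2 * c → w ∈ Ω := by
    intro w s hs hw
    have hs' : s⁻¹ ≠ 0 := inv_ne_zero hs
    let u : Fin n → F := c⁻¹ • (s⁻¹ • w - s • w₁)
    have hu : u i₀ = 0 := by
      simp only [u, Pi.smul_apply, Pi.sub_apply, smul_eq_mul, hw, ← hcdef]
      field_simp
      ring
    have hue : u ⬝ᵥ e₀ = 0 := by
      simp [e₀, hu]
    let E : Matrix (Fin n) (Fin n) F := Matrix.vecMulVec e₀ u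
    have hEE : E * E = 0 := by
      simp only [E]
      rw [Matrix.vecMulVec_mul_vecMulVec, hue, zero_smul]
      ext i j
      simp [Matrix.vecMulVec_apply]
    let B : Matrix (Fin n) (Fin n) F := s • 1 + Matrix.vecMulVec u e₀
    let A : Matrix (Fin n) (Fin n) F := s⁻¹ • 1 - (s⁻¹ ^ 2) • E
    have hBt : Bᵀ = s • 1 + E := by
      simp only [B, E]
      rw [Matrix.transpose_add, Matrix.transpose_smul, Matrix.transpose_one,
        Matrix.transpose_vecMulVec]
    have hAB : A * Bᵀ = 1 := by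
      rw [hBt]
      simp only [A]
      rw [Matrix.sub_mul, Matrix.mul_add, Matrix.mul_add, Matrix.smul_mul, Matrix.smul_mul,
        Matrix.smul_mul, Matrix.smul_mul, Matrix.one_mul, Matrix.one_mul, Matrix.mul_smul,
        Matrix.mul_one, hEE, smul_zero, add_zero, smul_smul, smul_smul]
      have e1 : s⁻¹ * s = 1 := inv_mul_cancel₀ hs
      have e2 : s⁻¹ ^ 2 * s = s⁻¹ := by
        field_simp
      rw [e1, e2, one_smul]
      abel
    have hAe : A *ᵥ e₀ = s⁻¹ • e₀ := by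
      simp only [A, E]
      rw [Matrix.sub_mulVec, Matrix.smul_mulVec, Matrix.smul_mulVec, Matrix.one_mulVec,
        Matrix.vecMulVec_mulVec, hue]
      simp
    have hBw : (s⁻¹)⁻¹ • B *ᵥ w₁ = w := by
      have h5 : B *ᵥ w₁ = s⁻¹ • w := by
        simp only [B]
        rw [Matrix.add_mulVec, Matrix.smul_mulVec, Matrix.one_mulVec, Matrix.vecMulVec_mulVec]
        have h6 : e₀ ⬝ᵥ w₁ = c := by
          simp [e₀, hcdef]
        rw [h6, op_smul_eq_smul]
        simp only [u]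
        rw [smul_smul, mul_inv_cancel₀ hc, one_smul]
        abel
      rw [h5, smul_smul, inv_mul_cancel₀ hs', one_smul]
    obtain ⟨π, hπ1, hπ2⟩ := closure_step i₀ A B hAB s⁻¹ hs' hAe
    have h7 := hcl (dd A B hAB) π (fun w => (s⁻¹)⁻¹ • B *ᵥ w) hπ1 hπ2 w₁ hw₁
    rw [← hBw]
    exact h7
  let Sq : Finset F := (Finset.univ.filter (fun s : F => s ≠ 0)).image (fun s => s ^ 2 * c)
  have hSq : Fintype.card F - 1 ≤ 2 * Sq.card := by
    have h5 := Finset.card_le_mul_card_image (f := fun s : F => s ^ 2 * c)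
      (Finset.univ.filter (fun s : F => s ≠ 0)) 2 (by
        intro y hy
        obtain ⟨s₀, hs₀, rfl⟩ := Finset.mem_image.1 hy
        have hsub : (Finset.univ.filter (fun s : F => s ≠ 0)).filter
            (fun x => x ^ 2 * c = s₀ ^ 2 * c) ⊆ {s₀, -s₀} := by
          intro x hx
          have hx2 := (Finset.mem_filter.1 hx).2
          have h5 : (x - s₀) * (x + s₀) = 0 := by
            have := mul_right_cancel₀ hc hx2
            linear_combination this
          rcases mul_eq_zero.1 h5 with h6 | h6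
          · simp [sub_eq_zero.1 h6]
          · simp [eq_neg_of_add_eq_zero_left h6]
        exact (Finset.card_le_card hsub).trans Finset.card_le_two)
    have h5' : (Finset.univ.filter (fun s : F => s ≠ 0)).card = Fintype.card F - 1 := by
      rw [Finset.filter_ne', Finset.card_erase_of_mem (Finset.mem_univ _), Finset.card_univ]
    rw [h5'] at h5
    exact h5
  let Λ : Finset (Fin n → F) := Fintype.piFinset (fun i => if i = i₀ then Sq else Finset.univ)
  have hΛsub : Λ ⊆ Ω := by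
    intro w hw
    have h5 := (Fintype.mem_piFinset.1 hw) i₀
    rw [if_pos rfl] at h5
    obtain ⟨s, hs, hs2⟩ := Finset.mem_image.1 h5
    exact hall w s (Finset.mem_filter.1 hs).2 hs2.symm
  have hΛcard : Λ.card = Sq.card * Fintype.card F ^ (n - 1) := by
    rw [Fintype.card_piFinset, Fintype.prod_eq_mul_prod_compl i₀, if_pos rfl]
    congr 1
    rw [Finset.prod_congr rfl (g := fun _ => Fintype.card F)]
    · rw [Finset.prod_const, Finset.card_compl, Finset.card_singleton, Fintype.card_fin]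
    · intro i hi
      rw [if_neg (by simpa using hi), Finset.card_univ]
  calc Fintype.card F ^ (n - 1) * (Fintype.card F - 1) / 2
      ≤ Sq.card * Fintype.card F ^ (n - 1) := by
        apply Nat.div_le_of_le_mul
        calc Fintype.card F ^ (n - 1) * (Fintype.card F - 1)
            ≤ Fintype.card F ^ (n - 1) * (2 * Sq.card) := Nat.mul_le_mul_left _ hSq
          _ = 2 * (Sq.card * Fintype.card F ^ (n - 1)) := by ring
    _ = Λ.card := hΛcard.symm
    _ ≤ Ω.card := Finset.card_le_card hΛsub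
    _ ≤ d := hcard

end SpMinDeg
end Cfsg.Agent.Lib.Helper15
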