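import Cfsg.Prelude.Def_SteinbergCover

set_option autoImplicit false

namespace Cfsg.Agent.Lib.Helper15
namespace StCover

open Cfsg.Lie
open scoped commutatorElement

section
variable (D : ChevalleyDatum) (K : Type*) [Field K]

/-- The root `r` dies in the abelianization of the group presented by (R1), (R2). -/
def Killed (r : ℕ) : Prop := ∀ v : K, D.scGen K r v ∈ commutator (D.SteinbergCover K)

theorem scGen_add {r : ℕ} (hr : r < D.nroots) (a b : K) :
    D.scGen K r a * D.scGen K r b = D.scGen K r (a + b) := by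
  have hmem : D.stX r a * D.stX r b * (D.stX r (a + b))⁻¹ ∈ D.steinbergRelsAB K :=
    Or.inl ⟨r, a, b, hr, rfl⟩
  have h1 := PresentedGroup.one_of_mem hmem
  rw [map_mul, map_mul, map_inv, mul_inv_eq_one] at h1
  exact h1

theorem scGen_zero {r : ℕ} (hr : r < D.nroots) : D.scGen K r 0 = 1 := by
  have h := scGen_add D K hr 0 0
  rw [add_zero] at h
  exact mul_eq_left.1 h

theorem scGen_neg {r : ℕ} (hr : r < D.nroots) (a : K) :
    D.scGen K r (-a) = (D.scGen K r a)⁻¹ := by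
  have h := scGen_add D K hr a (-a)
  rw [add_neg_cancel, scGen_zero D K hr] at h
  exact eq_inv_of_mul_eq_one_right h

theorem mk_stWord (w : List (ℕ × K)) :
    PresentedGroup.mk (D.steinbergRelsAB K) (D.stWord w) =
      (w.map fun p => D.scGen K p.1 p.2).prod := by
  unfold ChevalleyDatum.stWord
  rw [map_list_prod, List.map_map]
  rfl

theorem comm_rel {r s : ℕ} (hr : r < D.nroots) (hs : s < D.nroots) (h1 : s ≠ r)
    (h2 : s ≠ D.neg r) (t u : K) :
    (D.scGen K s u)⁻¹ * (D.scGen K r t)⁻¹ * D.scGen K s u * D.scGen K r t =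
      ((D.commWord K r s t u).map fun p => D.scGen K p.1 p.2).prod := by
  have hmem : (D.stX s u)⁻¹ * (D.stX r t)⁻¹ * D.stX s u * D.stX r t *
      (D.stWord (D.commWord K r s t u))⁻¹ ∈ D.steinbergRelsAB K :=
    Or.inr ⟨r, s, t, u, hr, hs, h1, h2, rfl⟩
  have h3 := PresentedGroup.one_of_mem hmem
  rw [map_mul, map_inv, mul_inv_eq_one, mk_stWord] at h3
  rw [← h3]
  simp only [map_mul, map_inv]
  rfl

theorem word_mem {r s : ℕ} (hr : r < D.nroots) (hs : s < D.nroots) (h1 : s ≠ r)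
    (h2 : s ≠ D.neg r) (t u : K) :
    ((D.commWord K r s t u).map fun p => D.scGen K p.1 p.2).prod ∈
      commutator (D.SteinbergCover K) := by
  rw [← comm_rel D K hr hs h1 h2 t u]
  have h3 : (D.scGen K s u)⁻¹ * (D.scGen K r t)⁻¹ * D.scGen K s u * D.scGen K r t =
      ⁅(D.scGen K s u)⁻¹, (D.scGen K r t)⁻¹⁆ := by
    rw [commutatorElement_def, inv_inv, inv_inv]
  rw [h3]
  exact Subgroup.commutator_mem_commutator (Subgroup.mem_top _) (Subgroup.mem_top _)

theorem int_sq_one {c : ℤ} (hc : c = 1 ∨ c = -1) : ((c : ℤ) : K) * (c : K) = 1 := by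
  rcases hc with rfl | rfl <;> simp

/-- Rule A: a single-term commutator relation with coefficient `±1` kills the root. -/
theorem ruleA {r s k : ℕ} {c : ℤ} (hr : r < D.nroots) (hs : s < D.nroots) (h1 : s ≠ r)
    (h2 : s ≠ D.neg r) (hc : c = 1 ∨ c = -1) (hterms : D.commTerms r s = [(k, c, 1, 1)]) :
    Killed D K k := by
  intro v
  have h := word_mem D K hr hs h1 h2 (-(c : K) * v) 1
  have hw : D.commWord K r s (-(c : K) * v) 1 = [(k, v)] := by
    unfold ChevalleyDatum.commWord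
    rw [hterms]
    simp only [List.map_cons, List.map_nil]
    have h3 : ((c : ℤ) : K) * (-(-(c : K) * v)) ^ 1 * (1 : K) ^ 1 = v := by
      rw [pow_one, pow_one, mul_one, neg_mul, neg_neg, ← mul_assoc, int_sq_one K hc, one_mul]
    rw [h3]
  rw [hw] at h
  simpa using h

/-- Rule B: a commutator relation with leading terms of exponents `(1,1)`, `(2,1)` and
coefficients `±1`, all further roots being killed, kills both roots (field with more than two
elements). -/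
theorem ruleB {r s k₁ k₂ : ℕ} {c₁ c₂ : ℤ} {rest : List (ℕ × ℤ × ℕ × ℕ)}
    (hK : ∃ x : K, x ≠ 0 ∧ x ≠ 1) (hr : r < D.nroots) (hs : s < D.nroots) (h1 : s ≠ r)
    (h2 : s ≠ D.neg r) (hc₁ : c₁ = 1 ∨ c₁ = -1) (hc₂ : c₂ = 1 ∨ c₂ = -1)
    (hterms : D.commTerms r s = (k₁, c₁, 1, 1) :: (k₂, c₂, 2, 1) :: rest)
    (hk₂ : k₂ < D.nroots)
    (hrest : ∀ x ∈ rest, Killed D K x.1) : Killed D K k₁ ∧ Killed D K k₂ := by
  have hrestC : ∀ t u : K, ((rest.map fun c => (c.1, (c.2.1 : K) * (-t) ^ c.2.2.1 *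
      u ^ c.2.2.2)).map fun p => D.scGen K p.1 p.2).prod ∈ commutator (D.SteinbergCover K) := by
    intro t u
    apply Subgroup.list_prod_mem
    intro x hx
    simp only [List.mem_map] at hx
    obtain ⟨p, ⟨q, hq, rfl⟩, rfl⟩ := hx
    exact hrest q hq _
  have hab : ∀ t u : K, D.scGen K k₁ ((c₁ : K) * (-t) ^ 1 * u ^ 1) *
      D.scGen K k₂ ((c₂ : K) * (-t) ^ 2 * u ^ 1) ∈ commutator (D.SteinbergCover K) := by
    intro t u
    have h := word_mem D K hr hs h1 h2 t u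
    unfold ChevalleyDatum.commWord at h
    rw [hterms] at h
    simp only [List.map_cons, List.prod_cons] at h
    have h3 := hrestC t u
    obtain ⟨R, hR⟩ : ∃ R, R = ((rest.map fun c => (c.1, (c.2.1 : K) * (-t) ^ c.2.2.1 *
      u ^ c.2.2.2)).map fun p => D.scGen K p.1 p.2).prod := ⟨_, rfl⟩
    rw [← hR] at h h3
    have h4 : D.scGen K k₁ ((c₁ : K) * (-t) ^ 1 * u ^ 1) *
        D.scGen K k₂ ((c₂ : K) * (-t) ^ 2 * u ^ 1) =
        (D.scGen K k₁ ((c₁ : K) * (-t) ^ 1 * u ^ 1) *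
          (D.scGen K k₂ ((c₂ : K) * (-t) ^ 2 * u ^ 1) * R)) * R⁻¹ := by group
    rw [h4]
    exact Subgroup.mul_mem _ h (Subgroup.inv_mem _ h3)
  obtain ⟨lam, hl0, hl1⟩ := hK
  have hl1' : lam - 1 ≠ 0 := sub_ne_zero.2 hl1
  have hk2 : Killed D K k₂ := by
    intro v
    obtain ⟨u, hu⟩ : ∃ u : K, u = (c₂ : K) * (lam - 1)⁻¹ * v := ⟨_, rfl⟩
    have hA1 := hab 1 u
    have hA2 := hab lam (lam⁻¹ * u)
    have e1 : (c₁ : K) * (-lam) ^ 1 * (lam⁻¹ * u) ^ 1 = (c₁ : K) * (-1) ^ 1 * u ^ 1 := by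
      field_simp
    rw [e1] at hA2
    have h5 := Subgroup.mul_mem _ (Subgroup.inv_mem _ hA1) hA2
    have h6 : (D.scGen K k₁ ((c₁ : K) * (-1) ^ 1 * u ^ 1) *
        D.scGen K k₂ ((c₂ : K) * (-1) ^ 2 * u ^ 1))⁻¹ *
        (D.scGen K k₁ ((c₁ : K) * (-1) ^ 1 * u ^ 1) *
          D.scGen K k₂ ((c₂ : K) * (-lam) ^ 2 * (lam⁻¹ * u) ^ 1)) =
        (D.scGen K k₂ ((c₂ : K) * (-1) ^ 2 * u ^ 1))⁻¹ *
          D.scGen K k₂ ((c₂ : K) * (-lam) ^ 2 * (lam⁻¹ * u) ^ 1) := by group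
    rw [h6, ← scGen_neg D K hk₂, scGen_add D K hk₂] at h5
    have e2 : -((c₂ : K) * (-1) ^ 2 * u ^ 1) + (c₂ : K) * (-lam) ^ 2 * (lam⁻¹ * u) ^ 1 = v := by
      rw [hu]
      have h7 := int_sq_one K hc₂
      field_simp
      linear_combination (lam - 1) * v * h7
    rw [e2] at h5
    exact h5
  refine ⟨?_, hk2⟩
  intro v
  have hA := hab (-(c₁ : K) * v) 1
  have e3 : (c₁ : K) * (-(-(c₁ : K) * v)) ^ 1 * (1 : K) ^ 1 = v := by
    rw [pow_one, pow_one, mul_one, neg_mul, neg_neg, ← mul_assoc, int_sq_one K hc₁, one_mul]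
  rw [e3] at hA
  have h8 : D.scGen K k₁ v = (D.scGen K k₁ v *
      D.scGen K k₂ ((c₂ : K) * (-(-(c₁ : K) * v)) ^ 2 * (1 : K) ^ 1)) *
      (D.scGen K k₂ ((c₂ : K) * (-(-(c₁ : K) * v)) ^ 2 * (1 : K) ^ 1))⁻¹ := by group
  rw [h8]
  exact Subgroup.mul_mem _ hA (Subgroup.inv_mem _ (hk2 _))

/-- The presented group is perfect as soon as every root is killed. -/
theorem perfect_of_killed (h : ∀ r, r < D.nroots → Killed D K r) :
    commutator (D.SteinbergCover K) = ⊤ := by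
  rw [eq_top_iff, ← PresentedGroup.closure_range_of, Subgroup.closure_le]
  rintro _ ⟨⟨r, t⟩, rfl⟩
  have h1 := h r.val r.isLt t
  unfold ChevalleyDatum.scGen ChevalleyDatum.stX at h1
  rw [dif_pos r.isLt] at h1
  exact h1

end

/-- Certificate of rule A for the root `r₀`. -/
def RuleAok (D : ChevalleyDatum) (r s r₀ : ℕ) : Prop :=
  r < D.nroots ∧ s < D.nroots ∧ s ≠ r ∧ s ≠ D.neg r ∧
    (D.commTerms r s = [(r₀, 1, 1, 1)] ∨ D.commTerms r s = [(r₀, -1, 1, 1)])

instance (D : ChevalleyDatum) (r s r₀ : ℕ) : Decidable (RuleAok D r s r₀) := by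
  unfold RuleAok
  infer_instance

theorem killed_of_ruleAok (D : ChevalleyDatum) (K : Type*) [Field K] {r s r₀ : ℕ}
    (h : RuleAok D r s r₀) : Killed D K r₀ := by
  obtain ⟨hr, hs, h1, h2, h3 | h3⟩ := h
  · exact ruleA D K hr hs h1 h2 (Or.inl rfl) h3
  · exact ruleA D K hr hs h1 h2 (Or.inr rfl) h3

theorem perfect_of_cert (D : ChevalleyDatum) (K : Type*) [Field K] (cert : List (ℕ × ℕ))
    (h : ∀ r₀, r₀ < D.nroots → RuleAok D (cert.getD r₀ (0, 0)).1 (cert.getD r₀ (0, 0)).2 r₀) :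
    commutator (D.SteinbergCover K) = ⊤ :=
  perfect_of_killed D K (fun r hr => killed_of_ruleAok D K (h r hr))

end StCover
end Cfsg.Agent.Lib.Helper15
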