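import Cfsg.Agent.Lib.Helper15.StCover
import Cfsg.Prelude.Def_ChevD4

set_option autoImplicit false

namespace Cfsg.Agent.Lib.Helper15
namespace StCover

open Cfsg.Lie

/-- Rule A witnesses for type D4. -/
def certD4 : List (ℕ × ℕ) :=
  [(1, 9), (0, 14), (0, 15), (0, 16), (0, 17), (1, 17), (0, 19), (0, 20), (0, 21), (0, 22),
   (1, 20), (1, 21), (2, 22), (3, 22), (1, 23), (2, 23), (3, 23), (4, 23), (6, 22), (6, 23),
   (7, 23), (8, 23), (9, 23), (14, 22)]

set_option maxRecDepth 100000 in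
theorem certD4_ok : ∀ r₀, r₀ < chevD4.nroots →
    RuleAok chevD4 ((certD4).getD r₀ (0, 0)).1 ((certD4).getD r₀ (0, 0)).2 r₀ := by
  decide +kernel

end StCover
end Cfsg.Agent.Lib.Helper15
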