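import Cfsg.Agent.Lib.Helper15.StCover
import Cfsg.Prelude.Def_ChevE6

set_option autoImplicit false

namespace Cfsg.Agent.Lib.Helper15
namespace StCover

open Cfsg.Lie

/-- Rule A witnesses for type E6. -/
def certE6 : List (ℕ × ℕ) :=
  [(1, 25), (0, 46), (0, 47), (0, 48), (0, 49), (0, 50), (0, 51), (0, 52), (0, 53), (0, 54),
   (0, 55), (1, 53), (1, 54), (1, 55), (2, 55), (5, 55), (0, 61), (0, 62), (0, 63), (0, 64),
   (0, 65), (0, 66), (0, 67), (0, 68), (0, 69), (0, 70), (1, 64), (1, 65), (1, 66), (2, 66),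
   (1, 67), (1, 68), (1, 69), (2, 67), (2, 68), (3, 67), (4, 68), (3, 69), (4, 69), (2, 70),
   (3, 70), (4, 70), (5, 69), (5, 70), (6, 70), (7, 70), (1, 71), (2, 71), (3, 71), (4, 71),
   (5, 71), (6, 71), (7, 71), (8, 71), (9, 71), (10, 71), (16, 66), (16, 69), (16, 70),
   (17, 70), (18, 70), (16, 71), (17, 71), (18, 71), (19, 71), (20, 71), (21, 71), (22, 71),
   (23, 71), (24, 71), (25, 71), (46, 70)]

set_option maxRecDepth 100000 in
theorem certE6_ok : ∀ r₀, r₀ < chevE6.nroots →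
    RuleAok chevE6 ((certE6).getD r₀ (0, 0)).1 ((certE6).getD r₀ (0, 0)).2 r₀ := by
  decide +kernel

end StCover
end Cfsg.Agent.Lib.Helper15
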