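import Cfsg.Agent.Lib.Helper15.StCover
import Cfsg.Prelude.Def_ChevE7

set_option autoImplicit false

namespace Cfsg.Agent.Lib.Helper15
namespace StCover

open Cfsg.Lie

/-- Rule A witnesses for type E7. -/
def certE7 : List (ℕ × ℕ) :=
  [(1, 32), (0, 93), (0, 94), (0, 95), (0, 96), (0, 97), (0, 98), (0, 99), (0, 100), (0, 101),
   (0, 102), (0, 103), (0, 104), (0, 105), (0, 106), (0, 107), (0, 108), (0, 109), (0, 110),
   (0, 111), (0, 112), (0, 113), (0, 114), (0, 115), (0, 116), (0, 117), (0, 118), (0, 119),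
   (0, 120), (0, 121), (0, 122), (0, 123), (0, 124), (1, 109), (1, 110), (1, 111), (1, 112),
   (1, 113), (1, 114), (1, 115), (1, 116), (1, 117), (1, 118), (2, 115), (2, 116), (2, 117),
   (2, 118), (3, 118), (1, 119), (1, 120), (1, 121), (1, 122), (1, 123), (2, 119), (2, 120),
   (2, 121), (2, 122), (3, 119), (3, 120), (3, 121), (4, 119), (4, 120), (5, 119), (6, 120),
   (5, 121), (6, 121), (4, 122), (5, 122), (6, 122), (3, 123), (4, 123), (5, 123), (6, 123),
   (2, 124), (3, 124), (4, 124), (5, 124), (6, 124), (7, 122), (7, 123), (8, 123), (9, 123),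
   (10, 123), (7, 124), (8, 124), (9, 124), (10, 124), (11, 124), (12, 124), (13, 124),
   (14, 124), (15, 124), (16, 124), (1, 125), (2, 125), (3, 125), (4, 125), (5, 125), (6, 125),
   (7, 125), (8, 125), (9, 125), (10, 125), (11, 125), (12, 125), (13, 125), (14, 125),
   (15, 125), (16, 125), (17, 125), (18, 125), (19, 125), (20, 125), (21, 125), (22, 125),
   (23, 125), (24, 125), (25, 125), (26, 125), (27, 125), (28, 125), (29, 125), (30, 125),
   (31, 125), (32, 125), (93, 124)]

set_option maxRecDepth 100000 in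
theorem certE7_ok : ∀ r₀, r₀ < chevE7.nroots →
    RuleAok chevE7 ((certE7).getD r₀ (0, 0)).1 ((certE7).getD r₀ (0, 0)).2 r₀ := by
  decide +kernel

end StCover
end Cfsg.Agent.Lib.Helper15
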