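import Cfsg.Agent.Lib.Helper15.StCover
import Cfsg.Prelude.Def_ChevE8

set_option autoImplicit false

namespace Cfsg.Agent.Lib.Helper15
namespace StCover

open Cfsg.Lie

/-- Rule A witnesses for type E8. -/
def certE8 : List (ℕ × ℕ) :=
  [(1, 119), (0, 120), (0, 122), (0, 125), (0, 129), (0, 134), (0, 140), (0, 146), (0, 151),
   (0, 155), (0, 158), (0, 160), (0, 161), (1, 161), (0, 168), (0, 173), (0, 177), (0, 180),
   (0, 182), (0, 183), (1, 183), (0, 187), (0, 190), (0, 192), (0, 193), (1, 193), (0, 196),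
   (0, 198), (0, 199), (1, 199), (0, 201), (0, 202), (1, 202), (0, 203), (1, 203), (2, 203),
   (0, 206), (0, 208), (0, 209), (1, 209), (0, 211), (0, 212), (1, 212), (0, 213), (1, 213),
   (2, 213), (0, 215), (0, 216), (1, 216), (0, 217), (1, 217), (2, 217), (0, 218), (1, 218),
   (2, 218), (3, 218), (0, 220), (0, 221), (1, 221), (0, 222), (1, 222), (2, 222), (0, 223),
   (1, 223), (2, 223), (3, 223), (0, 224), (1, 224), (2, 224), (3, 224), (4, 224), (0, 225),
   (1, 225), (2, 225), (3, 225), (4, 225), (5, 225), (6, 225), (0, 227), (0, 228), (1, 228),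
   (0, 229), (1, 229), (2, 229), (0, 230), (1, 230), (2, 230), (3, 230), (0, 231), (1, 231),
   (2, 231), (3, 231), (4, 231), (0, 232), (1, 232), (2, 232), (3, 232), (4, 232), (5, 232),
   (0, 233), (1, 233), (2, 233), (3, 233), (4, 233), (5, 233), (0, 234), (1, 234), (2, 234),
   (3, 234), (4, 234), (0, 235), (1, 235), (2, 235), (3, 235), (0, 236), (1, 236), (2, 236),
   (0, 237), (1, 237), (0, 238), (1, 239), (2, 238), (2, 239), (3, 237), (3, 238), (3, 239),
   (4, 236), (4, 237), (4, 238), (4, 239), (5, 235), (5, 236), (5, 237), (5, 238), (5, 239),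
   (6, 234), (6, 235), (6, 236), (6, 237), (6, 238), (6, 239), (7, 234), (7, 235), (7, 236),
   (7, 237), (7, 238), (7, 239), (8, 235), (8, 236), (8, 237), (8, 238), (8, 239), (9, 236),
   (9, 237), (9, 238), (9, 239), (10, 237), (10, 238), (10, 239), (11, 238), (11, 239),
   (12, 239), (14, 233), (14, 234), (14, 235), (14, 236), (14, 237), (14, 238), (14, 239),
   (15, 235), (15, 236), (15, 237), (15, 238), (15, 239), (16, 236), (16, 237), (16, 238),
   (16, 239), (17, 237), (17, 238), (17, 239), (18, 238), (18, 239), (19, 239), (21, 236),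
   (21, 237), (21, 238), (21, 239), (22, 237), (22, 238), (22, 239), (23, 238), (23, 239),
   (24, 239), (26, 237), (26, 238), (26, 239), (27, 238), (27, 239), (28, 239), (30, 238),
   (30, 239), (31, 239), (33, 239), (36, 237), (36, 238), (36, 239), (37, 238), (37, 239),
   (38, 239), (40, 238), (40, 239), (41, 239), (43, 239), (46, 238), (46, 239), (47, 239),
   (49, 239), (52, 239), (56, 238), (56, 239), (57, 239), (59, 239), (62, 239), (66, 239),
   (71, 239), (78, 238), (78, 239), (79, 239), (81, 239), (84, 239), (88, 239), (93, 239),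
   (99, 239), (105, 239), (110, 239), (114, 239), (117, 239), (119, 239), (120, 238)]

set_option maxRecDepth 100000 in
theorem certE8_ok : ∀ r₀, r₀ < chevE8.nroots →
    RuleAok chevE8 ((certE8).getD r₀ (0, 0)).1 ((certE8).getD r₀ (0, 0)).2 r₀ := by
  decide +kernel

end StCover
end Cfsg.Agent.Lib.Helper15
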