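import Cfsg.Agent.Lib.Helper15.StCover
import Cfsg.Prelude.Def_ChevF4

set_option autoImplicit false

namespace Cfsg.Agent.Lib.Helper15
namespace StCover

open Cfsg.Lie

/-- Rule A witnesses for type F4. -/
def certF4 : List (ℕ × ℕ) :=
  [(1, 23), (0, 24), (0, 26), (7, 14), (0, 31), (0, 32), (1, 32), (3, 33), (3, 34), (3, 35),
   (3, 36), (3, 37), (3, 38), (3, 39), (3, 40), (0, 42), (0, 43), (1, 43), (7, 37), (7, 38),
   (7, 39), (0, 45), (1, 45), (0, 46), (1, 47), (2, 46), (2, 47), (8, 40), (9, 40), (10, 40),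
   (4, 46), (4, 47), (5, 47), (7, 44), (8, 44), (9, 44), (10, 44), (11, 44), (12, 44), (13, 44),
   (14, 44), (15, 46), (15, 47), (16, 47), (33, 40), (21, 47), (23, 47), (24, 46)]

set_option maxRecDepth 100000 in
theorem certF4_ok : ∀ r₀, r₀ < chevF4.nroots →
    RuleAok chevF4 ((certF4).getD r₀ (0, 0)).1 ((certF4).getD r₀ (0, 0)).2 r₀ := by
  decide +kernel

end StCover
end Cfsg.Agent.Lib.Helper15
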