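import Cfsg.Agent.Lib.Helper15.StCover
import Cfsg.Prelude.Def_ChevG2
import Cfsg.Prelude.Def_ChevB2

set_option autoImplicit false

namespace Cfsg.Agent.Lib.Helper15
namespace StCover

open Cfsg.Lie

theorem killedG2 (K : Type*) [Field K] (hK : ∃ x : K, x ≠ 0 ∧ x ≠ 1) :
    ∀ r, r < chevG2.nroots → Killed chevG2 K r := by
  have k0 : Killed chevG2 K 0 := ruleA chevG2 K (r := 1) (s := 5) (c := 1)
    (by decide) (by decide) (by decide) (by decide) (Or.inl rfl) (by decide)
  have k1 : Killed chevG2 K 1 := ruleA chevG2 K (r := 0) (s := 6) (c := 1)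
    (by decide) (by decide) (by decide) (by decide) (Or.inl rfl) (by decide)
  have k5 : Killed chevG2 K 5 := ruleA chevG2 K (r := 0) (s := 10) (c := -1)
    (by decide) (by decide) (by decide) (by decide) (Or.inr rfl) (by decide)
  have k6 : Killed chevG2 K 6 := ruleA chevG2 K (r := 1) (s := 11) (c := -1)
    (by decide) (by decide) (by decide) (by decide) (Or.inr rfl) (by decide)
  have k10 : Killed chevG2 K 10 := ruleA chevG2 K (r := 5) (s := 11) (c := 1)
    (by decide) (by decide) (by decide) (by decide) (Or.inl rfl) (by decide)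
  have k11 : Killed chevG2 K 11 := ruleA chevG2 K (r := 6) (s := 10) (c := 1)
    (by decide) (by decide) (by decide) (by decide) (Or.inl rfl) (by decide)
  have h73 := ruleB chevG2 K hK (r := 2) (s := 10) (k₁ := 7) (k₂ := 3) (c₁ := -1) (c₂ := 1)
    (rest := [(0, 1, 3, 1), (5, 1, 3, 2)]) (by decide) (by decide) (by decide) (by decide)
    (Or.inr rfl) (Or.inl rfl) (by decide) (by decide) (by
      intro x hx
      simp only [List.mem_cons, List.mem_nil_iff, or_false] at hx
      rcases hx with rfl | rfl
      · exact k0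
      · exact k5)
  have h84 := ruleB chevG2 K hK (r := 2) (s := 11) (k₁ := 8) (k₂ := 4) (c₁ := -1) (c₂ := -1)
    (rest := [(1, -1, 3, 1), (6, -1, 3, 2)]) (by decide) (by decide) (by decide) (by decide)
    (Or.inr rfl) (Or.inr rfl) (by decide) (by decide) (by
      intro x hx
      simp only [List.mem_cons, List.mem_nil_iff, or_false] at hx
      rcases hx with rfl | rfl
      · exact k1
      · exact k6)
  have h42 := ruleB chevG2 K hK (r := 3) (s := 6) (k₁ := 4) (k₂ := 2) (c₁ := 1) (c₂ := -1)
    (rest := [(0, 1, 3, 1), (1, -1, 3, 2)]) (by decide) (by decide) (by decide) (by decide)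
    (Or.inl rfl) (Or.inr rfl) (by decide) (by decide) (by
      intro x hx
      simp only [List.mem_cons, List.mem_nil_iff, or_false] at hx
      rcases hx with rfl | rfl
      · exact k0
      · exact k1)
  have h97 := ruleB chevG2 K hK (r := 3) (s := 11) (k₁ := 9) (k₂ := 7) (c₁ := 1) (c₂ := 1)
    (rest := [(5, -1, 3, 1), (10, 1, 3, 2)]) (by decide) (by decide) (by decide) (by decide)
    (Or.inl rfl) (Or.inl rfl) (by decide) (by decide) (by
      intro x hx
      simp only [List.mem_cons, List.mem_nil_iff, or_false] at hx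
      rcases hx with rfl | rfl
      · exact k5
      · exact k10)
  intro r hr
  have hr' : r < 12 := hr
  interval_cases r
  · exact k0
  · exact k1
  · exact h42.2
  · exact h73.2
  · exact h42.1
  · exact k5
  · exact k6
  · exact h73.1
  · exact h84.1
  · exact h97.1
  · exact k10
  · exact k11

theorem killedB2 (K : Type*) [Field K] (hK : ∃ x : K, x ≠ 0 ∧ x ≠ 1) :
    ∀ r, r < chevB2.nroots → Killed chevB2 K r := by
  have h20 := ruleB chevB2 K hK (r := 1) (s := 4) (k₁ := 2) (k₂ := 0) (c₁ := 1) (c₂ := 1)
    (rest := []) (by decide) (by decide) (by decide) (by decide)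
    (Or.inl rfl) (Or.inl rfl) (by decide) (by decide) (by simp)
  have h53 := ruleB chevB2 K hK (r := 1) (s := 7) (k₁ := 5) (k₂ := 3) (c₁ := -1) (c₂ := 1)
    (rest := []) (by decide) (by decide) (by decide) (by decide)
    (Or.inr rfl) (Or.inl rfl) (by decide) (by decide) (by simp)
  have h10 := ruleB chevB2 K hK (r := 2) (s := 3) (k₁ := 1) (k₂ := 0) (c₁ := 1) (c₂ := -1)
    (rest := []) (by decide) (by decide) (by decide) (by decide)
    (Or.inl rfl) (Or.inr rfl) (by decide) (by decide) (by simp)
  have h64 := ruleB chevB2 K hK (r := 2) (s := 7) (k₁ := 6) (k₂ := 4) (c₁ := 1) (c₂ := -1)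
    (rest := []) (by decide) (by decide) (by decide) (by decide)
    (Or.inl rfl) (Or.inr rfl) (by decide) (by decide) (by simp)
  have h67 := ruleB chevB2 K hK (r := 5) (s := 4) (k₁ := 6) (k₂ := 7) (c₁ := -1) (c₂ := -1)
    (rest := []) (by decide) (by decide) (by decide) (by decide)
    (Or.inr rfl) (Or.inr rfl) (by decide) (by decide) (by simp)
  intro r hr
  have hr' : r < 8 := hr
  interval_cases r
  · exact h20.2
  · exact h10.1
  · exact h20.1
  · exact h53.2
  · exact h64.2
  · exact h53.1
  · exact h64.1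
  · exact h67.2

end StCover
end Cfsg.Agent.Lib.Helper15
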