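import Cfsg.Agent.Lib.Helper15.ParabCountB

set_option autoImplicit false

namespace Cfsg.Agent.Lib.Helper15.ParabCount

open Matrix Polynomial

/-- The `q`-integer `[r] = 1 + q + ⋯ + q^(r-1)`. -/
def gs (q r : ℕ) : ℕ := ∑ l ∈ Finset.range r, q ^ l

/-- The falling `q`-factorial `[λ][λ-1]⋯[λ-k+1]` (zero when `k > λ`). -/
def ff (q lam k : ℕ) : ℕ := ∏ t ∈ Finset.range k, gs q (lam - t)

theorem qf_eq (q k : ℕ) : qf q k = ∏ j ∈ Finset.range k, gs q (j + 1) := rfl

theorem qf_split (q lam k : ℕ) (hk : k ≤ lam) : qf q lam = qf q (lam - k) * ff q lam k := by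
  induction k with
  | zero => simp [ff]
  | succ k ih =>
    have h1 := ih (by omega)
    have h2 : lam - k = (lam - (k + 1)) + 1 := by omega
    have h3 : qf q (lam - k) = qf q (lam - (k + 1)) * gs q (lam - k) := by
      conv_lhs => rw [h2, qf_eq, Finset.prod_range_succ, ← qf_eq]
      rw [← h2]
    have h4 : ff q lam (k + 1) = ff q lam k * gs q (lam - k) := by
      unfold ff
      rw [Finset.prod_range_succ]
    rw [h1, h3, h4]
    ring

theorem ff_eq_zero (q lam k : ℕ) (hk : lam < k) : ff q lam k = 0 := by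
  unfold ff
  apply Finset.prod_eq_zero (i := lam) (Finset.mem_range.mpr hk)
  simp [gs]

theorem gs_add (q t r : ℕ) : gs q (t + r) = gs q t + q ^ t * gs q r := by
  unfold gs
  rw [Finset.sum_range_add, Finset.mul_sum]
  congr 1
  apply Finset.sum_congr rfl
  intro l _
  rw [pow_add]

/-- The falling `q`-factorial as a product of differences of `q`-integers. -/
theorem ff_eval (q lam k : ℕ) :
    (q : ℂ) ^ tri k * (ff q lam k : ℂ) =
      ∏ t ∈ Finset.range k, ((gs q lam : ℂ) - (gs q t : ℂ)) := by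
  by_cases hk : k ≤ lam
  · unfold ff tri
    rw [← Finset.prod_pow_eq_pow_sum, Nat.cast_prod, ← Finset.prod_mul_distrib]
    apply Finset.prod_congr rfl
    intro t ht
    have ht' : t ≤ lam := by
      have := Finset.mem_range.mp ht
      omega
    have h1 := gs_add q t (lam - t)
    have h2 : t + (lam - t) = lam := by omega
    rw [h2] at h1
    rw [h1]
    push_cast
    ring
  · have hk' : lam < k := not_le.mp hk
    rw [ff_eq_zero q lam k hk', Nat.cast_zero, mul_zero]
    symm
    apply Finset.prod_eq_zero (i := lam) (Finset.mem_range.mpr hk')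
    rw [sub_self]

/-- The monic polynomials `∏_{t<j} (X - [t])`. -/
noncomputable def ffPoly (q j : ℕ) : ℂ[X] := ∏ t ∈ Finset.range j, (X - C (gs q t : ℂ))

theorem ffPoly_monic (q j : ℕ) : (ffPoly q j).Monic :=
  monic_prod_of_monic _ _ (fun t _ => monic_X_sub_C _)

theorem ffPoly_natDegree (q j : ℕ) : (ffPoly q j).natDegree = j := by
  unfold ffPoly
  rw [natDegree_prod_of_monic _ _ (fun t _ => monic_X_sub_C _),
    Finset.sum_congr rfl (fun t _ => natDegree_X_sub_C (gs q t : ℂ))]
  simp

theorem ffPoly_eval (q j : ℕ) (x : ℂ) :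
    (ffPoly q j).eval x = ∏ t ∈ Finset.range j, (x - (gs q t : ℂ)) := by
  unfold ffPoly
  rw [Polynomial.eval_prod]
  simp

/-- Tetrahedral numbers. -/
theorem tet_eq (n : ℕ) : ∑ j ∈ Finset.range n, tri j = n * (n - 1) * (n - 2) / 6 := by
  have key : ∀ m : ℕ, 6 * ∑ j ∈ Finset.range (m + 2), tri j = (m + 2) * (m + 1) * m := by
    intro m
    induction m with
    | zero => simp [Finset.sum_range_succ, tri]
    | succ m ih =>
      rw [Finset.sum_range_succ, mul_add, ih]
      have := two_tri (m + 2)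
      nlinarith
  rcases n with _ | _ | m
  · simp
  · simp [tri]
  · have h := key m
    have e : (m + 1 + 1) * (m + 1 + 1 - 1) * (m + 1 + 1 - 2) = (m + 2) * (m + 1) * m := by
      simp
    rw [e, ← h, Nat.mul_div_cancel_left _ (by norm_num)]

/-- The determinant of falling `q`-factorials is a Vandermonde determinant. -/
theorem det_ff (q : ℕ) {n : ℕ} (lam : Fin n → ℕ) :
    (q : ℂ) ^ (n * (n - 1) * (n - 2) / 6) *
      (∑ κ : Equiv.Perm (Fin n), ((Equiv.Perm.sign κ : ℤ) : ℂ) *
        ∏ i : Fin n, (ff q (lam i) (κ i).val : ℂ)) =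
      ∏ i : Fin n, ∏ j ∈ Finset.Ioi i, ((gs q (lam j) : ℂ) - (gs q (lam i) : ℂ)) := by
  rw [← Matrix.det_vandermonde,
    Matrix.det_eval_matrixOfPolynomials_eq_det_vandermonde (fun i => (gs q (lam i) : ℂ))
      (fun j : Fin n => ffPoly q j.val) (fun j => ffPoly_natDegree q j.val)
      (fun j => ffPoly_monic q j.val)]
  have h1 : (Matrix.of fun i j : Fin n => (ffPoly q j.val).eval (gs q (lam i) : ℂ)) =
      Matrix.of fun i j : Fin n => (q : ℂ) ^ tri j.val *
        (Matrix.of fun i j : Fin n => (ff q (lam i) j.val : ℂ)) i j := by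
    ext i j
    simp only [Matrix.of_apply]
    rw [ffPoly_eval, ff_eval]
  rw [h1, Matrix.det_mul_row, Finset.prod_pow_eq_pow_sum,
    Fin.sum_univ_eq_sum_range (fun j => tri j) n, tet_eq]
  congr 1
  rw [← Matrix.det_transpose, Matrix.det_apply']
  apply Finset.sum_congr rfl
  intro κ _
  rfl

end Cfsg.Agent.Lib.Helper15.ParabCount
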